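import Cfsg.Statements.S3733
import Mathlib

set_option autoImplicit false
open Cfsg

namespace Cfsg.Agent.S3733

open scoped IsMulCommutative


/-- Let A and V be subgroups of a finite group with V abelian and nontrivial and A normalizing V. Suppose a nonempty finite family of proper subgroups of A partitions A: every non-identity element of A lies in exactly one member. If the number of members minus one is coprime to the order of V, then some member B of the family has a non-identity fixed point on V, that is V ∩ C(B) ≠ 1. -/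
theorem result {G : Type*} [Group G] [Finite G] (A V : Subgroup G) (hVab : IsMulCommutative V) (hV : V ≠ ⊥) (hAV : A ≤ Subgroup.normalizer (V : Set G)) (𝒜 : Finset (Subgroup G)) (hne : 𝒜.Nonempty) (hprop : ∀ B ∈ 𝒜, B < A) (hpart : ∀ a ∈ A, a ≠ 1 → ∃! B, B ∈ 𝒜 ∧ a ∈ B) (hk : (𝒜.card - 1).Coprime (Nat.card V)) : ∃ B ∈ 𝒜, V ⊓ Subgroup.centralizer (B : Set G) ≠ ⊥ := by
  classical
  have := Fintype.ofFinite G
  by_contra hcon
  push Not at hcon
  obtain ⟨⟨v, hv⟩, hv1⟩ := Subgroup.ne_bot_iff_exists_ne_one.1 hV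
  let f : G → V := fun a => if h : a ∈ A then V.normalizerMonoidHom ⟨a, hAV h⟩ ⟨v, hv⟩ else 1
  have hf : ∀ a ∈ A, (f a : G) = a * v * a⁻¹ := fun a ha => by
    simp only [f, dif_pos ha]
    rfl
  have hf1 : f 1 = ⟨v, hv⟩ := Subtype.ext (by rw [hf 1 A.one_mem]; simp)
  have key : ∀ B : Subgroup G, B ≤ A → ∀ C ∈ 𝒜, C ≤ B →
      ∏ b ∈ Finset.univ.filter (· ∈ B), f b = 1 := by
    intro B hBA C hC hCB
    have h1 : ((∏ b ∈ Finset.univ.filter (· ∈ B), f b : V) : G) ∈
        V ⊓ Subgroup.centralizer (C : Set G) := by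
      refine ⟨Subtype.prop _, fun c hc => ?_⟩
      have h2 : V.normalizerMonoidHom ⟨c, hAV (hBA (hCB hc))⟩
          (∏ b ∈ Finset.univ.filter (· ∈ B), f b) = ∏ b ∈ Finset.univ.filter (· ∈ B), f b := by
        rw [map_prod]
        refine Finset.prod_equiv (Equiv.mulLeft c) (fun b => ?_) (fun b hb => Subtype.ext ?_)
        · simp only [Finset.mem_filter, Finset.mem_univ, true_and, Equiv.coe_mulLeft]
          exact (B.mul_mem_cancel_left (hCB hc)).symm
        · simp only [Finset.mem_filter, Finset.mem_univ, true_and] at hb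
          change c * (f b : G) * c⁻¹ = f (c * b)
          rw [hf b (hBA hb), hf _ (hBA (B.mul_mem (hCB hc) hb))]
          group
      have h3 : c * ((∏ b ∈ Finset.univ.filter (· ∈ B), f b : V) : G) * c⁻¹ = _ :=
        congrArg Subtype.val h2
      exact mul_inv_eq_iff_eq_mul.1 h3
    rw [hcon C hC, Subgroup.mem_bot] at h1
    exact Subtype.ext h1
  have split : ∀ B : Subgroup G, ∏ b ∈ Finset.univ.filter (· ∈ B), f b =
      f 1 * ∏ b ∈ (Finset.univ.filter (· ∈ B)).erase 1, f b := fun B =>
    (Finset.mul_prod_erase _ _ (by simp [B.one_mem])).symm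
  have hU : (Finset.univ.filter (· ∈ A)).erase 1 =
      𝒜.biUnion fun B => (Finset.univ.filter (· ∈ B)).erase 1 := by
    ext a
    simp only [Finset.mem_erase, Finset.mem_filter, Finset.mem_univ, true_and, Finset.mem_biUnion]
    constructor
    · rintro ⟨h1, h2⟩
      obtain ⟨B, hB, -⟩ := hpart a h2 h1
      exact ⟨B, hB.1, h1, hB.2⟩
    · rintro ⟨B, hB, h1, h2⟩
      exact ⟨h1, (hprop B hB).le h2⟩
  have hdisj : (𝒜 : Set (Subgroup G)).PairwiseDisjoint
      fun B => (Finset.univ.filter (· ∈ B)).erase 1 := by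
    intro B hB C hC hne
    rw [Function.onFun, Finset.disjoint_left]
    intro a h1 h2
    simp only [Finset.mem_erase, Finset.mem_filter, Finset.mem_univ, true_and] at h1 h2
    exact hne ((hpart a ((hprop B hB).le h1.2) h1.1).unique ⟨hB, h1.2⟩ ⟨hC, h2.2⟩)
  obtain ⟨C, hC⟩ := hne
  have h1 := key A le_rfl C hC (hprop C hC).le
  rw [split, hU, Finset.prod_biUnion hdisj] at h1
  have h2 : ∏ B ∈ 𝒜, ∏ b ∈ Finset.univ.filter (· ∈ B), f b = 1 :=
    Finset.prod_eq_one fun B hB => key B (hprop B hB).le B hB le_rfl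
  simp only [split] at h2
  rw [Finset.prod_mul_distrib, Finset.prod_const] at h2
  have h3 : 𝒜.card = (𝒜.card - 1) + 1 := by
    have := Finset.card_pos.2 ⟨C, hC⟩
    omega
  rw [h3, pow_succ, mul_assoc, h1, mul_one, hf1] at h2
  apply hv1
  apply hk.symm.pow_left_bijective.1
  simpa using h2

end Cfsg.Agent.S3733
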