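import Cfsg.Statements.S3735
import Cfsg.Agent.Lib.CoprimeAction

set_option autoImplicit false
open Cfsg

namespace Cfsg.Agent.S3735

open Subgroup CfsgLib.Cop


/-- Clifford's Theorem for actions on finite abelian groups, first part. Let H and V be subgroups of a finite group with V abelian and H normalizing V, and let A be a normal subgroup of H. If every H-invariant subgroup of V has an H-invariant complement in V, then every A-invariant subgroup of V has an A-invariant complement in V. -/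
theorem result {G : Type*} [Group G] [Finite G] (H A V : Subgroup G) (hVab : IsMulCommutative V) (hHV : H ≤ Subgroup.normalizer (V : Set G)) (hAH : A ≤ H) (hAn : H ≤ Subgroup.normalizer (A : Set G)) (hss : ∀ U : Subgroup G, U ≤ V → H ≤ Subgroup.normalizer (U : Set G) → ∃ W : Subgroup G, W ≤ V ∧ H ≤ Subgroup.normalizer (W : Set G) ∧ U ⊓ W = ⊥ ∧ U ⊔ W = V) (U : Subgroup G) (hUV : U ≤ V) (hAU : A ≤ Subgroup.normalizer (U : Set G)) : ∃ W : Subgroup G, W ≤ V ∧ A ≤ Subgroup.normalizer (W : Set G) ∧ U ⊓ W = ⊥ ∧ U ⊔ W = V := by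
  let P : Subgroup G → Prop := fun M => M ≠ ⊥ ∧ M ≤ V ∧ A ≤ normalizer (M : Set G)
  let S : Subgroup G := sSup {M | Minimal P M}
  have hSV : S ≤ V := sSup_le fun M hM => hM.prop.2.1
  have hconj : ∀ h ∈ H, ∀ M, P M → P (M.map (MulAut.conj h).toMonoidHom) := by
    rintro h hh M ⟨h1, h2, h3⟩
    refine ⟨fun h4 => h1 ((map_eq_bot_iff_of_injective _ (MulAut.conj h).injective).1 h4), ?_, ?_⟩
    · rintro _ ⟨m, hm, rfl⟩
      exact conj_mem_of_le_normalizer hHV hh (h2 hm)
    · rw [le_normalizer_iff]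
      rintro a ha _ ⟨m, hm, rfl⟩
      refine ⟨_, conj_mem_of_le_normalizer h3 (conj_mem_of_le_normalizer' hAn hh ha) hm, ?_⟩
      simp only [MulEquiv.coe_toMonoidHom, MulAut.conj_apply]
      group
  have hS : H ≤ normalizer (S : Set G) := by
    rw [le_normalizer_iff]
    intro h hh
    change S ≤ S.comap (MulAut.conj h).toMonoidHom
    refine sSup_le fun M hM => ?_
    rw [← map_le_iff_le_comap]
    refine le_sSup ⟨hconj h hh M hM.prop, fun N hN hNM => ?_⟩
    have h1 : N.map (MulAut.conj h⁻¹).toMonoidHom ≤ M := by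
      rintro _ ⟨n, hn, rfl⟩
      obtain ⟨m, hm, rfl⟩ := hNM hn
      simpa [mul_assoc] using hm
    rintro _ ⟨m, hm, rfl⟩
    obtain ⟨n, hn, rfl⟩ := hM.le_of_le (hconj _ (H.inv_mem hh) N hN) h1 hm
    simpa [mul_assoc] using hn
  obtain ⟨W, hWV, hW, h1, h2⟩ := hss S hSV hS
  have hWb : W = ⊥ := by
    by_contra hne
    obtain ⟨M, hMW, hM⟩ := exists_minimal_le_of_wellFoundedLT P W ⟨hne, hWV, hAH.trans hW⟩
    exact hM.prop.1 (eq_bot_iff.2 (h1 ▸ le_inf (le_sSup hM) hMW))
  rw [hWb, sup_bot_eq] at h2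
  obtain ⟨W, -, hW⟩ := exists_maximal_ge_of_wellFoundedGT
    (fun W : Subgroup G => W ≤ V ∧ A ≤ normalizer (W : Set G) ∧ U ⊓ W = ⊥) ⊥
    ⟨bot_le, le_normalizer_of_normal, inf_bot_eq U⟩
  obtain ⟨hWV, hAW, hUW⟩ := hW.prop
  refine ⟨W, hWV, hAW, hUW, le_antisymm (sup_le hUV hWV) (h2 ▸ sSup_le fun M hM => ?_)⟩
  by_contra hne
  obtain ⟨hM1, hMV, hAM⟩ := hM.prop
  have h3 : M ⊓ (U ⊔ W) = ⊥ := by
    by_contra h3
    exact hne ((hM.le_of_le ⟨h3, inf_le_left.trans hMV, (le_inf hAM ((le_inf hAU hAW).trans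
      (normalizer_inf_normalizer_le_normalizer_sup U W))).trans inf_normalizer_le_normalizer_inf⟩
      inf_le_left).trans inf_le_right)
  have hWM : W ≤ normalizer (M : Set G) := by
    rw [le_normalizer_iff]
    intro w hw m hm
    have : w * m = m * w := congrArg Subtype.val (hVab.is_comm.comm ⟨w, hWV hw⟩ ⟨m, hMV hm⟩)
    rw [this, mul_inv_cancel_right]
    exact hm
  have h4 : W ⊔ M ≤ W := hW.le_of_ge ⟨sup_le hWV hMV, (le_inf hAW hAM).trans
      (normalizer_inf_normalizer_le_normalizer_sup W M), by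
    rw [eq_bot_iff]
    rintro x ⟨hxU, hx⟩
    change x ∈ ((W ⊔ M : Subgroup G) : Set G) at hx
    rw [coe_mul_of_left_le_normalizer_right _ _ hWM] at hx
    obtain ⟨w, hw, m, hm, rfl⟩ := hx
    have h5 : m ∈ M ⊓ (U ⊔ W) := ⟨hm, by
      have := Subgroup.mul_mem _ (mem_sup_right (W.inv_mem hw) : w⁻¹ ∈ U ⊔ W) (mem_sup_left hxU)
      simpa using this⟩
    rw [h3, mem_bot] at h5
    subst h5
    rw [← hUW]
    exact ⟨hxU, by simpa using hw⟩⟩ le_sup_left
  exact hne ((le_sup_right.trans h4).trans le_sup_right)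

end Cfsg.Agent.S3735
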