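import Cfsg.Statements.S3738
import Cfsg.Agent.Lib.H1Misc
import Cfsg.Agent.Lib.PGroupMaxClass

set_option autoImplicit false
open Cfsg

namespace Cfsg.Agent.S3738

open Subgroup CfsgLib.Cop CfsgLib.PGrp CfsgLib.H1
open scoped commutatorElement

theorem card_le_128 {X : Type*} [Group X] [Finite X] {R Z : Subgroup X} (hZ : Nat.card Z = 4)
    (hc : ∀ x ∈ R, ∀ y ∈ R, ⁅x, y⁆ ∈ Z) (hcen : Z ≤ centralizer (R : Set X))
    (hsq : ∀ x ∈ R, x ^ 2 ∈ Z) (hZ2 : ∀ z ∈ Z, z ^ 2 = 1) (hinv : ∀ x ∈ R, x ^ 2 = 1 → x ∈ Z) :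
    Nat.card R ≤ 128 := by
  classical
  by_cases hRZ : R ≤ Z
  · exact (card_le_of_le hRZ).trans (by omega)
  obtain ⟨x, hx, hxZ⟩ := SetLike.not_le_iff_exists.1 hRZ
  have h1 : (centralizer {x}).relIndex R ≤ 4 :=
    hZ ▸ relIndex_centralizer_le_card fun g hg => hc x hx g hg
  set C := centralizer {x} ⊓ R with hC
  suffices h : Nat.card C ≤ 8 * 4 by
    have h2 := CfsgLib.card_mul_relIndex (inf_le_right : centralizer {x} ⊓ R ≤ R)
    rw [inf_relIndex_right] at h2
    rw [← h2]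
    exact (Nat.mul_le_mul h h1).trans (by norm_num)
  have hx2 : orderOf (x ^ 2) = 2 := orderOf_eq_prime (hZ2 _ (hsq x hx)) fun h => hxZ (hinv x hx h)
  have hidx : ∀ z ∈ Z, ∀ w ∈ Z, z ∉ zpowers (x ^ 2) → w ∉ zpowers (x ^ 2) →
      z * w ∈ zpowers (x ^ 2) := by
    have hi : ((zpowers (x ^ 2)).subgroupOf Z).index = 2 := by
      have h2 := ((zpowers (x ^ 2)).subgroupOf Z).index_mul_card
      rw [Nat.card_congr (subgroupOfEquivOfLe (zpowers_le.2 (hsq x hx))).toEquiv,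
        Nat.card_zpowers, hx2, hZ] at h2
      omega
    intro z hz w hw h1 h2
    exact (mul_mem_iff_of_index_two hi (a := ⟨z, hz⟩) (b := ⟨w, hw⟩)).2 (iff_of_false h1 h2)
  let W : X → Prop := fun y => y ∈ Z ∨ x * y ∈ Z
  have hW : ∀ y ∈ C, ¬ W y → y ^ 2 ∉ zpowers (x ^ 2) := by
    intro y hy h h2
    rw [mem_zpowers_iff_mem_range_orderOf, hx2] at h2
    simp only [Finset.mem_image, Finset.mem_range] at h2
    obtain ⟨k, hk, h2⟩ := h2
    interval_cases k
    · exact h (Or.inl (hinv y hy.2 (by simpa using h2.symm)))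
    · refine h (Or.inr (hinv _ (R.mul_mem hx hy.2) ?_))
      rw [Commute.mul_pow (mem_centralizer_singleton_iff.1 hy.1).symm, ← h2, pow_one, ← sq]
      exact hZ2 _ (hsq x hx)
  have hW2 : ∀ a ∈ C, ∀ b ∈ C, ¬ W a → ¬ W b → ¬ W (a * b) → ⁅a⁻¹, b⁆ ∉ zpowers (x ^ 2) := by
    intro a ha b hb h1 h2 h3 h4
    refine hW _ (C.mul_mem ha hb) h3 ?_
    have h5 := hcen (hc _ (R.inv_mem ha.2) _ hb.2) _ (R.pow_mem hb.2 2)
    have : (a * b) ^ 2 = a ^ 2 * (⁅a⁻¹, b⁆ * b ^ 2) := by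
      simp only [commutatorElement_def, sq]
      group
    rw [this, ← h5, ← mul_assoc]
    exact Subgroup.mul_mem _ (hidx _ (hsq a ha.2) _ (hsq b hb.2) (hW a ha h1) (hW b hb h2)) h4
  have h2 : ∃ a b, ∀ y ∈ C, W y ∨ W (a * y) ∨ W (b * y) ∨ W (a * (b * y)) := by
    by_contra! h
    obtain ⟨a, ha, h1, -⟩ := h 1 1
    obtain ⟨b, hb, h2, h3, -⟩ := h a 1
    obtain ⟨c, hc', h4, h5, h6, h7⟩ := h a b
    refine hW2 a ha _ (C.mul_mem hb hc') h1 h6 h7 ?_
    have h8 := hcen (hc _ (R.inv_mem ha.2) _ hc'.2) _ hb.2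
    have : ⁅a⁻¹, b * c⁆ = ⁅a⁻¹, b⁆ * (b * ⁅a⁻¹, c⁆) * b⁻¹ := by
      simp only [commutatorElement_def]
      group
    rw [this, h8, ← mul_assoc, mul_inv_cancel_right]
    exact hidx _ (hc _ (R.inv_mem ha.2) _ hb.2) _ (hc _ (R.inv_mem ha.2) _ hc'.2)
      (hW2 a ha b hb h1 h2 h3) (hW2 a ha c hc' h1 h4 h5)
  obtain ⟨a, b, h2⟩ := h2
  refine (card_le_of_cover (Z := Z) {1, x, a, x * a, b, x * b, a * b, x * (a * b)}
    fun y hy => ?_).trans (hZ ▸ Nat.mul_le_mul_right _ ((Finset.card_insert_le _ _).trans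
      (Nat.succ_le_succ ((Finset.card_insert_le _ _).trans (Nat.succ_le_succ Finset.card_le_six)))))
  simp only [Finset.mem_insert, Finset.mem_singleton, exists_eq_or_imp, exists_eq_left, one_mul,
    mul_assoc]
  have := h2 y hy
  simp only [W] at this
  tauto


/-- Let d be a non-identity 3-element of a finite group and P a 2-subgroup normalized by d on which ⟨d⟩ acts faithfully (no non-identity power of d centralizes P) and without non-identity fixed points (C_P(d) = 1). If every abelian subgroup of P has 2-rank at most 2, then d has order 3. -/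
theorem result {X : Type*} [Group X] [Finite X] (d : X) (n : ℕ) (hn : 1 ≤ n) (hd : orderOf d = 3 ^ n) (P : Subgroup X) (hP : IsPGroup 2 P) (hdP : d ∈ Subgroup.normalizer (P : Set X)) (hfaith : Subgroup.zpowers d ⊓ Subgroup.centralizer (P : Set X) = ⊥) (hfpf : P ⊓ Subgroup.centralizer {d} = ⊥) (hrank : ∀ V : Subgroup X, V ≤ P → IsMulCommutative V → Cfsg.PRankLE 2 2 V) : orderOf d = 3 := by
  rcases hn.eq_or_lt with rfl | hn2
  · exact hd
  exfalso
  obtain ⟨m, rfl⟩ : ∃ m, n = m + 2 := ⟨n - 2, by omega⟩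
  set e := d ^ 3 ^ (m + 1) with he
  have hoe : orderOf e = 3 := by
    rw [he, orderOf_pow_of_dvd (by positivity) (by rw [hd]; exact pow_dvd_pow 3 (by omega)), hd,
      Nat.pow_div (by omega) (by omega)]
    simp
  have hed : zpowers e ≤ zpowers d := zpowers_le.2 (npow_mem_zpowers d _)
  have hnt : ⁅P, zpowers e⁆ ≠ ⊥ := by
    intro h
    have h1 : e ∈ zpowers d ⊓ centralizer (P : Set X) :=
      ⟨npow_mem_zpowers d _, commutator_eq_bot_iff_le_centralizer'.1 h (mem_zpowers e)⟩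
    rw [hfaith, mem_bot] at h1
    simp [h1] at hoe
  obtain ⟨R, hRP, hdR, hR, hmin⟩ := exists_minimal_action (zpowers_le.2 hdP) hnt
  obtain ⟨-, h1, h2, h3, h4, -, -⟩ := minimal_action (hP.to_le hRP) hdR hed
    ((le_centralizer_iff.1 ((le_centralizer (zpowers d)).trans' hed)).trans
      (centralizer_le_normalizer _)) (by rw [Nat.card_zpowers, hoe]; norm_num) hR hmin
  set Z := ⁅R, R⁆ with hZ
  have hZR : Z ≤ R := commutator_le_self R
  have hsq : ∀ x ∈ R, x ^ 2 ∈ Z := fun x hx => h2 ▸ pow_mem_frattini_map (hP.to_le hRP) hx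
  have hZe : IsElementaryAbelian 2 Z :=
    ⟨le_centralizer_iff_isMulCommutative.1 (h3.trans (centralizer_le hZR)), h4⟩
  have hrk : ∀ F ≤ P, IsElementaryAbelian 2 F → Nat.card F ≤ 4 := fun F hF h => by
    have := h.1
    have := hrank F hF h.1 ⊤ inferInstance fun a _ => Subtype.ext (h.2 a a.2)
    rwa [card_top] at this
  have hdZ : zpowers d ≤ normalizer (Z : Set X) := le_normalizer_commutator hdR hdR
  have hdvd : Nat.card (zpowers d) ∣ ((R : Set X) \ Z).ncard := by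
    refine card_dvd_ncard_of_free_conj _ (fun b hb x hx => ⟨conj_mem_of_le_normalizer hdR hb hx.1,
      fun h => hx.2 ((mem_normalizer_iff.1 (hdZ hb) x).2 h)⟩) fun b hb x hx h => ?_
    by_contra hb1
    have h5 : e ∈ zpowers b := by
      refine mem_zpowers_of_orderOf_dvd (hed (mem_zpowers e)) hb ?_
      obtain ⟨k, -, hk⟩ := (Nat.dvd_prime_pow Nat.prime_three).1
        (hd ▸ orderOf_dvd_of_mem_zpowers hb)
      rw [hoe, hk]
      refine dvd_pow_self 3 fun h0 => hb1 ?_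
      simpa [h0] using hk
    refine hx.2 (h1.le ⟨hx.1, centralizer_le (zpowers_le.2 h5) ?_⟩)
    rw [centralizer_zpowers_eq, mem_centralizer_singleton_iff]
    exact (mul_inv_eq_iff_eq_mul.1 h).symm
  rw [Nat.card_zpowers, hd, Set.ncard_diff hZR] at hdvd
  change _ ∣ Nat.card R - Nat.card Z at hdvd
  have hdvd9 : 9 ∣ Nat.card R - Nat.card Z := Dvd.dvd.trans ⟨3 ^ m, by ring⟩ hdvd
  have hlt : Nat.card Z < Nat.card R := by
    refine lt_of_le_of_ne (card_le_of_le hZR) fun h => hR ?_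
    rw [commutator_eq_bot_iff_le_centralizer, ← eq_of_le_of_card_ge hZR h.ge]
    exact h1.ge.trans inf_le_right
  have hmod := card_modEq_card_inf_centralizer_elem (p := 3) (U := Z) (a := d)
    (IsPGroup.of_card (by rw [Nat.card_zpowers, hd])) (hdZ (mem_zpowers d))
  rw [eq_bot_iff.2 ((inf_le_inf_right _ (hZR.trans hRP)).trans hfpf.le), card_bot] at hmod
  have hZ4 := hrk Z (hZR.trans hRP) hZe
  have hZ0 : 0 < Nat.card Z := Nat.card_pos
  have hZc : Nat.card Z = 1 ∨ Nat.card Z = 4 := by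
    unfold Nat.ModEq at hmod
    omega
  rcases hZc with hZc | hZc
  · have h5 := card_eq_one.1 hZc
    have := hrk R hRP ⟨commutator_self_eq_bot_iff.1 h5, fun x hx => by
      simpa [h5] using hsq x hx⟩
    omega
  · have h5 := card_le_128 hZc (fun x hx y hy => commutator_mem_commutator hx hy) h3 hsq h4
      fun x hx h => mem_of_card_le hZe (hZR.trans hRP) (hZc ▸ hrk) (hRP hx) h
        (le_centralizer_iff.1 h3 hx)
    obtain ⟨k, hk⟩ := (hP.to_le hRP).exists_card_eq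
    rw [hk, hZc] at hdvd9 hlt
    rw [hk] at h5
    have : k ≤ 7 := (Nat.pow_le_pow_iff_right one_lt_two).1 h5
    interval_cases k <;> omega

end Cfsg.Agent.S3738
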