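import Cfsg.Statements.S3739
import Cfsg.Agent.S3738
import Cfsg.Agent.Lib.CorePi

set_option autoImplicit false
open Cfsg

namespace Cfsg.Agent.S3739

open Subgroup CfsgLib.Cop CfsgLib.PGrp CfsgLib.H1
open scoped commutatorElement Pointwise

theorem eq_of_fpf {G : Type*} [Group G] [Finite G] {W U : Subgroup G} (hW : Nat.card W = 4)
    {x : G} (hx : IsPGroup 3 (zpowers x)) (hfpf : W ⊓ centralizer {x} = ⊥) (hU : U ≤ W)
    (hxU : x ∈ normalizer (U : Set G)) (h0 : U ≠ ⊥) : U = W := by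
  have h1 := card_modEq_card_inf_centralizer_elem hx hxU
  rw [eq_bot_iff.2 ((inf_le_inf_right _ hU).trans hfpf.le), card_bot] at h1
  have h2 := card_le_of_le hU
  have h3 := (one_lt_card_iff_ne_bot U).2 h0
  refine eq_of_le_of_card_ge hU ?_
  unfold Nat.ModEq at h1
  omega


/-- Let G be a finite group with C_G(O₂(G)) ≤ O₂(G) containing an element of order 6, and let d be a non-identity 3-element of G normalizing a nontrivial elementary abelian 2-subgroup W with C_W(d) = 1. Then G has an elementary abelian subgroup of order 8. -/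
theorem result {G : Type*} [Group G] [Finite G] (hchar : Subgroup.centralizer (Cfsg.pCore 2 G : Set G) ≤ Cfsg.pCore 2 G) (hsix : ∃ g : G, orderOf g = 6) (d : G) (hd1 : d ≠ 1) (hd : IsPGroup 3 ↥(Subgroup.zpowers d)) (W : Subgroup G) (hW : Cfsg.IsElementaryAbelian 2 W) (hW1 : W ≠ ⊥) (hdW : d ∈ Subgroup.normalizer (W : Set G)) (hfpf : W ⊓ Subgroup.centralizer {d} = ⊥) : ∃ E : Subgroup G, Cfsg.IsElementaryAbelian 2 E ∧ Nat.card E = 8 := by
  by_contra! hno
  have hrk : ∀ F ≤ (⊤ : Subgroup G), IsElementaryAbelian 2 F → Nat.card F ≤ 4 := by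
    intro F _ hF
    by_contra! h
    obtain ⟨k, hk⟩ := (IsElementaryAbelian.isPGroup hF).exists_card_eq
    have hk3 : 2 < k := (Nat.pow_lt_pow_iff_right one_lt_two).1 (by rwa [hk] at h)
    obtain ⟨K, hK⟩ := Sylow.exists_subgroup_card_pow_prime 2 (G := F) (n := 3)
      (hk ▸ pow_dvd_pow 2 hk3)
    exact hno _ (IsElementaryAbelian.of_le hF (map_subtype_le K))
      (by rw [CfsgLib.card_map_subtype, hK]; rfl)
  set Q := pCore 2 G with hQdef
  have hQn : Q.Normal := pCore_normal 2 G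
  have hQ : IsPGroup 2 Q := CfsgLib.pCore_isPGroup 2
  have hW4 : Nat.card W = 4 := by
    have h1 := card_modEq_card_inf_centralizer_elem hd hdW
    rw [hfpf, card_bot] at h1
    have h2 := hrk W le_top hW
    have h3 := (one_lt_card_iff_ne_bot W).2 hW1
    unfold Nat.ModEq at h1
    omega
  have hmem : ∀ x : G, x ^ 2 = 1 → x ∈ centralizer (W : Set G) → x ∈ W := fun x h1 h2 =>
    mem_of_card_le hW le_top (hW4 ▸ hrk) (mem_top x) h1 h2
  have hWQ : W ≤ centralizer (Q : Set G) := by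
    have hS : IsPGroup 2 ↥(W ⊔ Q) := (IsElementaryAbelian.isPGroup hW).to_sup_of_normal_right hQ
    have : Nontrivial ↥(W ⊔ Q) := (nontrivial_iff_ne_bot _).2 fun h => hW1 (sup_eq_bot_iff.1 h).1
    have := hS.center_nontrivial
    obtain ⟨z, hz⟩ := exists_ne (1 : center ↥(W ⊔ Q))
    obtain ⟨k, h1, h2⟩ := exists_pow_not_mem_pow_prime_mem (hS.to_subgroup _) ⊥ (x := z) hz
    set y := z ^ 2 ^ k
    have h3 : ∀ s ∈ W ⊔ Q, s * y.1.1 = y.1.1 * s := fun s hs =>
      congrArg Subtype.val (mem_center_iff.1 y.2 ⟨s, hs⟩)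
    rw [← inf_eq_left]
    refine eq_of_fpf hW4 hd hfpf inf_le_left (inf_normalizer_le_normalizer_inf
      ⟨hdW, le_normalizer_of_normal (mem_top d)⟩) fun h => h1 ?_
    have h4 : y.1.1 ∈ W ⊓ centralizer (Q : Set G) :=
      ⟨hmem _ (congrArg (fun a : center ↥(W ⊔ Q) => a.1.1) (mem_bot.1 h2))
        fun w hw => h3 w (mem_sup_left hw), fun q hq => h3 q (mem_sup_right hq)⟩
    rw [h, mem_bot] at h4
    exact mem_bot.2 (Subtype.ext (Subtype.ext h4))
  have hΩ : ∀ x ∈ Q, x ^ 2 = 1 → x ∈ W := fun x hx h => hmem x h (le_centralizer_iff.1 hWQ hx)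
  have hWn : W.Normal := ⟨fun w hw g => hΩ _ (hQn.conj_mem w (hchar (hWQ hw)) g)
    (by rw [conj_pow, hW.2 w hw, mul_one, mul_inv_cancel])⟩
  have hinv : ∀ x : G, Q ⊓ centralizer {x} ≠ ⊥ → ∃ w ∈ W, w ≠ 1 ∧ w ∈ centralizer {x} := by
    intro x h
    obtain ⟨y, hy⟩ := ne_bot_iff_exists_ne_one.1 h
    obtain ⟨k, h1, h2⟩ := exists_pow_not_mem_pow_prime_mem (hQ.to_le inf_le_left) ⊥ (x := y) hy
    exact ⟨_, hΩ _ (y ^ 2 ^ k).2.1 (congrArg Subtype.val (mem_bot.1 h2)),
      fun h => h1 (mem_bot.2 (Subtype.ext h)), (y ^ 2 ^ k).2.2⟩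
  have h23 : ∀ x : G, IsPGroup 3 (zpowers x) → zpowers x ⊓ centralizer (Q : Set G) = ⊥ :=
    fun x hx => disjoint_iff.1 ((IsPGroup.disjoint_of_ne 3 2 (by norm_num) _ _ hx hQ).mono_right
      hchar)
  have hd3 : orderOf d = 3 := by
    obtain ⟨n, hn⟩ := hd.exists_card_eq
    rw [Nat.card_zpowers] at hn
    refine S3738.result d n (Nat.pos_of_ne_zero fun h => hd1 (by simpa [h] using hn)) hn Q hQ
      (le_normalizer_of_normal (mem_top d)) (h23 d hd) ?_ fun V _ _ A hA hA2 => ?_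
    · by_contra h
      obtain ⟨w, h1, h2, h3⟩ := hinv d h
      exact h2 (mem_bot.1 (hfpf.le ⟨h1, h3⟩))
    · rw [← CfsgLib.card_map_subtype]
      refine hrk _ le_top ⟨inferInstance, ?_⟩
      rintro _ ⟨a, ha, rfl⟩
      exact congrArg Subtype.val (hA2 a ha)
  obtain ⟨g, hg⟩ := hsix
  have hc3 : orderOf (g ^ 2) = 3 := by rw [orderOf_pow_of_dvd (by norm_num) (by simp [hg]), hg]
  have ht2 : orderOf (g ^ 3) = 2 := by rw [orderOf_pow_of_dvd (by norm_num) (by simp [hg]), hg]
  have hcp : IsPGroup 3 (zpowers (g ^ 2)) := IsPGroup.of_card (n := 1) (by simp [hc3])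
  have hcW : g ^ 2 ∈ centralizer (W : Set G) := by
    have h1 := card_modEq_card_inf_centralizer_elem hcp
      (le_normalizer_of_normal (mem_top _) : _ ∈ normalizer (W : Set G))
    have h2 := card_le_of_le (inf_le_left : W ⊓ centralizer {g ^ 2} ≤ W)
    have h3 : 0 < Nat.card ↥(W ⊓ centralizer {g ^ 2}) := Nat.card_pos
    have h4 : Nat.card ↥(W ⊓ centralizer {g ^ 2}) = 1 ∨
        Nat.card W ≤ Nat.card ↥(W ⊓ centralizer {g ^ 2}) := by
      unfold Nat.ModEq at h1
      omega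
    rcases h4 with h4 | h4
    · exfalso
      rw [card_eq_one] at h4
      have h5 := card_modEq_card_inf_centralizer_elem (p := 2) (a := g ^ 3)
        (IsPGroup.of_card (n := 1) (by simp [ht2]))
        (le_normalizer_of_normal (mem_top _) : _ ∈ normalizer (W : Set G))
      have h6 : g ^ 2 ∈ centralizer {g ^ 3} :=
        mem_centralizer_singleton_iff.2 ((Commute.refl g).pow_pow 2 3)
      have h7 := eq_of_fpf hW4 hcp h4 (U := W ⊓ centralizer {g ^ 3}) inf_le_left
        (inf_normalizer_le_normalizer_inf ⟨le_normalizer_of_normal (mem_top _), le_normalizer h6⟩)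
        (fun h => by rw [h, card_bot, hW4] at h5; exact absurd h5 (by decide))
      have h8 : g ^ 3 ∈ W ⊓ centralizer {g ^ 2} :=
        ⟨hmem _ (ht2 ▸ pow_orderOf_eq_one _) fun w hw =>
          mem_centralizer_singleton_iff.1 (h7.ge hw).2,
          mem_centralizer_singleton_iff.2 ((Commute.refl g).pow_pow 3 2)⟩
      rw [h4, mem_bot] at h8
      simp [h8] at ht2
    · exact fun w hw => mem_centralizer_singleton_iff.1
        ((eq_of_le_of_card_ge inf_le_left h4).ge hw).2
  obtain ⟨T, hT⟩ := hd.exists_le_sylow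
  obtain ⟨T', hT'⟩ := hcp.exists_le_sylow
  obtain ⟨u, rfl⟩ := MulAction.exists_smul_eq G T' T
  have hnil := (u • T').isPGroup'.isNilpotent
  obtain ⟨e₀, he₀, he1, hez⟩ := exists_ne_one_mem_center_of_normal
    ((centralizer (W : Set G)).subgroupOf (u • T' : Sylow 3 G)) (by
      refine ne_bot_iff_exists_ne_one.2 ⟨⟨⟨u * g ^ 2 * u⁻¹,
        smul_mem_pointwise_smul _ (MulAut.conj u) _ (hT' (mem_zpowers _))⟩,
        mem_subgroupOf.2 (Normal.conj_mem inferInstance _ hcW u)⟩, fun h => ?_⟩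
      have h1 : u * g ^ 2 * u⁻¹ = 1 := congrArg (fun a => a.1.1) h
      rw [conj_eq_one_iff] at h1
      simp [h1] at hc3)
  obtain ⟨k, h1, h2⟩ := exists_pow_not_mem_pow_prime_mem (u • T').isPGroup' ⊥ (x := e₀) he1
  set e : G := (e₀ ^ 3 ^ k).1 with he
  have he3 : e ^ 3 = 1 := congrArg Subtype.val (mem_bot.1 h2)
  have hoe : orderOf e = 3 := orderOf_eq_prime he3 fun h => h1 (mem_bot.2 (Subtype.ext h))
  have heW : e ∈ centralizer (W : Set G) := Subgroup.pow_mem _ he₀ (3 ^ k)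
  have hde : Commute d e := congrArg Subtype.val
    (mem_center_iff.1 (Subgroup.pow_mem _ hez (3 ^ k)) ⟨d, hT (mem_zpowers d)⟩)
  have hE := isElementaryAbelian_sup_zpowers (hd3 ▸ pow_orderOf_eq_one d) he3 hde
  have hdW' : d ∉ centralizer (W : Set G) := fun h => hW1 (eq_bot_iff.2 fun w hw =>
    hfpf.le ⟨hw, mem_centralizer_singleton_iff.2 (h w hw)⟩)
  have hcard := card_sup_zpowers_of_commute hoe (hd3 ▸ pow_orderOf_eq_one d)
    (fun h => hdW' (zpowers_le.2 heW h)) hde.symm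
  rw [sup_comm] at hcard
  have hle : Q ≤ centralizer {e} := by
    refine le_of_centralizer_le_of_not_isCyclic hE.1
      (not_isCyclic_of_isElementaryAbelian hE (by rw [hcard]; norm_num))
      le_normalizer_of_normal (by
        obtain ⟨m, hm⟩ := hQ.exists_card_eq
        rw [hcard, hm]
        exact Nat.Coprime.pow _ _ (by norm_num)) fun a ha ha1 => ?_
    by_cases h0 : Q ⊓ centralizer {a} = ⊥
    · exact h0 ▸ bot_le
    obtain ⟨w, hw1, hw2, hw3⟩ := hinv a h0
    have hoa : orderOf a = 3 := orderOf_eq_prime (hE.2 a ha) ha1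
    have h3 : a ∈ zpowers e := by
      by_contra h
      have h4 := card_sup_zpowers_of_commute hoe (hE.2 a ha) h
        (isMulCommutative_iff_forall.1 hE.1 e (mem_sup_right (mem_zpowers e)) a ha)
      have h5 := eq_of_le_of_card_ge (sup_le le_sup_right (zpowers_le.2 ha)) (hcard.trans h4.symm).le
      have h6 : d ∈ centralizer {w} := (sup_le
        (zpowers_le.2 (mem_centralizer_singleton_iff.2 (heW w hw1).symm))
        (zpowers_le.2 (mem_centralizer_singleton_iff.2
          (mem_centralizer_singleton_iff.1 hw3).symm))) (h5.ge (mem_sup_left (mem_zpowers d)))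
      exact hw2 (mem_bot.1 (hfpf.le ⟨hw1, mem_centralizer_singleton_iff.2
        (mem_centralizer_singleton_iff.1 h6).symm⟩))
    have h4 : e ∈ zpowers a := mem_zpowers_of_orderOf_dvd (mem_zpowers e) h3 (by rw [hoe, hoa])
    refine inf_le_right.trans ?_
    rw [← centralizer_zpowers_eq, ← centralizer_zpowers_eq]
    exact centralizer_le (zpowers_le.2 h4)
  have h5 : e ∈ zpowers e ⊓ centralizer (Q : Set G) :=
    ⟨mem_zpowers e, fun q hq => mem_centralizer_singleton_iff.1 (hle hq)⟩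
  rw [h23 e (IsPGroup.of_card (n := 1) (by simp [hoe])), mem_bot] at h5
  simp [h5] at hoe

end Cfsg.Agent.S3739
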