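import Cfsg.Statements.S3740
import Cfsg.Agent.Lib.H1SL2

set_option autoImplicit false
open Cfsg

namespace Cfsg.Agent.S3740

open Subgroup CfsgLib CfsgLib.H1

/-- Let F be a finite field of odd characteristic p and let a be a p-element of SL₂(F) normalizing a subgroup R of order prime to p with [R, a] ≠ 1. Then p = 3, R is a quaternion group of order 8, and R⟨a⟩ is isomorphic to SL₂(3). -/
theorem result (F : Type) [Field F] [Fintype F] {p : ℕ} [Fact p.Prime] [CharP F p] (hp : p ≠ 2) (a : Matrix.SpecialLinearGroup (Fin 2) F) (ha : IsPGroup p ↥(Subgroup.zpowers a)) (R : Subgroup (Matrix.SpecialLinearGroup (Fin 2) F)) (hR : (Nat.card R).Coprime p) (haR : a ∈ Subgroup.normalizer (R : Set (Matrix.SpecialLinearGroup (Fin 2) F))) (hnt : ⁅R, Subgroup.zpowers a⁆ ≠ ⊥) : p = 3 ∧ Nonempty (↥R ≃* QuaternionGroup 2) ∧ Nonempty (↥(R ⊔ Subgroup.zpowers a) ≃* Matrix.SpecialLinearGroup (Fin 2) (ZMod 3)) := by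
  obtain ⟨k, hk⟩ := ha ⟨a, mem_zpowers a⟩
  obtain ⟨e, he⟩ := exists_conj_upT (a := a)
    (SL2_trace_of_pow (p := p) (k := k) (congrArg Subtype.val hk)) (by
      rintro rfl
      simp at hnt)
  have hinj : Function.Injective e.toMonoidHom := e.injective
  have hz : zpowers (upT (1 : F)) = (zpowers a).map e.toMonoidHom := by
    rw [MonoidHom.map_zpowers, ← he]; rfl
  obtain ⟨h1, ⟨e1⟩, ⟨e2⟩⟩ := sl2_normalized_upT hp (R.map e.toMonoidHom)
    (by rwa [card_map_of_injective hinj])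
    (by rw [← he]; exact le_normalizer_map _ (mem_map_of_mem _ haR))
    (by rwa [hz, ← map_commutator, Ne, map_eq_bot_iff_of_injective _ hinj])
  refine ⟨h1, ⟨(R.equivMapOfInjective _ hinj).trans e1⟩,
    ⟨((R ⊔ zpowers a).equivMapOfInjective _ hinj).trans ((MulEquiv.subgroupCongr ?_).trans e2)⟩⟩
  rw [Subgroup.map_sup, hz]

end Cfsg.Agent.S3740
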