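import Cfsg.Statements.S3741
import Cfsg.Agent.Lib.H1Pairing
import Cfsg.Agent.Lib.PGroupBasic

set_option autoImplicit false
open Cfsg

namespace Cfsg.Agent.S3741

open Subgroup
open scoped commutatorElement

theorem central {G : Type*} [Group G] [Finite G] {p : ℕ} [hp : Fact p.Prime] (hG : IsPGroup p G)
    {Z H : Subgroup G} (hZ : Nat.card Z = 1 ∨ Nat.card Z = p) (hZH : Z ≤ H)
    (hn : H ≤ normalizer (Z : Set G)) {z h : G} (hz : z ∈ Z) (hh : h ∈ H) : h * z = z * h := by
  rcases hZ with hZ | hZ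
  · rw [card_eq_one.1 hZ, mem_bot] at hz
    simp [hz]
  · have := (normal_subgroupOf_iff_le_normalizer hZH).2 hn
    have h1 := CfsgLib.PGrp.le_center_of_card_eq_prime (hG.to_subgroup H) (Z.subgroupOf H)
      (by rw [← hZ]; exact Nat.card_congr (subgroupOfEquivOfLe hZH).toEquiv)
    exact congrArg Subtype.val (mem_center_iff.1 (h1 (x := ⟨z, hZH hz⟩) hz) ⟨h, hh⟩)


/-- Let A and B be subgroups of a finite p-group with [A, B] ≤ A ∩ B and [A, B] of order at most p. Then |A : C_A(B)| = |B : C_B(A)|. -/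
theorem result {G : Type*} [Group G] [Finite G] {p : ℕ} [Fact p.Prime] (hG : IsPGroup p G) (A B : Subgroup G) (hAB : ⁅A, B⁆ ≤ A ⊓ B) (hcard : Nat.card ↥⁅A, B⁆ ≤ p) : (A ⊓ Subgroup.centralizer (B : Set G)).relIndex A = (B ⊓ Subgroup.centralizer (A : Set G)).relIndex B := by
  have hp : p.Prime := Fact.out
  have hZ : Nat.card ↥⁅A, B⁆ = 1 ∨ Nat.card ↥⁅A, B⁆ = p := by
    obtain ⟨n, hn⟩ := (hG.to_subgroup ⁅A, B⁆).exists_card_eq
    rw [hn] at hcard ⊢
    have : n ≤ 1 := (Nat.pow_le_pow_iff_right hp.one_lt).1 (by simpa using hcard)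
    interval_cases n <;> simp
  have hcyc : IsCyclic ↥⁅A, B⁆ := by
    rcases hZ with hZ | hZ
    · have := (Nat.card_eq_one_iff_unique.1 hZ).1
      infer_instance
    · exact isCyclic_of_prime_card hZ
  have hA : ∀ {z h : G}, z ∈ ⁅A, B⁆ → h ∈ A → h * z = z * h := fun hz hh =>
    central hG hZ (hAB.trans inf_le_left) (normalizer_commutator_ge_left _ _) hz hh
  have hB : ∀ {z h : G}, z ∈ ⁅A, B⁆ → h ∈ B → h * z = z * h := fun hz hh =>
    central hG hZ (hAB.trans inf_le_right) (normalizer_commutator_ge_right _ _) hz hh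
  letI : CommGroup ↥⁅A, B⁆ := IsCyclic.commGroup
  let β : A →* B →* ↥⁅A, B⁆ := MonoidHom.mk' (fun a => MonoidHom.mk'
      (fun b => ⟨⁅(a : G), (b : G)⁆, commutator_mem_commutator a.2 b.2⟩) (fun b c => by
        apply Subtype.ext
        change ⁅(a : G), (b * c : G)⁆ = ⁅(a : G), (b : G)⁆ * ⁅(a : G), (c : G)⁆
        have := hB (commutator_mem_commutator a.2 c.2) b.2
        calc ⁅(a : G), (b * c : G)⁆ = ⁅(a : G), (b : G)⁆ * (b * ⁅(a : G), (c : G)⁆) * (b : G)⁻¹ := by
              simp only [commutatorElement_def]; group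
          _ = _ := by rw [this]; group)) (fun a c => by
        ext b
        change ⁅(a * c : G), (b : G)⁆ = ⁅(a : G), (b : G)⁆ * ⁅(c : G), (b : G)⁆
        have h1 := hA (commutator_mem_commutator c.2 b.2) a.2
        have h2 := hA (commutator_mem_commutator c.2 b.2)
          (hAB (commutator_mem_commutator a.2 b.2)).1
        calc ⁅(a * c : G), (b : G)⁆ = (a * ⁅(c : G), (b : G)⁆) * (a : G)⁻¹ * ⁅(a : G), (b : G)⁆ := by
              simp only [commutatorElement_def]; group
          _ = _ := by rw [h1, h2]; group)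
  have h := CfsgLib.H1.index_ker_eq_index_ker_flip β
  have h1 : β.ker = (A ⊓ centralizer (B : Set G)).subgroupOf A := by
    ext a
    rw [MonoidHom.mem_ker, mem_subgroupOf, mem_inf, mem_centralizer_iff, MonoidHom.ext_iff]
    constructor
    · intro h
      exact ⟨a.2, fun b hb =>
        (commutatorElement_eq_one_iff_mul_comm.1 (congrArg Subtype.val (h ⟨b, hb⟩))).symm⟩
    · intro h b
      exact Subtype.ext (commutatorElement_eq_one_iff_mul_comm.2 (h.2 b b.2).symm)
  have h2 : β.flip.ker = (B ⊓ centralizer (A : Set G)).subgroupOf B := by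
    ext b
    rw [MonoidHom.mem_ker, mem_subgroupOf, mem_inf, mem_centralizer_iff, MonoidHom.ext_iff]
    constructor
    · intro h
      exact ⟨b.2, fun a ha =>
        (commutatorElement_eq_one_iff_mul_comm.1 (congrArg Subtype.val (h ⟨a, ha⟩)))⟩
    · intro h a
      exact Subtype.ext (commutatorElement_eq_one_iff_mul_comm.2 (h.2 a a.2))
  rwa [h1, h2] at h

end Cfsg.Agent.S3741
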