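import Cfsg.Statements.S3742
import Mathlib

set_option autoImplicit false
open Cfsg

namespace Cfsg.Agent.S3742

open QuaternionGroup

/-- the 4-cycle attached to an element of order four -/
def cyc : QuaternionGroup 2 → Fin 4 → Fin 4
  | a i => if i = 1 then ![1, 2, 3, 0] else ![3, 0, 1, 2]
  | xa i => if i = 0 then ![1, 3, 0, 2] else if i = 2 then ![2, 0, 3, 1] else
      if i = 3 then ![3, 2, 0, 1] else ![2, 3, 1, 0]

/-- the element of order four attached to a 4-cycle -/
def uncyc (x y : Fin 4) : QuaternionGroup 2 :=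
  if x = 1 then (if y = 2 then a 1 else xa 0) else
  if x = 2 then (if y = 0 then xa 2 else xa 1) else (if y = 0 then a 3 else xa 3)

/-- the action of `S₄` -/
def act (σ : Equiv.Perm (Fin 4)) (g : QuaternionGroup 2) : QuaternionGroup 2 :=
  if g = a 0 ∨ g = a 2 then g else uncyc (σ (cyc g (σ.symm 0))) (σ (cyc g (σ.symm 1)))

theorem act_one : ∀ g, act 1 g = g := by decide +kernel

theorem act_mul : ∀ σ τ g, act (σ * τ) g = act σ (act τ g) := by decide +kernel

theorem act_map_mul : ∀ σ g h, act σ (g * h) = act σ g * act σ h := by decide +kernel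

theorem act_inj : ∀ σ, act σ (a 1) = a 1 → act σ (xa 0) = xa 0 → σ = 1 := by decide +kernel

theorem act_surj : ∀ x y : QuaternionGroup 2, x * y ≠ y * x →
    ∃ σ, act σ (a 1) = x ∧ act σ (xa 0) = y := by decide +kernel

theorem gen : ∀ g : QuaternionGroup 2, ∃ i : Fin 4, g = a 1 ^ i.1 ∨ g = xa 0 * a 1 ^ i.1 := by
  decide +kernel

/-- the homomorphism -/
def hom : Equiv.Perm (Fin 4) →* MulAut (QuaternionGroup 2) :=
  MonoidHom.mk' (fun σ =>
    { toFun := act σ
      invFun := act σ⁻¹
      left_inv := fun g => by rw [← act_mul, inv_mul_cancel, act_one]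
      right_inv := fun g => by rw [← act_mul, mul_inv_cancel, act_one]
      map_mul' := act_map_mul σ }) fun σ τ => MulEquiv.ext (act_mul σ τ)


/-- The automorphism group of the quaternion group of order 8 is isomorphic to the symmetric group of degree 4. -/
theorem result : Nonempty (MulAut (QuaternionGroup 2) ≃* Equiv.Perm (Fin 4)) := by
  refine ⟨(MulEquiv.ofBijective hom ⟨(injective_iff_map_eq_one _).2 fun σ h =>
    act_inj σ (DFunLike.congr_fun h (a 1)) (DFunLike.congr_fun h (xa 0)), fun α => ?_⟩).symm⟩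
  obtain ⟨σ, h1, h2⟩ := act_surj (α (a 1)) (α (xa 0)) (by
    rw [← map_mul, ← map_mul, α.injective.ne_iff]
    decide)
  refine ⟨σ, MulEquiv.ext fun g => ?_⟩
  change hom σ (a 1) = _ at h1
  change hom σ (xa 0) = _ at h2
  obtain ⟨i, rfl | rfl⟩ := gen g
  · rw [map_pow, map_pow, h1]
  · rw [map_mul, map_mul, map_pow, map_pow, h1, h2]

end Cfsg.Agent.S3742
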