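import Cfsg.Statements.S3743
import Cfsg.Agent.Lib.CorePiSep

set_option autoImplicit false
open Cfsg

namespace Cfsg.Agent.S3743

theorem result {G : Type*} [Group G] [Finite G] (A : Subgroup G) (hA : A.IsSubnormal) : (Group.IsNilpotent A → A ≤ Cfsg.fittingSubgroup G) ∧ ∀ π : Set ℕ, (∀ p : ℕ, p.Prime → p ∣ Nat.card A → p ∈ π) → A ≤ Cfsg.piCore π G :=
  ⟨CfsgLib.le_fitting_of_isSubnormal hA, fun _ h => CfsgLib.le_piCore_of_isSubnormal hA h⟩

end Cfsg.Agent.S3743
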