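import Cfsg.Statements.S3744
import Cfsg.Agent.Lib.Hall

set_option autoImplicit false
open Cfsg

namespace Cfsg.Agent.S3744

/-- A finite p-soluble group has a p-complement, all its p-complements are conjugate, and every subgroup of order prime to p lies in one of them. Here a p-complement is a subgroup of order prime to p whose index is a power of p. -/
theorem result {G : Type*} [Group G] [Finite G] {p : ℕ} [Fact p.Prime] (hG : Cfsg.IsPSolvable p G) : (∃ H : Subgroup G, (Nat.card H).Coprime p ∧ ∃ n : ℕ, H.index = p ^ n) ∧ (∀ H₁ H₂ : Subgroup G, (Nat.card H₁).Coprime p → (∃ n : ℕ, H₁.index = p ^ n) → (Nat.card H₂).Coprime p → (∃ n : ℕ, H₂.index = p ^ n) → ∃ g : G, H₂ = H₁.map (MulAut.conj g).toMonoidHom) ∧ (∀ U : Subgroup G, (Nat.card U).Coprime p → ∃ H : Subgroup G, (Nat.card H).Coprime p ∧ (∃ n : ℕ, H.index = p ^ n) ∧ ∃ g : G, U.map (MulAut.conj g).toMonoidHom ≤ H) := by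
  refine ⟨?_, ?_, ?_⟩
  · obtain ⟨H, hH⟩ := CfsgLib.Hall.exists_pComplement hG
    exact ⟨H, CfsgLib.Hall.isPiHall_compl_singleton_iff.1 hH⟩
  · intro H₁ H₂ h1 h2 h3 h4
    exact CfsgLib.Hall.conj_pComplement hG (CfsgLib.Hall.isPiHall_compl_singleton_iff.2 ⟨h1, h2⟩)
      (CfsgLib.Hall.isPiHall_compl_singleton_iff.2 ⟨h3, h4⟩)
  · intro U hU
    obtain ⟨H, hH, hUH⟩ := CfsgLib.Hall.exists_pComplement_ge hG hU
    obtain ⟨h1, h2⟩ := CfsgLib.Hall.isPiHall_compl_singleton_iff.1 hH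
    exact ⟨H, h1, h2, 1, by rwa [CfsgLib.map_conj_one]⟩

end Cfsg.Agent.S3744
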