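import Cfsg.Statements.S3746
import Cfsg.Agent.Lib.CoreComponents

set_option autoImplicit false
open Cfsg

namespace Cfsg.Agent.S3746

open Subgroup CfsgLib
open scoped Pointwise commutatorElement



theorem result {G : Type*} [Group G] [Finite G] (Z : Subgroup G) (hZ : Z ≤ Subgroup.center G) [Z.Normal] (E : Subgroup G) (hZE : Z ≤ E) (hE : Cfsg.IsComponent (E.map (QuotientGroup.mk' Z))) : Cfsg.IsComponent ⁅E, E⁆ := by
  have hEc : E = (E.map (QuotientGroup.mk' Z)).comap (QuotientGroup.mk' Z) := by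
    rw [comap_map_eq, QuotientGroup.ker_mk', sup_eq_left.mpr hZE]
  have hEs : E.IsSubnormal := hEc ▸ hE.1.comap _
  have hle : ⁅E, E⁆ ≤ E := le_normalizer_iff_commutator_le_left.mp le_normalizer
  have hmap : (⁅E, E⁆).map (QuotientGroup.mk' Z) = E.map (QuotientGroup.mk' Z) := by
    rw [map_commutator, isComponent_commutator_self hE]
  have h1 : E ≤ ⁅E, E⁆ ⊔ center G := by
    have := congrArg (comap (QuotientGroup.mk' Z)) hmap
    rw [← hEc, comap_map_eq, QuotientGroup.ker_mk'] at this
    exact this.ge.trans (sup_le_sup_left hZ _)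
  have hp : ⁅⁅E, E⁆, ⁅E, E⁆⁆ = ⁅E, E⁆ := by
    refine le_antisymm (commutator_mono hle hle) ?_
    rw [← commutator_sup_center ⁅E, E⁆]
    exact commutator_mono h1 h1
  refine ⟨(SubnormalIn.of_le_normalizer hle (normalizer_commutator_ge_left E E)).isSubnormal hEs, ?_⟩
  refine isQuasisimple_of_central_extension (isPerfect_iff.mpr hp)
    ((QuotientGroup.mk' Z).subgroupMap ⁅E, E⁆) (MonoidHom.subgroupMap_surjective _ _) ?_
    (hmap ▸ hE.2)
  intro x hx
  have h2 : (x : G) ∈ Z := (QuotientGroup.eq_one_iff _).mp (congrArg Subtype.val hx)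
  rw [mem_center_iff]
  intro g
  exact Subtype.ext (mem_center_iff.mp (hZ h2) g)

end Cfsg.Agent.S3746
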