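import Cfsg.Statements.S3747
import Cfsg.Agent.Lib.CoreComponents

set_option autoImplicit false
open Cfsg

namespace Cfsg.Agent.S3747

open Subgroup CfsgLib
open scoped Pointwise commutatorElement



theorem result {G : Type*} [Group G] [Finite G] : (∀ K : Subgroup G, Cfsg.IsComponent K → Subgroup.center ↥K = ⊥ → (Subgroup.normalClosure (K : Set G) ≠ ⊥ ∧ ∀ N : Subgroup G, N.Normal → N ≤ Subgroup.normalClosure (K : Set G) → N = ⊥ ∨ N = Subgroup.normalClosure (K : Set G))) ∧ (Cfsg.fittingSubgroup G = ⊥ → sSup {N : Subgroup G | N ≠ ⊥ ∧ N.Normal ∧ ∀ N' : Subgroup G, N'.Normal → N' ≤ N → N' = ⊥ ∨ N' = N} = Cfsg.layer G) := by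
  constructor
  · intro K hK hz
    refine ⟨fun h => isComponent_ne_bot hK (le_bot_iff.mp (h ▸ le_normalClosure)), ?_⟩
    intro N hN hle
    rcases isComponent_le_or_commutator_eq_bot hK hN.isSubnormal with h | h
    · exact Or.inr (le_antisymm hle (normalClosure_le_normal h))
    left
    have h1 : normalClosure (K : Set G) ≤ centralizer (N : Set G) :=
      normalClosure_le_normal (le_centralizer_iff.mp (commutator_eq_bot_iff_le_centralizer.mp h))
    -- the centre of the normal closure is trivial
    set 𝒮 : Set (Subgroup G) := Set.range fun g : G => K.map (MulAut.conj g).toMonoidHom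
    have key : ∀ S : Set (Subgroup G), S.Finite → S ⊆ 𝒮 →
        sSup S ⊓ centralizer ((sSup S : Subgroup G) : Set G) = ⊥ := by
      intro S hS
      induction S, hS using Set.Finite.induction_on with
      | empty => intro _; simp
      | @insert L S hLS _ ih =>
        intro hsub
        have hL : IsComponent L ∧ L ⊓ centralizer (L : Set G) = ⊥ := by
          obtain ⟨g, rfl⟩ := hsub (Set.mem_insert _ _)
          refine ⟨isComponent_map_conj hK g, eq_bot_iff.mpr ?_⟩
          rintro _ ⟨⟨x, hx, rfl⟩, hx2⟩
          have : (⟨x, hx⟩ : K) ∈ center K := mem_center_iff.mpr fun y => Subtype.ext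
            ((MulAut.conj g).injective (by
              simpa using hx2 _ (conj_mem_map_conj (g := g) y.2)))
          rw [hz, mem_bot] at this
          have h2 : x = 1 := congrArg Subtype.val this
          rw [h2, map_one]
          exact one_mem _
        have hc : sSup S ≤ centralizer (L : Set G) := sSup_le fun L' hL' => by
          obtain ⟨g, rfl⟩ := hsub (Set.mem_insert_of_mem _ hL')
          refine commutator_eq_bot_iff_le_centralizer.mp
            ((isComponent_eq_or_commutator_eq_bot (isComponent_map_conj hK g) hL.1).resolve_left ?_)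
          intro h2
          exact hLS (h2 ▸ hL')
        have ih' := ih ((Set.subset_insert _ _).trans hsub)
        rw [sSup_insert, eq_bot_iff]
        rintro x ⟨hx1, hx2⟩
        obtain ⟨a, ha, b, hb, rfl⟩ := (mem_sup_iff_of_le_normalizer'
          (hc.trans (centralizer_le_normalizer _))).mp hx1
        have ha1 : a ∈ L ⊓ centralizer (L : Set G) :=
          ⟨ha, (mul_mem_cancel_right (hc hb)).mp (centralizer_le (le_sup_left (a := L)) hx2)⟩
        rw [hL.2, mem_bot] at ha1
        subst ha1
        rw [one_mul] at hx2 ⊢
        exact ih' ▸ ⟨hb, centralizer_le (le_sup_right (a := L)) hx2⟩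
    have h2 := key 𝒮 (Set.toFinite _) le_rfl
    have h3 : sSup 𝒮 = normalClosure (K : Set G) := (normalClosure_eq_iSup_conj K).symm
    rw [h3] at h2
    exact le_bot_iff.mp (h2 ▸ le_inf hle (le_centralizer_iff.mp h1))
  · intro hF
    apply le_antisymm
    · refine sSup_le fun N hN => ?_
      have := IsMinNormal.le_genFitting (M := N) ⟨hN.2.1, hN.1, hN.2.2⟩
      rwa [generalizedFittingSubgroup, hF, sup_bot_eq] at this
    · rw [layer_le_iff]
      intro K hK
      have := isMinNormal_normalClosure_of_isComponent hK (by rw [hF, bot_inf_eq])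
      exact le_normalClosure.trans (le_sSup ⟨this.2.1, this.1, this.2.2⟩)

end Cfsg.Agent.S3747
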