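import Cfsg.Statements.S3748
import Cfsg.Agent.Lib.CoreSubnormal

set_option autoImplicit false
open Cfsg

namespace Cfsg.Agent.S3748

open Subgroup CfsgLib
open scoped Pointwise commutatorElement



theorem result {G : Type*} [Group G] [Finite G] (M : Subgroup G) (hM : M ≠ ⊤) (hprim : ∀ N : Subgroup G, N ≤ M → M ≤ Subgroup.normalizer (N : Set G) → N ≠ ⊥ → Subgroup.normalizer (N : Set G) = M) : (∀ L : Subgroup G, L.IsSubnormal → L ≤ M → L = ⊥) ∧ M ⊓ Cfsg.fittingSubgroup G = ⊥ := by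
  have key : ∀ L : Subgroup G, L.IsSubnormal → L ≤ M → L = ⊥ := by
    intro N hN hNM
    obtain ⟨L, h1, h2, h3, h4, h5⟩ := exists_max_subnormal_le M
    by_contra h0
    have h6 : L ≠ ⊥ := fun h => h0 (le_bot_iff.mp (h ▸ h4 N hNM hN))
    exact hM (top_le_iff.mp (h5 (hprim L h1 h3 h6).le ▸ h1))
  exact ⟨key, key _ (isSubnormal_of_le_fitting inf_le_right) inf_le_left⟩

end Cfsg.Agent.S3748
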