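import Cfsg.Statements.S3749
import Cfsg.Agent.Lib.CoprimeSylow
import Cfsg.Agent.Lib.H1Misc
import Cfsg.Agent.Lib.SylowIn
import Cfsg.Agent.Lib.CoprimePGroup

set_option autoImplicit false
open Cfsg

namespace Cfsg.Agent.S3749

open Subgroup CfsgLib CfsgLib.Cop

/-- Call a proper subgroup M of G primitive when M = N_G(N) for every non-trivial normal subgroup N of M. Let M be a primitive subgroup of the finite group G, p a prime with O_p(M) ≠ 1, and N a normal subgroup of G with M ∩ N = 1. Then p does not divide the order of N; for every prime q there is exactly one Sylow q-subgroup of N normalized by M; and if the order of N has at least two prime divisors then M is not a maximal subgroup of G. -/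
theorem result {G : Type*} [Group G] [Finite G] (M : Subgroup G) (hM : M ≠ ⊤) (hprim : ∀ N : Subgroup G, N ≤ M → M ≤ Subgroup.normalizer (N : Set G) → N ≠ ⊥ → Subgroup.normalizer (N : Set G) = M) {p : ℕ} [Fact p.Prime] (hOp : Cfsg.pCore p ↥M ≠ ⊥) (N : Subgroup G) [N.Normal] (hMN : M ⊓ N = ⊥) : ¬ p ∣ Nat.card N ∧ (∀ q : ℕ, [Fact q.Prime] → ∃! Q : Sylow q ↥N, M ≤ Subgroup.normalizer ((Q : Subgroup ↥N).map N.subtype : Set G)) ∧ ((∃ q r : ℕ, q.Prime ∧ r.Prime ∧ q ≠ r ∧ q ∣ Nat.card N ∧ r ∣ Nat.card N) → ¬ IsCoatom M) := by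
  set P := (pCore p M).map M.subtype with hP
  have hPM : P ≤ M := map_subtype_le _
  have hPp : IsPGroup p P := map_pCore_isPGroup p M
  have hMP : M ≤ normalizer (P : Set G) :=
    le_normalizer.trans (normalizer_le_normalizer_map_pCore p M)
  have hP0 : P ≠ ⊥ := fun h => hOp ((Subgroup.map_eq_bot_iff_of_injective _ M.subtype_injective).1 h)
  have hN := hprim P hPM hMP hP0
  have hC : N ⊓ centralizer (P : Set G) = ⊥ := by
    rw [eq_bot_iff, ← hMN, ← hN]
    exact le_inf (inf_le_right.trans (centralizer_le_normalizer _)) inf_le_left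
  have hPN : P ≤ normalizer (N : Set G) := le_normalizer_of_normal
  have h1 : ¬ p ∣ Nat.card N := by
    have := H1.card_modEq_card_inf_centralizer hPp hPN
    rw [hC, card_bot] at this
    intro hd
    exact (Fact.out : p.Prime).one_lt.ne' (Nat.dvd_one.1 ((this.dvd_iff dvd_rfl).1 hd))
  have hcop : (Nat.card P).Coprime (Nat.card N) := by
    obtain ⟨k, hk⟩ := IsPGroup.iff_card.1 hPp
    rw [hk]
    exact Nat.Coprime.pow_left _ ((Fact.out : p.Prime).coprime_iff_not_dvd.2 h1)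
  have hs : Group.IsSolvable P ∨ Group.IsSolvable N := Or.inl (solvable_of_isPGroup hPp)
  have uniq : ∀ (q : ℕ) [Fact q.Prime] (Q R : Subgroup G), IsPiHallOf {q} Q N →
      IsPiHallOf {q} R N → P ≤ normalizer (Q : Set G) → P ≤ normalizer (R : Set G) → R = Q := by
    intro q _ Q R hQ hR h1 h2
    obtain ⟨c, hc, rfl⟩ := conj_invariant_sylowOf hPN hcop hs hQ hR h1 h2
    rw [hC, mem_bot] at hc
    rw [hc, map_conj_one]
  have ex : ∀ (q : ℕ) [Fact q.Prime], ∃ Q : Subgroup G, IsPiHallOf {q} Q N ∧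
      M ≤ normalizer (Q : Set G) := by
    intro q _
    obtain ⟨Q, hQ, hPQ⟩ := exists_invariant_sylowOf q hPN hcop hs
    refine ⟨Q, hQ, fun m hm => mem_normalizer_of_map_conj_eq (uniq q _ _ hQ
      (Hall.isPiHallOf_map_conj hQ (le_normalizer_of_normal (mem_top m))) hPQ ?_)⟩
    rw [normalizer_map_conj, ← map_conj_eq_of_mem_normalizer (hMP hm)]
    exact map_mono hPQ
  refine ⟨h1, fun q _ => ?_, ?_⟩
  · obtain ⟨Q, hQ, hMQ⟩ := ex q
    obtain ⟨Q, rfl⟩ := exists_sylow_of_isPiHallOf hQ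
    refine ⟨Q, hMQ, fun R hR => Sylow.ext (map_injective N.subtype_injective ?_)⟩
    exact uniq q _ _ hQ (isPiHallOf_sylow R) (hPM.trans hMQ) (hPM.trans hR)
  · rintro ⟨q, r, hq, hr, hqr, hqN, hrN⟩ hco
    have := Fact.mk hq
    obtain ⟨Q, hQ, hMQ⟩ := ex q
    have hQ' := isPiHallOf_singleton_iff.1 hQ
    have hQ0 : Q ≠ ⊥ := IsSylowIn.ne_bot (p := q) hQ' hqN
    have h2 : M ⊔ Q = ⊤ := by
      refine hco.2 _ (lt_of_le_of_ne le_sup_left fun h => hQ0 ?_)
      rw [eq_bot_iff, ← hMN]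
      exact le_inf (h ▸ le_sup_right) hQ.1
    have h3 : N ≤ Q := by
      intro n hn
      obtain ⟨a, ha, b, hb, rfl⟩ := (mem_sup_iff_of_le_normalizer hMQ).1 (h2 ▸ mem_top n)
      have : a ∈ M ⊓ N := ⟨ha, (mul_mem_cancel_right (hQ.1 hb)).1 hn⟩
      rw [hMN, mem_bot] at this
      rwa [this, one_mul]
    exact hqr (hQ.2.1 r hr (hrN.trans (card_dvd_of_le h3))).symm

end Cfsg.Agent.S3749
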