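import Cfsg.Statements.S3750
import Cfsg.Agent.Lib.CoreComponents
import Cfsg.Agent.S3748

set_option autoImplicit false
open Cfsg

namespace Cfsg.Agent.S3750

open Subgroup CfsgLib

/-- Call a proper subgroup M of G primitive when M = N_G(N) for every non-trivial normal subgroup N of M. Let M be a primitive subgroup of the finite group G and N a normal subgroup of G with M ∩ F*(N) ≠ 1. Then F(G) = 1 and F*(N) = F*(G) = E(G); in particular every minimal normal subgroup of G is contained in N. -/
theorem result {G : Type*} [Group G] [Finite G] (M : Subgroup G) (hM : M ≠ ⊤) (hprim : ∀ N : Subgroup G, N ≤ M → M ≤ Subgroup.normalizer (N : Set G) → N ≠ ⊥ → Subgroup.normalizer (N : Set G) = M) (N : Subgroup G) [N.Normal] (hMF : M ⊓ (Cfsg.generalizedFittingSubgroup ↥N).map N.subtype ≠ ⊥) : Cfsg.fittingSubgroup G = ⊥ ∧ (Cfsg.generalizedFittingSubgroup ↥N).map N.subtype = Cfsg.generalizedFittingSubgroup G ∧ Cfsg.generalizedFittingSubgroup G = Cfsg.layer G ∧ ∀ K : Subgroup G, K.Normal → K ≠ ⊥ → (∀ K' : Subgroup G, K'.Normal → K' ≤ K → K' = ⊥ ∨ K' = K) → K ≤ N := by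
  set F := (generalizedFittingSubgroup N).map N.subtype with hF
  have hFn : F.Normal := normal_of_le_normalizer_top
    ((le_normalizer_of_normal (K := ⊤)).trans (normalizer_le_normalizer_map_genFitting N))
  have hsub := (Cfsg.Agent.S3748.result M hM hprim).1
  have hN := hprim (M ⊓ F) inf_le_left
    ((le_inf le_normalizer le_normalizer_of_normal).trans inf_normalizer_le_normalizer_inf) hMF
  have hC : centralizer (F : Set G) = ⊥ := by
    refine hsub _ (Normal.isSubnormal inferInstance) ?_
    rw [← hN]
    exact (centralizer_le (inf_le_right (a := M))).trans (centralizer_le_normalizer _)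
  have hFG : F ≤ generalizedFittingSubgroup G :=
    map_genFitting_le_of_isSubnormal (Normal.isSubnormal inferInstance)
  have h1 : fittingSubgroup G = ⊥ := by
    by_contra h
    refine inf_centralizer_ne_bot_of_isNilpotent fitting_isNilpotent le_rfl le_normalizer h ?_
    rw [eq_bot_iff, ← hC]
    refine le_trans ?_ (centralizer_le hFG)
    rw [le_centralizer_iff]
    exact sup_le (layer_le_centralizer_fitting.trans (centralizer_le (inf_le_left
      (b := centralizer (fittingSubgroup G : Set G))))) (le_centralizer_iff.1 inf_le_right)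
  have h2 : generalizedFittingSubgroup G = layer G := by
    rw [generalizedFittingSubgroup, h1, sup_bot_eq]
  have h3 : F = generalizedFittingSubgroup G := by
    refine le_antisymm hFG ?_
    rw [h2, layer_le_iff]
    intro K hK
    refine (isComponent_le_or_commutator_eq_bot hK hFn.isSubnormal).resolve_right fun h => ?_
    rw [commutator_eq_bot_iff_le_centralizer, le_centralizer_iff, hC, le_bot_iff] at h
    exact isComponent_ne_bot hK h
  refine ⟨h1, h3, h2, fun K hK hK0 hKm => ?_⟩
  exact (IsMinNormal.le_genFitting ⟨hK, hK0, hKm⟩).trans (h3.ge.trans (map_subtype_le _))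

end Cfsg.Agent.S3750
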