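import Cfsg.Statements.S3751
import Cfsg.Agent.Lib.H1Prim

set_option autoImplicit false
open Cfsg

namespace Cfsg.Agent.S3751

open Subgroup CfsgLib CfsgLib.H1

/-- Two distinct subgroups M₁, M₂ of G form a primitive pair when, for {i, j} = {1, 2}, every non-trivial normal subgroup A of M_i contained in M₁ ∩ M₂ satisfies N_{M_j}(A) = M₁ ∩ M₂; the pair has characteristic p when moreover C_{M_i}(O_p(M_i)) ≤ O_p(M_i) for both i and O_p(M₁)O_p(M₂) ≤ M₁ ∩ M₂. Let G be a finite group, p a prime dividing its order, with O_p(G) = 1 and every p-local subgroup of characteristic p. Then either G has a primitive pair of characteristic p, or every maximal p-local subgroup M of G is strongly p-embedded in G: M is a proper subgroup, p divides its order, and for every g ∉ M the order of M ∩ gMg⁻¹ is prime to p. -/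
theorem result {G : Type*} [Group G] [Finite G] {p : ℕ} [Fact p.Prime] (hloc : Cfsg.IsOfLocalCharacteristic p G) (hOp : Cfsg.pCore p G = ⊥) : (∃ M₁ M₂ : Subgroup G, M₁ ≠ M₂ ∧ (∀ A : Subgroup G, A ≠ ⊥ → A ≤ M₁ ⊓ M₂ → (M₁ ≤ Subgroup.normalizer (A : Set G) → M₂ ⊓ Subgroup.normalizer (A : Set G) = M₁ ⊓ M₂) ∧ (M₂ ≤ Subgroup.normalizer (A : Set G) → M₁ ⊓ Subgroup.normalizer (A : Set G) = M₁ ⊓ M₂)) ∧ Subgroup.centralizer (Cfsg.pCore p ↥M₁ : Set ↥M₁) ≤ Cfsg.pCore p ↥M₁ ∧ Subgroup.centralizer (Cfsg.pCore p ↥M₂ : Set ↥M₂) ≤ Cfsg.pCore p ↥M₂ ∧ (Cfsg.pCore p ↥M₁).map M₁.subtype ⊔ (Cfsg.pCore p ↥M₂).map M₂.subtype ≤ M₁ ⊓ M₂) ∨ (∀ M : Subgroup G, (∃ T : Subgroup G, IsPGroup p T ∧ T ≠ ⊥ ∧ M = Subgroup.normalizer (T : Set G)) → (∀ L : Subgroup G, (∃ T : Subgroup G, IsPGroup p T ∧ T ≠ ⊥ ∧ L = Subgroup.normalizer (T : Set G)) → M ≤ L → L = M) → M ≠ ⊤ ∧ p ∣ Nat.card M ∧ ∀ g : G, g ∉ M → ¬ p ∣ Nat.card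 ↥(M ⊓ M.map (MulAut.conj g).toMonoidHom)) := by
  have hc : ∀ M : Subgroup G, IsPLocal p M → CharIn p M := by
    rintro M ⟨T, h1, h2, rfl⟩
    exact charIn_iff.2 (hloc.2 T h1 h2)
  rw [or_iff_not_imp_right]
  intro h
  push Not at h
  obtain ⟨M, hM1, hM2, hM⟩ := h
  have hmax : IsMaximalPLocal p M := ⟨hM1, hM2⟩
  obtain ⟨T, h1, h2, hT⟩ := hM1
  have hne : M ≠ ⊤ := by
    intro h0
    have := normal_of_le_normalizer_top (H := T) (by rw [← hT, h0])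
    exact h2 (eq_bot_iff.2 ((le_pCore h1).trans hOp.le))
  have hd : p ∣ Nat.card M := by
    have h3 : T ≤ M := hT ▸ le_normalizer
    refine dvd_trans ?_ (card_dvd_of_le h3)
    obtain ⟨k, hk⟩ := h1.exists_card_eq
    rcases k with _ | k
    · exact absurd (eq_bot_of_card_eq T hk) h2
    · rw [hk]; exact dvd_pow_self p k.succ_ne_zero
  obtain ⟨g, hg, hgd⟩ := hM hne hd
  obtain ⟨M₁, M₂, S, h3, h4, h5, h6, h7⟩ := exists_maxLocal_common_sylow hmax hg hgd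
  have hpp : PrimPair M₁ M₂ :=
    ⟨h5, maxLocal_halfPrim h3 (hc _ h3.1) _, maxLocal_halfPrim h4 (hc _ h4.1) _⟩
  exact ⟨M₁, M₂, h5, (primPair_iff.1 hpp).2, charIn_iff.1 (hc _ h3.1), charIn_iff.1 (hc _ h4.1),
    sup_le ((pCoreOf_le_sylow h6).trans (le_inf h6.le h7.le))
      ((pCoreOf_le_sylow h7).trans (le_inf h6.le h7.le))⟩

end Cfsg.Agent.S3751
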