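import Cfsg.Statements.S3753
import Cfsg.Agent.Lib.H1DStar

set_option autoImplicit false
open Cfsg

namespace Cfsg.Agent.S3753

open Subgroup CfsgLib CfsgLib.H1

/-- Two distinct subgroups M₁, M₂ of G form a primitive pair when, for {i, j} = {1, 2}, every non-trivial normal subgroup A of M_i contained in M₁ ∩ M₂ satisfies N_{M_j}(A) = M₁ ∩ M₂; the pair has characteristic p when moreover C_{M_i}(O_p(M_i)) ≤ O_p(M_i) for both i and O_p(M₁)O_p(M₂) ≤ M₁ ∩ M₂. If the finite group G has a primitive pair (M₁, M₂) of characteristic p for some prime p, then M₁ or M₂ has non-abelian Sylow 2-subgroups. In particular no group of odd order has a primitive pair of characteristic p. -/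
theorem result {G : Type*} [Group G] [Finite G] {p : ℕ} [Fact p.Prime] (M₁ M₂ : Subgroup G) (hne : M₁ ≠ M₂) (hP : ∀ A : Subgroup G, A ≠ ⊥ → A ≤ M₁ ⊓ M₂ → (M₁ ≤ Subgroup.normalizer (A : Set G) → M₂ ⊓ Subgroup.normalizer (A : Set G) = M₁ ⊓ M₂) ∧ (M₂ ≤ Subgroup.normalizer (A : Set G) → M₁ ⊓ Subgroup.normalizer (A : Set G) = M₁ ⊓ M₂)) (hc₁ : Subgroup.centralizer (Cfsg.pCore p ↥M₁ : Set ↥M₁) ≤ Cfsg.pCore p ↥M₁) (hc₂ : Subgroup.centralizer (Cfsg.pCore p ↥M₂ : Set ↥M₂) ≤ Cfsg.pCore p ↥M₂) (hO : (Cfsg.pCore p ↥M₁).map M₁.subtype ⊔ (Cfsg.pCore p ↥M₂).map M₂.subtype ≤ M₁ ⊓ M₂) : (∃ S : Sylow 2 ↥M₁, ¬ IsMulCommutative (S : Subgroup ↥M₁)) ∨ (∃ S : Sylow 2 ↥M₂, ¬ IsMulCommutative (S : Subgroup ↥M₂)) := by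
  by_contra hn
  push Not at hn
  have h := primPair_iff.2 ⟨hne, hP⟩
  have a1 := abTwo_of_sylow hn.1
  have a2 := abTwo_of_sylow hn.2
  have c1 := charIn_iff.2 hc₁
  have c2 := charIn_iff.2 hc₂
  have h1 : pCoreOf p M₁ ≤ M₂ := le_sup_left.trans (hO.trans inf_le_right)
  have h2 : pCoreOf p M₂ ≤ M₁ := le_sup_right.trans (hO.trans inf_le_left)
  by_cases hp2 : p = 2
  · subst hp2
    have key : ∀ {M₁ M₂ : Subgroup G}, AbTwo M₁ → CharIn 2 M₁ → pCoreOf 2 M₁ ≤ M₂ →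
        pCoreOf 2 M₂ ≤ M₁ → pCoreOf 2 M₂ ≤ pCoreOf 2 M₁ := by
      intro M₁ M₂ a c h1 h2
      have h3 := a ((pCoreOf 2 M₁ ⊔ pCoreOf 2 M₂).subgroupOf M₁)
        (isPGroup_sup_of_le_normalizer (pCoreOf_isPGroup _) (pCoreOf_isPGroup _)
          (h1.trans (le_normalizer_pCoreOf _))).comap_subtype
      refine le_trans (le_inf h2 ?_) c
      intro x hx y hy
      exact congrArg Subtype.val (H5.isMulCommutative_iff'.1 h3 ⟨y, pCoreOf_le _ hy⟩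
        (mem_subgroupOf.2 (mem_sup_left hy)) ⟨x, h2 hx⟩ (mem_subgroupOf.2 (mem_sup_right hx)))
    have h3 := le_antisymm (key a2 c2 h2 h1) (key a1 c1 h1 h2)
    have h4 := h.eq_bot (pCoreOf_le _) h1 (le_normalizer_pCoreOf _)
      (h3 ▸ le_normalizer_pCoreOf _)
    by_cases h0 : M₁ = ⊥
    · exact c2.pCoreOf_ne_bot (fun h' => hne (h0.trans h'.symm)) (h3 ▸ h4)
    · exact c1.pCoreOf_ne_bot h0 h4
  · exact h.not_stable (stableIn_of_abTwo hp2 a1) (stableIn_of_abTwo hp2 a2) c1 c2 h1 h2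

end Cfsg.Agent.S3753
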