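import Cfsg.Statements.S3755
import Cfsg.Agent.Lib.H1Offender

set_option autoImplicit false
open Cfsg

namespace Cfsg.Agent.S3755

open Subgroup CfsgLib CfsgLib.H1

/-- Let M and V be subgroups of a finite group with V an elementary abelian 2-group, M normalizing V and acting faithfully on it (M ∩ C(V) = 1), and C_M(O_{2'}(M)) ≤ O_{2'}(M). If some elementary abelian 2-subgroup A of M satisfies |V : C_V(A)| < |A|², then M has a section isomorphic to the symmetric group of degree 3. -/
theorem result {X : Type*} [Group X] [Finite X] (M V : Subgroup X) (hV : Cfsg.IsElementaryAbelian 2 V) (hMV : M ≤ Subgroup.normalizer (V : Set X)) (hfaith : M ⊓ Subgroup.centralizer (V : Set X) = ⊥) (hcon : Subgroup.centralizer (Cfsg.pPrimeCore 2 ↥M : Set ↥M) ≤ Cfsg.pPrimeCore 2 ↥M) (A : Subgroup X) (hAM : A ≤ M) (hA : Cfsg.IsElementaryAbelian 2 A) (hsmall : (V ⊓ Subgroup.centralizer (A : Set X)).relIndex V < Nat.card A ^ 2) : Cfsg.Involves (Equiv.Perm (Fin 3)) ↥M := by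
  have hF := map_pPrimeCore_coprime 2 M
  have hFM : (pPrimeCore 2 M).map M.subtype ≤ M := map_subtype_le _
  have hC := centralizer_le_iff_amb.1 hcon
  have h1 : A ⊓ centralizer (((pPrimeCore 2 M).map M.subtype : Subgroup X) : Set X) = ⊥ := by
    rw [eq_bot_iff, ← inf_eq_bot_of_coprime
      (Cop.coprime_card_of_isPGroup hF (H1.IsElementaryAbelian.isPGroup hA))]
    exact le_inf ((inf_le_inf_right _ hAM).trans hC) inf_le_left
  rcases sq_le_or_exists_inverted hV hF (hFM.trans hMV)
    (eq_bot_iff.2 ((inf_le_inf_right _ hFM).trans hfaith.le)) A hA (hAM.trans hMV)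
    (hAM.trans (le_normalizer.trans (normalizer_le_normalizer_map_pPrimeCore 2 M))) h1 with
    h | ⟨d, hd, t, ht, ⟨k, hk⟩, h2, h3⟩
  · rw [relIndex_inf_self] at hsmall
    omega
  · exact involves_S3 (hFM hd) (hAM ht) hk h2 h3

end Cfsg.Agent.S3755
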