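import Cfsg.Statements.S3760

set_option autoImplicit false
open Cfsg

namespace Cfsg.Agent.S3760

theorem mem_norm_iff {G : Type*} [Group G] (K : Subgroup G) (g : G) :
    g ∈ Subgroup.normalizer (K : Set G) ↔ K.map (MulAut.conj g).toMonoidHom = K := by
  rw [Subgroup.mem_normalizer_iff]
  constructor
  · intro h
    ext x
    constructor
    · rintro ⟨y, hy, rfl⟩
      exact (h y).1 hy
    · intro hx
      refine ⟨g⁻¹ * x * g, (h _).2 (by simpa [mul_assoc] using hx), by simp [mul_assoc]⟩
  · intro h x
    constructor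
    · intro hx
      rw [← h]
      exact ⟨x, hx, rfl⟩
    · intro hx
      rw [← h] at hx
      obtain ⟨y, hy, h1⟩ := hx
      have : y = x := by simpa using h1
      exact this ▸ hy

theorem map_conj_mul {G : Type*} [Group G] (K : Subgroup G) (g h : G) :
    K.map (MulAut.conj (g * h)).toMonoidHom =
      (K.map (MulAut.conj h).toMonoidHom).map (MulAut.conj g).toMonoidHom := by
  rw [Subgroup.map_map, map_mul]
  rfl


/-- Let the group G act transitively on a set X, let x ∈ X with stabilizer H = G_x, and let K ≤ H. Then N_G(K) acts transitively on the set of fixed points of K if and only if every G-conjugate of K contained in H is already an H-conjugate of K. -/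
theorem result {G : Type*} [Group G] {X : Type*} [MulAction G X] (htrans : ∀ a b : X, ∃ g : G, g • a = b) (x : X) (K : Subgroup G) (hK : K ≤ MulAction.stabilizer G x) : (∀ a b : X, (∀ k ∈ K, k • a = a) → (∀ k ∈ K, k • b = b) → ∃ g ∈ Subgroup.normalizer (K : Set G), g • a = b) ↔ ∀ g : G, K.map (MulAut.conj g).toMonoidHom ≤ MulAction.stabilizer G x → ∃ h ∈ MulAction.stabilizer G x, K.map (MulAut.conj g).toMonoidHom = K.map (MulAut.conj h).toMonoidHom := by
  constructor
  · intro h g hg
    obtain ⟨n, hn, h1⟩ := h x (g⁻¹ • x) (fun k hk => hK hk) (fun k hk => by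
      have := hg ⟨k, hk, rfl⟩
      rw [MulAction.mem_stabilizer_iff] at this
      rw [eq_inv_smul_iff, smul_smul, smul_smul]
      exact this)
    refine ⟨g * n, ?_, ?_⟩
    · rw [MulAction.mem_stabilizer_iff, mul_smul, h1, smul_inv_smul]
    · rw [map_conj_mul, (mem_norm_iff K n).1 hn]
  · intro h
    have key : ∀ a : X, (∀ k ∈ K, k • a = a) →
        ∃ n ∈ Subgroup.normalizer (K : Set G), n • x = a := by
      intro a ha
      obtain ⟨g, rfl⟩ := htrans x a
      obtain ⟨k, hk, h1⟩ := h g⁻¹ (by
        rintro _ ⟨k, hk, rfl⟩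
        rw [MulAction.mem_stabilizer_iff]
        change (g⁻¹ * k * g⁻¹⁻¹) • x = x
        rw [inv_inv, mul_smul, mul_smul, ha k hk, inv_smul_smul])
      refine ⟨g * k, ?_, ?_⟩
      · rw [mem_norm_iff, map_conj_mul, ← h1, ← map_conj_mul, mul_inv_cancel, map_one]
        exact Subgroup.map_id K
      · rw [mul_smul, MulAction.mem_stabilizer_iff.1 hk]
    intro a b ha hb
    obtain ⟨n, hn, rfl⟩ := key a ha
    obtain ⟨m, hm, rfl⟩ := key b hb
    exact ⟨m * n⁻¹, Subgroup.mul_mem _ hm (Subgroup.inv_mem _ hn), by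
      rw [mul_smul, inv_smul_smul]⟩

end Cfsg.Agent.S3760
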