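import Cfsg.Statements.S3761
import Mathlib
import Cfsg.Agent.Lib.PGroupCyclicMax


set_option autoImplicit false
open Cfsg

namespace Cfsg.Agent.S3761

/-- Let G be a finite non-abelian p-group with a cyclic normal subgroup U of order p^n such that C_G(U) = U. Then either p = 2 and G is dihedral, generalized quaternion or semidihedral of order 2^(n+1); or, writing U₁ for the subgroup generated by the p-th powers of elements of U and M = C_G(U₁), the subgroup U has index p in M and the subgroup Ω₁(M) generated by the elements of M of order dividing p is elementary abelian of order p² and characteristic in G. -/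
theorem result {G : Type*} [Group G] [Finite G] {p : ℕ} [Fact p.Prime] (hG : IsPGroup p G) (hna : ¬ IsMulCommutative G) (U : Subgroup G) [U.Normal] (hU : IsCyclic U) (n : ℕ) (hUn : Nat.card U = p ^ n) (hC : Subgroup.centralizer (U : Set G) = U) : (p = 2 ∧ Nat.card G = 2 ^ (n + 1) ∧ ((∃ m : ℕ, Nonempty (G ≃* DihedralGroup m)) ∨ (∃ m : ℕ, Nonempty (G ≃* QuaternionGroup m)) ∨ Cfsg.IsQuasiDihedral G)) ∨ (U.relIndex (Subgroup.centralizer (Cfsg.powerClosure p 1 U : Set G)) = p ∧ Cfsg.IsElementaryAbelian p (Cfsg.omegaOne p (Subgroup.centralizer (Cfsg.powerClosure p 1 U : Set G))) ∧ Nat.card ↥(Cfsg.omegaOne p (Subgroup.centralizer (Cfsg.powerClosure p 1 U : Set G))) = p ^ 2 ∧ (Cfsg.omegaOne p (Subgroup.centralizer (Cfsg.powerClosure p 1 U : Set G))).Characteristic) := by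
  obtain ⟨u, rfl⟩ := (U.isCyclic_iff_exists_zpowers_eq_top).1 hU
  rw [Nat.card_zpowers] at hUn
  have hC' : ∀ g : G, Commute g u → g ∈ Subgroup.zpowers u := by
    intro g hg
    rw [← hC]
    intro x hx
    obtain ⟨k, rfl⟩ := Subgroup.mem_zpowers_iff.1 hx
    exact (hg.zpow_right k).symm.eq
  have hne : Subgroup.zpowers u ≠ ⊤ := fun h =>
    hna (by have := isCyclic_iff_exists_zpowers_eq_top.2 ⟨u, h⟩; infer_instance)
  have hM : Subgroup.centralizer (Cfsg.powerClosure p 1 (Subgroup.zpowers u) : Set G) =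
      Subgroup.centralizer {u ^ p} := by
    rw [Cfsg.powerClosure, Subgroup.centralizer_closure]
    ext g
    rw [Subgroup.mem_centralizer_singleton_iff, Subgroup.mem_centralizer_iff]
    constructor
    · intro h
      exact (h _ ⟨u, Subgroup.mem_zpowers u, by rw [pow_one]⟩).symm
    · rintro h _ ⟨x, hx, rfl⟩
      obtain ⟨k, rfl⟩ := Subgroup.mem_zpowers_iff.1 hx
      rw [pow_one, ← zpow_natCast, ← zpow_mul, mul_comm k, zpow_mul, zpow_natCast]
      exact (Commute.zpow_right h k).symm.eq
  rw [hM]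
  rcases CfsgLib.PGrp.isDQSDPair_or_omegaOne hG hUn hC' hne with ⟨h1, y, h2⟩ | h
  · exact Or.inl ⟨h1, h2.2.1, CfsgLib.PGrp.IsDQSD.cases ⟨n, u, y, h2⟩⟩
  · exact Or.inr h

end Cfsg.Agent.S3761
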