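import Cfsg.Statements.S3763
import Mathlib
import Cfsg.Agent.Lib.ExtraspecialTwo

set_option autoImplicit false
open Cfsg

namespace Cfsg.Agent.S3763

open CfsgLib.PGrp
open scoped commutatorElement

/-- Let E be an extraspecial 2-group of order 2^(2n+1). Then the largest elementary abelian subgroups of E have order 2^n or 2^(n+1); and two extraspecial 2-groups of the same order whose largest elementary abelian subgroups have the same order are isomorphic. -/
theorem result {E : Type*} [Group E] [Finite E] (hE : Cfsg.IsExtraspecial 2 E) (n : ℕ) (hn : Nat.card E = 2 ^ (2 * n + 1)) : ((Cfsg.PRankLE 2 n E ∧ ¬ Cfsg.PRankLE 2 (n - 1) E) ∨ (Cfsg.PRankLE 2 (n + 1) E ∧ ¬ Cfsg.PRankLE 2 n E)) ∧ ∀ (E' : Type*) [Group E'] [Finite E'], Cfsg.IsExtraspecial 2 E' → Nat.card E' = Nat.card E → (∀ k : ℕ, Cfsg.PRankLE 2 k E ↔ Cfsg.PRankLE 2 k E') → Nonempty (E ≃* E') := by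
  have : Fact (Nat.Prime 2) := ⟨Nat.prime_two⟩
  obtain ⟨m, rfl⟩ : ∃ m, n = m + 1 := by
    obtain ⟨k, hk, h⟩ := IsExtraspecial.exists_card_eq hE
    rw [hn] at h
    have := Nat.pow_right_injective (le_refl 2) h
    exact ⟨n - 1, by omega⟩
  refine ⟨extraspecial_two_rank_aux m E hE hn, fun E' _ _ hE' hc hr => ?_⟩
  exact extraspecial_two_iso_aux m E E' hE hE' hn (hc.trans hn) (hr _)

end Cfsg.Agent.S3763
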