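import Cfsg.Statements.S3764
import Cfsg.Agent.Lib.H9Misc
import Cfsg.Agent.Lib.Extraspecial

set_option autoImplicit false
open Cfsg

namespace Cfsg.Agent.S3764

open Subgroup CfsgLib CfsgLib.H9
open scoped commutatorElement

/-- Let p, q, r be distinct primes and let X, Q, V be subgroups of a finite group with X of order r, Q an extraspecial q-group normalized by X with C_Q(X) = Z(Q), and V an elementary abelian p-group normalized by X and Q on which XQ acts faithfully ((X ⊔ Q) ∩ C(V) = 1). If C_V(X) = 1, then q = 2, r = 2^n + 1 for some n, and Q has order 2^(2n+1). -/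
theorem result {G : Type*} [Group G] [Finite G] {p q r : ℕ} (hp : p.Prime) (hq : q.Prime) (hr : r.Prime) (hpq : p ≠ q) (hpr : p ≠ r) (hqr : q ≠ r) (X Q V : Subgroup G) (hX : Nat.card X = r) (hQ : Cfsg.IsExtraspecial q ↥Q) (hXQ : X ≤ Subgroup.normalizer (Q : Set G)) (hCQ : Q ⊓ Subgroup.centralizer (X : Set G) = (Subgroup.center ↥Q).map Q.subtype) (hV : Cfsg.IsElementaryAbelian p V) (hXV : X ≤ Subgroup.normalizer (V : Set G)) (hQV : Q ≤ Subgroup.normalizer (V : Set G)) (hfaith : (X ⊔ Q) ⊓ Subgroup.centralizer (V : Set G) = ⊥) (hCV : V ⊓ Subgroup.centralizer (X : Set G) = ⊥) : q = 2 ∧ ∃ n : ℕ, r = 2 ^ n + 1 ∧ Nat.card Q = 2 ^ (2 * n + 1) := by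
  have := Fact.mk hp
  have := Fact.mk hq
  obtain ⟨x, rfl, hx⟩ := exists_zpowers_eq_of_card_prime hr hX
  have hQq := PGrp.IsExtraspecial.isPGroup hQ
  have hQr := coprime_card_of_isPGroup_of_ne hq hr hqr hQq
  have hcop : (Nat.card (zpowers x)).Coprime (Nat.card Q) := hX ▸ hQr.symm
  have hZ : ⁅Q, Q⁆ = Q ⊓ centralizer (Q : Set G) := by
    rw [← map_subtype_commutator, hQ.1.2.2, Cop.map_subtype_center]
  have hZc : Nat.card ↥(Q ⊓ centralizer (Q : Set G)) = q := by
    rw [← PGrp.card_center_subgroup, hQ.2]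
  have h1 : ⁅Q, zpowers x⁆ = Q := by
    refine Cop.eq_of_sup_frattini_eq (Cop.commutator_le_left_of_le_normalizer hXQ) ?_
    rw [hQ.1.2.1, ← hCQ, Cop.commutator_sup_centralizer hXQ hcop (Or.inl inferInstance)]
  obtain ⟨j, m, N, R, D, hjm, hm, hDR, hRQ, hQR, hRD, hnd, -, hN, hN2, -⟩ := hh_core_sec p
    (M := V) (N := ⊥) (Q := Q) bot_le (commutator_self_eq_bot_of_comm hV.1).le
    (fun a ha => hV.2 a ha) hQV (le_normalizer_of_normal' _ _) (hXV (mem_zpowers x))
    (mem_normalizer_bot x) (hXQ (mem_zpowers x))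
    (coprime_card_of_isPGroup_of_ne hq hp hpq.symm hQq) hr hQr (n := 0)
    (by rw [zero_add, pow_one, ← hx, pow_orderOf_eq_one]) (by simpa using h1)
    (hZ.le.trans inf_le_right) (by
      by_contra hcon
      push Not at hcon
      have h2 : Q = ⊥ := by
        rw [eq_bot_iff, ← hfaith]
        exact le_inf le_sup_right fun g hg => mem_centralizer_iff_commutator.2 (hcon g hg)
      rw [h2, bot_inf_eq, card_bot] at hZc
      exact hq.one_lt.ne hZc) (s := r ^ (0 + 1) - 1)
    (Nat.sub_one_lt (pow_pos hr.pos _).ne') (Or.inr ⟨rfl, Or.inr fun a ha h => by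
      rw [← hCV]
      exact ⟨ha, mem_centralizer_zpowers_iff.2 (commutatorElement_eq_one_iff_mul_comm.1 h)⟩⟩)
  obtain rfl : m = 1 := by omega
  have hRZ : R = Q ⊓ centralizer (Q : Set G) := by
    refine le_antisymm (fun a ha => ⟨hRQ.le ha, mem_centralizer_iff_commutator.2 fun g hg => ?_⟩)
      (hZ ▸ hQR)
    by_contra hne
    apply hRQ.not_ge
    intro b hb
    refine hnd b hb fun c hc => ?_
    exact zpowers_le.2 (hRD a ha g hg) (PGrp.mem_zpowers_of_card_eq_prime hZc
      (hZ ▸ commutator_mem_commutator (hRQ.le ha) hg) hne (hZ ▸ commutator_mem_commutator hb hc))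
  obtain ⟨d, rfl⟩ := exists_pow_of_sq_eq_relIndex hQq hN2
  have hr2 : r ≠ 2 := by
    rintro rfl
    have h3 : q ^ d = 1 := by omega
    rw [h3, one_pow, eq_comm, relIndex_eq_one] at hN2
    exact hRQ.not_ge hN2
  obtain ⟨rfl, -⟩ := fermat_of_pow_add_one hr hr2 hq hN
  refine ⟨rfl, d, by rw [hN, pow_one], ?_⟩
  rw [← card_mul_relIndex hRQ.le, ← hN2, hRZ, hZc]
  ring

end Cfsg.Agent.S3764
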