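import Cfsg.Statements.S3765
import Cfsg.Agent.Lib.H9Misc

set_option autoImplicit false
open Cfsg

namespace Cfsg.Agent.S3765

open Subgroup CfsgLib CfsgLib.H9
open scoped commutatorElement

/-- Let p, q, r be distinct primes and let X, Q, V be subgroups of a finite group with X of order r normalizing the q-group Q and acting faithfully on it (X ∩ C(Q) = 1), and V a nontrivial elementary abelian p-group normalized by X and Q on which XQ acts faithfully. If q = 2 and r has the form 2^n + 1, assume in addition that Q is abelian. Then C_V(X) ≠ 1. -/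
theorem result {G : Type*} [Group G] [Finite G] {p q r : ℕ} (hp : p.Prime) (hq : q.Prime) (hr : r.Prime) (hpq : p ≠ q) (hpr : p ≠ r) (hqr : q ≠ r) (X Q V : Subgroup G) (hX : Nat.card X = r) (hQ : IsPGroup q Q) (hXQ : X ≤ Subgroup.normalizer (Q : Set G)) (hXfaith : X ⊓ Subgroup.centralizer (Q : Set G) = ⊥) (hV : Cfsg.IsElementaryAbelian p V) (hV1 : V ≠ ⊥) (hXV : X ≤ Subgroup.normalizer (V : Set G)) (hQV : Q ≤ Subgroup.normalizer (V : Set G)) (hfaith : (X ⊔ Q) ⊓ Subgroup.centralizer (V : Set G) = ⊥) (hexc : q = 2 → (∃ n : ℕ, r = 2 ^ n + 1) → IsMulCommutative Q) : V ⊓ Subgroup.centralizer (X : Set G) ≠ ⊥ := by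
  intro hC
  obtain ⟨x, rfl, hx⟩ := exists_zpowers_eq_of_card_prime hr hX
  have hxQ := hXQ (mem_zpowers x)
  obtain ⟨d, -, hd, Q', hQ', h2, hnc⟩ := hh_prime_fpf hp hr hV hQV (hx ▸ pow_orderOf_eq_one x)
    (hXV (mem_zpowers x)) hxQ (coprime_card_of_isPGroup_of_ne hq hp hpq.symm hQ)
    (coprime_card_of_isPGroup_of_ne hq hr hqr hQ) (by
      by_contra hcon
      push Not at hcon
      have : x ∈ zpowers x ⊓ centralizer (Q : Set G) := ⟨mem_zpowers x, fun g hg => by
        rw [← commutatorElement_eq_one_iff_mul_comm, ← mem_bot, ← hfaith]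
        exact ⟨mem_sup_right (Cop.commutator_le_left_of_le_normalizer hXQ
          (commutator_mem_commutator hg (mem_zpowers x))), hcon g hg⟩⟩
      rw [hXfaith, mem_bot] at this
      rw [this, orderOf_one] at hx
      exact hr.one_lt.ne hx) hC
  have hq2 := eq_of_isPGroup_of_dvd hq Nat.prime_two hQ
    (prime_dvd_card_of_not_comm Nat.prime_two hQ' h2 hnc)
  exact hnc (PGrp.isMulCommutative_of_le hQ' (hexc hq2.symm ⟨d, hd⟩))

end Cfsg.Agent.S3765
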