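import Cfsg.Statements.S3766
import Cfsg.Agent.Lib.CoreFitCrit
import Cfsg.Agent.Lib.FusionRadical

set_option autoImplicit false
open Cfsg

namespace Cfsg.Agent.S3766

open Subgroup CfsgLib
open scoped Pointwise commutatorElement



theorem result {G : Type*} [Group G] [Finite G] (hG : Group.IsSolvable G) (N : Subgroup G) [N.Normal] (g : G) : (g ∈ (Cfsg.fittingSubgroup ↥N).map N.subtype ↔ g ∈ N ∧ ∀ U V : Subgroup G, (U.Normal ∧ V.Normal ∧ V < U ∧ ∀ W : Subgroup G, W.Normal → V ≤ W → W ≤ U → W = V ∨ W = U) → ∀ u ∈ U, u * g * u⁻¹ * g⁻¹ ∈ V) ∧ (g ∈ (Cfsg.fittingSubgroup ↥N).map N.subtype ↔ g ∈ N ∧ ∀ U V : Subgroup G, (U.Normal ∧ V.Normal ∧ V < U ∧ ∀ W : Subgroup G, W.Normal → V ≤ W → W ≤ U → W = V ∨ W = U) → U ≤ (Cfsg.fittingSubgroup ↥N).map N.subtype → ∀ u ∈ U, u * g * u⁻¹ * g⁻¹ ∈ V) := by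
  have hF : (Cfsg.fittingSubgroup ↥N).map N.subtype = Cfsg.fittingSubgroup G ⊓ N :=
    map_fitting_eq_inf_of_isSubnormal (Normal.isSubnormal inferInstance)
  have fwd : g ∈ (Cfsg.fittingSubgroup ↥N).map N.subtype → g ∈ N ∧ ∀ U V : Subgroup G, (U.Normal ∧ V.Normal ∧ V < U ∧ ∀ W : Subgroup G, W.Normal → V ≤ W → W ≤ U → W = V ∨ W = U) → ∀ u ∈ U, u * g * u⁻¹ * g⁻¹ ∈ V := by
    rw [hF]
    refine fun hg => ⟨hg.2, fun U V ⟨h1, h2, h3, h4⟩ u hu => ?_⟩
    exact commutator_le_of_chief_of_isNilpotent (fitting_isNilpotent (G := G)) h3 h4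
      (commutator_mem_commutator hu hg.1)
  have bwd : (g ∈ N ∧ ∀ U V : Subgroup G, (U.Normal ∧ V.Normal ∧ V < U ∧ ∀ W : Subgroup G, W.Normal → V ≤ W → W ≤ U → W = V ∨ W = U) → U ≤ (Cfsg.fittingSubgroup ↥N).map N.subtype → ∀ u ∈ U, u * g * u⁻¹ * g⁻¹ ∈ V) → g ∈ (Cfsg.fittingSubgroup ↥N).map N.subtype := by
    rw [hF]
    intro hg
    let C : Subgroup G :=
      { carrier := {g | g ∈ N ∧ ∀ U V : Subgroup G, (U.Normal ∧ V.Normal ∧ V < U ∧ ∀ W : Subgroup G, W.Normal → V ≤ W → W ≤ U → W = V ∨ W = U) → U ≤ Cfsg.fittingSubgroup G ⊓ N → ∀ u ∈ U, u * g * u⁻¹ * g⁻¹ ∈ V}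
        one_mem' := ⟨N.one_mem, fun U V _ _ u _ => by simp⟩
        mul_mem' := fun {a b} ha hb => ⟨N.mul_mem ha.1 hb.1, fun U V h1 h2 u hu => by
          have := V.mul_mem (ha.2 U V h1 h2 u hu) (h1.2.1.conj_mem _ (hb.2 U V h1 h2 u hu) a)
          convert this using 1
          group⟩
        inv_mem' := fun {a} ha => ⟨N.inv_mem ha.1, fun U V h1 h2 u hu => by
          have := h1.2.1.conj_mem _ (V.inv_mem (ha.2 U V h1 h2 u hu)) a⁻¹
          convert this using 1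
          group⟩ }
    have hC : C.Normal := ⟨fun a ha c => ⟨Normal.conj_mem inferInstance _ ha.1 c,
      fun U V h1 h2 u hu => by
        have := h1.2.1.conj_mem _ (ha.2 U V h1 h2 _ (h1.1.conj_mem u hu c⁻¹)) c
        convert this using 1
        group⟩⟩
    refine ⟨le_fitting_of_forall_commute (C := C) inferInstance ?_ hg, hg.1⟩
    intro p q hp hq hpq x hx y hyC hy ⟨k, hk⟩
    have key : ∀ U : Subgroup G, U.Normal → U ≤ Cfsg.pCore q G ⊓ N →
        x ∈ centralizer (U : Set G) := by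
      intro U
      induction U using WellFoundedLT.induction with
      | _ U ih =>
        intro hU hle
        by_cases h0 : U = ⊥
        · subst h0
          rintro _ rfl
          simp
        obtain ⟨V, hV, -, hVU, hch⟩ := exists_chief_below (L := ⊥) (N := U)
          (bot_lt_iff_ne_bot.mpr h0)
        refine FrobNPC.mem_centralizer_of_stabilizes (p := q) (U := V)
          ((pCore_isPGroup q).to_le (hVU.le.trans (hle.trans inf_le_left))) ?_
          (ih V hVU hV (hVU.le.trans hle)) fun u hu => ?_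
        · rw [hk]
          exact Nat.Coprime.pow_left _ ((Nat.coprime_primes hp.out hq.out).mpr hpq)
        · have := V.inv_mem (hx.2 U V ⟨hU, hV, hVU, hch⟩
            (hle.trans (inf_le_inf_right _ (pCore_le_fitting q))) u hu)
          convert this using 1
          group
    exact (key _ inferInstance le_rfl y ⟨hy, hyC.1⟩).symm
  exact ⟨⟨fwd, fun h => bwd ⟨h.1, fun U V h1 _ => h.2 U V h1⟩⟩,
    ⟨fun h => ⟨(fwd h).1, fun U V h1 _ => (fwd h).2 U V h1⟩, bwd⟩⟩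

end Cfsg.Agent.S3766
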