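import Cfsg.Statements.S3767
import Cfsg.Agent.Lib.H9Misc
import Cfsg.Agent.Lib.Extraspecial

set_option autoImplicit false
open Cfsg

namespace Cfsg.Agent.S3767

open Subgroup CfsgLib CfsgLib.H9 Polynomial
open scoped commutatorElement

theorem exists_faithful_complex (G : Type*) [Group G] [Finite G] :
    ∃ ρ : G →* Module.End ℂ (G → ℂ), Function.Injective ρ := by
  classical
  let T : G → Module.End ℂ (G → ℂ) := fun g => LinearMap.funLeft ℂ ℂ (fun h => h * g)
  have hT : ∀ g f h, T g f h = f (h * g) := fun _ _ _ => rfl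
  refine ⟨MonoidHom.mk ⟨T, ?_⟩ ?_, ?_⟩
  · ext f h
    simp [hT]
  · intro a b
    ext f h
    simp [hT, mul_assoc]
  · rw [injective_iff_map_eq_one]
    intro a ha
    have := congrFun (LinearMap.congr_fun ha (Pi.single 1 1)) 1
    change T a _ _ = _ at this
    rw [hT, one_mul] at this
    by_contra hne
    simp [Pi.single_eq_of_ne hne] at this

/-- Let P be an extraspecial p-group of order p^(2n+1) and H a cyclic group of order h prime to p acting on P (inside a common finite group: H normalizes P) so that C_P(x) = Z(P) for every non-identity x ∈ H. Then h divides p^n + 1 or h divides p^n − 1. -/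
theorem result {G : Type*} [Group G] [Finite G] {p : ℕ} [Fact p.Prime] (P H : Subgroup G) (hP : Cfsg.IsExtraspecial p ↥P) (n : ℕ) (hn : Nat.card P = p ^ (2 * n + 1)) (hH : IsCyclic H) (hcop : (Nat.card H).Coprime p) (hHP : H ≤ Subgroup.normalizer (P : Set G)) (hfix : ∀ x ∈ H, x ≠ 1 → P ⊓ Subgroup.centralizer {x} = (Subgroup.center ↥P).map P.subtype) : Nat.card H ∣ p ^ n + 1 ∨ Nat.card H ∣ p ^ n - 1 := by
  have hp : p.Prime := Fact.out
  obtain ⟨x, rfl⟩ := (Subgroup.isCyclic_iff_exists_zpowers_eq_top H).1 hH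
  rcases (Nat.succ_le_of_lt (Nat.card_pos (α := zpowers x))).eq_or_lt with h1 | h1
  · left; rw [← h1]; exact one_dvd _
  replace h1 : 1 < Nat.card (zpowers x) := h1
  have hx1 : x ≠ 1 := by rintro rfl; simp at h1
  obtain ⟨ρ, hρ⟩ := exists_faithful_complex G
  have hPp := PGrp.IsExtraspecial.isPGroup hP
  set Z := P ⊓ centralizer (P : Set G) with hZdef
  rw [Cop.map_subtype_center] at hfix
  have hZ : ⁅P, P⁆ = Z := by
    rw [← map_subtype_commutator, hP.1.2.2, Cop.map_subtype_center]
  have hZc : Nat.card Z = p := by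
    rw [← PGrp.card_center_subgroup, hP.2]
  have hxP := hHP (mem_zpowers x)
  have hZn : normalizer (P : Set G) ≤ normalizer (Z : Set G) :=
    Cop.le_normalizer_inf_centralizer le_rfl le_rfl
  have hq : (Nat.card P : ℂ) ≠ 0 := Nat.cast_ne_zero.2 Nat.card_pos.ne'
  obtain ⟨R, ψ, U, e, Pk, hU, -⟩ := exists_component ρ P hq (LinearMap.ker (normOp ρ Z))
    (ker_normOp_ne_bot (by
      by_contra hcon
      push Not at hcon
      have : Z = ⊥ := eq_bot_iff.2 fun g hg => hρ ((hcon g hg).trans (map_one ρ).symm)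
      rw [this, card_bot] at hZc
      exact hp.one_lt.ne hZc))
    (fun g hg => ker_normOp_invariant (hZn (le_normalizer hg))) (fun g hg h hh a ha v _ => by
      have : ⁅g, h⁆ ∈ Z := hZ ▸ commutator_mem_commutator hg hh
      rw [← rho_mul_apply, ← rho_mul_apply, this.2 a ha])
  have hZR : Z ≤ R := hZ ▸ commutator_le.2 Pk.comm
  have hRZ : R = Z := by
    refine le_antisymm (fun a ha => ⟨Pk.le ha, mem_centralizer_iff_commutator.2 fun g hg => ?_⟩) hZR
    by_contra hne
    apply Pk.ne
    rw [eq_bot_iff]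
    intro v hv
    refine eq_zero_of_mem_ker_normOp (Nat.cast_ne_zero.2 Nat.card_pos.ne') (hU ▸ hv).1 ?_
    intro z hz
    exact zpowers_le.2 (Pk.commutator_mem_fixSub (le_normalizer hg) (Pk.inv g hg) ha).2
      (PGrp.mem_zpowers_of_card_eq_prime hZc
        (hZ ▸ commutator_mem_commutator (Pk.le ha) hg) hne hz) v hv
  subst hRZ
  have hxU : ∀ v ∈ U, ρ x v ∈ U := by
    intro v hv
    rw [hU] at hv ⊢
    refine ⟨ker_normOp_invariant (hZn hxP) v hv.1, weightSpace_invariant (hZn hxP) ?_ v hv.2⟩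
    intro r hr
    have : r ∈ P ⊓ centralizer {x} := (hfix x (mem_zpowers x) hx1).ge hr
    rw [← mem_centralizer_singleton_iff.1 this.2, mul_inv_cancel_right]
  obtain ⟨N, hN, -, hnum⟩ := Pk.numerics hq hxP hxU h1 (fun i hi0 hi g hg hc => by
    have hxi : x ^ i ≠ 1 := pow_ne_one_of_lt_orderOf hi0.ne' (by rwa [Nat.card_zpowers] at hi)
    obtain ⟨z, hz, c, hc', rfl⟩ := Cop.exists_mul_centralizer_of_commutator_mem (A := zpowers (x ^ i))
      (N := P ⊓ centralizer (P : Set G)) (zpowers_le.2 (pow_mem (hZn hxP) i))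
      (by
        rw [hZc]
        exact Nat.Coprime.coprime_dvd_left
          (card_dvd_of_le (zpowers_le.2 (pow_mem (mem_zpowers x) i))) hcop)
      (Or.inl inferInstance) (g := g)
      (fun a ha => commutator_mem_of_mem_zpowers (pow_mem (hZn hxP) i) hc ha)
    refine mul_mem hz ((hfix _ (pow_mem (mem_zpowers x) i) hxi).le ⟨?_, ?_⟩)
    · simpa using P.mul_mem (P.inv_mem hz.1) hg
    · exact mem_centralizer_singleton_iff.2 (hc' _ (mem_zpowers _)).symm)
  have hNp : N = p ^ n := by
    have h2 := card_mul_relIndex Pk.le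
    rw [← hN, hZc, hn, pow_succ' p, mul_comm 2, pow_mul] at h2
    exact Nat.pow_left_injective two_ne_zero (Nat.eq_of_mul_eq_mul_left hp.pos h2)
  have h0 : Nat.card (zpowers x) ≠ 0 := Nat.card_pos.ne'
  rcases (hnum (X ^ Nat.card (zpowers x) - C 1) (monic_X_pow_sub_C 1 h0) (fun v _ => by
    rw [map_sub, map_pow, aeval_X, aeval_C, map_one, ← map_pow, Nat.card_zpowers,
      pow_orderOf_eq_one, map_one, sub_self]; rfl)).2 natDegree_X_pow_sub_C with h | h | h
  · rw [hNp] at h
    exact absurd (Nat.eq_one_of_dvd_coprimes (hcop.pow_right n) dvd_rfl h) h1.ne'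
  · exact Or.inr (hNp ▸ h)
  · exact Or.inl (hNp ▸ h)

end Cfsg.Agent.S3767
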