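import Cfsg.Statements.S3769
import Cfsg.Agent.Lib.H9Misc

set_option autoImplicit false
open Cfsg

namespace Cfsg.Agent.S3769

open Subgroup CfsgLib CfsgLib.H9
open scoped commutatorElement

/-- Let G and V be subgroups of a finite group with G solvable of odd order normalizing V, V an elementary abelian ℓ-group for a prime ℓ not dividing the order of G, and suppose G has a normal Hall subgroup K with a complement R of prime order. If C_V(R) = 1, then [R, K] centralizes V. -/
theorem result {X : Type*} [Group X] [Finite X] (G : Subgroup X) (hsolv : Group.IsSolvable G) (hodd : Odd (Nat.card G)) (V : Subgroup X) {ℓ : ℕ} (hℓ : ℓ.Prime) (hV : Cfsg.IsElementaryAbelian ℓ V) (hℓG : ¬ ℓ ∣ Nat.card G) (hGV : G ≤ Subgroup.normalizer (V : Set X)) (K R : Subgroup X) (hKG : K ≤ G) (hKn : G ≤ Subgroup.normalizer (K : Set X)) (hHall : (Nat.card K).Coprime (K.relIndex G)) (hRG : R ≤ G) (hR : (Nat.card R).Prime) (hKR : K ⊓ R = ⊥) (hKRG : K ⊔ R = G) (hCV : V ⊓ Subgroup.centralizer (R : Set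 X) = ⊥) : ⁅R, K⁆ ≤ Subgroup.centralizer (V : Set X) := by
  obtain ⟨x, rfl, hx⟩ := exists_zpowers_eq_of_card_prime hR rfl
  have hxG := hRG (mem_zpowers x)
  have hidx : K.relIndex G = Nat.card (zpowers x) := by
    have h1 := card_sup_of_disjoint (hRG.trans hKn) (inf_comm K _ ▸ hKR)
    rw [sup_comm, hKRG, ← card_mul_relIndex hKG, mul_comm] at h1
    exact Nat.eq_of_mul_eq_mul_right Nat.card_pos h1
  by_cases hnt : ∃ g ∈ K, ⁅g, x⁆ ∉ centralizer (V : Set X)
  · exfalso
    obtain ⟨d, -, -, Q, hQ, h2, hnc⟩ := hh_prime_fpf hℓ hR hV (hKG.trans hGV)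
      (hx ▸ pow_orderOf_eq_one x) (hGV hxG) (hKn hxG)
      (Nat.Coprime.coprime_dvd_left (card_dvd_of_le hKG) (hℓ.coprime_iff_not_dvd.2 hℓG).symm)
      (hidx ▸ hHall) hnt hCV
    exact Nat.not_even_iff_odd.2 hodd (even_iff_two_dvd.2
      (prime_dvd_card_of_not_comm Nat.prime_two (hQ.trans hKG) h2 hnc))
  · push Not at hnt
    rw [Subgroup.commutator_comm, commutator_le]
    intro g hg a ha
    exact commutator_mem_of_mem_zpowers (Cop.normalizer_le_normalizer_centralizer V (hGV hxG))
      (hnt g hg) ha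

end Cfsg.Agent.S3769
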