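import Cfsg.Statements.S3770
import Cfsg.Agent.Lib.FT.BG3

set_option autoImplicit false
open Cfsg

namespace Cfsg.Agent.S3770

/-- Let G and V be subgroups of a finite group with G a Frobenius group with complement R of prime order and kernel K, G normalizing V, and V an elementary abelian ℓ-group for a prime ℓ not dividing the order of G. If C_V(R) has order ℓ, then the derived subgroup of K centralizes V. -/
theorem result {X : Type*} [Group X] [Finite X] (G : Subgroup X) (V : Subgroup X) {ℓ : ℕ} (hℓ : ℓ.Prime) (hV : Cfsg.IsElementaryAbelian ℓ V) (hℓG : ¬ ℓ ∣ Nat.card G) (hGV : G ≤ Subgroup.normalizer (V : Set X)) (R : Subgroup ↥G) (hR : Cfsg.IsFrobeniusComplement R) (hRp : (Nat.card R).Prime) (hCV : Nat.card ↥(V ⊓ Subgroup.centralizer ((R.map G.subtype : Subgroup X) : Set X)) = ℓ) : ⁅Subgroup.closure (Subtype.val '' Cfsg.frobeniusKernel R), Subgroup.closure (Subtype.val '' Cfsg.frobeniusKernel R)⁆ ≤ Subgroup.centralizer (V : Set X) := by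
  have := Fact.mk hℓ
  obtain ⟨K, hK⟩ := hR.exists_isFrobeniusPair
  have e : Subgroup.closure (Subtype.val '' Cfsg.frobeniusKernel R) = K.map G.subtype := by
    rw [hK.frobeniusKernel_eq]
    exact Subgroup.closure_eq (K.map G.subtype)
  rw [e]
  have := hK.normal
  refine CfsgLib.FT.Frobenius_prime_cent_prime (R := R.map G.subtype)
    ((Subgroup.map_subtype_le R).trans (CfsgLib.FT.le_normalizer_map_subtype K))
    (by rwa [CfsgLib.card_map_subtype]) ?_ hV ((Subgroup.map_subtype_le K).trans hGV)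
    ((Subgroup.map_subtype_le R).trans hGV)
    ((hℓ.coprime_iff_not_dvd.2 fun h => hℓG (h.trans
      (Subgroup.card_dvd_of_le (Subgroup.map_subtype_le K)))).symm) hCV.le
  refine eq_bot_iff.2 ?_
  rintro _ ⟨⟨k, hk, rfl⟩, hc⟩
  obtain ⟨x, hx, hx1⟩ := (Subgroup.bot_or_exists_ne_one R).resolve_left hR.ne_bot
  rw [hK.fpf x hx hx1 k hk (Subtype.ext (hc x ⟨x, hx, rfl⟩))]
  exact Subgroup.one_mem _

end Cfsg.Agent.S3770
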