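import Cfsg.Statements.S3771
import Mathlib
import Cfsg.Agent.Lib.TwoGroupMaxClass

set_option autoImplicit false
open Cfsg

namespace Cfsg.Agent.S3771

open CfsgLib.PGrp
open scoped commutatorElement

/-- Let p be a prime and R a finite p-group of p-rank at most 2 (no elementary abelian subgroup of order p³) in which every element has order dividing p. Then R has order at most p³. -/
theorem result {R : Type*} [Group R] [Finite R] {p : ℕ} [Fact p.Prime] (hR : IsPGroup p R) (hrank : Cfsg.PRankLE p 2 R) (hexp : ∀ x : R, x ^ p = 1) : Nat.card R ≤ p ^ 3 := by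
  have := hR.isNilpotent
  have hp : p.Prime := Fact.out
  obtain ⟨A, -, hAn, hAc, hA⟩ := exists_scn_ge (⊥ : Subgroup R) inferInstance
  have h1 := hrank A hAc fun a _ => hexp a
  obtain ⟨k, hk⟩ := (hR.to_subgroup A).exists_card_eq
  have hk2 : k ≤ 2 := (Nat.pow_le_pow_iff_right hp.one_lt).1 (hk ▸ h1)
  have h2 := A.index_mul_card
  have h3 : A.index ≤ p := by
    interval_cases k
    · have : A = ⊥ := (Subgroup.eq_bot_iff_card A).2 (by simpa using hk)
      rw [← hA, this, Subgroup.centralizer_eq_top_iff_subset.2 (by simp), Subgroup.index_top]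
      exact hp.pos
    · rw [← hA, Subgroup.centralizer_eq_top_iff_subset.2
        (le_center_of_card_eq_prime hR A (by simpa using hk)), Subgroup.index_top]
      exact hp.pos
    · rw [← hA]
      exact index_centralizer_le_of_card_sq hR A hk
  rw [← h2, pow_succ']
  exact Nat.mul_le_mul h3 h1

end Cfsg.Agent.S3771
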