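import Cfsg.Statements.S3772
import Cfsg.Agent.Lib.Extraspecial

set_option autoImplicit false
open Cfsg

namespace Cfsg.Agent.S3772

open Subgroup CfsgLib.PGrp
open scoped commutatorElement

theorem sq_eq {G : Type*} [Group G] [Finite G] (hG : IsPGroup 2 G) (hΦ : Nat.card (frattini G) = 2) :
    (2 * Nat.card {x : G // x ^ 2 = 1} - Nat.card G : ℤ) = 0 ∨
      ((2 * Nat.card {x : G // x ^ 2 = 1} - Nat.card G : ℤ) ^ 2 =
        Nat.card G * Nat.card (center G) ∧ ∀ x ∈ center G, x ^ 2 = 1) := by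
  classical
  have := Fintype.ofFinite G
  let s : G → ℤ := fun w => if w = 1 then 1 else -1
  have hs : ∀ w ∈ frattini G, ∀ w' ∈ frattini G, s (w * w') = s w * s w' := by
    intro w hw w' hw'
    by_cases h1 : w = 1
    · simp [s, h1]
    by_cases h2 : w' = 1
    · simp [s, h2]
    obtain ⟨z, -, hz⟩ := (Nat.card_eq_two_iff' (1 : frattini G)).1 hΦ
    have h3 := (hz ⟨w, hw⟩⁻¹ fun h => h1 (by simpa using h)).trans
      (hz ⟨w', hw'⟩ fun h => h2 (by simpa using h)).symm
    have h4 : w * w' = 1 := mul_eq_one_iff_inv_eq.2 (congrArg Subtype.val h3)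
    simp [s, h1, h2, h4]
  have hZ := le_center_of_card_eq_prime hG _ hΦ
  have hc : ∀ x y : G, ⁅x, y⁆ ∈ frattini G := fun x y =>
    commutator_le_frattini hG (commutator_mem_commutator (mem_top x) (mem_top y))
  have hsq := pow_prime_mem_frattini hG
  have hS : ∑ x : G, s (x ^ 2) = 2 * Nat.card {x : G // x ^ 2 = 1} - Nat.card G := by
    have : ∀ x : G, s (x ^ 2) = 2 * (if x ^ 2 = 1 then 1 else 0) - 1 := fun x => by
      simp only [s]
      split_ifs <;> rfl
    simp only [this, Finset.sum_sub_distrib, ← Finset.mul_sum, Finset.sum_boole]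
    simp [Fintype.card_subtype]
  let χ : G → G →* ℤ := fun x =>
    { toFun := fun y => s ⁅x, y⁆
      map_one' := by simp [s]
      map_mul' := fun a b => by
        rw [← hs _ (hc x a) _ (hc x b)]
        congr 1
        have h1 := mem_center_iff.1 (hZ (hc x b)) a
        calc ⁅x, a * b⁆ = ⁅x, a⁆ * (a * ⁅x, b⁆) * a⁻¹ := by
              simp only [commutatorElement_def]; group
          _ = _ := by rw [h1]; group }
  let ψ : center G →* ℤ :=
    { toFun := fun y => s (y ^ 2)
      map_one' := by simp [s]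
      map_mul' := fun a b => by
        rw [← hs _ (hsq _) _ (hsq _), ← Commute.mul_pow (mem_center_iff.1 b.2 a)]
        rfl }
  have hχ : ∀ x, ∑ y, χ x y = if x ∈ center G then (Nat.card G : ℤ) else 0 := by
    intro x
    split_ifs with h
    · have : ∀ y, χ x y = 1 := fun y =>
        if_pos (commutatorElement_eq_one_iff_mul_comm.2 (mem_center_iff.1 h y).symm)
      simp [this]
    · refine sum_hom_units_eq_zero _ fun h1 => h (mem_center_iff.2 fun y => ?_)
      by_contra h2
      have h3 : χ x y = -1 :=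
        if_neg fun h4 => h2 (commutatorElement_eq_one_iff_mul_comm.1 h4).symm
      simp [h1] at h3
  have hmul : ∀ x y : G, s (y ^ 2) * s ((x⁻¹ * y) ^ 2) = s (x ^ 2) * χ x y := by
    intro x y
    have h1 : (x⁻¹ * y) ^ 2 = x⁻¹ ^ 2 * (⁅x, y⁆ * y ^ 2) := by
      simp only [commutatorElement_def, sq]
      group
    have h2 : s (y ^ 2) * s (y ^ 2) = 1 := by
      simp only [s]
      split_ifs <;> rfl
    have h3 : s (x⁻¹ ^ 2) = s (x ^ 2) := by simp [s]
    rw [h1, hs _ (hsq _) _ (mul_mem (hc _ _) (hsq _)), hs _ (hc _ _) _ (hsq _), h3]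
    change _ = _ * s ⁅x, y⁆
    linear_combination s (x ^ 2) * s ⁅x, y⁆ * h2
  have key : (∑ x : G, s (x ^ 2)) ^ 2 = Nat.card G * ∑ y, ψ y := by
    calc (∑ x : G, s (x ^ 2)) ^ 2 = ∑ y : G, ∑ x : G, s (y ^ 2) * s ((x⁻¹ * y) ^ 2) := by
          rw [sq, Finset.sum_mul_sum]
          refine Finset.sum_congr rfl fun y _ => (Fintype.sum_equiv
            ((Equiv.inv G).trans (Equiv.mulRight y)) _ _ fun x => rfl).symm
      _ = ∑ x : G, s (x ^ 2) * if x ∈ center G then (Nat.card G : ℤ) else 0 := by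
          rw [Finset.sum_comm]
          simp only [hmul, ← Finset.mul_sum, hχ]
      _ = _ := by
          simp only [mul_ite, mul_zero]
          rw [← Finset.sum_filter, ← Finset.sum_mul, mul_comm,
            Finset.sum_subtype (p := (· ∈ center G)) _ (by simp)]
          rfl
  rw [hS] at key
  by_cases h : ψ = 1
  · refine Or.inr ⟨by simpa [h] using key, fun x hx => ?_⟩
    by_contra h2
    have h3 : ψ ⟨x, hx⟩ = -1 := if_neg h2
    simp [h] at h3
  · rw [sum_hom_units_eq_zero _ h, mul_zero] at key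
    exact Or.inl (pow_eq_zero_iff two_ne_zero |>.1 key)


/-- Let G be a finite 2-group whose Frattini subgroup Φ(G) has order 2, with |G : Φ(G)| = 2^d, and let j be the number of elements x of G with x² = 1. Then j = 2^d, or j = 2^d + 2^(d−r) or j = 2^d − 2^(d−r) for some positive integer r with 2r ≤ d. Moreover if d = 2r and j is 2^d + 2^r or 2^d − 2^r, then G is extraspecial. -/
theorem result {G : Type*} [Group G] [Finite G] (hG : IsPGroup 2 G) (hΦ : Nat.card (frattini G) = 2) (d : ℕ) (hd : (frattini G).index = 2 ^ d) : (Nat.card {x : G // x ^ 2 = 1} = 2 ^ d ∨ ∃ r : ℕ, 1 ≤ r ∧ 2 * r ≤ d ∧ (Nat.card {x : G // x ^ 2 = 1} = 2 ^ d + 2 ^ (d - r) ∨ Nat.card {x : G // x ^ 2 = 1} + 2 ^ (d - r) = 2 ^ d)) ∧ (∀ r : ℕ, d = 2 * r → (Nat.card {x : G // x ^ 2 = 1} = 2 ^ d + 2 ^ r ∨ Nat.card {x : G // x ^ 2 = 1} + 2 ^ r = 2 ^ d) → Cfsg.IsExtraspecial 2 G) := by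
  have h := sq_eq hG hΦ
  have hcard : Nat.card G = 2 ^ (d + 1) := by
    rw [← (frattini G).index_mul_card, hd, hΦ, pow_succ]
  have hZ := le_center_of_card_eq_prime hG _ hΦ
  obtain ⟨c, hc⟩ := (hG.to_subgroup (center G)).exists_card_eq
  set j := Nat.card {x : G // x ^ 2 = 1}
  have hna : (∀ x ∈ center G, x ^ 2 = 1) → ¬ IsMulCommutative G := by
    intro h1 h2
    have h3 : frattini G ≤ ⊥ := frattini_le_of_commutator_le_of_pow_mem hG _
      (commutator_eq_bot G).le fun x => h1 x (mem_center_iff.2 fun y => h2.is_comm.comm y x)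
    rw [eq_bot_iff.2 h3, card_bot] at hΦ
    omega
  rw [hcard, hc] at h
  constructor
  · rcases h with h | ⟨h, h1⟩
    · left
      zify
      push_cast at h
      linarith [pow_succ (2 : ℤ) d]
    · right
      have hc1 : 1 ≤ c := (Nat.pow_le_pow_iff_right one_lt_two).1 (by
        rw [← hc, pow_one, ← hΦ]
        exact card_le_of_le hZ)
      have hcd : c < d + 1 := by
        refine lt_of_le_of_ne ((Nat.pow_le_pow_iff_right one_lt_two).1 (by
          rw [← hc, ← hcard]
          exact card_le_card_group _)) fun h2 => hna h1 ?_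
        rw [← commutator_eq_bot_iff, commutator_eq_bot_iff_center_eq_top]
        exact eq_top_of_card_eq _ (by rw [hc, hcard, h2])
      have h2 : (2 * j - 2 ^ (d + 1) : ℤ).natAbs ^ 2 = 2 ^ (d + 1 + c) := by
        zify
        push_cast at h
        rw [sq_abs, h, pow_add 2 (d + 1)]
      obtain ⟨k, -, hk⟩ := (Nat.dvd_prime_pow Nat.prime_two).1 (h2 ▸ dvd_pow_self _ two_ne_zero)
      rw [hk, ← pow_mul] at h2
      have h3 : k * 2 = d + 1 + c := Nat.pow_right_injective le_rfl h2
      refine ⟨d + 1 - k, by omega, by omega, ?_⟩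
      obtain ⟨k, rfl⟩ : ∃ m, k = m + 1 := ⟨k - 1, by omega⟩
      rw [show d - (d + 1 - (k + 1)) = k by omega]
      rw [pow_succ, pow_succ] at hk
      have e1 : ((2 ^ d : ℕ) : ℤ) = 2 ^ d := by push_cast; rfl
      rw [← e1] at hk
      omega
  · rintro r rfl hj
    have h1 : (2 * j - 2 ^ (2 * r + 1) : ℤ) ^ 2 = 2 ^ (2 * r + 1) * 2 := by
      rcases hj with hj | hj
      · rw [hj]
        push_cast
        ring
      · have : (j : ℤ) = 2 ^ (2 * r) - 2 ^ r := by
          zify at hj
          linarith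
        rw [this]
        ring
    push_cast at h
    rcases h with h | ⟨h, h2⟩
    · rw [h] at h1
      exact absurd h1 (by positivity)
    · rw [h1] at h
      have h3 : (2 : ℤ) = 2 ^ c := mul_left_cancel₀ (by positivity) h
      refine isExtraspecial_of_commutator_mem hG (by rw [hc]; exact_mod_cast h3.symm)
        (fun a b => hZ (commutator_le_frattini hG
          (commutator_mem_commutator (mem_top a) (mem_top b)))) (hna h2)

end Cfsg.Agent.S3772
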