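import Cfsg.Statements.S3773
import Cfsg.Agent.Lib.H1Quadratic
import Cfsg.Agent.Lib.PGroupBasic
import Cfsg.Agent.Lib.CoreBasic

set_option autoImplicit false
open Cfsg

namespace Cfsg.Agent.S3773

open Subgroup CfsgLib.PGrp CfsgLib.H1
open scoped commutatorElement


/-- Let G be a finite 2-group of nilpotency class at most 2 and exponent dividing 4 in which the elements x with x² = 1 form a subgroup N. Then |G| ≤ |N|³, and |G| < |N|³ unless G is special. -/
theorem result {G : Type*} [Group G] [Finite G] (hG : IsPGroup 2 G) (hcl : (⊤ : Subgroup G).lowerCentralSeries 2 = ⊥) (hexp : ∀ x : G, x ^ 4 = 1) (hN : ∀ x y : G, x ^ 2 = 1 → y ^ 2 = 1 → (x * y) ^ 2 = 1) : Nat.card G ≤ Nat.card {x : G // x ^ 2 = 1} ^ 3 ∧ (¬ Cfsg.IsSpecial 2 G → Nat.card G < Nat.card {x : G // x ^ 2 = 1} ^ 3) := by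
  have hcen : ∀ x y : G, ⁅x, y⁆ ∈ center G := fun x y => mem_center_iff.2 fun z => by
    have : ⁅⁅x, y⁆, z⁆ ∈ (⊤ : Subgroup G).lowerCentralSeries 2 :=
      commutator_mem_commutator (commutator_mem_commutator (mem_top x) (mem_top y)) (mem_top z)
    rw [hcl, mem_bot] at this
    exact (commutatorElement_eq_one_iff_mul_comm.1 this).symm
  let N : Subgroup G :=
    { carrier := {x | x ^ 2 = 1}
      one_mem' := one_pow 2
      mul_mem' := fun {a b} ha hb => hN a b ha hb
      inv_mem' := fun {a} ha => by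
        change a⁻¹ ^ 2 = 1
        rw [inv_pow, show a ^ 2 = 1 from ha, inv_one] }
  have hsqN : ∀ x : G, x ^ 2 ∈ N := fun x => by
    change (x ^ 2) ^ 2 = 1
    rw [← pow_mul, hexp]
  have hcN : ∀ x y : G, ⁅x, y⁆ ∈ N := fun x y => by
    have : ⁅x, y⁆ = x ^ 2 * (x⁻¹ * y) ^ 2 * y⁻¹ ^ 2 := by
      simp only [commutatorElement_def, sq]
      group
    rw [this]
    exact mul_mem (mul_mem (hsqN _) (hsqN _)) (hsqN _)
  have hΦN : frattini G ≤ N := frattini_le_of_commutator_le_of_pow_mem hG _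
    (commutator_le.2 fun x _ y _ => hcN x y) hsqN
  have hΦZ : frattini G ≤ center G := frattini_le_of_commutator_le_of_pow_mem hG _
    (commutator_le.2 fun x _ y _ => hcen x y) fun x => mem_center_iff.2 fun y => by
      rw [eq_comm, ← commutatorElement_eq_one_iff_mul_comm,
        commutatorElement_pow_left (mem_center_iff.1 (hcen x y) x).symm]
      exact hcN x y
  have hcΦ : ∀ x y : G, ⁅x, y⁆ ∈ frattini G := fun x y =>
    commutator_le_frattini hG (commutator_mem_commutator (mem_top x) (mem_top y))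
  have : Nonempty {x : G // x ^ 2 = 1} := ⟨⟨1, one_pow 2⟩⟩
  have h1 := Nat.le_of_dvd (pow_pos (Nat.mul_pos Nat.card_pos Nat.card_pos) 2)
    (card_mul_card_dvd_sq hG hΦZ le_rfl (fun w hw => hΦN hw) (pow_prime_mem_frattini hG) hcΦ)
  change Nat.card G * _ ≤ (_ * Nat.card N) ^ 2 at h1
  change Nat.card G ≤ Nat.card N ^ 3 ∧ (_ → Nat.card G < Nat.card N ^ 3)
  have h2 := card_le_of_le hΦN
  have h3 := card_le_of_le hΦZ
  have h4 : 0 < Nat.card (frattini G) := Nat.card_pos
  have h5 : 0 < Nat.card N := Nat.card_pos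
  have h6 : Nat.card G ≤ Nat.card (frattini G) * Nat.card N ^ 2 :=
    Nat.le_of_mul_le_mul_right ((Nat.mul_le_mul_left _ h3).trans (h1.trans_eq (by ring))) h4
  have h7 : Nat.card G ≤ Nat.card N ^ 3 :=
    h6.trans ((Nat.mul_le_mul_right _ h2).trans_eq (by ring))
  refine ⟨h7, fun hns => lt_of_le_of_ne h7 fun h8 => hns ?_⟩
  have h9 : frattini G = N := eq_of_le_of_card_ge hΦN
    (Nat.le_of_mul_le_mul_right (le_of_eq_of_le (by rw [h8]; ring) h6) (pow_pos h5 2))
  have h10 : frattini G = center G := eq_of_le_of_card_ge hΦZ (by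
    rw [h8, h9] at h1
    rw [h9]
    exact Nat.le_of_mul_le_mul_left (h1.trans_eq (by ring)) (pow_pos h5 3))
  refine ⟨hG, h10, le_antisymm (h10 ▸ commutator_le_frattini hG) ?_⟩
  by_contra hne
  obtain ⟨z, hz, hz'⟩ := SetLike.not_le_iff_exists.1 hne
  have hNZ : N = center G := h9.symm.trans h10
  obtain ⟨M, hM1, hM2, hM3⟩ := exists_index_eq_prime_not_mem (G := N) (p := 2)
    ((commutator G).subgroupOf N) (by
      rw [subgroupOf, ← map_le_iff_le_comap, map_subtype_commutator]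
      exact commutator_mono le_top le_top) (fun x => by
      rw [show x ^ 2 = 1 from Subtype.ext x.2]
      exact one_mem _) (g := ⟨z, hNZ.ge hz⟩) hz'
  have hMn := normal_of_index_eq_prime (hG.to_subgroup N) hM3
  let f : G →* N ⧸ M := MonoidHom.mk' (fun x => ((⟨x ^ 2, hsqN x⟩ : N) : N ⧸ M)) fun a b => by
    have h11 : (⟨(a * b) ^ 2, hsqN _⟩ : N) =
        ⟨a ^ 2, hsqN _⟩ * (⟨⁅a⁻¹, b⁆, hcN _ _⟩ * ⟨b ^ 2, hsqN _⟩) := by
      apply Subtype.ext
      change (a * b) ^ 2 = a ^ 2 * (⁅a⁻¹, b⁆ * b ^ 2)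
      simp only [commutatorElement_def, sq]
      group
    rw [h11, QuotientGroup.mk_mul, QuotientGroup.mk_mul,
      (QuotientGroup.eq_one_iff (⟨⁅a⁻¹, b⁆, hcN _ _⟩ : N)).2
      (hM1 (commutator_mem_commutator (mem_top _) (mem_top _))), one_mul]
  have hNK : N ≤ f.ker := fun x hx => by
    change ((⟨x ^ 2, hsqN x⟩ : N) : N ⧸ M) = 1
    rw [show (⟨x ^ 2, hsqN x⟩ : N) = 1 from Subtype.ext hx]
    rfl
  have : Nonempty {x : f.ker // x ^ 2 = 1} := ⟨⟨1, one_pow 2⟩⟩
  have h11 := Nat.le_of_dvd (pow_pos (Nat.mul_pos Nat.card_pos Nat.card_pos) 2)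
    (card_mul_card_dvd_sq (hG.to_subgroup f.ker) (F := (M.map N.subtype).subgroupOf f.ker)
      (Z := N.subgroupOf f.ker)
      (fun x hx => mem_center_iff.2 fun y =>
        Subtype.ext (mem_center_iff.1 (hNZ.le (map_subtype_le M hx)) y))
      (fun x hx => mem_center_iff.2 fun y => Subtype.ext (mem_center_iff.1 (hNZ.le hx) y))
      (fun w hw => Subtype.ext (map_subtype_le M hw))
      (fun x => ⟨_, (QuotientGroup.eq_one_iff _).1 x.2, rfl⟩)
      (fun x y => ⟨⟨_, hcN x y⟩, hM1 (commutator_mem_commutator (mem_top _) (mem_top _)), rfl⟩))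
  have h12 : Nat.card {x : f.ker // x ^ 2 = 1} = Nat.card N := by
    rw [← CfsgLib.card_subgroupOf_of_le hNK]
    exact Nat.card_congr (Equiv.subtypeEquivRight fun x => Subtype.ext_iff)
  rw [h12, CfsgLib.card_subgroupOf_of_le hNK,
    CfsgLib.card_subgroupOf_of_le ((map_subtype_le M).trans hNK), CfsgLib.card_map_subtype] at h11
  have h13 := M.index_mul_card
  have h14 := f.ker.index_mul_card
  have h15 : f.ker.index ≤ 2 := by
    rw [index_ker, ← hM3]
    exact card_le_card_group _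
  rw [hM3] at h13
  rw [h8] at h14
  have h16 : Nat.card N ^ 3 ≤ 2 * Nat.card f.ker := h14 ▸ Nat.mul_le_mul_right _ h15
  have h17 : 0 < Nat.card M := Nat.card_pos
  rw [← h13] at h11 h16
  generalize Nat.card M = m at *
  generalize Nat.card f.ker = k at *
  have : 4 * m ^ 3 ≤ k := by nlinarith
  have h18 : k ≤ 2 * m ^ 3 :=
    Nat.le_of_mul_le_mul_right (h11.trans_eq (by ring)) (show 0 < 2 * m by omega)
  have : 0 < m ^ 3 := by positivity
  omega

end Cfsg.Agent.S3773
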