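import Cfsg.Statements.S3774
import Cfsg.Agent.Lib.PGroupBasic

set_option autoImplicit false
open Cfsg

namespace Cfsg.Agent.S3774

theorem invol {G : Type*} [Group G] [Finite G] (hG : IsPGroup 2 G) {g : G} (hg : g ≠ 1) :
    g ^ (orderOf g / 2) ≠ 1 ∧ (g ^ (orderOf g / 2)) ^ 2 = 1 := by
  obtain ⟨k, hk⟩ := (IsPGroup.iff_orderOf.1 hG) g
  obtain ⟨k, rfl⟩ : ∃ j, k = j + 1 := Nat.exists_eq_succ_of_ne_zero (by
    rintro rfl
    exact hg (by simpa using hk))
  have h0 : 0 < 2 ^ k := by positivity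
  refine ⟨pow_ne_one_of_lt_orderOf (by rw [hk, pow_succ]; omega) (by rw [hk, pow_succ]; omega), ?_⟩
  rw [← pow_mul, Nat.div_mul_cancel (by rw [hk]; exact Dvd.intro_left _ rfl), pow_orderOf_eq_one]


/-- Let G be a nontrivial finite 2-group whose automorphism group permutes the involutions of G transitively. Then every involution of G is central, so that the involutions together with 1 form the subgroup Ω₁(Z(G)), and if this subgroup has order q then |G| is a power of q. -/
theorem result {G : Type*} [Group G] [Finite G] [Nontrivial G] (hG : IsPGroup 2 G) (htrans : ∀ x y : G, x ≠ 1 → x ^ 2 = 1 → y ≠ 1 → y ^ 2 = 1 → ∃ a : MulAut G, a x = y) : (∀ x : G, x ^ 2 = 1 → x ∈ Subgroup.center G) ∧ ∃ m : ℕ, Nat.card G = Nat.card {z : G // z ^ 2 = 1} ^ m := by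
  classical
  have := Fintype.ofFinite G
  have hcen : ∀ x : G, x ^ 2 = 1 → x ∈ Subgroup.center G := by
    intro x hx
    by_cases h1 : x = 1
    · exact h1 ▸ Subgroup.one_mem _
    have := hG.center_nontrivial
    obtain ⟨⟨z, hz⟩, hz1⟩ := exists_ne (1 : Subgroup.center G)
    obtain ⟨h2, h3⟩ := invol hG (g := z) fun h => hz1 (Subtype.ext h)
    obtain ⟨a, rfl⟩ := htrans _ x h2 h3 h1 hx
    exact MulEquivClass.apply_mem_center a (Subgroup.pow_mem _ hz _)
  refine ⟨hcen, ?_⟩
  let Ω : Subgroup G :=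
    { carrier := {z | z ^ 2 = 1}
      one_mem' := one_pow 2
      inv_mem' := fun {x} hx => by
        change x⁻¹ ^ 2 = 1
        rw [inv_pow, show x ^ 2 = 1 from hx, inv_one]
      mul_mem' := fun {x y} hx hy => by
        change (x * y) ^ 2 = 1
        rw [Commute.mul_pow (Subgroup.mem_center_iff.1 (hcen y hy) x), show x ^ 2 = 1 from hx,
          show y ^ 2 = 1 from hy, mul_one] }
  obtain ⟨k, hk⟩ := (hG.to_subgroup Ω).exists_card_eq
  obtain ⟨n, hn⟩ := hG.exists_card_eq
  change Nat.card {z : G // z ^ 2 = 1} = _ at hk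
  rw [hk, hn]
  suffices h : 2 ^ k - 1 ∣ 2 ^ n - 1 by
    have h1 := Nat.pow_sub_one_gcd_pow_sub_one 2 k n
    rw [Nat.gcd_eq_left h] at h1
    have h2 : 0 < 2 ^ k := by positivity
    have h3 : 0 < 2 ^ k.gcd n := by positivity
    have h4 : k = k.gcd n := Nat.pow_right_injective le_rfl (show 2 ^ k = 2 ^ k.gcd n by omega)
    obtain ⟨m, rfl⟩ : k ∣ n := h4 ▸ Nat.gcd_dvd_right k n
    exact ⟨m, pow_mul _ _ _⟩
  let f : G → G := fun g => g ^ (orderOf g / 2)
  have h1 := Finset.card_eq_sum_card_fiberwise (f := f) (s := Finset.univ.erase 1)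
    (t := (Finset.univ.filter fun z : G => z ^ 2 = 1).erase 1) (fun g hg => by
      obtain ⟨h2, h3⟩ := invol hG (g := g) (by simpa using hg)
      simp [f, h2, h3])
  obtain ⟨g, hg⟩ := exists_ne (1 : G)
  obtain ⟨h2, h3⟩ := invol hG hg
  rw [Finset.sum_const_nat (m := ((Finset.univ.erase 1).filter fun a => f a = f g).card)] at h1
  · rw [Finset.card_erase_of_mem (Finset.mem_univ _), Finset.card_erase_of_mem (by simp),
      Finset.card_univ, ← Fintype.card_subtype, ← Nat.card_eq_fintype_card,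
      ← Nat.card_eq_fintype_card, hk, hn] at h1
    exact ⟨_, h1⟩
  · intro z hz
    simp only [Finset.mem_erase, Finset.mem_filter, Finset.mem_univ, true_and] at hz
    obtain ⟨a, rfl⟩ := htrans _ z h2 h3 hz.1 hz.2
    refine (Finset.card_equiv a.toEquiv fun x => ?_).symm
    simp only [Finset.mem_filter, Finset.mem_erase, Finset.mem_univ, and_true, f,
      MulEquiv.toEquiv_eq_coe, EquivLike.coe_coe, ne_eq, EmbeddingLike.map_eq_one_iff,
      MulEquiv.orderOf_eq, ← map_pow, EmbeddingLike.apply_eq_iff_eq]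

end Cfsg.Agent.S3774
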