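import Cfsg.Statements.S3775
import Cfsg.Agent.Lib.CoprimeMaschke

set_option autoImplicit false
open Cfsg

namespace Cfsg.Agent.S3775

open Subgroup CfsgLib.CopAut

section

variable {X A : Type*} [Group X] [CommGroup A] {φ : X →* MulAut A} {p : ℕ}

theorem inv_inf {B C : Subgroup A} (hB : Inv φ B) (hC : Inv φ C) : Inv φ (B ⊓ C) :=
  fun x a ha => ⟨hB x a ha.1, hC x a ha.2⟩

theorem inv_sup {B C : Subgroup A} (hB : Inv φ B) (hC : Inv φ C) : Inv φ (B ⊔ C) := by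
  intro x a ha
  obtain ⟨b, hb, c, hc, rfl⟩ := mem_sup.1 ha
  rw [map_mul]
  exact mul_mem_sup (hB x b hb) (hC x c hc)

theorem inv_map_pow {B : Subgroup A} (hB : Inv φ B) (n : ℕ) : Inv φ (B.map (powMonoidHom n)) := by
  rintro x _ ⟨b, hb, rfl⟩
  exact ⟨_, hB x b hb, (map_pow _ _ _).symm⟩

theorem inv_comap_pow {B : Subgroup A} (hB : Inv φ B) (n : ℕ) :
    Inv φ (B.comap (powMonoidHom n)) := by
  intro x b hb
  change φ x b ^ n ∈ B
  rw [← map_pow]
  exact hB x _ hb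

theorem inv_ker_pow (n : ℕ) : Inv φ (powMonoidHom n : A →* A).ker := inv_comap_pow inv_bot n

theorem comm_le (E N : Subgroup A) : ⁅E, E⁆ ≤ N :=
  commutator_le.2 fun a _ b _ => by
    rw [commutatorElement_eq_one_iff_mul_comm.2 (mul_comm a b)]
    exact N.one_mem

theorem omega_le (h3 : ∀ B : Subgroup A, Inv φ B → (∀ b ∈ B, b ^ p = 1) →
    B = ⊥ ∨ ∀ a : A, a ∈ B ↔ a ^ p = 1) (hA : IsPGroup p A) {B : Subgroup A} (hB : Inv φ B)
    (i : ℕ) (h : ∀ j < i, ∃ b ∈ B, b ^ p ^ j ≠ 1) (a : A) (ha : a ^ p ^ i = 1) : a ∈ B := by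
  classical
  induction i generalizing a with
  | zero => rw [pow_zero, pow_one] at ha; exact ha ▸ B.one_mem
  | succ i ih =>
    obtain ⟨b, hb, hb1⟩ := h i (Nat.lt_succ_self i)
    rcases h3 ((B ⊓ (powMonoidHom (p ^ (i + 1))).ker).map (powMonoidHom (p ^ i)))
      (inv_map_pow (inv_inf hB (inv_ker_pow _)) _) (by
        rintro _ ⟨c, hc, rfl⟩
        rw [powMonoidHom_apply, ← pow_mul, ← pow_succ]
        exact hc.2) with h4 | h4
    · exfalso
      have hex : ∃ k, b ^ p ^ (k + i) = 1 := by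
        obtain ⟨k, hk⟩ := hA b
        exact ⟨k, by rw [pow_add, pow_mul, hk, one_pow]⟩
      obtain ⟨k, hk⟩ : ∃ k, Nat.find hex = k + 1 := Nat.exists_eq_succ_of_ne_zero (by
        rw [Ne, Nat.find_eq_zero, zero_add]
        exact hb1)
      have h5 := Nat.find_spec hex
      have h6 := Nat.find_min hex (m := k) (by omega)
      apply h6
      rw [← mem_bot, ← h4]
      refine ⟨b ^ p ^ k, ⟨B.pow_mem hb _, ?_⟩, by rw [powMonoidHom_apply, ← pow_mul, ← pow_add]⟩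
      change (b ^ p ^ k) ^ p ^ (i + 1) = 1
      rw [← pow_mul, ← pow_add, ← h5, hk]
      congr 2
      omega
    · obtain ⟨c, hc, h5⟩ := (h4 (a ^ p ^ i)).2 (by rw [← pow_mul, ← pow_succ, ha])
      have h6 := ih (fun j hj => h j (by omega)) (c⁻¹ * a) (by
        rw [mul_pow, inv_pow, ← h5, powMonoidHom_apply, inv_mul_cancel])
      simpa using B.mul_mem hc.1 h6

variable [Finite X] [Finite A] [Fact p.Prime]

theorem exists_factor (hX : (Nat.card X).Coprime p) {f : ℕ} (hf : ∀ a : A, a ^ p ^ (f + 1) = 1)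
    {B : Subgroup A}
    (hB : Minimal (fun B : Subgroup A => Inv φ B ∧ ¬ B ≤ (powMonoidHom (p ^ f)).ker) B) :
    (powMonoidHom (p ^ f)).ker ⊓ B = B.map (powMonoidHom p) ∧
      ∃ C : Subgroup A, Inv φ C ∧ B ⊓ C = ⊥ ∧ B ⊔ C = ⊤ := by
  obtain ⟨hBi, hBD⟩ := hB.prop
  have h1 : (powMonoidHom (p ^ f)).ker ⊓ B = B.map (powMonoidHom p) := by
    obtain ⟨W, h1, h2, h3⟩ := maschke_section_aut (φ := φ) (E := B)
      (U := (powMonoidHom (p ^ f)).ker ⊓ B) (N := B.map (powMonoidHom p)) hX (by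
        rintro _ ⟨b, hb, rfl⟩
        refine ⟨?_, B.pow_mem hb p⟩
        change (b ^ p) ^ p ^ f = 1
        rw [← pow_mul, ← pow_succ', hf]) inf_le_right (comm_le _ _) (fun x hx => ⟨x, hx, rfl⟩) hBi
      (inv_inf (inv_ker_pow _) hBi) (inv_map_pow hBi p)
    have h4 : B ≤ W := hB.le_of_le ⟨h1, fun h => hBD (h3.ge.trans (sup_le inf_le_left h))⟩
      (le_sup_right.trans h3.le)
    rw [← h2, eq_comm, inf_eq_left]
    exact inf_le_right.trans h4
  refine ⟨h1, ?_⟩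
  obtain ⟨C, -, hC⟩ := exists_maximal_ge_of_wellFoundedGT
    (fun C : Subgroup A => Inv φ C ∧ B ⊓ C = ⊥) ⊥ ⟨inv_bot, inf_bot_eq B⟩
  obtain ⟨hCi, hBC⟩ := hC.prop
  have hCE : C ≤ C.comap (powMonoidHom p) := fun c hc => C.pow_mem hc p
  have h2 : C.comap (powMonoidHom p) ≤ B ⊔ C := by
    obtain ⟨W, h1, h2, h3⟩ := maschke_section_aut (φ := φ) (E := C.comap (powMonoidHom p))
      (U := (B ⊔ C) ⊓ C.comap (powMonoidHom p)) (N := C) hX (le_inf le_sup_right hCE)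
      inf_le_right (comm_le _ _) (fun x hx => hx) (inv_comap_pow hCi p)
      (inv_inf (inv_sup hBi hCi) (inv_comap_pow hCi p)) hCi
    have h4 : W ≤ C := hC.le_of_ge ⟨h1, eq_bot_iff.2 fun x hx => hBC.le ⟨hx.1, h2.le
      ⟨⟨mem_sup_left hx.1, (le_sup_right.trans h3.le) hx.2⟩, hx.2⟩⟩⟩ (h2.ge.trans inf_le_right)
    exact h3.ge.trans (sup_le inf_le_left (h4.trans le_sup_right))
  have h3 : ∀ a : A, a ^ p ∈ B ⊔ C → a ∈ B ⊔ C := by
    intro a ha
    obtain ⟨b, hb, c, hc, h⟩ := mem_sup.1 ha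
    have h4 : b ^ p ^ f ∈ B ⊓ C := by
      refine ⟨B.pow_mem hb _, ?_⟩
      have : b ^ p ^ f = (c ^ p ^ f)⁻¹ := by
        rw [eq_inv_iff_mul_eq_one, ← mul_pow, h, ← pow_mul, ← pow_succ', hf]
      rw [this]
      exact C.inv_mem (C.pow_mem hc _)
    rw [hBC] at h4
    obtain ⟨b', hb', h5⟩ := h1.le (⟨h4, hb⟩ : b ∈ (powMonoidHom (p ^ f)).ker ⊓ B)
    have h6 : b'⁻¹ * a ∈ B ⊔ C := h2 (by
      change (b'⁻¹ * a) ^ p ∈ C
      rw [mul_pow, ← h, ← h5, powMonoidHom_apply, inv_pow, inv_mul_cancel_left]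
      exact hc)
    simpa using (B ⊔ C).mul_mem (mem_sup_left hb') h6
  refine ⟨C, hCi, hBC, eq_top_iff.2 fun a _ => ?_⟩
  have h4 : ∀ k (a : A), a ^ p ^ k ∈ B ⊔ C → a ∈ B ⊔ C := by
    intro k
    induction k with
    | zero => simp
    | succ k ih => intro a ha; exact ih a (h3 _ (by rwa [← pow_mul, ← pow_succ]))
  exact h4 (f + 1) a (hf a ▸ Subgroup.one_mem _)

theorem irred_of_indec (hA : IsPGroup p A) (hX : (Nat.card X).Coprime p)
    (h : ¬ ∃ B C : Subgroup A, B ≠ ⊥ ∧ C ≠ ⊥ ∧ Inv φ B ∧ Inv φ C ∧ B ⊓ C = ⊥ ∧ B ⊔ C = ⊤)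
    (U : Subgroup A) (hU : Inv φ U) (hp : ∀ b ∈ U, b ^ p = 1) :
    U = ⊥ ∨ ∀ a : A, a ∈ U ↔ a ^ p = 1 := by
  classical
  have hex : ∃ e, ∀ a : A, a ^ p ^ e = 1 := by
    obtain ⟨n, hn⟩ := hA.exists_card_eq
    exact ⟨n, fun a => hn ▸ pow_card_eq_one'⟩
  rcases Nat.eq_zero_or_eq_succ_pred (Nat.find hex) with h0 | h0
  · left
    have := Nat.find_spec hex
    rw [h0] at this
    exact eq_bot_iff.2 fun a _ => by simpa using this a
  set f := (Nat.find hex).pred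
  have hf : ∀ a : A, a ^ p ^ (f + 1) = 1 := by
    have := Nat.find_spec hex
    rwa [h0] at this
  have hf' : ¬ ∀ a : A, a ^ p ^ f = 1 := Nat.find_min hex (by omega)
  obtain ⟨B, -, hB⟩ := exists_minimal_le_of_wellFoundedLT
    (fun B : Subgroup A => Inv φ B ∧ ¬ B ≤ (powMonoidHom (p ^ f)).ker) ⊤
    ⟨inv_top, fun h => hf' fun a => h (mem_top a)⟩
  obtain ⟨h1, C, hC, h2, h3⟩ := exists_factor hX hf hB
  have hC0 : C = ⊥ := by
    by_contra hC0
    exact h ⟨B, C, fun h0 => hB.prop.2 (h0 ▸ bot_le), hC0, hB.prop.1, hC, h2, h3⟩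
  rw [hC0, sup_bot_eq] at h3
  subst h3
  rw [inf_top_eq, ← MonoidHom.range_eq_map] at h1
  have h4 : (powMonoidHom (p ^ f) : A →* A).range = (powMonoidHom p).ker := by
    apply eq_of_le_of_card_ge
    · rintro _ ⟨a, rfl⟩
      change (a ^ p ^ f) ^ p = 1
      rw [← pow_mul, ← pow_succ, hf]
    · rw [← index_ker, h1, index_range]
  by_cases h5 : (powMonoidHom (p ^ f)).range ≤ U
  · exact Or.inr fun a => ⟨hp a, fun ha => h5 (h4.ge ha)⟩
  · left
    have h6 : U.comap (powMonoidHom (p ^ f)) ≤ (powMonoidHom (p ^ f)).ker := by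
      by_contra h6
      apply h5
      rintro _ ⟨a, rfl⟩
      exact hB.le_of_le ⟨inv_comap_pow hU _, h6⟩ le_top (mem_top a)
    refine eq_bot_iff.2 fun u hu => ?_
    obtain ⟨a, rfl⟩ := h4.ge (hp u hu)
    exact h6 hu

end


/-- Let A be a finite abelian p-group and X a group of automorphisms of A of order prime to p. Call a subgroup of A invariant when every element of X maps it onto itself. Then the following are equivalent: (i) A is not the direct product of two nontrivial invariant subgroups; (ii) every invariant subgroup of A is one of the subgroups Ω_i(A) = {a : a^(p^i) = 1}; (iii) the subgroup Ω₁(A) of elements of order dividing p has no invariant subgroups other than 1 and itself. -/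
theorem result {A : Type*} [CommGroup A] [Finite A] {p : ℕ} [Fact p.Prime] (hA : IsPGroup p A) (X : Subgroup (MulAut A)) (hX : (Nat.card X).Coprime p) : ((¬ ∃ B C : Subgroup A, B ≠ ⊥ ∧ C ≠ ⊥ ∧ (∀ x ∈ X, B.map x.toMonoidHom = B) ∧ (∀ x ∈ X, C.map x.toMonoidHom = C) ∧ B ⊓ C = ⊥ ∧ B ⊔ C = ⊤) ↔ (∀ B : Subgroup A, (∀ x ∈ X, B.map x.toMonoidHom = B) → ∃ i : ℕ, ∀ a : A, a ∈ B ↔ a ^ p ^ i = 1)) ∧ ((∀ B : Subgroup A, (∀ x ∈ X, B.map x.toMonoidHom = B) → ∃ i : ℕ, ∀ a : A, a ∈ B ↔ a ^ p ^ i = 1) ↔ (∀ B : Subgroup A, (∀ x ∈ X, B.map x.toMonoidHom = B) → (∀ b ∈ B, b ^ p = 1) → B = ⊥ ∨ ∀ a : A, a ∈ B ↔ a ^ p = 1)) := by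
  classical
  have hfin : Finite (MulAut A) := Finite.of_injective _ DFunLike.coe_injective
  have hi : ∀ B : Subgroup A, (∀ x ∈ X, B.map x.toMonoidHom = B) ↔ Inv X.subtype B := fun B => by
    rw [inv_iff_map_eq]
    exact ⟨fun h x => h x x.2, fun h x hx => h ⟨x, hx⟩⟩
  simp only [hi]
  have h32 : (∀ B : Subgroup A, Inv X.subtype B → (∀ b ∈ B, b ^ p = 1) →
      B = ⊥ ∨ ∀ a : A, a ∈ B ↔ a ^ p = 1) →
      ∀ B : Subgroup A, Inv X.subtype B → ∃ i : ℕ, ∀ a : A, a ∈ B ↔ a ^ p ^ i = 1 := by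
    intro h3 B hB
    have hex : ∃ e, ∀ a ∈ B, a ^ p ^ e = 1 := by
      obtain ⟨n, hn⟩ := hA.exists_card_eq
      exact ⟨n, fun a _ => hn ▸ pow_card_eq_one'⟩
    refine ⟨Nat.find hex, fun a => ⟨Nat.find_spec hex a, omega_le h3 hA hB _ (fun j hj => ?_) a⟩⟩
    simpa using Nat.find_min hex hj
  refine ⟨⟨fun h => h32 (irred_of_indec hA hX h), ?_⟩, fun h B hB hp => ?_, h32⟩
  · rintro h ⟨B, C, hB0, hC0, hB, hC, h1, -⟩
    obtain ⟨i, hi⟩ := h B hB
    obtain ⟨j, hj⟩ := h C hC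
    have key : ∀ (a : A) (i j : ℕ), i ≤ j → a ^ p ^ i = 1 → a ^ p ^ j = 1 := by
      intro a i j hij ha
      obtain ⟨k, rfl⟩ := Nat.exists_eq_add_of_le hij
      rw [pow_add, pow_mul, ha, one_pow]
    rcases le_total i j with hij | hij
    · exact hB0 (eq_bot_iff.2 fun a ha => h1.le ⟨ha, (hj a).2 (key a i j hij ((hi a).1 ha))⟩)
    · exact hC0 (eq_bot_iff.2 fun a ha => h1.le ⟨(hi a).2 (key a j i hij ((hj a).1 ha)), ha⟩)
  · obtain ⟨i, hi⟩ := h B hB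
    cases i with
    | zero => exact Or.inl (eq_bot_iff.2 fun a ha => by simpa using (hi a).1 ha)
    | succ i =>
      exact Or.inr fun a => ⟨hp a, fun ha => (hi a).2 (by rw [pow_succ', pow_mul, ha, one_pow])⟩

end Cfsg.Agent.S3775
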