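import Cfsg.Statements.S3778
import Cfsg.Agent.Lib.CommCalc
import Cfsg.Agent.Lib.PGroupMaxClass

set_option autoImplicit false
open Cfsg

namespace Cfsg.Agent.S3778

open Subgroup CfsgLib.PGrp CfsgLib.CommCalc
open scoped commutatorElement Classical

theorem mem_relCent_normal {G : Type*} [Group G] {N : Subgroup G} [N.Normal] {T : Set G} {g : G} :
    g ∈ relCent N T ↔ ∀ t ∈ T, ⁅g, t⁆ ∈ N :=
  ⟨fun h => h.2, fun h => ⟨le_normalizer_of_normal (mem_top g), h⟩⟩

theorem pow_mul_card_le {G : Type*} [Group G] [Finite G] {p : ℕ} [Fact p.Prime]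
    (hG : IsPGroup p G) (x : G) (k : ℕ) :
    p ^ ((Finset.range k).filter fun j => x ∉ relCent ((⊤ : Subgroup G).lowerCentralSeries (j + 2))
      ((⊤ : Subgroup G).lowerCentralSeries j)).card *
      Nat.card (relCent ((⊤ : Subgroup G).lowerCentralSeries (k + 1)) {x}) ≤ Nat.card G := by
  induction k with
  | zero =>
    rw [Finset.range_zero, Finset.filter_empty, Finset.card_empty, pow_zero, one_mul]
    exact card_le_card_group _
  | succ k ih =>
    have hle : relCent ((⊤ : Subgroup G).lowerCentralSeries (k + 1 + 1)) {x} ≤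
        relCent ((⊤ : Subgroup G).lowerCentralSeries (k + 1)) {x} := fun y hy =>
      mem_relCent_normal.2 fun t ht => Subgroup.lowerCentralSeries_antitone _ (Nat.le_succ _) (hy.2 t ht)
    rw [Finset.range_add_one, Finset.filter_insert]
    split_ifs with h
    · exact le_trans (Nat.mul_le_mul_left _ (card_le_of_le hle)) ih
    · rw [Finset.card_insert_of_notMem fun h => Finset.notMem_range_self (Finset.mem_filter.1 h).1, pow_succ, mul_assoc]
      refine le_trans (Nat.mul_le_mul_left _ (mul_card_le_card_of_lt (hG.to_subgroup _)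
        (lt_of_le_of_ne hle fun h1 => h (mem_relCent_normal.2 fun y hy => ?_)))) ih
      rw [← commutatorElement_inv, inv_mem_iff]
      refine (h1.ge (mem_relCent_normal.2 ?_)).2 x rfl
      rintro _ rfl
      exact commutator_mem_commutator hy (mem_top _)


/-- If G is a finite p-group in which every conjugacy class has at most p^b elements (every element has centralizer of index at most p^b), then G is abelian when b = 0, and when b ≥ 1 its nilpotency class c satisfies (c − 1)(p − 1) < bp, that is c < bp/(p − 1) + 1, and hence c ≤ 2b. -/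
theorem result {G : Type*} [Group G] [Finite G] {p : ℕ} [Fact p.Prime] (hG : IsPGroup p G) (b : ℕ) (hb : ∀ x : G, (Subgroup.centralizer ({x} : Set G)).index ≤ p ^ b) : ∃ c : ℕ, (⊤ : Subgroup G).lowerCentralSeries c = ⊥ ∧ (b ≠ 0 → (c - 1) * (p - 1) < b * p ∧ c ≤ 2 * b) ∧ (b = 0 → c ≤ 1) := by
  have hp : p.Prime := Fact.out
  have := hG.isNilpotent
  have := Fintype.ofFinite G
  set c := Group.nilpotencyClass G with hc
  refine ⟨c, Subgroup.lowerCentralSeries_nilpotencyClass, ?_⟩
  let C : ℕ → Subgroup G := fun j => relCent ((⊤ : Subgroup G).lowerCentralSeries (j + 2))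
      ((⊤ : Subgroup G).lowerCentralSeries j)
  let m : G → ℕ := fun x => ((Finset.range (c - 1)).filter fun j => x ∉ C j).card
  have hm : ∀ x, m x ≤ b := by
    intro x
    have h1 := pow_mul_card_le hG x (c - 1)
    have h2 : centralizer {x} ≤ relCent ((⊤ : Subgroup G).lowerCentralSeries (c - 1 + 1)) {x} :=
      fun y hy => mem_relCent_normal.2 (by
        rintro _ rfl
        rw [commutatorElement_eq_one_iff_mul_comm.2 (mem_centralizer_singleton_iff.1 hy)]
        exact one_mem _)
    have h3 := (Nat.mul_le_mul_left _ (card_le_of_le h2)).trans h1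
    rw [← (centralizer {x}).index_mul_card] at h3
    exact (Nat.pow_le_pow_iff_right hp.one_lt).1
      ((Nat.le_of_mul_le_mul_right h3 Nat.card_pos).trans (hb x))
  have hC : ∀ j ∈ Finset.range (c - 1), (p - 1) * Nat.card G ≤
      p * (Finset.univ.filter fun x => x ∉ C j).card := by
    intro j hj
    rw [Finset.mem_range] at hj
    have h1 : C j < ⊤ := lt_top_iff_ne_top.2 fun h => (lowerCentralSeries_succ_lt (G := G)
      (k := j + 1) (by rw [Ne, Subgroup.lowerCentralSeries_eq_bot_iff_nilpotencyClass_le]; omega)).not_ge (by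
        rw [Subgroup.lowerCentralSeries_succ, commutator_comm, commutator_le]
        exact fun x _ y hy => (h.ge (mem_top x)).2 y hy)
    have h2 := mul_card_le_card_of_lt (hG.to_subgroup _) h1
    have h3 := Finset.card_filter_add_card_filter_not (s := Finset.univ) (fun x => x ∈ C j)
    rw [← Fintype.card_subtype, ← Nat.card_eq_fintype_card, Finset.card_univ,
      ← Nat.card_eq_fintype_card] at h3
    rw [card_top] at h2
    obtain ⟨q, rfl⟩ : ∃ q, p = q + 1 := ⟨p - 1, by have := hp.pos; omega⟩
    rw [Nat.add_sub_cancel]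
    nlinarith
  have hsum : ∑ x, m x = ∑ j ∈ Finset.range (c - 1), (Finset.univ.filter fun x => x ∉ C j).card := by
    simp only [m, Finset.card_filter]
    exact Finset.sum_comm
  have h1 : (c - 1) * ((p - 1) * Nat.card G) ≤ p * ∑ x, m x := by
    rw [hsum, Finset.mul_sum]
    simpa using Finset.card_nsmul_le_sum _ _ _ hC
  have h0 : 0 < Nat.card G := Nat.card_pos
  have h2 := hp.two_le
  constructor
  · intro hb0
    have h3 : ∑ x, m x < Nat.card G * b := by
      have : ∑ x, m x < ∑ _x : G, b := Finset.sum_lt_sum (fun x _ => hm x) ⟨1, Finset.mem_univ _, by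
        have : m 1 = 0 := by simp [m]
        omega⟩
      simpa using this
    have h4 : (c - 1) * (p - 1) < b * p := Nat.lt_of_mul_lt_mul_right (a := Nat.card G) (by
      nlinarith)
    refine ⟨h4, ?_⟩
    by_contra! h5
    obtain ⟨q, rfl⟩ : ∃ q, p = q + 2 := ⟨p - 2, by omega⟩
    have : 2 * b * (q + 2 - 1) ≤ (c - 1) * (q + 2 - 1) := Nat.mul_le_mul_right _ (by omega)
    rw [show q + 2 - 1 = q + 1 from rfl] at this h4
    nlinarith
  · rintro rfl
    have h3 : ∑ x, m x = 0 := Finset.sum_eq_zero fun x _ => Nat.le_zero.1 (hm x)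
    rw [h3, mul_zero, Nat.le_zero, mul_eq_zero, mul_eq_zero] at h1
    omega

end Cfsg.Agent.S3778
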