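import Cfsg.Statements.S3783
import Cfsg.Agent.Lib.H9PLenHH

set_option autoImplicit false
open Cfsg

namespace Cfsg.Agent.S3783

open Subgroup CfsgLib CfsgLib.H9

/-- Let G be a finite p-soluble group in which, for every prime q ≠ p, the Sylow q-subgroups are abelian. If the Sylow p-subgroups of G have exponent dividing p^n, then G has p-length at most n. -/
theorem result {G : Type*} [Group G] [Finite G] {p : ℕ} [Fact p.Prime] (hG : Cfsg.IsPSolvable p G) (hab : ∀ (q : ℕ) [Fact q.Prime], q ≠ p → ∀ Q : Sylow q G, IsMulCommutative (Q : Subgroup G)) (n : ℕ) (hexp : ∀ (P : Sylow p G), ∀ x ∈ (P : Subgroup G), x ^ p ^ n = 1) : Cfsg.PLengthLE p n G := by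
  refine pLengthLE_of_pExp n hG (pExp_of_sylow hexp) ?_
  intro q d m hq hd hm _ h Q hQ
  have := Fact.mk hq
  have hqp : q ≠ p := by
    rintro rfl
    have h1 : q ∣ q ^ d + 1 := h ▸ dvd_pow_self q (by omega)
    exact hq.one_lt.ne' (Nat.dvd_one.1 ((Nat.dvd_add_right (dvd_pow_self q (by omega))).1 h1))
  obtain ⟨S, hS⟩ := hQ.exists_le_sylow
  exact PGrp.isMulCommutative_of_le hS (hab q hqp S)

end Cfsg.Agent.S3783
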