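import Cfsg.Statements.S3784
import Mathlib

set_option autoImplicit false
open Cfsg

namespace Cfsg.Agent.S3784

theorem odd_geom {x : ℤ} (hx : Odd x) (n : ℕ) : Odd (∑ i ∈ Finset.range (2 * n + 1), x ^ i) := by
  induction n with
  | zero => simp
  | succ n ih =>
    rw [show 2 * (n + 1) + 1 = 2 * n + 1 + 1 + 1 by ring, Finset.sum_range_succ,
      Finset.sum_range_succ, add_assoc]
    exact ih.add_even (hx.pow.add_odd hx.pow)

theorem key {x : ℤ} (hx : Odd x) {b a : ℕ} (hb : Odd b) (h : (x ^ b - 1).natAbs = 2 ^ a) :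
    (x ^ b - 1).natAbs = (x - 1).natAbs := by
  obtain ⟨n, rfl⟩ := hb
  have h1 := geom_sum_mul x (2 * n + 1)
  have h2 := odd_geom hx n
  rw [← h1, Int.natAbs_mul] at h ⊢
  have h3 : (∑ i ∈ Finset.range (2 * n + 1), x ^ i).natAbs = 1 :=
    Nat.Coprime.eq_one_of_dvd
      (Nat.Coprime.pow_right a (Nat.coprime_two_right.2 (Int.natAbs_odd.2 h2))) ⟨_, h.symm⟩
  rw [h3, one_mul]


/-- Let p, q be primes and a, b positive integers with p^a = q^b + 1. Then either p = 2, b = 1, a is prime and q = 2^a − 1; or q = 2, a = 1, b is a power of 2 and p = 2^b + 1; or p^a = 9 and q^b = 8. -/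
theorem result (p q a b : ℕ) (hp : p.Prime) (hq : q.Prime) (ha : 1 ≤ a) (hb : 1 ≤ b) (h : p ^ a = q ^ b + 1) : (p = 2 ∧ b = 1 ∧ a.Prime ∧ q + 1 = 2 ^ a) ∨ (q = 2 ∧ a = 1 ∧ (∃ m : ℕ, b = 2 ^ m) ∧ p = 2 ^ b + 1) ∨ (p ^ a = 9 ∧ q ^ b = 8) := by
  rcases hp.eq_two_or_odd' with rfl | hpo
  · left
    have hqo : Odd q := by
      rcases hq.eq_two_or_odd' with rfl | hqo
      · exfalso
        have h1 : 2 ∣ 2 ^ a := dvd_pow_self 2 (by omega)
        have h2 : 2 ∣ 2 ^ b := dvd_pow_self 2 (by omega)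
        omega
      · exact hqo
    have hq1 : 1 < q ^ b := Nat.one_lt_pow (by omega) hq.one_lt
    have ha2 : a ≠ 1 := by
      rintro rfl
      omega
    have hbo : Odd b := by
      rw [← Nat.not_even_iff_odd]
      rintro ⟨c, rfl⟩
      have h1 : 4 ∣ 2 ^ a := by
        obtain ⟨d, rfl⟩ : ∃ d, a = d + 2 := ⟨a - 2, by omega⟩
        exact ⟨2 ^ d, by ring⟩
      obtain ⟨k, hk⟩ := (hqo.pow : Odd (q ^ c))
      rw [pow_add, hk] at h
      have : (2 * k + 1) * (2 * k + 1) + 1 = 4 * (k * k + k) + 2 := by ring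
      omega
    have h1 : ((-(q : ℤ)) ^ b - 1).natAbs = q ^ b + 1 := by
      rw [hbo.neg_pow]
      have : -(q : ℤ) ^ b - 1 = -((q ^ b + 1 : ℕ) : ℤ) := by push_cast; ring
      rw [this, Int.natAbs_neg, Int.natAbs_natCast]
    have h2 := key (x := -(q : ℤ)) (by simpa using hqo) hbo (h1.trans h.symm)
    rw [h1] at h2
    have h3 : q ^ b = q ^ 1 := by
      rw [pow_one]
      generalize q ^ b = z at h2
      omega
    have hb1 : b = 1 := Nat.pow_right_injective hq.two_le h3
    subst hb1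
    rw [pow_one] at h
    refine ⟨rfl, rfl, ?_, h.symm⟩
    exact (Nat.prime_of_pow_sub_one_prime ha2 (by rw [h]; simpa using hq)).2
  · right
    have hq2 : q = 2 := by
      rcases hq.eq_two_or_odd' with rfl | hqo
      · rfl
      · exfalso
        have h1 : Odd (p ^ a) := hpo.pow
        have h2 : Odd (q ^ b) := hqo.pow
        rw [Nat.odd_iff] at h1 h2
        omega
    subst hq2
    rcases Nat.even_or_odd a with ⟨c, rfl⟩ | hao
    · right
      obtain ⟨k, hk⟩ := (hpo.pow : Odd (p ^ c))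
      rw [pow_add, hk] at h ⊢
      have h1 : (2 * k) * (2 * k + 2) = 2 ^ b := by nlinarith
      have h2 : k ∣ 2 ^ b := ⟨2 * (2 * k + 2), by rw [← h1]; ring⟩
      have h3 : k + 1 ∣ 2 ^ b := ⟨2 * (2 * k), by rw [← h1]; ring⟩
      have hk0 : k ≠ 0 := by
        rintro rfl
        have := Nat.pos_of_ne_zero (pow_ne_zero b two_ne_zero)
        omega
      have hk1 : k = 1 := by
        rcases Nat.even_or_odd k with he | ho
        · have := Nat.Coprime.eq_one_of_dvd
            (Nat.Coprime.pow_right b (Nat.coprime_two_right.2 he.add_one)) h3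
          omega
        · exact Nat.Coprime.eq_one_of_dvd (Nat.Coprime.pow_right b (Nat.coprime_two_right.2 ho)) h2
      subst hk1
      omega
    · left
      have h1 : ((p : ℤ) ^ a - 1).natAbs = 2 ^ b := by
        have : (p : ℤ) ^ a - 1 = ((2 ^ b : ℕ) : ℤ) := by
          have := congrArg (Nat.cast : ℕ → ℤ) h
          push_cast at this ⊢
          linarith
        rw [this, Int.natAbs_natCast]
      have h2 := key (x := (p : ℤ)) (by simpa using hpo) hao h1
      rw [h1] at h2
      have h3 : p ^ a = p ^ 1 := by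
        have := hp.two_le
        rw [pow_one, h]
        generalize 2 ^ b = z at h2
        omega
      have ha1 : a = 1 := Nat.pow_right_injective hp.two_le h3
      subst ha1
      rw [pow_one] at h
      exact ⟨rfl, rfl, Nat.pow_of_pow_add_prime one_lt_two (by omega) (h ▸ hp), h⟩

end Cfsg.Agent.S3784
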