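import Cfsg.Statements.S3785
import Cfsg.Agent.Lib.CoreFitCrit
import Cfsg.Agent.Lib.CoprimePGroup

set_option autoImplicit false
open Cfsg

namespace Cfsg.Agent.S3785

open Subgroup CfsgLib
open scoped Pointwise commutatorElement



theorem result {G : Type*} [Group G] [Finite G] (hG : Group.IsSolvable G) (hodd : Odd (Nat.card (Cfsg.fittingSubgroup G))) (g : G) (hg : ∀ x ∈ Cfsg.fittingSubgroup G, (orderOf x).Prime → g * x = x * g) : g ∈ Cfsg.fittingSubgroup G := by
  set A : Set G := {x | x ∈ Cfsg.fittingSubgroup G ∧ (orderOf x).Prime}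
  have hAn : (centralizer A).Normal := ⟨fun z hz c y hy => by
    have := hz (c⁻¹ * y * c⁻¹⁻¹) ⟨Normal.conj_mem inferInstance y hy.1 _, by
      rw [show c⁻¹ * y * c⁻¹⁻¹ = MulAut.conj c⁻¹ y from rfl, MulEquiv.orderOf_eq]; exact hy.2⟩
    calc y * (c * z * c⁻¹) = c * (c⁻¹ * y * c⁻¹⁻¹ * z) * c⁻¹ := by group
      _ = c * (z * (c⁻¹ * y * c⁻¹⁻¹)) * c⁻¹ := by rw [this]
      _ = _ := by group⟩
  refine le_fitting_of_forall_commute (C := centralizer A) inferInstance ?_
    (fun x hx => (hg x hx.1 hx.2).symm)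
  intro p q hp hq hpq x hx y _ hy ⟨k, hk⟩
  by_cases hq2 : q = 2
  · subst hq2
    obtain ⟨j, hj⟩ := orderOf_eq_pow_of_mem_isPGroup (pCore_isPGroup 2) hy
    have h1 : orderOf y = 1 := Nat.eq_one_of_dvd_coprimes (a := 2 ^ j)
      (b := Nat.card (Cfsg.fittingSubgroup G)) (Nat.Coprime.pow_left _ (Nat.coprime_two_left.mpr hodd))
      (hj ▸ dvd_rfl) (orderOf_dvd_natCard _ (pCore_le_fitting 2 hy))
    rw [orderOf_eq_one_iff.mp h1]
    exact Commute.one_right x
  have h2 := Cop.commutator_eq_bot_of_centralizes_omega_odd hq2 (A := zpowers x)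
    (pCore_isPGroup (G := G) q) le_normalizer_of_normal (by
      rw [Nat.card_zpowers, hk]
      exact Nat.Coprime.pow_left _ ((Nat.coprime_primes hp.out hq.out).mpr hpq)) (by
      intro z hz hzq
      by_cases hz1 : z = 1
      · rw [hz1]; exact one_mem _
      have h3 : z * x = x * z := hx z ⟨pCore_le_fitting q hz, by
        rw [orderOf_eq_prime hzq hz1]; exact hq.out⟩
      rintro _ ⟨n, rfl⟩
      exact ((show Commute x z from h3.symm).zpow_left n).eq)
  exact commutator_eq_bot_iff_le_centralizer.mp h2 hy x (mem_zpowers x)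

end Cfsg.Agent.S3785
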