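import Cfsg.Statements.S3787
import Cfsg.Agent.Lib.H9PLenOdd

set_option autoImplicit false
open Cfsg

namespace Cfsg.Agent.S3787

open CfsgLib CfsgLib.H9 CfsgLib.Fpf Subgroup Cfsg
open scoped commutatorElement

theorem map_iter {H W : Type*} [Group H] [Group W] (f : H →* W) (x a : H) (s : ℕ) :
    f ((fun b => ⁅x, b⁆)^[s] a) = (fun b => ⁅f x, b⁆)^[s] (f a) := by
  induction s with
  | zero => rfl
  | succ s ih => simp only [Function.iterate_succ_apply', map_commutatorElement, ih]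

theorem final {W : Type*} [Group W] [Finite W] {p : ℕ} [hp : Fact p.Prime] (B : Subgroup W)
    [hB : B.Normal] (hc : ⁅B, B⁆ ≤ ⊥) (he : ∀ b ∈ B, b ^ p = 1) {x a : W}
    (htop : B ⊔ zpowers x = ⊤) (hx : x ∉ B) (hxp : x ^ p ∈ B) (ha : a ∈ B)
    (hw : (fun b => ⁅x, b⁆)^[p - 1] a ≠ 1)
    (hmin : ∀ c ∈ B, c ≠ 1 → Commute c x → (fun b => ⁅x, b⁆)^[p - 1] a ∈ zpowers c) :
    ∃ (B : Subgroup W) (t : W), B.Normal ∧ IsMulCommutative B ∧ (∀ b ∈ B, b ^ p = 1) ∧
      Nat.card B = p ^ p ∧ orderOf t = p ∧ t ∉ B ∧ Nat.card W = p ^ (p + 1) ∧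
      Nat.card ↥(B ⊓ Subgroup.centralizer ({t} : Set W)) = p := by
  obtain ⟨U, _, _, _, ρ, ι, S⟩ := exists_secRep p (MonoidHom.id W) B ⊥ bot_le
    (fun g => le_normalizer_of_normal' ⊤ _ trivial) (fun g => le_normalizer_of_normal' ⊤ _ trivial)
    hc he
  have hcomm : ∀ b ∈ B, ∀ c ∈ B, b * c = c * b := fun b hb c hc' =>
    commutatorElement_eq_one_iff_mul_comm.1 (mem_bot.1 (hc (commutator_mem_commutator hb hc')))
  have hp1 : p - 1 + 1 = p := Nat.sub_add_cancel hp.out.pos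
  have h1 : ∀ b ∈ B, (fun b => ⁅x, b⁆)^[p] b = 1 := by
    refine (S.sub_one_pow_eq_zero_iff x p).1 ?_
    have := sub_one_pow_char_pow (AlgebraicClosure (ZMod p)) (ρ x) 1 (p := p)
    rw [pow_one] at this
    rw [this, ← map_pow, (S.rho_eq_one_iff (x ^ p)).2 fun b hb =>
      hc (commutator_mem_commutator hxp hb), sub_self]
  have h2 : ∀ b ∈ B, ι ((b * x) ^ p * (x ^ p)⁻¹) = ((ρ x - 1) ^ (p - 1)) (ι b) := fun b hb => by
    have := geom_eq_sub_one_pow (AlgebraicClosure (ZMod p)) (ρ x) 1 (p := p)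
    rw [pow_one] at this
    rw [← this]
    exact (S.mul_pow x hb p).2
  obtain ⟨hwB, hιw⟩ := S.iterate_commutator x (p - 1) ha
  rw [MonoidHom.id_apply] at hwB hιw
  set w := (fun b => ⁅x, b⁆)^[p - 1] a with hwdef
  have hwx : ⁅x, w⁆ = 1 := by
    have := h1 a ha
    rwa [← hp1, Function.iterate_succ_apply'] at this
  have hord : ∀ c ∈ B, c ≠ 1 → Nat.card (zpowers c) = p := fun c hc h => by
    rw [Nat.card_zpowers]; exact orderOf_eq_prime (he c hc) h
  have hfix : ∀ c ∈ B, Commute c x → c ∈ zpowers w := fun c hc h => by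
    by_cases h0 : c = 1
    · rw [h0]; exact one_mem _
    · rw [eq_of_le_of_card_ge (zpowers_le.2 (hmin c hc h0 h))
        ((hord c hc h0).trans (hord w hwB hw).symm).le]
      exact mem_zpowers c
  obtain ⟨i, hi⟩ := (mem_powers_iff_mem_zpowers.2 (hfix _ hxp ((Commute.refl x).pow_left p)))
  have hb : (a ^ i)⁻¹ ∈ B := inv_mem (pow_mem ha i)
  have ht : ((a ^ i)⁻¹ * x) ^ p = 1 := by
    have h3 := (S.mul_pow x hb p).1
    have h4 := S.map_mul _ h3 _ hxp
    rw [MonoidHom.id_apply, h2 _ hb, inv_mul_cancel_right, S.map_inv (pow_mem ha i), S.map_pow ha,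
      ← hi, S.map_pow hwB, hιw, map_neg, map_nsmul, neg_add_cancel] at h4
    exact (S.eq_zero_iff _ (by simpa using mul_mem h3 hxp)).1 h4
  have htB : (a ^ i)⁻¹ * x ∉ B := fun h => hx ((Subgroup.mul_mem_cancel_left _ hb).1 h)
  have hC : B ⊓ centralizer {(a ^ i)⁻¹ * x} = zpowers w := by
    refine le_antisymm (fun c hc => hfix c hc.1 ?_) (zpowers_le.2 ⟨hwB, ?_⟩)
    · have h3 : Commute c ((a ^ i)⁻¹ * x) := (mem_centralizer_singleton_iff.1 hc.2)
      simpa using (show Commute c (a ^ i) from hcomm _ hc.1 _ (pow_mem ha i)).mul_right h3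
    · exact mem_centralizer_singleton_iff.2 ((show Commute w (a ^ i)⁻¹ from
        hcomm _ hwB _ hb).mul_right (commutatorElement_eq_one_iff_commute.1 hwx).symm)
  have hT : ∀ b ∈ B, ⁅x, b⁆ ∈ B := fun b hb => mul_mem (hB.conj_mem b hb x) (inv_mem hb)
  let T : B →* B := MonoidHom.mk' (fun b => ⟨⁅x, (b : W)⁆, hT b b.2⟩) fun b c => Subtype.ext (by
    change ⁅x, (b : W) * c⁆ = ⁅x, (b : W)⁆ * ⁅x, (c : W)⁆
    rw [CommCalc.comm_mul_right, hcomm _ b.2 _ (hT c c.2), mul_inv_cancel_right])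
  have hTs : ∀ (s : ℕ) (b : B), (T^[s] b : W) = (fun b : W => ⁅x, b⁆)^[s] b := fun s b => by
    induction s with
    | zero => rfl
    | succ s ih => rw [Function.iterate_succ_apply', Function.iterate_succ_apply', ← ih]; rfl
  have hJ : ∀ (s : ℕ) (b : B), b ∈ (Subgroup.map T)^[s] ⊤ ↔ ∃ c, T^[s] c = b := fun s => by
    induction s with
    | zero => simp
    | succ s ih => simp [Function.iterate_succ_apply', ih, -Subtype.exists, -Subtype.forall]
  have hcard : ∀ s ≤ p, Nat.card B = p ^ s * Nat.card ((Subgroup.map T)^[s] ⊤ : Subgroup B) := by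
    intro s hs
    induction s with
    | zero => simp
    | succ s ih =>
      rw [ih (by omega), ← card_inf_mul_relIndex T.ker, relIndex_ker, pow_succ, mul_assoc,
        Function.iterate_succ_apply']
      congr 2
      rw [← hord w hwB hw, ← card_map_of_injective B.subtype_injective]
      congr 2
      refine le_antisymm ?_ (zpowers_le.2 ⟨⟨w, hwB⟩, ⟨Subtype.ext hwx, (hJ _ _).2
        ⟨T^[p - 1 - s] ⟨a, ha⟩, Subtype.ext ?_⟩⟩, rfl⟩)
      · rintro _ ⟨c, hc, rfl⟩
        exact hfix _ c.2 (commutatorElement_eq_one_iff_commute.1 (congrArg Subtype.val hc.1)).symm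
      · rw [← Function.iterate_add_apply, hTs, show s + (p - 1 - s) = p - 1 by omega]
  have hBc : Nat.card B = p ^ p := by
    rw [hcard p le_rfl, show (Subgroup.map T)^[p] ⊤ = ⊥ from eq_bot_iff.2 fun b hb => ?_, card_bot,
      mul_one]
    obtain ⟨c, rfl⟩ := (hJ _ _).1 hb
    exact Subtype.ext ((hTs p c).trans (h1 c c.2))
  refine ⟨B, (a ^ i)⁻¹ * x, hB, ⟨⟨fun b c => Subtype.ext (hcomm _ b.2 _ c.2)⟩⟩, he, hBc,
    orderOf_eq_prime ht fun h => htB (h ▸ one_mem _), htB, ?_, hC ▸ hord w hwB hw⟩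
  rw [← B.card_mul_index, hBc, pow_succ, ← relIndex_top_right, ← htop,
    Cop.relIndex_sup_left_of_le_normalizer le_normalizer_of_normal,
    ← QuotientGroup.ker_mk' B, relIndex_ker, MonoidHom.map_zpowers, Nat.card_zpowers,
    orderOf_eq_prime (x := QuotientGroup.mk' B x) (by rw [← map_pow]; exact (QuotientGroup.eq_one_iff _).2 hxp)
      fun h => hx ((QuotientGroup.eq_one_iff _).1 h)]

theorem exists_section {H : Type*} [Group H] [Finite H] {p : ℕ} [hp : Fact p.Prime]
    (V Φ : Subgroup H) [hV : V.Normal] [hΦ : Φ.Normal] (hle : Φ ≤ V) (hc : ⁅V, V⁆ ≤ Φ)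
    (he : ∀ b ∈ V, b ^ p ∈ Φ) {x a : H} (htop : V ⊔ zpowers x = ⊤) (hx : x ∉ V) (hxp : x ^ p ∈ V)
    (ha : a ∈ V) (hw : (fun b => ⁅x, b⁆)^[p - 1] a ∉ Φ) :
    ∃ (W : Type) (_ : Group W) (_ : Finite W) (f : H →* W), Function.Surjective f ∧
      ∃ (B : Subgroup W) (t : W), B.Normal ∧ IsMulCommutative B ∧ (∀ b ∈ B, b ^ p = 1) ∧
      Nat.card B = p ^ p ∧ orderOf t = p ∧ t ∉ B ∧ Nat.card W = p ^ (p + 1) ∧
      Nat.card ↥(B ⊓ Subgroup.centralizer ({t} : Set W)) = p := by
  obtain ⟨C, hΦC, ⟨hCn, hCV, hwC⟩, hmax⟩ := Finite.exists_le_maximal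
    (p := fun C : Subgroup H => C.Normal ∧ C ≤ V ∧ (fun b => ⁅x, b⁆)^[p - 1] a ∉ C)
    ⟨hΦ, hle, hw⟩
  let e := (Shrink.mulEquiv.{0} (α := H ⧸ C)).symm
  let f := e.toMonoidHom.comp (QuotientGroup.mk' C)
  have hf : Function.Surjective f := e.surjective.comp (QuotientGroup.mk'_surjective C)
  have hk : ∀ g, f g = 1 ↔ g ∈ C := fun g =>
    (map_eq_one_iff e e.injective).trans (QuotientGroup.eq_one_iff g)
  have hk' : f.ker ≤ V := fun g hg => hCV ((hk g).1 hg)
  have := hV.map f hf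
  have : Finite (Shrink.{0} (H ⧸ C)) := Finite.of_surjective f hf
  have h1 : ⁅V.map f, V.map f⁆ ≤ ⊥ := by
    rw [← Subgroup.map_commutator, le_bot_iff, Subgroup.map_eq_bot_iff]
    exact fun g hg => (hk g).2 (hΦC (hc hg))
  have h2 : V.map f ⊔ zpowers (f x) = ⊤ := by
    rw [← MonoidHom.map_zpowers, ← Subgroup.map_sup, htop, map_top_of_surjective f hf]
  refine ⟨_, inferInstance, inferInstance, f, hf, final (V.map f) h1 ?_ h2 (fun h => hx ?_)
    (by rw [← map_pow]; exact mem_map_of_mem f hxp) (mem_map_of_mem f ha)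
    (by rw [← map_iter]; exact mt (hk _).1 hwC) fun c hc hc1 hcx => ?_⟩
  · rintro _ ⟨b, hb, rfl⟩
    rw [← map_pow]
    exact (hk _).2 (hΦC (he b hb))
  · rwa [← comap_map_eq_self hk']
  · by_contra hcon
    have h3 : zpowers c ≤ center _ := zpowers_le.2 (mem_center_iff.2 fun g => by
      have : g ∈ centralizer {c} := by
        refine (sup_le (fun b hb => mem_centralizer_singleton_iff.2 ?_)
          (zpowers_le.2 (mem_centralizer_singleton_iff.2 hcx.symm))) (h2.ge (mem_top g))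
        exact commutatorElement_eq_one_iff_mul_comm.1 (h1 (commutator_mem_commutator hb hc))
      exact mem_centralizer_singleton_iff.1 this)
    have h4 : (zpowers c).Normal := ⟨fun b hb g => by
      rwa [mem_center_iff.1 (h3 hb) g, mul_inv_cancel_right]⟩
    have h5 := hmax (y := (zpowers c).comap f) ⟨h4.comap f,
      (comap_mono (zpowers_le.2 hc)).trans (comap_map_eq_self hk').le,
      fun h => hcon (map_iter f x a _ ▸ h)⟩ fun g hg => by
        rw [mem_comap, (hk g).2 hg]; exact one_mem _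
    obtain ⟨g, rfl⟩ := hf c
    exact hc1 ((hk g).2 (h5 (mem_zpowers _)))

/-- Let G be a finite p-soluble group, p an odd prime not of the form 2^k + 1, and suppose the wreath product C_p ≀ C_p (of order p^(p+1)) is not involved in a Sylow p-subgroup of G: no section of a Sylow p-subgroup is isomorphic to it. Then G has p-length at most 1. -/
theorem result {G : Type*} [Group G] [Finite G] {p : ℕ} [Fact p.Prime] (hp2 : p ≠ 2) (hnf : (¬ ∃ k : ℕ, p = 2 ^ k + 1)) (hG : Cfsg.IsPSolvable p G) (P : Sylow p G) (hwr : ∀ (W : Type) [Group W] [Finite W], (∃ (B : Subgroup W) (t : W), B.Normal ∧ IsMulCommutative B ∧ (∀ b ∈ B, b ^ p = 1) ∧ Nat.card B = p ^ p ∧ orderOf t = p ∧ t ∉ B ∧ Nat.card W = p ^ (p + 1) ∧ Nat.card ↥(B ⊓ Subgroup.centralizer ({t} : Set W)) = p) → ¬ Cfsg.Involves W ↥(P : Subgroup G)) : Cfsg.PLengthLE p 1 G := by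
  refine pLengthLE_of_quotient_coprime _ (pPrimeCore_coprime p) ?_
  set π := QuotientGroup.mk' (pPrimeCore p G)
  have hπ : Function.Surjective π := QuotientGroup.mk'_surjective _
  have hG₁ := isPSolvable_quotient hG (pPrimeCore p G)
  have h0 := pPrimeCore_quotient_pPrimeCore (G := G) p
  refine pLengthLE_one_of_sylow_le (P.mapSurjective hπ) (le_trans ?_ (show pCore p _ ≤ _ from
    fun g hg => le_pCore ((pCore_isPGroup p).map (QuotientGroup.mk' _)) (mem_map_of_mem _ hg)))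
  intro y hy
  by_contra hne
  classical
  obtain ⟨n, hn⟩ := (P.mapSurjective hπ).isPGroup' ⟨y, hy⟩
  have hex : ∃ m, y ^ p ^ m ∈ pCore p _ := ⟨n, by
    rw [show y ^ p ^ n = 1 from congrArg Subtype.val hn]; exact one_mem _⟩
  obtain ⟨m, hm⟩ : ∃ m, Nat.find hex = m + 1 := Nat.exists_eq_succ_of_ne_zero fun h =>
    hne (by simpa [h] using Nat.find_spec hex)
  have h1 : y ^ p ^ m ∉ pCore p _ := Nat.find_min hex (by omega)
  have h2 : (y ^ p ^ m) ^ p ∈ pCore p _ := by
    rw [← pow_mul, ← pow_succ, ← hm]; exact Nat.find_spec hex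
  have hxP := pow_mem hy (p ^ m)
  generalize y ^ p ^ m = x at h1 h2 hxP
  obtain ⟨U, _, _, _, ρ, ι, hρ, T⟩ := exists_coreRep hG₁ h0
  obtain ⟨a, ha, hw⟩ : ∃ a ∈ pCore p _, (fun b => ⁅x, b⁆)^[p - 1] a ∉ phiCore p _ := by
    by_contra hcon
    push Not at hcon
    obtain ⟨f, hf, hfx, hd⟩ := exists_poly_of_sub_one_pow (k := AlgebraicClosure (ZMod p))
      ((T.sub_one_pow_eq_zero_iff x _).2 hcon)
    have hK := pPrimeCore_coprime (G := (G ⧸ pPrimeCore p G) ⧸ pCore p _) p
    have hx : QuotientGroup.mk' (pCore p _) x ^ p ^ (0 + 1) = 1 := by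
      rw [zero_add, pow_one, ← map_pow]; exact (QuotientGroup.eq_one_iff _).2 h2
    obtain ⟨q, d, j, m, hq, -, -, -, h5, -⟩ := hh_faithful ρ hρ _
      (natCast_ne_zero_of_coprime _ p hK) Fact.out hK hx (le_normalizer_of_normal' ⊤ _ trivial) (by
        by_contra hcon
        push Not at hcon
        rw [pow_zero, pow_one] at hcon
        exact h1 ((QuotientGroup.eq_one_iff _).1 (mem_bot.1 ((inf_centralizer_pPrimeCore
          (isPSolvable_quotient hG₁ _) (pCore_quotient_pCore p) (H1.isPGroup_zpowers_of_pow hx)).le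
          ⟨mem_zpowers _, fun g hg => commutatorElement_eq_one_iff_mul_comm.1 (hcon g hg)⟩))))
      f hf hfx (by rw [hd, zero_add, pow_one]; exact Nat.sub_one_lt (Fact.out : p.Prime).ne_zero)
    exact hnf (fermat_of_pow_add_one Fact.out hp2 hq h5).2
  set K := pCore p (G ⧸ pPrimeCore p G) ⊔ zpowers x
  have hKP : K ≤ P.mapSurjective hπ :=
    sup_le ((pCore_isPGroup p).le_sylow_of_normal _) (zpowers_le.2 hxP)
  obtain ⟨W, _, _, f, hf, hW⟩ := exists_section (p := p) ((pCore p _).subgroupOf K)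
    ((phiCore p _).subgroupOf K) (comap_mono phiCore_le)
    (commutator_le.2 fun b hb c hc =>
      commutator_pCore_le_phiCore (commutator_mem_commutator hb hc))
    (fun b hb => pow_mem_phiCore hb) (x := ⟨x, mem_sup_right (mem_zpowers x)⟩)
    (a := ⟨a, mem_sup_left ha⟩) (by
      apply map_injective K.subtype_injective
      rw [Subgroup.map_sup, MonoidHom.map_zpowers, ← MonoidHom.range_eq_map, range_subtype,
        subgroupOf_map_subtype, inf_eq_left.2 le_sup_left]
      rfl) h1 h2 ha fun h => hw (by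
        have h3 := mem_comap.1 h
        rwa [map_iter K.subtype] at h3)
  exact hwr W hW (H1.Involves.of_surjective (H1.Involves.of_le (H1.involves_of_surjective f hf) hKP)
    (π.subgroupMap P) (π.subgroupMap_surjective _))

end Cfsg.Agent.S3787
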