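import Cfsg.Statements.S3788
import Cfsg.Agent.Lib.H9PLenOdd

set_option autoImplicit false
open Cfsg

namespace Cfsg.Agent.S3788

open CfsgLib CfsgLib.H9 CfsgLib.Fpf Subgroup Cfsg
open scoped commutatorElement

theorem mem_zpowers_pow {G : Type*} [Group G] {p : ℕ} (hp : p.Prime) {O : Subgroup G} {x w : G}
    (h1 : x ∉ O) (h2 : x ^ p ∈ O) (hw : w ∈ zpowers x) (hO : w ∈ O) : w ∈ zpowers (x ^ p) := by
  obtain ⟨i, rfl⟩ := hw
  by_cases h : (p : ℤ) ∣ i
  · obtain ⟨j, rfl⟩ := h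
    exact ⟨j, by simp only [zpow_mul, zpow_natCast]⟩
  · obtain ⟨a, b, hab⟩ := (Int.prime_iff_natAbs_prime.2 (by simpa using hp)).irreducible
      |>.coprime_iff_not_dvd.2 h
    refine absurd ?_ h1
    rw [← zpow_one x, ← hab, zpow_add, mul_comm a, mul_comm b, zpow_mul, zpow_mul, zpow_natCast]
    exact mul_mem (zpow_mem h2 a) (zpow_mem hO b)

theorem odd_case.{u} {G : Type u} [Group G] [Finite G] {p : ℕ} [hp : Fact p.Prime] (hp2 : p ≠ 2)
    (hG : IsPSolvable p G) (h0 : pPrimeCore p G = ⊥) {x : G} (h2 : x ^ p ∈ pCore p G)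
    (h : ∀ v ∈ pCore p G, ⁅x, v⁆ ∈ zpowers (x ^ p)) : x ∈ pCore p G := by
  obtain ⟨W, _, _, _, ρ, ι, hρ, T⟩ := exists_coreRep hG h0
  set π := QuotientGroup.mk' (pCore p G)
  have hc : ∀ (g v : G), v ∈ pCore p G → (ρ (π g) - 1) (ι v) = ι ⁅g, v⁆ := fun g v hv =>
    (T.map_commutator g hv).symm
  have hy : zpowers (x ^ p) ≤ pCore p G := zpowers_le.2 h2
  have h1 : (ρ (π x) - 1) ^ 2 = 0 := T.ext fun v hv => by
    obtain ⟨i, hi⟩ := h v hv
    rw [sq, Module.End.mul_apply, hc x v hv, hc x _ (hy (h v hv)), ← hi,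
      commutatorElement_eq_one_iff_commute.2 (((Commute.refl x).pow_right p).zpow_right i),
      T.map_one, LinearMap.zero_apply]
  have hx : π x ^ p ^ 1 = 1 := by
    rw [pow_one, ← map_pow]; exact (QuotientGroup.eq_one_iff _).2 h2
  have h3 := eq_one_of_quadratic_fixed hρ hp2 (pPrimeCore_coprime p)
    (le_normalizer_of_normal' ⊤ _ trivial) h1 fun z _ hz => by
      obtain ⟨g, rfl⟩ := QuotientGroup.mk'_surjective _ z
      have h4 : g * x * g⁻¹ * x⁻¹ ∈ pCore p G := (QuotientGroup.eq_one_iff _).1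
        (show π ⁅g, x⁆ = 1 by rw [map_commutatorElement, commutatorElement_eq_one_iff_commute.2 hz])
      obtain ⟨h5, h6⟩ := T.mul_pow x h4 p
      have h7 : ∑ i ∈ Finset.range p, ρ (π x) ^ i = 0 := by
        have := geom_eq_sub_one_pow (AlgebraicClosure (ZMod p)) (ρ (π x)) 1 (p := p)
        rw [pow_one] at this
        rw [this]
        have := lt_of_le_of_ne hp.out.two_le hp2.symm
        exact pow_eq_zero_of_le (by omega) h1
      rw [MonoidHom.id_apply, inv_mul_cancel_right, conj_pow] at h5 h6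
      have h8 : ⁅g, x ^ p⁆ ∈ phiCore p G :=
        (T.eq_zero_iff _ h5).1 (h6.trans (LinearMap.congr_fun h7 _))
      have h9 : ∀ w ∈ zpowers (x ^ p), ⁅g, w⁆ ∈ phiCore p G := fun w hw => by
        have h10 : zpowers (x ^ p) ≤ CommCalc.relCent (phiCore p G) {g} :=
          zpowers_le.2 ⟨le_normalizer_of_normal' ⊤ _ trivial, fun t ht => by
            rw [← inv_mem_iff, commutatorElement_inv, ht]; exact h8⟩
        rw [← inv_mem_iff, commutatorElement_inv]
        exact (h10 hw).2 g rfl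
      refine T.ext fun v hv => ?_
      rw [Module.End.mul_apply, hc x v hv, ← sub_eq_zero]
      exact (hc g _ (hy (h v hv))).trans ((T.eq_zero_iff _ (phiCore_le (h9 _ (h v hv)))).2
        (h9 _ (h v hv)))
  exact (QuotientGroup.eq_one_iff x).1 (mem_bot.1 ((inf_centralizer_pPrimeCore
    (isPSolvable_quotient hG _) (pCore_quotient_pCore p) (H1.isPGroup_zpowers_of_pow hx)).le
    ⟨mem_zpowers _, h3⟩))

theorem two_case {G : Type*} [Group G] [Finite G] (hG : IsPSolvable 2 G)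
    (h0 : pPrimeCore 2 G = ⊥) {x : G} (h1 : x ∉ pCore 2 G) (h2 : x ^ 2 ∈ pCore 2 G)
    (h : ∀ v ∈ pCore 2 G, ⁅x, v⁆ ∈ zpowers (x ^ 2)) : Involves (Equiv.Perm (Fin 4)) G := by
  obtain ⟨K, hK, hOK, hfr⟩ := exists_ppCore_complement (G := G) (p := 2)
  obtain ⟨u, hu, n, hn, rfl⟩ := hfr x
  set O := pCore 2 G
  set Φ := phiCore 2 G
  have hOK' : O ⊓ K = ⊥ := disjoint_iff.1 (disjoint_of_coprime_natCard
    (Cop.coprime_card_of_isPGroup hK (pCore_isPGroup 2)).symm)
  have hn1 : n ∉ O := fun h => h1 (mul_mem hu h)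
  have hn2 : n ^ 2 ∈ O := by
    rw [← QuotientGroup.eq_one_iff] at h2 ⊢
    rwa [QuotientGroup.mk_pow, QuotientGroup.mk_mul, (QuotientGroup.eq_one_iff u).2 hu, one_mul,
      ← QuotientGroup.mk_pow] at h2
  have hKn : ∀ y ∈ normalizer (K : Set G), ∀ k ∈ K, ⁅y, k⁆ ∈ K := fun y hy k hk =>
    mul_mem (conj_mem_of_mem_normalizer hy hk) (inv_mem hk)
  obtain ⟨k, hk, hnk⟩ : ∃ k ∈ K, ⁅n, k⁆ ≠ 1 := by
    by_contra hcon
    push Not at hcon
    exact hn1 (mem_pCore_of_commutator_mem hG hOK (k := 1) hn2 fun y hy => by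
      rw [hcon y hy]; exact one_mem _)
  have h3 : ⁅n ^ 2, k⁆ = 1 := mem_bot.1 (hOK'.le ⟨by
    change _ ∈ O
    rw [← inv_mem_iff, commutatorElement_inv]
    exact O.mul_mem (conj_mem_of_mem_normalizer (le_normalizer_of_normal' ⊤ _ trivial) hn2)
      (inv_mem hn2), hKn _ (pow_mem hn 2) k hk⟩)
  have hd : ⁅k, n⁆ ∈ K := by rw [← inv_mem_iff, commutatorElement_inv]; exact hKn n hn k hk
  have hd1 : ⁅k, n⁆ ≠ 1 := fun h => hnk (by rw [← commutatorElement_inv, h, inv_one])
  have h4 : n * ⁅k, n⁆ * n⁻¹ = ⁅k, n⁆⁻¹ := by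
    have := (commutatorElement_eq_one_iff_commute.1 h3).inv_inv.eq
    rw [sq, mul_inv_rev] at this
    rw [commutatorElement_inv, commutatorElement_def, commutatorElement_def]
    calc _ = n * k * n * (k⁻¹ * (n⁻¹ * n⁻¹)) := by group
      _ = _ := by rw [← this]; group
  obtain ⟨r, hr, hrd⟩ := Nat.exists_prime_and_dvd (mt orderOf_eq_one_iff.1 hd1)
  have := Fact.mk hr
  obtain ⟨⟨d, hdz⟩, hdr⟩ := exists_prime_orderOf_dvd_card' (G := zpowers ⁅k, n⁆) r
    (by rwa [Nat.card_zpowers])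
  rw [← Subgroup.orderOf_coe] at hdr
  change orderOf d = r at hdr
  have hdK : d ∈ K := zpowers_le.2 hd hdz
  have hcop : (Nat.card (zpowers d)).Coprime 2 := hK.coprime_dvd_left
    (card_dvd_of_le (zpowers_le.2 hdK))
  have hne : ¬ ∀ a ∈ O, ⁅d, a⁆ ∈ Φ := fun h => hr.ne_one (by
    rw [← hdr, orderOf_eq_one_iff]
    exact eq_one_of_coprime_of_commutator_mem_phiCore hG h0 (by rwa [← Nat.card_zpowers]) h)
  have h5 : ⁅O, zpowers (u * n) ⊔ O⁆ ⊔ Φ ≤ Φ ⊔ zpowers ((u * n) ^ 2) := by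
    have hle : Φ ⊔ zpowers ((u * n) ^ 2) ≤ O := sup_le phiCore_le (zpowers_le.2 h2)
    refine sup_le (CommCalc.commutator_sup_right_le (le_normalizer_sup le_normalizer_of_normal
      (zpowers_le_normalizer_zpowers_pow _ 2)) (Cop.le_normalizer_of_commutator_le
        (commutator_pCore_le_phiCore.trans le_sup_left) hle) ?_
      (commutator_pCore_le_phiCore.trans le_sup_left)) le_sup_left
    refine (le_relCent_iff (le_normalizer_sup le_normalizer_of_normal
      (zpowers_le_normalizer_zpowers_pow _ 2))).1 (zpowers_le.2 ⟨le_normalizer_sup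
        le_normalizer_of_normal (zpowers_le_normalizer_zpowers_pow _ 2) (mem_zpowers _),
        fun g hg => ?_⟩)
    exact mem_sup_right (h g hg)
  have h6 : Φ.relIndex (Φ ⊔ zpowers ((u * n) ^ 2)) ≤ 2 := by
    rw [Cop.relIndex_sup_left_of_le_normalizer le_normalizer_of_normal,
      ← QuotientGroup.ker_mk' Φ, relIndex_ker, MonoidHom.map_zpowers, Nat.card_zpowers]
    refine orderOf_le_of_pow_eq_one two_pos ?_
    rw [← map_pow]
    exact (QuotientGroup.eq_one_iff _).2 (pow_mem_phiCore h2)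
  have h7 := relIndex_commutator_le_sq (Q := O) (R := Φ) (B := zpowers (u * n) ⊔ O) (g := k) (b := n)
    commutator_pCore_le_phiCore phiCore_le le_normalizer_of_normal
    (le_normalizer_of_normal' ⊤ _ trivial) (le_normalizer_of_normal' ⊤ _ trivial)
    ((Subgroup.mul_mem_cancel_left _ (mem_sup_right hu)).1 (mem_sup_left (mem_zpowers _)))
  have h8 : Φ.relIndex (⁅O, zpowers d⁆ ⊔ Φ) ≤ 4 :=
    (relIndex_le_of_le_right (sup_le_sup_right (commutator_mono le_rfl (zpowers_le.2 hdz)) _)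
      index_ne_zero_of_finite).trans (h7.trans (Nat.pow_le_pow_left
        ((relIndex_le_of_le_right h5 index_ne_zero_of_finite).trans h6) 2))
  have hdr' : d ^ r ^ 1 = 1 := by rw [pow_one, ← hdr, pow_orderOf_eq_one]
  have h9 := prime_dvd_relIndex_sub_one (H1.isPGroup_zpowers_of_pow hdr')
    (M := ⁅O, zpowers d⁆ ⊔ Φ) (N := Φ)
    (le_normalizer_sup (normalizer_commutator_ge_right _ _) le_normalizer_of_normal)
    le_normalizer_of_normal le_sup_right le_normalizer_of_normal fun g hg h =>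
      Cop.mem_of_mem_commutator_sup_of_commutator_mem le_normalizer_of_normal
        le_normalizer_of_normal phiCore_le commutator_pCore_le_phiCore
        (Cop.coprime_card_of_isPGroup hcop (pCore_isPGroup 2)) hg h
  have h10 : Φ.relIndex (⁅O, zpowers d⁆ ⊔ Φ) ≠ 1 := fun h => hne fun a ha => by
    rw [← inv_mem_iff, commutatorElement_inv]
    exact relIndex_eq_one.1 h (mem_sup_left (commutator_mem_commutator ha (mem_zpowers d)))
  have h11 : Φ.relIndex (⁅O, zpowers d⁆ ⊔ Φ) ≠ 0 := index_ne_zero_of_finite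
  obtain rfl : r = 3 := by
    rw [Nat.card_zpowers, hdr] at hcop
    have h12 := Nat.le_of_dvd (by omega) h9
    have h13 := hr.two_le
    have h14 : r ≠ 2 := fun h => by rw [h] at hcop; norm_num at hcop
    omega
  set π := QuotientGroup.mk' Φ
  have hπ : ∀ a b, π a * π b = π b * π a ↔ ⁅a, b⁆ ∈ Φ := fun a b => by
    rw [← commutatorElement_eq_one_iff_mul_comm, ← map_commutatorElement]
    exact QuotientGroup.eq_one_iff _
  refine H1.Involves.of_surjective (H1.Involves.of_subgroup (H1.involves_S4 (M := ⊤)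
    (V := O.map π) ⟨⟨⟨?_⟩⟩, ?_⟩ le_top (mem_top (π d)) (mem_top (π n))
    (le_normalizer_of_normal' ⊤ _ trivial) (le_normalizer_of_normal' ⊤ _ trivial) (k := 1)
    (by rw [← map_pow, hdr', map_one]) (fun h => hne fun a ha => ?_)
    (by rw [← map_inv, ← map_inv, ← map_mul, ← map_mul, H1.inv_conj_of_mem_zpowers h4 hdz])))
    π (QuotientGroup.mk'_surjective _)
  · rintro ⟨_, a, ha, rfl⟩ ⟨_, b, hb, rfl⟩
    exact Subtype.ext ((hπ a b).2 (commutator_pCore_le_phiCore (commutator_mem_commutator ha hb)))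
  · rintro _ ⟨a, ha, rfl⟩
    rw [← map_pow]
    exact (QuotientGroup.eq_one_iff _).2 (pow_mem_phiCore ha)
  · exact (hπ d a).1 (h _ (mem_map_of_mem π ha)).symm

theorem core {G : Type*} [Group G] [Finite G] {p : ℕ} [hp : Fact p.Prime] (hG : IsPSolvable p G)
    (h0 : pPrimeCore p G = ⊥) {a : G} {n : ℕ} (ha : a ^ p ^ n = 1)
    (hn : pCore p G ≤ normalizer (zpowers a : Set G))
    (h : p ≠ 2 ∨ ¬ Involves (Equiv.Perm (Fin 4)) G) : a ∈ pCore p G := by
  classical
  by_contra hne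
  have hex : ∃ m, a ^ p ^ m ∈ pCore p G := ⟨n, ha ▸ one_mem _⟩
  obtain ⟨m, hm⟩ : ∃ m, Nat.find hex = m + 1 := Nat.exists_eq_succ_of_ne_zero fun h =>
    hne (by simpa [h] using Nat.find_spec hex)
  have h1 : a ^ p ^ m ∉ pCore p G := Nat.find_min hex (by omega)
  have h2 : (a ^ p ^ m) ^ p ∈ pCore p G := by
    rw [← pow_mul, ← pow_succ, ← hm]; exact Nat.find_spec hex
  have h3 : ∀ v ∈ pCore p G, ⁅a ^ p ^ m, v⁆ ∈ zpowers ((a ^ p ^ m) ^ p) := fun v hv => by
    refine mem_zpowers_pow hp.out h1 h2 ?_ ((pCore p G).mul_mem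
      (conj_mem_of_mem_normalizer (le_normalizer_of_normal' ⊤ _ trivial) hv) (inv_mem hv))
    obtain ⟨i, hi⟩ := conj_mem_of_mem_normalizer (hn hv) (mem_zpowers a)
    rw [← inv_mem_iff, commutatorElement_inv, commutatorElement_def, ← conj_pow, ← hi]
    refine mul_mem ⟨i, ?_⟩ (inv_mem (mem_zpowers _))
    simp only [← zpow_natCast, ← zpow_mul, mul_comm]
  by_cases hp2 : p = 2
  · subst hp2
    exact h.resolve_left (not_not.2 rfl) (two_case hG h0 h1 h2 h3)
  · exact h1 (odd_case hp2 hG h0 h2 h3)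

/-- Let G be a finite p-soluble group, P a Sylow p-subgroup of G and A a cyclic normal subgroup of P. If p is odd, or if no section of G is isomorphic to the symmetric group of degree 4, then A ≤ O_{p',p}(G). -/
theorem result {G : Type*} [Group G] [Finite G] {p : ℕ} [Fact p.Prime] (hG : Cfsg.IsPSolvable p G) (P : Sylow p G) (A : Subgroup G) (hAP : A ≤ (P : Subgroup G)) (hAn : (P : Subgroup G) ≤ Subgroup.normalizer (A : Set G)) (hA : IsCyclic A) (h : p ≠ 2 ∨ ¬ Cfsg.Involves (Equiv.Perm (Fin 4)) G) : A ≤ Cfsg.pPrimePCore p G := by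
  obtain ⟨a, rfl⟩ := (Subgroup.isCyclic_iff_exists_zpowers_eq_top A).1 hA
  set π := QuotientGroup.mk' (pPrimeCore p G)
  have hπ : Function.Surjective π := QuotientGroup.mk'_surjective _
  obtain ⟨n, hn⟩ := P.isPGroup' ⟨a, hAP (mem_zpowers a)⟩
  refine zpowers_le.2 (core (isPSolvable_quotient hG _) (pPrimeCore_quotient_pPrimeCore p) (n := n)
    (a := π a) (by rw [← map_pow, show a ^ p ^ n = 1 from congrArg Subtype.val hn, map_one]) ?_
    (h.imp_right fun h h' => h (H1.Involves.of_surjective h' π hπ)))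
  refine ((pCore_isPGroup p).le_sylow_of_normal (P.mapSurjective hπ)).trans ?_
  rw [← MonoidHom.map_zpowers]
  exact (map_mono hAn).trans (le_normalizer_map π)

end Cfsg.Agent.S3788
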