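import Cfsg.Statements.S3789
import Cfsg.Agent.Lib.H9PLenOdd

set_option autoImplicit false
open Cfsg

namespace Cfsg.Agent.S3789

open CfsgLib CfsgLib.H9 CfsgLib.Fpf Subgroup Cfsg in
open scoped commutatorElement in
theorem step.{u} {G : Type u} [Group G] [Finite G] {p : ℕ} [hp : Fact p.Prime] (hp2 : p ≠ 2)
    (hG : IsPSolvable p G) (h0 : pPrimeCore p G = ⊥) {d : ℕ}
    (h : ∀ S : Subgroup G, IsPGroup p S → dser S (d + 1) = ⊥) (S : Subgroup (G ⧸ pCore p G))
    (hS : IsPGroup p S) : dser S d = ⊥ := by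
  set π := QuotientGroup.mk' (pCore p G)
  have hP : IsPGroup p (S.comap π) := hS.comap_of_ker_isPGroup _
    (by rw [QuotientGroup.ker_mk']; exact pCore_isPGroup p)
  have hOP : pCore p G ≤ S.comap π := fun a ha => by
    rw [mem_comap, show π a = 1 from (QuotientGroup.eq_one_iff a).2 ha]; exact one_mem _
  have hPS : (S.comap π).map π = S := map_comap_eq_self_of_surjective
    (QuotientGroup.mk'_surjective _) S
  have h1 := h _ hP
  set P := S.comap π
  cases d with
  | zero =>
    rw [dser, ← hPS, Subgroup.map_eq_bot_iff, QuotientGroup.ker_mk']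
    refine le_trans ?_ (centralizer_pCore_le hG h0)
    exact Cop.commutator_eq_bot_iff_le_centralizer'.1
      (le_bot_iff.1 ((commutator_mono hOP le_rfl).trans h1.le))
  | succ d =>
    obtain ⟨W, _, _, _, ρ, ι, hρ, T⟩ := exists_coreRep hG h0
    have hn : ∀ n, ∀ b ∈ dser P n, ∀ v ∈ pCore p G, ⁅b, v⁆ ∈ dser P n ⊓ pCore p G :=
      fun n b hb v hv => ⟨by
        rw [commutatorElement_def, mul_assoc, mul_assoc]
        refine mul_mem hb ?_
        rw [← mul_assoc]
        exact conj_mem_of_mem_normalizer (le_normalizer_dser le_normalizer n (hOP hv)) (inv_mem hb),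
        (pCore p G).mul_mem (conj_mem_of_mem_normalizer (le_normalizer_of_normal' ⊤ _ trivial) hv)
          (inv_mem hv)⟩
    have hc : ∀ (g v : G), v ∈ pCore p G → (ρ (π g) - 1) (ι v) = ι ⁅g, v⁆ := fun g v hv =>
      (T.map_commutator g hv).symm
    have hz : ∀ a ∈ dser P (d + 1), ∀ b ∈ dser P (d + 1), ι ⁅a, b⁆ = 0 := fun a ha b hb => by
      rw [mem_bot.1 (h1.le (commutator_mem_commutator ha hb)), T.map_one]
    have hB : IsPGroup p (dser S d) := hS.to_le (dser_le S d)
    refine eq_bot_of_quadratic_derived hρ hp2 (pPrimeCore_coprime p) hB le_normalizer_of_normal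
      (inf_centralizer_pPrimeCore (isPSolvable_quotient hG _) (pCore_quotient_pCore p) hB) ?_ ?_
    · change ∀ a ∈ dser S (d + 1), ∀ b ∈ dser S (d + 1), _
      rw [← hPS, ← map_dser]
      rintro _ ⟨a, ha, rfl⟩ _ ⟨b, hb, rfl⟩
      refine T.ext fun v hv => ?_
      rw [Module.End.mul_apply, hc b v hv, hc a _ (hn _ b hb v hv).2]
      exact hz a ha _ (hn _ b hb v hv).1
    · change ∀ a ∈ dser S (d + 1), ∀ b ∈ dser S d, _
      rw [← hPS, ← map_dser, ← map_dser]
      rintro _ ⟨a, ha, rfl⟩ _ ⟨b, hb, rfl⟩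
      refine T.ext fun v hv => ?_
      have h2 := hn _ b hb v hv
      rw [sq, Module.End.mul_apply, Module.End.mul_apply, hc b v hv, hc b _ h2.2,
        hc a _ (hn _ b hb _ h2.2).2]
      exact hz a ha _ (commutator_mem_commutator hb h2.1)

open CfsgLib CfsgLib.H9 Subgroup Cfsg in
theorem aux.{u} {p : ℕ} [hp : Fact p.Prime] (hp2 : p ≠ 2) (d : ℕ) : ∀ {G : Type u} [Group G]
    [Finite G], IsPSolvable p G → (∀ S : Subgroup G, IsPGroup p S → dser S d = ⊥) →
      PLengthLE p d G := by
  induction d with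
  | zero =>
    intro G _ _ _ h
    refine pLengthLE_zero_iff.2 (coprime_of_pExp_zero fun x k hx => ?_)
    simpa using (h _ (CfsgLib.H1.isPGroup_zpowers_of_pow hx)).le (mem_zpowers x)
  | succ d ih =>
    intro G _ _ hG h
    refine pLengthLE_of_quotient_coprime _ (pPrimeCore_coprime p) ?_
    have hG₁ := isPSolvable_quotient hG (pPrimeCore p G)
    refine pLengthLE_succ_of_quotient_isPGroup _ (pCore_isPGroup p)
      (ih (isPSolvable_quotient hG₁ _) (step hp2 hG₁ (pPrimeCore_quotient_pPrimeCore p)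
        fun S hS => ?_))
    obtain ⟨T, -, hT, rfl⟩ := exists_lift_isPGroup (QuotientGroup.mk' (pPrimeCore p G)) (K := ⊤)
      (le_top.trans (Subgroup.map_top_of_surjective _ (QuotientGroup.mk'_surjective _)).ge) hS
    rw [← map_dser, h T hT, Subgroup.map_bot]

/-- Let p be an odd prime and G a finite p-soluble group whose Sylow p-subgroups have derived length at most d. Then G has p-length at most d. -/
theorem result {G : Type*} [Group G] [Finite G] {p : ℕ} [Fact p.Prime] (hp : p ≠ 2) (hG : Cfsg.IsPSolvable p G) (d : ℕ) (hd : ∀ P : Sylow p G, derivedSeries ↥(P : Subgroup G) d = ⊥) : Cfsg.PLengthLE p d G := by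
  refine aux hp d hG fun S hS => ?_
  obtain ⟨P, hP⟩ := hS.exists_le_sylow
  refine le_bot_iff.1 ((CfsgLib.H9.dser_mono hP d).trans ?_)
  rw [CfsgLib.H9.dser_eq_map, hd P, Subgroup.map_bot]

end Cfsg.Agent.S3789
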