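import Cfsg.Statements.S3790
import Cfsg.Agent.Lib.CoreBasic
import Cfsg.Agent.Lib.H9PLength

set_option autoImplicit false
open Cfsg

namespace Cfsg.Agent.S3790

open Subgroup CfsgLib
open scoped Pointwise commutatorElement

open H9

theorem step.{u} {p q : ℕ} [Fact p.Prime] [hq : Fact q.Prime] (hqp : q ≠ p) (m : ℕ)
    (C : ∀ (G : Type u) [Group G] [Finite G], Prop)
    (hsub : ∀ (G : Type u) [Group G] [Finite G] (H : Subgroup G), C G → C H)
    (hquo : ∀ (G : Type u) [Group G] [Finite G] (N : Subgroup G) [N.Normal], C G → C (G ⧸ N))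
    (hC : ∀ (G : Type u) [Group G] [Finite G], C G → (Nat.card G).Coprime q → PLengthLE p m G)
    (l : ℕ) : ∀ (G : Type u) [Group G] [Finite G], C G → PLengthLE q l G →
      PLengthLE p ((1 + l) * m) G := by
  induction l with
  | zero =>
    intro G _ _ h1 h2
    simpa using hC G h1 (pLengthLE_zero_iff.1 h2)
  | succ l ih =>
    intro G _ _ h1 h2
    haveI := ups_characteristic (p := q) (G := G) 2
    haveI := ups_characteristic (p := q) (G := G) 1
    have h3 : PLengthLE q l (G ⧸ ups q G (2 * 1)) :=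
      pLengthLE_quotient_ups (a := 1) (by rwa [add_comm])
    have h4 := ih _ (hquo G _ h1) h3
    have h5 : PLengthLE p m (ups q G (2 * 1)) := by
      refine pLengthLE_of_normal_coprime ((ups q G 1).subgroupOf (ups q G (2 * 1))) ?_ ?_
      · refine hC _ (hsub _ _ (hsub _ _ h1)) ?_
        have hle : ups q G 1 ≤ ups q G (2 * 1) := ups_mono (by omega)
        rw [Nat.card_congr (subgroupOfEquivOfLe hle).toEquiv]
        exact coprime_of_qSec_bot (qSec_ups_even (G := G) 0)
      · obtain ⟨k, hk⟩ := pSec_iff_relIndex.1 (pSec_ups_odd (p := q) (G := G) 0)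
        change ((ups q G 1).relIndex (ups q G 2)).Coprime p
        simp only [mul_zero, zero_add] at hk
        rw [hk]
        exact Nat.Coprime.pow_left _ ((Nat.coprime_primes hq.out Fact.out).2 hqp)
    have := pLengthLE_of_normal_of_quotient _ h5 h4
    convert this using 1
    ring

theorem aux.{u} (p : ℕ) [Fact p.Prime] (r : ℕ) : ∀ (q : Fin r → ℕ)
    (hq : ∀ i, (q i).Prime ∧ q i ≠ p) (l : Fin r → ℕ) (G : Type u) [Group G] [Finite G],
    (∀ s : ℕ, s.Prime → s ∣ Nat.card G → s ≠ p → ∃ i, q i = s) →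
    (∀ i, Cfsg.PLengthLE (q i) (l i) G) →
    Cfsg.PLengthLE p (Finset.univ.prod fun i => 1 + l i) G := by
  induction r with
  | zero =>
    intro q hq l G _ _ hc hl
    simp only [Finset.univ_eq_empty, Finset.prod_empty]
    apply pLengthLE_one_of_isPGroup
    rw [IsPGroup.iff_card]
    refine ⟨_, Nat.eq_prime_pow_of_unique_prime_dvd Nat.card_pos.ne' ?_⟩
    intro s hs hd
    by_contra hne
    obtain ⟨i, -⟩ := hc s hs hd hne
    exact i.elim0
  | succ r ih =>
    intro q hq l G _ _ hc hl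
    rw [Fin.prod_univ_succ]
    haveI : Fact (q 0).Prime := ⟨(hq 0).1⟩
    refine step (hq 0).2 _ (fun X _ _ => (∀ s : ℕ, s.Prime → s ∣ Nat.card X → s ≠ p → ∃ i, q i = s) ∧
      (∀ i, Cfsg.PLengthLE (q i) (l i) X)) ?_ ?_ ?_ _ G ⟨hc, hl⟩ (hl 0)
    · intro X _ _ H h
      refine ⟨fun s hs hd => h.1 s hs (hd.trans (card_subgroup_dvd_card H)), fun i => ?_⟩
      haveI : Fact (q i).Prime := ⟨(hq i).1⟩
      exact pLengthLE_subgroup (h.2 i) H
    · intro X _ _ N _ h
      refine ⟨fun s hs hd => h.1 s hs (hd.trans (card_quotient_dvd_card N)), fun i => ?_⟩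
      haveI : Fact (q i).Prime := ⟨(hq i).1⟩
      exact pLengthLE_quotient (h.2 i) N
    · intro X _ _ h hcop
      refine ih (fun i => q i.succ) (fun i => hq _) (fun i => l i.succ) X ?_ (fun i => h.2 _)
      intro s hs hd hne
      obtain ⟨i, rfl⟩ := h.1 s hs hd hne
      induction i using Fin.cases with
      | zero => exact absurd hd ((Nat.Prime.coprime_iff_not_dvd hs).1 hcop.symm)
      | succ i => exact ⟨i, rfl⟩

theorem result {G : Type*} [Group G] [Finite G] (hG : Group.IsSolvable G) (p : ℕ) [Fact p.Prime] (r : ℕ) (q : Fin r → ℕ) (hq : ∀ i, (q i).Prime ∧ q i ≠ p) (hinj : Function.Injective q) (hcover : ∀ s : ℕ, s.Prime → s ∣ Nat.card G → s ≠ p → ∃ i, q i = s) (l : Fin r → ℕ) (hl : ∀ i, Cfsg.PLengthLE (q i) (l i) G) : Cfsg.PLengthLE p (Finset.univ.prod fun i => 1 + l i) G := by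
  exact aux p r q hq l G hcover hl

end Cfsg.Agent.S3790
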