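import Cfsg.Statements.S3791
import Cfsg.Agent.Lib.CoreBasic
import Cfsg.Agent.Lib.H9PLength
import Cfsg.Agent.Lib.HigmanGroup
import Cfsg.Agent.Lib.CoreSolvable
import Cfsg.Agent.Lib.CorePi

set_option autoImplicit false
open Cfsg

namespace Cfsg.Agent.S3791

open Subgroup CfsgLib
open scoped Pointwise commutatorElement

open H9

theorem derived_of_surj {G H : Type*} [Group G] [Finite G] [Group H] {p d : ℕ} [Fact p.Prime]
    (f : G →* H) (hf : Function.Surjective f)
    (h : ∀ P : Subgroup G, IsPGroup p P → derivedSeries P d = ⊥) (Q : Subgroup H) (hQ : IsPGroup p Q) :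
    derivedSeries Q d = ⊥ := by
  haveI : Finite H := Finite.of_surjective f hf
  obtain ⟨S, hS⟩ := hQ.exists_le_sylow
  obtain ⟨P, rfl⟩ := Sylow.mapSurjective_surjective hf p S
  have h1 := h P P.2
  have h2 : derivedSeries ((P : Subgroup G).map f) d = ⊥ := by
    rw [← map_derivedSeries_eq (f := f.subgroupMap P) (f.subgroupMap_surjective P), h1, Subgroup.map_bot]
  have h3 := map_derivedSeries_le_derivedSeries (Subgroup.inclusion hS) d
  have h4 : derivedSeries ((P.mapSurjective hf : Sylow p H) : Subgroup H) d = ⊥ := h2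
  rw [h4, le_bot_iff, map_eq_bot_iff_of_injective _ (inclusion_injective hS)] at h3
  exact h3

theorem aux.{u} (r : ℕ) (q : Fin r → ℕ) (hq : ∀ i, (q i).Prime) (d : Fin r → ℕ)
    (G : Type u) [Group G] [Finite G] : Group.IsSolvable G →
    (∀ s : ℕ, s.Prime → s ∣ Nat.card G → ∃ i, q i = s) →
    (∀ i, ∀ P : Subgroup G, IsPGroup (q i) P → derivedSeries P (d i) = ⊥) →
    ∀ l : Fin r → ℕ, (∀ i, Cfsg.PLengthLE (q i) (l i) G) →
    derivedSeries G (Finset.univ.sum fun i => d i * l i) = ⊥ := by
  refine card_induction (P := fun G _ _ => Group.IsSolvable G →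
    (∀ s : ℕ, s.Prime → s ∣ Nat.card G → ∃ i, q i = s) →
    (∀ i, ∀ P : Subgroup G, IsPGroup (q i) P → derivedSeries P (d i) = ⊥) →
    ∀ l : Fin r → ℕ, (∀ i, Cfsg.PLengthLE (q i) (l i) G) →
    derivedSeries G (Finset.univ.sum fun i => d i * l i) = ⊥) (fun G _ _ ih => ?_) G
  intro hs hc hd l hl
  have hquo : ∀ (N : Subgroup G) [N.Normal], N ≠ ⊥ → ∀ l : Fin r → ℕ,
      (∀ i, Cfsg.PLengthLE (q i) (l i) (G ⧸ N)) →
      derivedSeries G (Finset.univ.sum fun i => d i * l i) ≤ N := by
    intro N _ hN l hl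
    have hlt : Nat.card (G ⧸ N) < Nat.card G := by
      rw [← N.card_mul_index]
      have h1 : 1 < Nat.card N := (one_lt_card_iff_ne_bot N).2 hN
      have h2 : 0 < N.index := Nat.pos_of_ne_zero N.index_ne_zero_of_finite
      change N.index < _
      nlinarith
    have := ih (G ⧸ N) hlt inferInstance
      (fun s hs hd => hc s hs (hd.trans (card_quotient_dvd_card N)))
      (fun i => haveI : Fact (q i).Prime := ⟨hq i⟩
        derived_of_surj _ (QuotientGroup.mk'_surjective N) (hd i)) l hl
    have h2 := map_derivedSeries_le_derivedSeries (QuotientGroup.mk' N)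
      (Finset.univ.sum fun i => d i * l i)
    rwa [this, le_bot_iff, Subgroup.map_eq_bot_iff, QuotientGroup.ker_mk'] at h2
  by_cases htriv : (⊤ : Subgroup G) = ⊥
  · exact eq_bot_iff.2 (le_top.trans htriv.le)
  obtain ⟨N, hN, -⟩ := exists_isMinNormal_le (⊤ : Subgroup G) htriv
  haveI := hN.1
  obtain ⟨p, hp, hNp⟩ := hN.exists_isPGroup inferInstance
  haveI : Fact p.Prime := ⟨hp⟩
  have hpd : p ∣ Nat.card G := by
    obtain ⟨k, hk⟩ := IsPGroup.iff_card.1 hNp
    have h1 : 1 < Nat.card N := (one_lt_card_iff_ne_bot N).2 hN.2.1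
    refine dvd_trans ?_ (card_subgroup_dvd_card N)
    rw [hk] at h1 ⊢
    exact dvd_pow_self _ (by rintro rfl; simp at h1)
  by_cases hO : pPrimeCore p G = ⊥
  · obtain ⟨i, rfl⟩ := hc p hp hpd
    have hli : l i ≠ 0 := by
      intro h0
      have := hl i
      rw [h0, pLengthLE_zero_iff] at this
      exact (Nat.Prime.coprime_iff_not_dvd hp).1 this.symm hpd
    obtain ⟨k, hk⟩ := Nat.exists_eq_succ_of_ne_zero hli
    haveI := ups_characteristic (p := q i) (G := G) (2 * 1)
    have hU : IsPGroup (q i) (ups (q i) G (2 * 1)) := by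
      apply isPGroup_of_pSec_bot
      have := pSec_ups_odd (p := q i) (G := G) 0
      simp only [mul_zero, zero_add, ups_one, hO] at this
      exact this
    have hUne : ups (q i) G (2 * 1) ≠ ⊥ := by
      intro h0
      have : N ≤ ups (q i) G (2 * 0 + 2) := le_ups_even (pSec_of_isPGroup hNp _)
      exact hN.2.1 (le_bot_iff.1 (this.trans h0.le))
    have h1 := hquo _ hUne (Function.update l i k) (by
      intro j
      by_cases hj : j = i
      · subst hj
        rw [Function.update_self]
        exact pLengthLE_quotient_ups (a := 1) (by have := hl j; rwa [hk, Nat.succ_eq_add_one, add_comm] at this)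
      · rw [Function.update_of_ne hj]
        haveI : Fact (q j).Prime := ⟨hq j⟩
        exact pLengthLE_quotient (hl j) _)
    have h2 := HigmanGroup.derivedSeries_add_le_map h1 (d i)
    rw [hd i _ hU, Subgroup.map_bot, le_bot_iff] at h2
    convert h2 using 2
    rw [← Finset.add_sum_erase _ _ (Finset.mem_univ i), ← Finset.add_sum_erase _ _ (Finset.mem_univ i),
      Function.update_self, hk]
    rw [Finset.sum_congr rfl (g := fun j => d j * l j)
      (f := fun j => d j * Function.update l i k j)]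
    · simp only [Nat.succ_eq_add_one]; ring
    · intro j hj
      rw [Function.update_of_ne (Finset.ne_of_mem_erase hj)]
  · have h1 := hquo N hN.2.1 l (fun i => haveI : Fact (q i).Prime := ⟨hq i⟩
      pLengthLE_quotient (hl i) _)
    have h2 := hquo _ hO l (fun i => haveI : Fact (q i).Prime := ⟨hq i⟩
      pLengthLE_quotient (hl i) _)
    refine eq_bot_iff.2 ((le_inf h1 h2).trans ?_)
    refine le_trans (inf_le_inf_right _ (le_pCore hNp)) ?_
    exact (pCore_inf_pPrimeCore p).le

theorem result {G : Type*} [Group G] [Finite G] (hG : Group.IsSolvable G) (r : ℕ) (q : Fin r → ℕ) (hq : ∀ i, (q i).Prime) (hinj : Function.Injective q) (hcover : ∀ s : ℕ, s.Prime → s ∣ Nat.card G → ∃ i, q i = s) (d l : Fin r → ℕ) (hd : ∀ i, ∀ P : Subgroup G, (haveI := Fact.mk (hq i); ∃ S : Sylow (q i) G, (S : Subgroup G) = P) → derivedSeries ↥P (d i) = ⊥) (hl : ∀ i, Cfsg.PLengthLE (q i) (l i) G) : derivedSeries G (Finset.univ.sum fun i => d i * l i) = ⊥ := by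
  refine aux r q hq d G hG hcover ?_ l hl
  intro i P hP
  haveI : Fact (q i).Prime := ⟨hq i⟩
  obtain ⟨S, hS⟩ := hP.exists_le_sylow
  have h1 := hd i S ⟨S, rfl⟩
  have h3 := map_derivedSeries_le_derivedSeries (Subgroup.inclusion hS) (d i)
  rw [h1, le_bot_iff, map_eq_bot_iff_of_injective _ (inclusion_injective hS)] at h3
  exact h3

end Cfsg.Agent.S3791
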