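import Cfsg.Statements.S3792
import Cfsg.Agent.Lib.Hall
import Cfsg.Agent.Lib.CoreElements
import Cfsg.Agent.Lib.CoprimeAction

set_option autoImplicit false
open Cfsg

namespace Cfsg.Agent.S3792

open Subgroup CfsgLib CfsgLib.Cop
open scoped commutatorElement

section

variable {G : Type*} [Group G]

/-- `O^π(B)` -/
def res (π : Set ℕ) (B : Subgroup G) : Subgroup G := closure {b | b ∈ B ∧ IsPiNum πᶜ (orderOf b)}

theorem res_le (π : Set ℕ) (B : Subgroup G) : res π B ≤ B := (closure_le _).2 fun _ h => h.1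

theorem map_res [Finite G] {G' : Type*} [Group G'] (f : G →* G') (π : Set ℕ) (B : Subgroup G) :
    (res π B).map f = res π (B.map f) := by
  rw [res, MonoidHom.map_closure]
  congr 1
  ext y
  constructor
  · rintro ⟨b, ⟨hb, h⟩, rfl⟩
    exact ⟨⟨b, hb, rfl⟩, h.of_dvd (orderOf_map_dvd f b)⟩
  · rintro ⟨⟨b, hb, rfl⟩, h⟩
    obtain ⟨u, hu, v, hv, h1, -, h2, h3⟩ := exists_pi_part π b
    have h4 : f u = 1 := orderOf_eq_one_iff.1 ((h2.of_dvd (orderOf_map_dvd f u)).eq_one
      (h.of_dvd (orderOf_dvd_of_mem_zpowers (by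
        rw [← MonoidHom.map_zpowers]
        exact ⟨u, hu, rfl⟩))))
    exact ⟨v, ⟨zpowers_le.2 hb hv, h3⟩, by rw [h1, map_mul, h4, one_mul]⟩

theorem res_eq_bot_iff [Finite G] {π : Set ℕ} {B : Subgroup G} :
    res π B = ⊥ ↔ IsPiSubgroup π B := by
  rw [res, closure_eq_bot_iff, isPiSubgroup_iff_orderOf]
  constructor
  · intro h b hb
    obtain ⟨u, -, v, hv, h1, -, h2, h3⟩ := exists_pi_part π b
    rwa [h1, show v = 1 from h ⟨zpowers_le.2 hb hv, h3⟩, mul_one]
  · exact fun h b hb => orderOf_eq_one_iff.1 (IsPiNum.eq_one (h b hb.1) hb.2)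

/-- alternating sets of primes -/
def alt (π : Set ℕ) : ℕ → Set ℕ
  | 0 => π
  | n + 1 => (alt π n)ᶜ

theorem alt_eq (π : Set ℕ) (n : ℕ) : alt π n = π ∨ alt π n = πᶜ := by
  induction n with
  | zero => exact Or.inl rfl
  | succ n ih => rcases ih with h | h <;> simp [alt, h]

/-- the lower alternating series -/
def iter (π : Set ℕ) (B : Subgroup G) : ℕ → Subgroup G
  | 0 => B
  | n + 1 => res (alt π n) (iter π B n)

theorem iter_le (π : Set ℕ) (B : Subgroup G) (n : ℕ) : iter π B n ≤ B := by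
  induction n with
  | zero => exact le_rfl
  | succ n ih => exact (res_le _ _).trans ih

theorem iter_eq_bot_of_le {π : Set ℕ} {B : Subgroup G} {m n : ℕ} (h : iter π B m = ⊥)
    (hmn : m ≤ n) : iter π B n = ⊥ := by
  induction hmn with
  | refl => exact h
  | step _ ih => exact eq_bot_iff.2 ((res_le _ _).trans ih.le)

theorem map_iter [Finite G] {G' : Type*} [Group G'] (f : G →* G') (π : Set ℕ) (B : Subgroup G)
    (n : ℕ) : (iter π B n).map f = iter π (B.map f) n := by
  induction n with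
  | zero => rfl
  | succ n ih => rw [iter, map_res, ih, iter]

theorem exists_iter_eq_bot {π : Set ℕ} [hfin : Finite G] (h : PiSep π G) (B : Subgroup G) :
    ∃ n, iter π B n = ⊥ := by
  revert hfin B
  induction h with
  | triv G hG => exact fun _ => ⟨0, Subsingleton.elim _ _⟩
  | ext G N hN _ ih =>
    intro _ B
    obtain ⟨n, hn⟩ := ih (B.map (QuotientGroup.mk' N))
    rw [← map_iter, Subgroup.map_eq_bot_iff, QuotientGroup.ker_mk'] at hn
    have : IsPiSubgroup (alt π n) N ∨ IsPiSubgroup (alt π (n + 1)) N := by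
      rcases alt_eq π n with h | h <;> simpa [alt, h, or_comm] using hN
    rcases this with h | h
    · exact ⟨n + 1, res_eq_bot_iff.2 (isPiSubgroup_of_le h hn)⟩
    · exact ⟨n + 2, res_eq_bot_iff.2 (isPiSubgroup_of_le h ((res_le _ _).trans hn))⟩

/-- the normal closure of `x` in `⟨x, r⟩` -/
def ncl (x r : G) : Subgroup G := closure {y | ∃ h ∈ closure {x, r}, y = h * x * h⁻¹}

theorem map_ncl {G' : Type*} [Group G'] (f : G →* G') (x r : G) :
    (ncl x r).map f = ncl (f x) (f r) := by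
  rw [ncl, MonoidHom.map_closure, ncl, ← Set.image_pair, ← MonoidHom.map_closure f {x, r}]
  congr 1
  ext y
  constructor
  · rintro ⟨_, ⟨h, hh, rfl⟩, rfl⟩
    exact ⟨_, ⟨h, hh, rfl⟩, by simp⟩
  · rintro ⟨_, ⟨h, hh, rfl⟩, rfl⟩
    exact ⟨_, ⟨h, hh, rfl⟩, by simp⟩

theorem le_normalizer_iter [Finite G] (π : Set ℕ) (x r : G) (n : ℕ) :
    closure {x, r} ≤ normalizer (iter π (ncl x r) n : Set G) := by
  intro g hg
  apply mem_normalizer_of_map_conj_eq
  rw [map_iter, map_conj_eq_of_mem_normalizer]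
  refine mem_normalizer_of_conj_mem fun y hy => ?_
  refine (show (ncl x r).map (MulAut.conj g).toMonoidHom ≤ ncl x r from ?_) ⟨y, hy, rfl⟩
  rw [ncl, MonoidHom.map_closure]
  refine closure_mono ?_
  rintro _ ⟨_, ⟨h, hh, rfl⟩, rfl⟩
  exact ⟨g * h, mul_mem hg hh, by simp [mul_assoc]⟩

theorem map_conj_mul' (B : Subgroup G) (g h : G) :
    B.map (MulAut.conj (g * h)).toMonoidHom =
      (B.map (MulAut.conj h).toMonoidHom).map (MulAut.conj g).toMonoidHom := by
  rw [Subgroup.map_map, map_mul]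
  rfl

theorem mem_normalizer_map_conj {B : Subgroup G} {g u : G} :
    g ∈ normalizer ((B.map (MulAut.conj u).toMonoidHom : Subgroup G) : Set G) ↔
      u⁻¹ * g * u ∈ normalizer (B : Set G) := by
  rw [← map_conj_eq_iff_mem_normalizer, ← map_conj_eq_iff_mem_normalizer, ← map_conj_mul',
    mul_assoc, map_conj_mul' B u⁻¹]
  constructor
  · intro h
    rw [h, ← map_conj_mul', inv_mul_cancel, map_one]
    exact Subgroup.map_id B
  · intro h
    conv_rhs => rw [← h, ← map_conj_mul', ← map_conj_mul', mul_inv_cancel, one_mul]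

theorem key [Finite G] {π σ : Set ℕ} {M : Subgroup G} [hM : M.Normal] (hMσ : IsPiSubgroup σᶜ M)
    (hs : (∀ B : Subgroup G, IsPiSubgroup σ B → Group.IsSolvable B) ∨ Group.IsSolvable M)
    {x : G} {n : ℕ} (h : ∀ r, IsPiSubgroup σ (iter π (ncl x r) n)) (r : G) :
    iter π (ncl x r) n ≤ centralizer (M : Set G) := by
  set B := iter π (ncl x r) n with hB
  have h1 : ∀ r r' : G, (r : G ⧸ M) = r' → ∃ w ∈ M,
      (iter π (ncl x r) n).map (MulAut.conj w).toMonoidHom ≤ iter π (ncl x r') n := by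
    intro r r' hr
    refine exists_conj_le_of_le_sup le_normalizer_of_normal ?_
      (coprime_card_of_isPiSubgroup disjoint_compl_right (h r) hMσ) (hs.imp_left fun h' => h' _ (h r))
    have : (iter π (ncl x r) n).map (QuotientGroup.mk' M) =
        (iter π (ncl x r') n).map (QuotientGroup.mk' M) := by
      rw [map_iter, map_iter, map_ncl, map_ncl, QuotientGroup.mk'_apply M r, hr]
      rfl
    rw [map_eq_map_iff, QuotientGroup.ker_mk'] at this
    rw [sup_comm, ← this]
    exact le_sup_left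
  have h2 : ∀ k : M, ∃ w : M, B.map (MulAut.conj (w : G)).toMonoidHom =
      iter π (ncl x (r * k)) n := by
    intro k
    have h3 : ((r * k : G) : G ⧸ M) = r := QuotientGroup.mk_mul_of_mem r k.2
    obtain ⟨w, hw, h4⟩ := h1 r _ h3.symm
    obtain ⟨w', -, h5⟩ := h1 _ r h3
    refine ⟨⟨w, hw⟩, eq_of_le_of_card_ge h4 ?_⟩
    rw [card_map_of_injective (MulAut.conj w).injective,
      ← card_map_of_injective (f := (MulAut.conj w').toMonoidHom) (MulAut.conj w').injective]
    exact card_le_of_le h5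
  choose w hw using h2
  let N := (normalizer (B : Set G)).subgroupOf M
  have h3 : ∀ u : M, B.map (MulAut.conj (((u : M ⧸ N).out : M) : G)).toMonoidHom =
      B.map (MulAut.conj (u : G)).toMonoidHom := by
    intro u
    obtain ⟨v, hv⟩ := QuotientGroup.mk_out_eq_mul N u
    rw [hv, coe_mul, map_conj_mul', map_conj_eq_of_mem_normalizer (mem_subgroupOf.1 v.2)]
  have hxr : ∀ r : G, x ∈ closure {x, r} := fun r => subset_closure (Or.inl rfl)
  have hrr : ∀ r : G, r ∈ closure {x, r} := fun r => subset_closure (Or.inr rfl)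
  let Φ : M → (M ⧸ N) × N := fun k => (w k, ⟨⟨r⁻¹ * (((w k : M ⧸ N).out : M) : G)⁻¹ * r⁻¹⁻¹,
      hM.conj_mem _ (M.inv_mem (Subtype.prop _)) _⟩ * k * (w k : M ⧸ N).out, by
    have h4 := le_normalizer_iter π x (r * k) n (hrr _)
    rw [← hw, ← h3, mem_normalizer_map_conj] at h4
    have := Subgroup.mul_mem _ (Subgroup.inv_mem _ (le_normalizer_iter π x r n (hrr _))) h4
    rw [mem_subgroupOf]
    simpa [mul_assoc] using this⟩)
  have h4 : Function.Injective Φ := by
    intro k k' h
    obtain ⟨h5, h6⟩ := Prod.mk.inj h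
    have h7 := congrArg (fun a : N => ((a : M) : G)) h6
    simp only [h5, coe_mul, mul_left_inj, mul_right_inj] at h7
    exact Subtype.ext h7
  have h5 := (h4.bijective_of_nat_card_le (by
    rw [Nat.card_prod, ← index_eq_card, index_mul_card])).2
  have h6 : ∀ u ∈ M, x ∈ normalizer ((B.map (MulAut.conj u).toMonoidHom : Subgroup G) : Set G) := by
    intro u hu
    obtain ⟨k, hk⟩ := h5 (((⟨u, hu⟩ : M) : M ⧸ N), 1)
    have h7 : (w k : M ⧸ N) = (⟨u, hu⟩ : M) := congrArg Prod.fst hk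
    rw [← h3 ⟨u, hu⟩, ← h7, h3, hw]
    exact le_normalizer_iter π x _ n (hxr _)
  intro b hb u hu
  have h7 : B ≤ normalizer ((B.map (MulAut.conj u).toMonoidHom : Subgroup G) : Set G) := by
    refine (iter_le _ _ _).trans ((closure_le _).2 ?_)
    rintro _ ⟨g, hg, rfl⟩
    have h8 := h6 (g⁻¹ * u * g⁻¹⁻¹) (hM.conj_mem u hu _)
    have h9 := le_normalizer_iter π x r n hg
    rw [SetLike.mem_coe, mem_normalizer_map_conj] at *
    have := Subgroup.mul_mem _ (Subgroup.mul_mem _ h9 h8) (Subgroup.inv_mem _ h9)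
    simpa [mul_assoc] using this
  have h8 := disjoint_of_isPiSubgroup disjoint_compl_right
    (isPiSubgroup_sup h7 (h r) (isPiSubgroup_map (h r) _)) hMσ
  rw [← commutatorElement_eq_one_iff_mul_comm, ← mem_bot, ← h8]
  refine ⟨mul_mem (mem_sup_right ⟨b, hb, rfl⟩) (mem_sup_left (B.inv_mem hb)), ?_⟩
  have := M.mul_mem hu (hM.conj_mem _ (M.inv_mem hu) b)
  simpa [commutatorElement_def, mul_assoc] using this

theorem main {p : ℕ} [Fact p.Prime] {π σ : Set ℕ} (hσ : σ = {p} ∨ σᶜ = {p}) [hfin : Finite G]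
    (hG : PiSep σ G) {x : G} {n : ℕ} (h : ∀ r, IsPiSubgroup σ (iter π (ncl x r) n)) (r : G) :
    iter π (ncl x r) n ≤ piCore σ G := by
  revert hfin x r
  induction hG with
  | triv G hG => exact fun _ _ => (Subsingleton.elim _ _).le
  | ext G M hM _ ih =>
    intro _ x h r
    have h1 := ih (x := (x : G ⧸ M)) (fun s => by
      obtain ⟨s, rfl⟩ := QuotientGroup.mk_surjective s
      have := isPiSubgroup_map (h s) (QuotientGroup.mk' M)
      rwa [map_iter, map_ncl] at this) r
    have h2 : iter π (ncl x r) n ≤ (piCore σ (G ⧸ M)).comap (QuotientGroup.mk' M) := by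
      rwa [← map_le_iff_le_comap, map_iter, map_ncl]
    rcases hM with hM | hM
    · rwa [comap_piCore_quotient hM] at h2
    have h3 := key hM (hσ.imp (fun h B hB => solvable_of_isPGroup
      (isPGroup_iff_isPiSubgroup.2 (h ▸ hB))) fun h => solvable_of_isPGroup
      (isPGroup_iff_isPiSubgroup.2 (h ▸ hM))) h r
    have h4 := (le_inf h2 h3).trans (le_sup_piCore_of_central (Normal.isSubnormal inferInstance)
      inf_le_right hM fun q hq hd hqσ => hqσ (piCore_isPiSubgroup (G := G ⧸ M) σ q hq (by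
        rw [← card_map_mk'_eq_relIndex] at hd
        exact hd.trans (card_dvd_of_le (map_le_iff_le_comap.2 inf_le_left)))))
    rw [compl_compl] at h4
    rw [← QuotientGroup.ker_mk' (piCore σ G), ← Subgroup.map_eq_bot_iff, eq_bot_iff,
      ← disjoint_of_isPiSubgroup disjoint_compl_right
        (isPiSubgroup_map (h r) (QuotientGroup.mk' _)) (isPiSubgroup_map hM (QuotientGroup.mk' _))]
    refine le_inf le_rfl ((map_mono h4).trans ?_)
    rw [Subgroup.map_sup, QuotientGroup.map_mk'_self, sup_bot_eq]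

end


/-- Powell's Theorem: let G be a finite non-abelian simple group and p an odd prime dividing its order such that every proper subgroup of G is p-soluble. Then G can be generated by three elements. -/
theorem result {G : Type*} [Group G] [Finite G] [IsSimpleGroup G] (hna : ¬ IsMulCommutative G) {p : ℕ} [Fact p.Prime] (hp : p ≠ 2) (hdvd : p ∣ Nat.card G) (hprop : ∀ H : Subgroup G, H ≠ ⊤ → Cfsg.IsPSolvable p ↥H) : ∃ x y z : G, Subgroup.closure ({x, y, z} : Set G) = ⊤ := by
  classical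
  by_contra! hno
  have hsep : ∀ x y z : G, PiSep {p} (closure {x, y, z} : Subgroup G) := fun x y z =>
    isPSolvable_iff_piSep.1 (hprop _ (hno x y z))
  obtain ⟨x, hx⟩ := exists_ne (1 : G)
  have hmap : ∀ (L : Subgroup G) (hx : x ∈ L) (r : L) (n : ℕ),
      (iter {p} (ncl ⟨x, hx⟩ r) n).map L.subtype = iter {p} (ncl x r) n := fun L hx r n => by
    rw [map_iter, map_ncl]
    rfl
  have hex : ∃ n, ∀ r, iter {p} (ncl x r) n = ⊥ := by
    have : ∀ r, ∃ n, iter {p} (ncl x r) n = ⊥ := fun r => by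
      have hxL : x ∈ closure {x, r, r} := subset_closure (by simp)
      have hrL : r ∈ closure {x, r, r} := subset_closure (by simp)
      obtain ⟨n, hn⟩ := exists_iter_eq_bot (hsep x r r) (ncl ⟨x, hxL⟩ ⟨r, hrL⟩)
      exact ⟨n, (hmap _ hxL ⟨r, hrL⟩ n).symm.trans (by rw [hn, Subgroup.map_bot])⟩
    choose f hf using this
    obtain ⟨n, hn⟩ := (Set.finite_range f).bddAbove
    exact ⟨n, fun r => iter_eq_bot_of_le (hf r) (hn ⟨r, rfl⟩)⟩
  obtain ⟨m, hm⟩ : ∃ m, Nat.find hex = m + 1 := Nat.exists_eq_succ_of_ne_zero (by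
    rw [Ne, Nat.find_eq_zero]
    intro h
    exact hx (mem_bot.1 ((h 1).le (subset_closure ⟨1, one_mem _, by simp⟩))))
  have h1 := Nat.find_spec hex
  rw [hm] at h1
  obtain ⟨r, hr⟩ := not_forall.1 (Nat.find_min hex (m := m) (by omega))
  set σ := alt {p} m
  have hσ : σ = {p} ∨ σᶜ = {p} := (alt_eq {p} m).imp_right fun h => (congrArg compl h).trans (compl_compl _)
  obtain ⟨⟨k, hk⟩, hk1⟩ := ne_bot_iff_exists_ne_one.1 hr
  have h2 : ∀ k ∈ iter {p} (ncl x r) m, ∀ y : G, IsPiNum σ (orderOf y) →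
      IsPiNum σ (orderOf (k * y)) := by
    intro k hk y hy
    have hxL : x ∈ closure {x, r, y} := subset_closure (by simp)
    have hrL : r ∈ closure {x, r, y} := subset_closure (by simp)
    have hyL : y ∈ closure {x, r, y} := subset_closure (by simp)
    have h3 := main hσ (hσ.elim (fun h => h ▸ hsep x r y) fun h => by
      have := (hsep x r y).compl
      rwa [← h, compl_compl] at this) (π := {p}) (x := ⟨x, hxL⟩) (n := m) (fun s => by
      rw [← isPiSubgroup_map_subtype_iff, hmap]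
      exact res_eq_bot_iff.1 (h1 s)) ⟨r, hrL⟩
    obtain ⟨k, hk', rfl⟩ := (hmap _ hxL ⟨r, hrL⟩ m).ge hk
    have h4 := isPiSubgroup_sup le_normalizer_of_normal
      (isPiSubgroup_zpowers_iff.2 (show IsPiNum σ (orderOf (⟨y, hyL⟩ : closure {x, r, y})) by
        rwa [← Subgroup.orderOf_coe])) (piCore_isPiSubgroup σ)
    have h5 := isPiSubgroup_iff_orderOf.1 h4 _
      (mul_mem (mem_sup_right (h3 hk')) (mem_sup_left (mem_zpowers _)))
    rwa [← Subgroup.orderOf_coe] at h5
  let S : Subgroup G :=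
    { carrier := {s | ∀ y : G, IsPiNum σ (orderOf y) →
        IsPiNum σ (orderOf (s * y)) ∧ IsPiNum σ (orderOf (s⁻¹ * y))}
      one_mem' := fun y hy => by simpa using hy
      mul_mem' := fun {a b} ha hb y hy => by
        rw [mul_assoc, mul_inv_rev, mul_assoc]
        exact ⟨(ha _ (hb y hy).1).1, (hb _ (ha y hy).2).2⟩
      inv_mem' := fun {a} ha y hy => by
        rw [inv_inv]
        exact (ha y hy).symm }
  have hS : S.Normal := ⟨fun s hs g y hy => by
    have h3 := hs (g⁻¹ * y * g) (by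
      rwa [← (MulAut.conj g⁻¹).orderOf_eq y, MulAut.conj_apply, inv_inv] at hy)
    rw [← (MulAut.conj g).orderOf_eq, ← (MulAut.conj g).orderOf_eq (s⁻¹ * _)] at h3
    simpa [mul_assoc] using h3⟩
  have h3 : S = ⊤ := hS.eq_bot_or_eq_top.resolve_left fun h => hk1 (Subtype.ext (mem_bot.1 (h.le
    fun y hy => ⟨h2 k hk y hy, h2 _ (inv_mem hk) y hy⟩)))
  have h4 : IsPiSubgroup σ (⊤ : Subgroup G) := isPiSubgroup_iff_orderOf.2 fun g _ => by
    have := (h3.ge (mem_top g) 1 (by simpa using isPiNum_one σ)).1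
    rwa [mul_one] at this
  rcases hσ with h | h
  · have := solvable_of_isPGroup
      ((isPGroup_iff_isPiSubgroup.2 (h ▸ h4)).of_equiv topEquiv)
    exact hna ⟨⟨IsSimpleGroup.comm_iff_isSolvable.2 this⟩⟩
  · exact (h.ge rfl : p ∈ σᶜ) (h4 p Fact.out (by rwa [card_top]))

end Cfsg.Agent.S3792
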