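import Cfsg.Statements.S3794
import Cfsg.Agent.Lib.FpfPQ
import Cfsg.Agent.Lib.FrobBasic

set_option autoImplicit false
open Cfsg

namespace Cfsg.Agent.S3794

open Module Subgroup CfsgLib CfsgLib.H9 CfsgLib.Fpf
open scoped commutatorElement

theorem comm_of_fpf {X : Type*} [Group X] [Finite X] {D : Subgroup X} {t : X}
    (hn : t ∈ normalizer (D : Set X)) (hf : ∀ k ∈ D, t * k = k * t → k = 1)
    (h2 : ∀ k ∈ D, t ^ 2 * k = k * t ^ 2) : ⁅D, D⁆ = ⊥ := by
  have h1 : ∀ d ∈ D, t * d * t⁻¹ = d⁻¹ := fun d hd => by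
    obtain ⟨x, hx, e⟩ := Frob.exists_conj_eq_mul_of_fpf
      (fun k hk => conj_mem_of_mem_normalizer hn hk) hf hd
    have h3 : (d * t) ^ 2 = t ^ 2 := by rw [← e, conj_pow, ← h2 x hx, mul_inv_cancel_right]
    calc t * d * t⁻¹ = d⁻¹ * (d * t) ^ 2 * (t ^ 2)⁻¹ := by simp only [sq]; group
      _ = d⁻¹ := by rw [h3, mul_inv_cancel_right]
  refine le_bot_iff.1 (commutator_le.2 fun a ha b hb => mem_bot.2 ?_)
  have := h1 _ (mul_mem ha hb)
  rw [← conj_mul, h1 a ha, h1 b hb, mul_inv_rev] at this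
  rw [commutatorElement_def, mul_assoc, this]; group

theorem aux {ℓ : ℕ} [Fact ℓ.Prime] {Y : Type*} [Group Y] [Finite Y] {k W : Type*} [Field k]
    [AddCommGroup W] [Module k W] [IsAlgClosed k] [CharP k ℓ] [FiniteDimensional k W]
    {ρ : Y →* Module.End k W} {H : Subgroup Y} {s : Y} (c : Conf ℓ ρ H (zpowers s))
    (hs : s ^ 4 = 1) : ⁅H, H⁆ = ⊥ := by
  have := c.normal
  have hf : ∀ k ∈ H, s * k = k * s → k = 1 := fun k hk h =>
    mem_bot.1 (c.fpf.le ⟨hk, mem_centralizer_zpowers_iff.2 h⟩)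
  refine comm_of_fpf (le_normalizer_of_normal (mem_top s)) hf ?_
  by_cases h2 : s ^ 2 = 1
  · intro k _; rw [h2, one_mul, mul_one]
  have ho : orderOf s = 2 ^ 2 := orderOf_eq_prime_pow (n := 1) (by simpa using h2) (by simpa using hs)
  have hcop := c.cop
  rw [Nat.card_zpowers, ho] at hcop
  have hodd : (Nat.card H).Coprime 2 := (hcop.coprime_dvd_left (dvd_pow_self 2 two_ne_zero)).symm
  obtain ⟨F, hFn, hFH, hF, hC, -⟩ := c.exists_fitting
  have h3 : ⁅F, zpowers (s ^ 2)⁆ = ⊥ := by
    refine commutator_eq_bot_iff_le_centralizer.2 fun g hg => mem_centralizer_zpowers_iff.2 ?_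
    by_contra hne
    have hx : ⁅g⁻¹, s ^ 2⁆ ∈ F :=
      commutator_le_left F ⊤ (commutator_mem_commutator (inv_mem hg) (mem_top _))
    have hx1 : ⁅g⁻¹, s ^ 2⁆ ≠ 1 := fun h => hne
      (Commute.inv_left_iff.1 (commutatorElement_eq_one_iff_commute.1 h)).symm.eq
    have hss : s * s * s * s = 1 := by rw [← hs]; simp only [pow_succ, pow_zero, one_mul]
    have hinv : s * (s * ⁅g⁻¹, s ^ 2⁆ * s⁻¹) * s⁻¹ = ⁅g⁻¹, s ^ 2⁆⁻¹ := by
      calc _ = s ^ 2 * g⁻¹ * (s * s * s * s) * (s ^ 2)⁻¹ * g * (s * s * s * s)⁻¹ := by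
            simp only [commutatorElement_def, sq, mul_assoc, mul_inv_rev, mul_inv_cancel_left,
              inv_inv]
        _ = _ := by rw [hss]; simp only [commutatorElement_def]; group
    generalize ⁅g⁻¹, s ^ 2⁆ = x at hx hx1 hinv
    set y := s * x * s⁻¹ with hy
    have hyF : y ∈ F := hFn.conj_mem _ hx _
    have hxy : x * y = y * x := by
      obtain ⟨z, -, e⟩ := Frob.exists_conj_eq_mul_of_fpf
        (fun k hk => hFn.conj_mem _ hk s) (fun k hk => hf k (hFH hk)) hx
      have h4 : (x * s) ^ 4 = 1 := by rw [← e, conj_pow, hs]; group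
      rw [← commutatorElement_eq_one_iff_mul_comm, ← h4]
      calc ⁅x, y⁆ = x * y * x⁻¹ * (s * x⁻¹ * s⁻¹) := by rw [commutatorElement_def, hy]; group
        _ = x * y * (s * y * s⁻¹) * (s * (s * y * s⁻¹) * s⁻¹) * (s * s * s * s) := by
            rw [hinv, hss, mul_one]
        _ = _ := by rw [hy, show 4 = 1 + 1 + 1 + 1 from rfl]; simp only [pow_succ]; group
    have hK : closure {x, y} ≤ F := (closure_le _).2 (Set.pair_subset hx hyF)
    have hcomm : IsMulCommutative (closure {x, y} : Subgroup Y) :=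
      isMulCommutative_closure fun a ha b hb => by
        rcases ha with rfl | rfl <;> rcases hb with rfl | rfl <;> first | rfl | exact hxy | exact hxy.symm
    have hxK : x ∈ closure {x, y} := subset_closure (Set.mem_insert _ _)
    have hyK : y ∈ closure {x, y} := subset_closure (Set.mem_insert_of_mem _ rfl)
    obtain ⟨hm, hd⟩ := monic_geom k (h := 4) (by norm_num)
    obtain ⟨_, _, _, _, -, -, -, -, -, -, Q, hQ, -, hQc⟩ := hh_general ρ (closure {x, y})
      (natCast_ne_zero_of_coprime k ℓ ((c.coprime_of_isNilpotent hFH hF).coprime_dvd_left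
        (card_dvd_of_le hK))) Nat.prime_two (hodd.coprime_dvd_left (card_dvd_of_le (hK.trans hFH)))
      (x := s) (n := 1) (by rw [show 2 ^ (1 + 1) = 4 from rfl, hs, map_one])
      (mem_normalizer_of_conj_mem fun z hz => by
        have : closure {x, y} ≤ (closure {x, y}).comap (MulAut.conj s).toMonoidHom :=
          (closure_le _).2 (Set.pair_subset hyK (show s * y * s⁻¹ ∈ _ from hinv ▸ inv_mem hxK))
        exact this hz)
      ⟨x, hxK, fun h => by
        have e : ⁅x, s ^ 2 ^ 1⁆ = x ^ 2 := by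
          calc _ = x * (s * y * s⁻¹)⁻¹ := by 
                simp only [hy, commutatorElement_def, pow_one, sq, mul_assoc, mul_inv_rev, inv_inv]
            _ = _ := by rw [hinv, inv_inv, sq]
        rw [e] at h
        have h5 := c.faithful _ (pow_mem (hFH hx) 2) h
        exact hx1 (orderOf_eq_one_iff.1 (Nat.eq_one_of_dvd_coprimes hodd
          (Subgroup.orderOf_dvd_natCard H (hFH hx)) (orderOf_dvd_of_pow_eq_one h5)))⟩
      _ hm (by rw [aeval_geom, ← c.norm, normOp_zpowers, ho]; rfl) (by rw [hd]; norm_num)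
    exact hQc (le_centralizer_iff_isMulCommutative.1 (hQ.trans
      ((le_centralizer_iff_isMulCommutative.2 hcomm).trans (centralizer_le hQ))))
  have h4 := Cop.commutator_eq_bot_of_centralizer_le (A := zpowers (s ^ 2)) (G := H)
    le_normalizer_of_normal le_normalizer_of_normal hC h3 (c.cop.coprime_dvd_left
      (card_dvd_of_le (zpowers_le.2 (pow_mem (mem_zpowers s) 2))) |>.coprime_dvd_right
      (card_dvd_of_le hFH))
  exact fun k hk => mem_centralizer_zpowers_iff.1 (commutator_eq_bot_iff_le_centralizer.1 h4 hk)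


/-- Let G be a finite solvable group with an automorphism σ satisfying σ⁴ = 1 and fixing only the identity. Then the derived subgroup G' is nilpotent. -/
theorem result {G : Type*} [Group G] [Finite G] (hG : Group.IsSolvable G) (σ : MulAut G) (hσ : σ ^ 4 = 1) (hfpf : ∀ g : G, σ g = g → g = 1) : Group.IsNilpotent (commutator G) := by
  have hp : IsPGroup 2 (zpowers σ) := IsPGroup.of_card_dvd_pow (n := 2) (by
    rw [Nat.card_zpowers]; exact orderOf_dvd_of_pow_eq_one hσ)
  have hcop : (Nat.card (zpowers σ)).Coprime (Nat.card G) := by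
    have h1 := hp.card_modEq_card_fixedPoints G
    have h2 : MulAction.fixedPoints (zpowers σ) G = {1} := Set.eq_singleton_iff_unique_mem.2
      ⟨fun a => map_one (a : MulAut G), fun g hg => hfpf g (hg ⟨σ, mem_zpowers σ⟩)⟩
    rw [h2, Nat.card_unique (α := ({1} : Set G))] at h1
    obtain ⟨n, hn⟩ := IsPGroup.iff_card.1 hp
    rw [hn]
    refine Nat.Coprime.pow_left _ ((Nat.coprime_comm.1 (Nat.coprime_of_mul_modEq_one 1 ?_)))
    rwa [mul_one]
  refine reduce_aut (zpowers σ).subtype _ hG hcop (fun g h => hfpf g (h ⟨σ, mem_zpowers σ⟩))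
    fun Y _ _ i j ℓ _ W _ _ _ ρ c hj => ?_
  have e : j.range = zpowers (j ⟨σ, mem_zpowers σ⟩) := by
    rw [← MonoidHom.map_zpowers, MonoidHom.range_eq_map]
    congr 1
    refine (eq_top_iff.2 ?_).symm
    rintro ⟨_, n, rfl⟩ -
    exact ⟨n, rfl⟩
  rw [e] at c
  rw [commutator_def, Subgroup.map_commutator, ← MonoidHom.range_eq_map]
  exact aux c (by rw [← map_pow, ← map_one j]; exact congrArg j (Subtype.ext hσ))

end Cfsg.Agent.S3794
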