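import Cfsg.Statements.S3795
import Cfsg.Agent.Lib.H9Gross

set_option autoImplicit false
open Cfsg

namespace Cfsg.Agent.S3795

/-- Gross's Theorem: let G be a finite solvable group with an automorphism σ of order 2^n, n > 1, fixing only the identity. Then G has Fitting height at most 2n − 2: G has Fitting height at most m when there is a chain of normal subgroups 1 = F₀ ≤ F₁ ≤ ⋯ ≤ F_m = G with each F_{i+1}/F_i nilpotent. -/
theorem result {G : Type*} [Group G] [Finite G] (hG : Group.IsSolvable G) (σ : MulAut G) (n : ℕ) (hn : 1 < n) (hσ : orderOf σ = 2 ^ n) (hfpf : ∀ g : G, σ g = g → g = 1) : ∃ F : Fin ((2 * n - 2) + 1) → Subgroup G, F 0 = ⊥ ∧ F (Fin.last (2 * n - 2)) = ⊤ ∧ Monotone F ∧ (∀ i, (F i).Normal) ∧ ∀ i : Fin (2 * n - 2), ∃ k : ℕ, (F i.succ).lowerCentralSeries k ≤ F i.castSucc := by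
  refine CfsgLib.H9.chain_of_lfs (CfsgLib.H9.lfs_eq_bot_of_aut hG Nat.prime_two σ hσ hfpf
    fun X _ _ G _ x h1 h2 h3 h4 h5 => ?_)
  have key := CfsgLib.H9.lfs_eq_bot_of_step (p := 2) (fun i => if i ≤ 1 then 1 else 2)
    (fun n X _ _ G _ x h1 h2 h3 h4 h5 => by
      split_ifs with h
      · exact CfsgLib.H9.step_one Nat.prime_two (fun _ => h) X G x h1 h2 h3 h4 h5
      · exact CfsgLib.H9.step_two X G x h1 h2 h3 h4 h5) n X G x h1 h2 h3 h4 h5
  have hsum : ∀ m, ∑ i ∈ Finset.range (m + 2), (if i ≤ 1 then 1 else 2) = 2 * (m + 2) - 2 := by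
    intro m
    induction m with
    | zero => rfl
    | succ m ih => rw [add_right_comm, Finset.sum_range_succ, ih, if_neg (by omega)]; omega
  obtain ⟨m, rfl⟩ := Nat.exists_eq_add_of_le' hn
  rwa [hsum] at key

end Cfsg.Agent.S3795
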