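import Cfsg.Statements.S3796
import Cfsg.Agent.Lib.FpfPQ

set_option autoImplicit false
open Cfsg

namespace Cfsg.Agent.S3796

/-- Ward's Theorem: let G be a finite solvable group and A an elementary abelian group of automorphisms of G of order p² (p a prime) with no non-identity common fixed point. Then G has Fitting height at most 2: G has Fitting height at most m when there is a chain of normal subgroups 1 = F₀ ≤ F₁ ≤ ⋯ ≤ F_m = G with each F_{i+1}/F_i nilpotent. -/
theorem result {G : Type*} [Group G] [Finite G] (hG : Group.IsSolvable G) {p : ℕ} (hp : p.Prime) (A : Subgroup (MulAut G)) (hA : Cfsg.IsElementaryAbelian p A) (hcard : Nat.card A = p ^ 2) (hfpf : ∀ g : G, (∀ a ∈ A, a g = g) → g = 1) : ∃ F : Fin (2 + 1) → Subgroup G, F 0 = ⊥ ∧ F (Fin.last 2) = ⊤ ∧ Monotone F ∧ (∀ i, (F i).Normal) ∧ ∀ i : Fin 2, ∃ k : ℕ, (F i.succ).lowerCentralSeries k ≤ F i.castSucc := by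
  have := Fact.mk hp
  have hcop : (Nat.card A).Coprime (Nat.card G) := by
    have h1 := (IsPGroup.of_card hcard).card_modEq_card_fixedPoints G
    have h2 : MulAction.fixedPoints A G = {1} := Set.eq_singleton_iff_unique_mem.2
      ⟨fun a => map_one (a : MulAut G), fun g hg => hfpf g fun a ha => hg ⟨a, ha⟩⟩
    rw [h2, Nat.card_unique (α := ({1} : Set G))] at h1
    rw [hcard]
    refine Nat.Coprime.pow_left _ ((Nat.coprime_comm.1 (Nat.coprime_of_mul_modEq_one 1 ?_)))
    rwa [mul_one]
  obtain ⟨n, hn⟩ := CfsgLib.Fpf.exists_isNilpotent_lcs A.subtype hG hp hp (hcard.trans (sq p))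
    hcop fun g h => hfpf g fun a ha => h ⟨a, ha⟩
  obtain ⟨m, hm⟩ := (Subgroup.isNilpotent_iff_lowerCentralSeries _).1 hn
  refine ⟨![⊥, (⊤ : Subgroup G).lowerCentralSeries n, ⊤], rfl, rfl, ?_, fun i => ?_, fun i => ?_⟩
  · refine Fin.monotone_iff_le_succ.2 fun i => ?_
    fin_cases i
    · exact bot_le
    · exact le_top
  · fin_cases i
    · exact (inferInstance : (⊥ : Subgroup G).Normal)
    · exact (inferInstance : ((⊤ : Subgroup G).lowerCentralSeries n).Normal)
    · exact (inferInstance : (⊤ : Subgroup G).Normal)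
  · fin_cases i
    · exact ⟨m, hm.le⟩
    · exact ⟨n, le_rfl⟩

end Cfsg.Agent.S3796
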