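import Cfsg.Statements.S3798
import Cfsg.Agent.Lib.H9PStruct
import Cfsg.Agent.Lib.PGroupBasic

set_option autoImplicit false
open Cfsg

namespace Cfsg.Agent.S3798

open Subgroup CfsgLib CfsgLib.H9
open scoped commutatorElement

theorem mem_of_char {G : Type*} [Group G] [Finite G] {p : ℕ} [hp : Fact p.Prime]
    (htrans : ∀ U V : Subgroup G, Nat.card U = p → Nat.card V = p →
      ∃ a : MulAut G, U.map a.toMonoidHom = V)
    (C : Subgroup G) [hC : C.Characteristic] {y : G} (hy : y ∈ C) (hyp : orderOf y = p)
    {x : G} (hx : orderOf x = p) : x ∈ C := by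
  obtain ⟨a, ha⟩ := htrans (zpowers y) (zpowers x) (by rw [Nat.card_zpowers, hyp])
    (by rw [Nat.card_zpowers, hx])
  have h1 : zpowers x ≤ C := by
    rw [← ha, ← characteristic_iff_map_eq.1 hC a]
    exact map_mono (zpowers_le.2 hy)
  exact h1 (mem_zpowers x)

theorem exists_orderOf_eq {G : Type*} [Group G] [Finite G] {p : ℕ} [hp : Fact p.Prime]
    {H : Subgroup G} (hd : p ∣ Nat.card H) : ∃ y ∈ H, orderOf y = p := by
  obtain ⟨x, hx⟩ := exists_prime_orderOf_dvd_card' p hd
  exact ⟨x, x.2, by rw [← hx, Subgroup.orderOf_coe]⟩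

theorem core {G : Type*} [Group G] [Finite G] {p : ℕ} [hp : Fact p.Prime] (hp2 : p ≠ 2)
    (hG : IsPSolvable p G) (h0 : pPrimeCore p G = ⊥)
    (htrans : ∀ U V : Subgroup G, Nat.card U = p → Nat.card V = p →
      ∃ a : MulAut G, U.map a.toMonoidHom = V) : PLengthLE p 1 G := by
  obtain ⟨K, hK, hPK, hfr⟩ := exists_ppCore_complement (G := G) (p := p)
  have hPc := pCore_characteristic (G := G) p
  have hNc := ppCore_characteristic (G := G) (p := p)
  have hPn : (pCore p G).Normal := inferInstance
  have hKP : K ≤ normalizer (pCore p G : Set G) := by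
    rw [normalizer_eq_top]; exact le_top
  have hdisj : pCore p G ⊓ K = ⊥ := by
    obtain ⟨a, ha⟩ := IsPGroup.iff_card.1 (pCore_isPGroup (G := G) p)
    exact (disjoint_of_coprime_natCard (by rw [ha]; exact (hK.pow_right a).symm)).eq_bot
  by_cases hd : p ∣ Nat.card (normalizer (K : Set G))
  · -- `K` centralizes all elements of order `p`
    obtain ⟨y, hyN, hy⟩ := exists_orderOf_eq hd
    have hP0 : pCore p G ≠ ⊥ := by
      have : Nontrivial G := ⟨⟨y, 1, fun h => hp.out.one_lt.ne' (by rw [← hy, h, orderOf_one])⟩⟩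
      exact (isPSolvable_core_ne_bot hG).resolve_right (fun h => h h0)
    -- all elements of order `p` lie in the center of `O_p(G)`
    have hZ : ∀ x : G, orderOf x = p → x ∈ pCore p G ⊓ centralizer (pCore p G : Set G) := by
      have hZ0 : pCore p G ⊓ centralizer (pCore p G : Set G) ≠ ⊥ := by
        rw [← Cop.map_subtype_center]
        have : Nontrivial (pCore p G) := (Subgroup.nontrivial_iff_ne_bot _).2 hP0
        have h1 := (pCore_isPGroup (G := G) p).center_nontrivial
        rw [Subgroup.nontrivial_iff_ne_bot] at h1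
        intro h
        exact h1 ((Subgroup.map_eq_bot_iff_of_injective _ (subtype_injective _)).1 h)
      have hZp : IsPGroup p ↥(pCore p G ⊓ centralizer (pCore p G : Set G)) :=
        (pCore_isPGroup p).to_le inf_le_left
      obtain ⟨z, hz, hzo⟩ := exists_orderOf_eq (p := p)
        (H := pCore p G ⊓ centralizer (pCore p G : Set G))
        (hZp.card_eq_or_dvd.resolve_left (fun h => hZ0 (card_eq_one.1 h)))
      have : (pCore p G ⊓ centralizer (pCore p G : Set G)).Characteristic := inferInstance
      exact fun x hx => mem_of_char htrans _ hz hzo hx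
    have hyC : y ∈ centralizer (ppCore p G : Set G) := by
      rw [← hPK]
      have h1 : pCore p G ⊔ K ≤ centralizer ({y} : Set G) := by
        refine sup_le (fun u hu => ?_) (fun k hk => ?_)
        · rw [mem_centralizer_singleton_iff]
          exact (hZ y hy).2 u hu
        · rw [mem_centralizer_singleton_iff, ← commutatorElement_eq_one_iff_mul_comm, ← mem_bot,
            ← hdisj, commutatorElement_def]
          refine ⟨?_, ?_⟩
          · exact (pCore p G).mul_mem (hPn.conj_mem _ (hZ y hy).1 _) ((pCore p G).inv_mem (hZ y hy).1)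
          · rw [mul_assoc, mul_assoc, ← mul_assoc y]
            exact mul_mem hk (conj_mem_of_mem_normalizer hyN (inv_mem hk))
      intro g hg
      exact mem_centralizer_singleton_iff.1 (h1 hg)
    have hall : ∀ x : G, orderOf x = p → x ∈ centralizer (ppCore p G : Set G) :=
      fun x hx => mem_of_char htrans _ hyC hy hx
    have hcomm : ⁅pCore p G, K⁆ = ⊥ := by
      refine Cop.commutator_eq_bot_of_centralizes_omega_odd hp2 (pCore_isPGroup p) hKP hK ?_
      intro x _ hxp
      by_cases hx1 : x = 1
      · rw [hx1]; exact one_mem _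
      · exact centralizer_le (show K ≤ ppCore p G from hPK ▸ le_sup_right)
          (hall x (orderOf_eq_prime hxp hx1))
    have hKle : K ≤ pCore p G :=
      (Cop.commutator_eq_bot_iff_le_centralizer'.1 hcomm).trans (centralizer_pCore_le hG h0)
    have hK0 : K = ⊥ := by rw [← hdisj]; exact (inf_eq_right.2 hKle).symm
    -- then `G / O_p(G)` is trivial
    have hq : Subsingleton (G ⧸ pCore p G) := by
      by_contra hnt
      rw [not_subsingleton_iff_nontrivial] at hnt
      rcases isPSolvable_core_ne_bot (isPSolvable_quotient hG (pCore p G)) with h | h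
      · exact h (pCore_quotient_pCore p)
      · apply h
        rw [hK0, sup_bot_eq] at hPK
        rw [eq_bot_iff]
        intro x hx
        obtain ⟨x, rfl⟩ := QuotientGroup.mk'_surjective _ x
        have : x ∈ ppCore p G := hx
        rw [← hPK] at this
        exact (QuotientGroup.eq_one_iff x).2 this
    exact pLengthLE_succ_of_quotient_isPGroup _ (pCore_isPGroup p)
      (pLengthLE_zero_iff.2 (by rw [Nat.card_of_subsingleton (1 : G ⧸ pCore p G)]; simp))
  · refine pLengthLE_succ_of_quotient_isPGroup _ (pCore_isPGroup p) (pLengthLE_zero_iff.2 ?_)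
    have hs : Function.Surjective
        ((QuotientGroup.mk' (pCore p G)).comp (normalizer (K : Set G)).subtype) := by
      intro x
      obtain ⟨g, rfl⟩ := QuotientGroup.mk'_surjective _ x
      obtain ⟨u, hu, n, hn, rfl⟩ := hfr g
      exact ⟨⟨n, hn⟩, by simp [(QuotientGroup.eq_one_iff u).2 hu]⟩
    exact Nat.Coprime.coprime_dvd_left (card_dvd_of_surjective _ hs)
      ((hp.out.coprime_iff_not_dvd.2 hd).symm)

theorem lift_sub {G : Type*} [Group G] [Finite G] {p : ℕ} [hp : Fact p.Prime] (N : Subgroup G)
    [N.Normal] (hN : (Nat.card N).Coprime p) (U : Subgroup (G ⧸ N)) (hU : Nat.card U = p) :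
    ∃ U' : Subgroup G, Nat.card U' = p ∧ U'.map (QuotientGroup.mk' N) = U := by
  obtain ⟨y, hy, hyo⟩ := exists_orderOf_eq (p := p) (H := U.comap (QuotientGroup.mk' N))
    (by rw [card_comap_mk', hU]; exact dvd_mul_right _ _)
  refine ⟨zpowers y, by rw [Nat.card_zpowers, hyo], ?_⟩
  rw [MonoidHom.map_zpowers]
  refine eq_of_le_of_card_le (zpowers_le.2 hy) ?_
  rw [Nat.card_zpowers, hU]
  have h1 : orderOf (QuotientGroup.mk' N y) ∣ p := hyo ▸ orderOf_map_dvd _ _
  rcases (Nat.dvd_prime hp.out).1 h1 with h | h
  · exfalso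
    rw [orderOf_eq_one_iff] at h
    have h2 : y ∈ N := (QuotientGroup.eq_one_iff y).1 h
    have h3 := N.orderOf_dvd_natCard h2
    rw [hyo] at h3
    exact hp.out.coprime_iff_not_dvd.1 hN.symm h3
  · exact h.ge

/-- The Gaschütz–Yen Theorem: let G be a finite p-soluble group, p an odd prime dividing its order, such that the automorphism group of G permutes the subgroups of G of order p transitively. Then G has p-length at most 1. -/
theorem result {G : Type*} [Group G] [Finite G] {p : ℕ} [Fact p.Prime] (hp : p ≠ 2) (hdvd : p ∣ Nat.card G) (hG : Cfsg.IsPSolvable p G) (htrans : ∀ U V : Subgroup G, Nat.card U = p → Nat.card V = p → ∃ a : MulAut G, U.map a.toMonoidHom = V) : Cfsg.PLengthLE p 1 G := by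
  have hc := CfsgLib.pPrimeCore_characteristic (G := G) p
  have hN := CfsgLib.pPrimeCore_coprime (G := G) p
  refine pLengthLE_of_quotient_coprime _ hN (core hp (isPSolvable_quotient hG _)
    (pPrimeCore_quotient_pPrimeCore p) ?_)
  intro U V hU hV
  obtain ⟨U', hU', rfl⟩ := lift_sub _ hN U hU
  obtain ⟨V', hV', rfl⟩ := lift_sub _ hN V hV
  obtain ⟨a, ha⟩ := htrans U' V' hU' hV'
  refine ⟨QuotientGroup.congr _ _ a (characteristic_iff_map_eq.1 hc a), ?_⟩
  rw [← ha, map_map, map_map]
  congr 1

end Cfsg.Agent.S3798
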