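import Cfsg.Statements.S3799
import Cfsg.Agent.Lib.Extraspecial

set_option autoImplicit false
open Cfsg

namespace Cfsg.Agent.S3799

open scoped commutatorElement

/-- The Heisenberg group. -/
@[ext]
structure Heis (n : ℕ) (F : Type) where
  a : Fin n → F
  b : Fin n → F
  c : F

variable {n : ℕ} {F : Type} [CommRing F]

instance heisMul : Mul (Heis n F) := ⟨fun x y => ⟨x.a + y.a, x.b + y.b, x.c + y.c + x.a ⬝ᵥ y.b⟩⟩
instance heisOne : One (Heis n F) := ⟨⟨0, 0, 0⟩⟩
instance heisInv : Inv (Heis n F) := ⟨fun x => ⟨-x.a, -x.b, -x.c + x.a ⬝ᵥ x.b⟩⟩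

@[simp] theorem mul_a (x y : Heis n F) : (x * y).a = x.a + y.a := rfl
@[simp] theorem mul_b (x y : Heis n F) : (x * y).b = x.b + y.b := rfl
@[simp] theorem mul_c (x y : Heis n F) : (x * y).c = x.c + y.c + x.a ⬝ᵥ y.b := rfl
@[simp] theorem one_a : (1 : Heis n F).a = 0 := rfl
@[simp] theorem one_b : (1 : Heis n F).b = 0 := rfl
@[simp] theorem one_c : (1 : Heis n F).c = 0 := rfl
@[simp] theorem inv_a (x : Heis n F) : (x⁻¹).a = -x.a := rfl
@[simp] theorem inv_b (x : Heis n F) : (x⁻¹).b = -x.b := rfl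
@[simp] theorem inv_c (x : Heis n F) : (x⁻¹).c = -x.c + x.a ⬝ᵥ x.b := rfl

instance heisGroup : Group (Heis n F) := Group.ofLeftAxioms
  (fun x y z => by ext <;> simp [add_assoc]; ring) (fun x => by ext <;> simp)
  (fun x => by ext <;> simp)

/-- coordinates -/
def equivProd : Heis n F ≃ (Fin n → F) × (Fin n → F) × F where
  toFun x := (x.a, x.b, x.c)
  invFun x := ⟨x.1, x.2.1, x.2.2⟩
  left_inv _ := rfl
  right_inv _ := rfl

theorem pow_eq (x : Heis n F) (k : ℕ) :
    x ^ k = ⟨k • x.a, k • x.b, k • x.c + (k.choose 2) • (x.a ⬝ᵥ x.b)⟩ := by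
  induction k with
  | zero => ext <;> simp
  | succ k ih =>
    rw [pow_succ, ih]
    ext
    · simp [add_mul]
    · simp [add_mul]
    · simp only [mul_c, smul_dotProduct, Nat.choose_succ_succ' k 1]
      simp
      ring

theorem mem_center_iff {x : Heis n F} : x ∈ Subgroup.center (Heis n F) ↔ x.a = 0 ∧ x.b = 0 := by
  rw [Subgroup.mem_center_iff]
  constructor
  · intro h
    constructor
    · ext i
      simpa using congrArg Heis.c (h ⟨0, Pi.single i 1, 0⟩)
    · ext i
      simpa using congrArg Heis.c (h ⟨Pi.single i 1, 0, 0⟩)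
  · rintro ⟨h1, h2⟩ g
    ext <;> simp [h1, h2, add_comm]

/-- the centre -/
def centerEquiv : Subgroup.center (Heis n F) ≃ F where
  toFun x := x.1.c
  invFun c := ⟨⟨0, 0, c⟩, mem_center_iff.2 ⟨rfl, rfl⟩⟩
  left_inv x := Subtype.ext (Heis.ext (mem_center_iff.1 x.2).1.symm (mem_center_iff.1 x.2).2.symm rfl)
  right_inv _ := rfl

/-- the matrix representation -/
def toMat : Heis n F →* Matrix (Fin n ⊕ Fin 2) (Fin n ⊕ Fin 2) F where
  toFun x := Matrix.fromBlocks 1 (Matrix.of fun i => ![0, x.b i]) (Matrix.of ![x.a, 0])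
    !![1, x.c; 0, 1]
  map_one' := by
    rw [← Matrix.fromBlocks_one]
    congr 1
    · ext i j; fin_cases j <;> simp
    · ext i j; fin_cases i <;> simp
    · ext i j; fin_cases i <;> fin_cases j <;> simp
  map_mul' x y := by
    rw [Matrix.fromBlocks_multiply]
    congr 1
    · ext i j; simp [Matrix.mul_apply]
    · ext i j; fin_cases j <;> simp [Matrix.mul_apply, add_comm]
    · ext i j; fin_cases i <;> simp [Matrix.mul_apply]
    · ext i j
      fin_cases i <;> fin_cases j <;> simp [Matrix.mul_apply, dotProduct, Matrix.vecMul]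
      ring

theorem toMat_injective : Function.Injective (toMat : Heis n F → _) := by
  intro x y h
  ext i
  · simpa [toMat] using congrFun₂ h (Sum.inr 0) (Sum.inl i)
  · simpa [toMat] using congrFun₂ h (Sum.inl i) (Sum.inr 1)
  · simpa [toMat] using congrFun₂ h (Sum.inr 0) (Sum.inr 1)


/-- For every odd prime p and every n ≥ 1 there is an extraspecial p-group of order p^(1+2n) and exponent p; concretely, the general linear group of degree n + 2 over the field with p elements contains such a subgroup. -/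
theorem result (p : ℕ) [Fact p.Prime] (hp : p ≠ 2) (n : ℕ) (hn : 1 ≤ n) : ∃ E : Subgroup (Matrix.GeneralLinearGroup (Fin (n + 2)) (ZMod p)), Cfsg.IsExtraspecial p ↥E ∧ Nat.card E = p ^ (1 + 2 * n) ∧ ∀ x ∈ E, x ^ p = 1 := by
  have hp' : p.Prime := Fact.out
  let f : Heis n (ZMod p) →* Matrix.GeneralLinearGroup (Fin (n + 2)) (ZMod p) :=
    ((Matrix.reindexAlgEquiv (ZMod p) (ZMod p) finSumFinEquiv).toMulEquiv.toMonoidHom.comp
      toMat).toHomUnits
  have hf : Function.Injective f := fun x y h => toMat_injective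
    ((Matrix.reindexAlgEquiv (ZMod p) (ZMod p) finSumFinEquiv).injective
      (congrArg Units.val h))
  let e := MonoidHom.ofInjective hf
  have hc : Nat.card f.range = p ^ (1 + 2 * n) := by
    rw [← Nat.card_congr e.toEquiv, Nat.card_congr equivProd]
    simp
    ring
  refine ⟨f.range, CfsgLib.PGrp.isExtraspecial_of_commutator_mem (IsPGroup.of_card hc) ?_ ?_ ?_,
    hc, ?_⟩
  · rw [← Nat.card_congr (Subgroup.centerCongr e).toEquiv, Nat.card_congr centerEquiv,
      Nat.card_zmod]
  · intro a b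
    obtain ⟨a, rfl⟩ := e.surjective a
    obtain ⟨b, rfl⟩ := e.surjective b
    rw [← map_commutatorElement]
    exact (Subgroup.centerCongr e ⟨⁅a, b⁆, mem_center_iff.2 (by simp [commutatorElement_def])⟩).2
  · intro h
    have h1 := h.is_comm.comm (e ⟨Pi.single ⟨0, hn⟩ 1, 0, 0⟩) (e ⟨0, Pi.single ⟨0, hn⟩ 1, 0⟩)
    rw [← map_mul, ← map_mul, e.injective.eq_iff] at h1
    simpa using congrArg Heis.c h1
  · rintro _ ⟨x, rfl⟩
    rw [← map_pow, pow_eq, ← map_one f]
    congr 1
    have h2 : ((p.choose 2 : ℕ) : ZMod p) = 0 :=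
      (ZMod.natCast_eq_zero_iff _ _).2 (hp'.dvd_choose_self two_ne_zero
        (lt_of_le_of_ne hp'.two_le hp.symm))
    ext <;> simp [h2]

end Cfsg.Agent.S3799
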