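import Cfsg.Statements.S3979
import Cfsg.Agent.Lib.SchurBasic

set_option autoImplicit false
open Cfsg

namespace Cfsg.Agent.S3979

open CfsgLib.H4 Subgroup
open scoped commutatorElement

/-- A finite cyclic group has trivial Schur multiplier: every finite stem extension of it is an isomorphism, said through `HasCyclicSchurMultiplier G 1`. -/
theorem result {G : Type*} [Group G] [Finite G] [IsCyclic G] : Cfsg.HasCyclicSchurMultiplier G 1 := by
  rw [hasTrivialMultiplier_iff (uProj_isCentExt G) (uProj_liftsAll G), eq_bot_iff]
  refine (mult_le_commutator _).trans ?_
  have := commutative_of_cyclic_center_quotient (uProj G) (uProj_isCentExt G).central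
  rw [commutator_def, commutator_le]
  intro a _ b _
  rw [mem_bot, commutatorElement_eq_one_iff_mul_comm]
  exact this a b

end Cfsg.Agent.S3979
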