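import Cfsg.Statements.S3950
import Cfsg.Agent.Lib.SchurMetacyclic
import Cfsg.Agent.Lib.SchurBilin
import Cfsg.Agent.S3979

set_option autoImplicit false
open Cfsg

namespace Cfsg.Agent.S3950

open CfsgLib.H4 Subgroup
open scoped commutatorElement IsMulCommutative

/-- A finite abelian group has trivial Schur multiplier if and only if it is cyclic. -/
theorem result {G : Type*} [CommGroup G] [Finite G] : Cfsg.HasCyclicSchurMultiplier G 1 ↔ IsCyclic G := by
  refine ⟨fun h => ?_, fun h => Cfsg.Agent.S3979.result⟩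
  classical
  obtain ⟨ι, _, n, hn, ⟨e⟩⟩ := CommGroup.equiv_prod_multiplicative_zmod_of_finite G
  by_cases hcop : Pairwise (Function.onFun Nat.Coprime n)
  · apply IsCyclic.of_exponent_eq_card
    apply Nat.dvd_antisymm Group.exponent_dvd_nat_card
    have hc : Nat.card G = ∏ i, n i := by
      rw [Nat.card_congr e.toEquiv, Nat.card_pi]
      exact Finset.prod_congr rfl (fun i _ => Nat.card_zmod (n i))
    rw [hc]
    refine Finset.prod_dvd_of_isRelPrime (fun i _ j _ hij => ?_) (fun i _ => ?_)
    · exact Nat.coprime_iff_isRelPrime.mp (hcop hij)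
    · have : n i = orderOf (e.symm <| Pi.mulSingle i <| .ofAdd 1) := by
        simpa only [MulEquiv.orderOf_eq, orderOf_piMulSingle, orderOf_ofAdd_eq_addOrderOf]
          using (ZMod.addOrderOf_one (n i)).symm
      exact this ▸ Monoid.order_dvd_exponent _
  · exfalso
    simp only [Pairwise, not_forall] at hcop
    obtain ⟨i, j, hij, hc⟩ := hcop
    obtain ⟨p, hp, hpi, hpj⟩ := Nat.Prime.not_coprime_iff_dvd.mp hc
    have := Fact.mk hp
    let f : ∀ k, p ∣ n k → G → ZMod p := fun k hk g => ZMod.castHom hk (ZMod p) (e g k).toAdd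
    have hf : ∀ k hk g g', f k hk (g * g') = f k hk g + f k hk g' := by
      intro k hk g g'
      simp only [f, map_mul, Pi.mul_apply, toAdd_mul, map_add]
    let β : G →* G →* Multiplicative (ZMod p) :=
      MonoidHom.mk' (fun x => MonoidHom.mk' (fun y => Multiplicative.ofAdd (f i hpi x * f j hpj y))
        (fun y y' => by rw [hf, mul_add, ofAdd_add]))
        (fun x x' => MonoidHom.ext (fun y => by
          simp only [MonoidHom.mk'_apply, MonoidHom.mul_apply, hf, add_mul, ofAdd_add]))
    have hβ : ∀ x y, β x y = Multiplicative.ofAdd (f i hpi x * f j hpj y) := fun _ _ => rfl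
    have h0 := mult_eq_bot_of_trivial h (BExt.isCentExt_proj (β := β))
    let x : G := e.symm (Pi.mulSingle i (.ofAdd 1))
    let y : G := e.symm (Pi.mulSingle j (.ofAdd 1))
    have h1 := BExt.commutatorElement_of_commute (β := β) ⟨1, x⟩ ⟨1, y⟩ (mul_comm _ _)
    have h2 : ⁅(⟨1, x⟩ : BExt β), (⟨1, y⟩ : BExt β)⁆ ∈ mult (BExt.proj β) :=
      ⟨by rw [h1]; rfl, commutator_mem_commutator (mem_top _) (mem_top _)⟩
    rw [h0, mem_bot, h1] at h2
    have h3 := congrArg BExt.t h2
    simp [hβ, f, x, y, Pi.mulSingle_eq_of_ne hij, ZMod.cast_one hpi, ZMod.cast_one hpj] at h3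

end Cfsg.Agent.S3950
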