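import Cfsg.Statements.S3951
import Cfsg.Agent.Lib.SchurMetacyclic
import Cfsg.Agent.Lib.SchurBilin

set_option autoImplicit false
open Cfsg

namespace Cfsg.Agent.S3951

open CfsgLib.H4 Subgroup
open scoped commutatorElement IsMulCommutative

/-- For positive integers `m` and `n` with `n` dividing `m`, the Schur multiplier of the abelian group `ZMod m × ZMod n` (written multiplicatively) is cyclic of order `n`. In particular the elementary abelian group of order `p ^ 2` has multiplier of order `p`. -/
theorem result (m n : ℕ) [NeZero m] [NeZero n] (hnm : n ∣ m) : Cfsg.HasCyclicSchurMultiplier (Multiplicative (ZMod m × ZMod n)) n := by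
  let f : Multiplicative (ZMod m × ZMod n) → ZMod n := fun g => ZMod.castHom hnm (ZMod n) g.toAdd.1
  have hf : ∀ g g', f (g * g') = f g + f g' := by
    intro g g'
    simp only [f, toAdd_mul, Prod.fst_add, map_add]
  let β : Multiplicative (ZMod m × ZMod n) →* Multiplicative (ZMod m × ZMod n) →*
      Multiplicative (ZMod n) :=
    MonoidHom.mk' (fun x => MonoidHom.mk' (fun y => Multiplicative.ofAdd (f x * y.toAdd.2))
      (fun y y' => by rw [toAdd_mul, Prod.snd_add, mul_add, ofAdd_add]))
      (fun x x' => MonoidHom.ext (fun y => by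
        simp only [MonoidHom.mk'_apply, MonoidHom.mul_apply, hf, add_mul, ofAdd_add]))
  have hβ : ∀ x y, β x y = Multiplicative.ofAdd (f x * y.toAdd.2) := fun _ _ => rfl
  have hσ := BExt.isCentExt_proj (β := β)
  have hmem : ∀ t, (⟨t, 1⟩ : BExt β) ∈ mult (BExt.proj β) := by
    intro t
    refine ⟨rfl, ?_⟩
    have h1 := BExt.commutatorElement_of_commute (β := β) ⟨1, .ofAdd (1, 0)⟩
      ⟨1, .ofAdd (0, t.toAdd)⟩ (mul_comm _ _)
    simp only [hβ, f, toAdd_ofAdd, map_one, one_mul, ofAdd_toAdd, mul_zero, ofAdd_zero, inv_one,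
      mul_one] at h1
    rw [← h1]
    exact commutator_mem_commutator (mem_top _) (mem_top _)
  let g : Multiplicative (ZMod n) →* mult (BExt.proj β) :=
    MonoidHom.mk' (fun t => ⟨⟨t, 1⟩, hmem t⟩) (fun a b => by
      apply Subtype.ext
      ext <;> simp)
  have hg : Function.Bijective g := by
    constructor
    · intro a b h
      exact congrArg BExt.t (congrArg Subtype.val h)
    · rintro ⟨⟨t, x⟩, hx⟩
      have : x = 1 := hx.1
      subst this
      exact ⟨t, rfl⟩
  refine hasSchurMultiplier_of_card_le hσ (MulEquiv.ofBijective g hg) ?_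
  have hU := uProj_isCentExt (Multiplicative (ZMod m × ZMod n))
  obtain ⟨A, hA⟩ := hU.surj (.ofAdd (1, 0))
  obtain ⟨B, hB⟩ := hU.surj (.ofAdd (0, 1))
  obtain ⟨h1, -, h3⟩ := exists_metacyclic_mult hU (A := A) (B := B) (r := 1) (by
    rw [hA, hB, eq_top_iff]
    intro x _
    have : x = (Multiplicative.ofAdd ((1 : ZMod m), (0 : ZMod n))) ^ x.toAdd.1.val *
        (Multiplicative.ofAdd ((0 : ZMod m), (1 : ZMod n))) ^ x.toAdd.2.val := by
      apply Multiplicative.toAdd.injective
      ext <;> simp
    rw [this]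
    exact mul_mem (pow_mem (subset_closure (by simp)) _) (pow_mem (subset_closure (by simp)) _))
    (by rw [zpow_one, mul_comm (uProj _ B), mul_inv_cancel_right])
  have h4 := h3 n 0 (by
    rw [hB, zpow_zero]
    apply Multiplicative.toAdd.injective
    ext <;> simp)
  simp only [one_pow, Finset.sum_const, Finset.card_range, nsmul_eq_mul, mul_one,
    zpow_natCast] at h4
  rw [show Nat.card (Multiplicative (ZMod n)) = n from Nat.card_zmod n]
  refine card_le_of_le_zpowers (Nat.pos_of_ne_zero (NeZero.ne n)) h4 ?_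
  intro x hx
  obtain ⟨j, rfl, -⟩ := h1 x hx
  exact zpow_mem (mem_zpowers _) j

end Cfsg.Agent.S3951
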