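import Cfsg.Statements.S3952
import Cfsg.Agent.Lib.SchurTransfer
import Mathlib

set_option autoImplicit false
open Cfsg

namespace Cfsg.Agent.S3952

open CfsgLib.H4 Subgroup
open scoped commutatorElement

/-- If `A` is the Schur multiplier of the finite group `Q`, then the square of the exponent of `A` divides the order of `Q`. -/
theorem result {Q : Type*} [Group Q] [Finite Q] {A : Type*} [CommGroup A] (hA : Cfsg.HasSchurMultiplier Q A) : Monoid.exponent A ^ 2 ∣ Nat.card Q := by
  have hfin := finite_of_hasSchurMultiplier hA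
  have hQ : Nat.card Q ≠ 0 := Nat.card_pos.ne'
  have he : Monoid.exponent A ≠ 0 := Monoid.exponent_ne_zero_of_finite
  rw [← Nat.factorization_prime_le_iff_dvd (pow_ne_zero 2 he) hQ]
  intro p hp
  have := Fact.mk hp
  rw [Nat.factorization_pow, Finsupp.smul_apply, smul_eq_mul]
  set k := (Monoid.exponent A).factorization p with hk
  rcases Nat.eq_zero_or_pos k with h0 | hpos
  · simp [h0]
  obtain ⟨a, ha⟩ := hp.exists_orderOf_eq_pow_factorization_exponent A
  rw [← hk] at ha
  obtain ⟨⟨Γ, _, _, σ, hσ, ⟨e⟩⟩, -⟩ := hA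
  obtain ⟨P⟩ : Nonempty (Sylow p Q) := inferInstance
  let Δ : Subgroup Γ := (P : Subgroup Q).comap σ
  have hidx : Δ.index = (P : Subgroup Q).index := index_comap_of_surjective _ hσ.1
  have hτ := isCentExt_subgroupComap (isCentExt_of_stem hσ) (P : Subgroup Q)
  set x := e.symm a with hx
  obtain ⟨h1, h2⟩ := pow_index_mem_commutator_of_central Δ (hσ.2.1 x.2) (hσ.2.2 x.2)
  have hzc : (⟨(x : Γ) ^ Δ.index, h1⟩ : Δ) ∈ center Δ := by
    rw [mem_center_iff]
    intro y
    exact Subtype.ext (mem_center_iff.mp (pow_mem (hσ.2.1 x.2) _) y)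
  let z : center Δ := ⟨_, hzc⟩
  have hz : orderOf z = p ^ k := by
    rw [← orderOf_coe, ← orderOf_coe]
    change orderOf ((x : Γ) ^ Δ.index) = _
    have hx' : orderOf (x : Γ) = p ^ k := by rw [orderOf_coe, hx, MulEquiv.orderOf_eq, ha]
    rw [← hx']
    apply Nat.Coprime.orderOf_pow
    rw [hx', hidx]
    exact Nat.Coprime.pow_left _ ((Nat.Prime.coprime_iff_not_dvd hp).mpr P.not_dvd_index)
  obtain ⟨j, hj⟩ : ∃ j, k = j + 1 := ⟨k - 1, by omega⟩
  rw [hj] at hz ⊢
  have hne : z ^ p ^ j ≠ 1 := by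
    intro h
    have := orderOf_dvd_of_pow_eq_one h
    rw [hz, Nat.pow_dvd_pow_iff_le_right hp.one_lt] at this
    omega
  obtain ⟨χ, hχ⟩ := exists_character_ne_one (isOfFinOrder_of_finite _) hne
  have hχo : orderOf (χ z) = p ^ (j + 1) := by
    apply orderOf_eq_prime_pow
    · rwa [← map_pow]
    · rw [← map_pow, ← hz, pow_orderOf_eq_one, map_one]
  have h3 := orderOf_sq_le_index_center hp _ Δ rfl (by
    intro g
    obtain ⟨n, hn⟩ := P.isPGroup' (σ.subgroupComap P g)
    exact ⟨n, hτ.central (by rw [MonoidHom.mem_ker, map_pow, hn])⟩) χ z h2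
  have h4 : (center Δ).index ∣ Nat.card P := by
    refine (index_dvd_of_le hτ.central).trans ?_
    rw [index_ker, MonoidHom.range_eq_top.mpr hτ.surj, card_top]
  have h5 := h3.trans (Nat.le_of_dvd Nat.card_pos h4)
  rw [hχo, P.card_eq_multiplicity, ← pow_mul, Nat.pow_le_pow_iff_right hp.one_lt] at h5
  omega

end Cfsg.Agent.S3952
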