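import Cfsg.Statements.S3953
import Cfsg.Agent.Lib.SchurTransfer

set_option autoImplicit false
open Cfsg

namespace Cfsg.Agent.S3953

open CfsgLib.H4 Subgroup
open scoped commutatorElement

/-- Let `P` be a Sylow `p`-subgroup of the finite group `G`, let `A` be the Schur multiplier of `G` and `B` that of `P`. Then the `p`-primary component of `A` is isomorphic to a direct factor of `B`: there are subgroups `C` and `D` of `B` meeting trivially and generating `B`, with `C` isomorphic to the `p`-primary component of `A`. -/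
theorem result {G : Type*} [Group G] [Finite G] (p : ℕ) [Fact p.Prime] (P : Sylow p G) {A B : Type*} [CommGroup A] [CommGroup B] (hA : Cfsg.HasSchurMultiplier G A) (hB : Cfsg.HasSchurMultiplier P B) : ∃ C D : Subgroup B, C ⊓ D = ⊥ ∧ C ⊔ D = ⊤ ∧ Nonempty (CommGroup.primaryComponent A p ≃* C) := by
  obtain ⟨T, I, h⟩ := exists_transfer_cores (P : Subgroup G) hA hB
  have hp : p.Prime := Fact.out
  have hcop : Nat.Coprime p (P : Subgroup G).index :=
    (Nat.Prime.coprime_iff_not_dvd hp).mpr P.not_dvd_index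
  have hroot : ∀ a ∈ CommGroup.primaryComponent A p,
      ∃ k : ℕ, (a ^ (P : Subgroup G).index) ^ k = a := by
    intro a ha
    obtain ⟨n, hn⟩ := CommGroup.mem_primaryComponent_iff_orderOf.mp ha
    exact exists_pow_eq_self_of_coprime (hn ▸ (Nat.Coprime.pow_left n hcop).symm)
  have hinj : ∀ a ∈ CommGroup.primaryComponent A p, I (T a) = 1 → a = 1 := by
    intro a ha h1
    obtain ⟨k, hk⟩ := hroot a ha
    rw [← hk, ← h, h1, one_pow]
  refine ⟨(T.comp (CommGroup.primaryComponent A p).subtype).range, I.ker, ?_, ?_,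
    ⟨MonoidHom.ofInjective ?_⟩⟩
  · rw [eq_bot_iff]
    rintro _ ⟨⟨a, rfl⟩, ha⟩
    have : (a : A) = 1 := hinj a a.2 ha
    change T a = 1
    rw [this, map_one]
  · rw [eq_top_iff]
    intro b _
    obtain ⟨n, hn⟩ := P.isPGroup'.exists_card_eq
    have hb : I b ∈ CommGroup.primaryComponent A p := by
      refine CommGroup.mem_primaryComponent.mpr ⟨n, ?_⟩
      rw [← map_pow, ← hn, pow_card_eq_one_of_hasSchurMultiplier hB, map_one]
    obtain ⟨k, hk⟩ := hroot _ hb
    have : b = T (I b ^ k) * ((T (I b ^ k))⁻¹ * b) := by simp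
    rw [this]
    refine mul_mem (mem_sup_left ⟨⟨_, pow_mem hb k⟩, rfl⟩) (mem_sup_right ?_)
    rw [MonoidHom.mem_ker, map_mul, map_inv, h, ← pow_mul, mul_comm k, pow_mul, hk,
      inv_mul_cancel]
  · rw [injective_iff_map_eq_one]
    intro a ha
    apply Subtype.ext
    apply hinj a a.2
    have : T a = 1 := ha
    rw [this, map_one]

end Cfsg.Agent.S3953
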