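import Cfsg.Statements.S3955
import Cfsg.Agent.Lib.SchurProj

set_option autoImplicit false
open Cfsg

namespace Cfsg.Agent.S3955

open CfsgLib.H4 Subgroup
open scoped commutatorElement

/-- Let `Q` be a finite group with Schur multiplier `A`, and let `σ : Γ →* Q` be a finite stem extension whose kernel is isomorphic to `A` (a Schur covering group of `Q`). Then every homomorphism `γ` from `Q` to the quotient of `GL n ℂ` by its centre lifts along `σ`: there is a homomorphism `ρ : Γ →* GL n ℂ` which, followed by the quotient map, equals `γ ∘ σ`. -/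
theorem result {Q : Type*} [Group Q] [Finite Q] {A : Type*} [CommGroup A] (hA : Cfsg.HasSchurMultiplier Q A) {Γ : Type*} [Group Γ] [Finite Γ] (σ : Γ →* Q) (hσ : Cfsg.IsStemExtension σ) (hk : Nonempty (σ.ker ≃* A)) (n : ℕ) (γ : Q →* (GL (Fin n) ℂ ⧸ Subgroup.center (GL (Fin n) ℂ))) : ∃ ρ : Γ →* GL (Fin n) ℂ, (QuotientGroup.mk' (Subgroup.center (GL (Fin n) ℂ))).comp ρ = γ.comp σ := by
  have hU := uProj_isFreeExt Q
  obtain ⟨f, hf⟩ := hU.liftsAll.lift' (isCentExt_of_stem hσ)
  have hfs : Function.Surjective f := surjective_of_lift_of_stem hσ (hf ▸ hU.surj)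
  have hb := multMap_bijective_of_cover hA hU.toIsCentExt hU.liftsAll hσ hk hf
  refine exists_lift_projective hU.liftsAll hf hfs ?_ γ
  intro x hx hfx
  have hx' : x ∈ mult (uProj Q) := by
    refine ⟨?_, hx⟩
    rw [← hf]
    change σ (f x) = 1
    rw [hfx, map_one]
  exact congrArg Subtype.val ((injective_iff_map_eq_one _).mp hb.1 ⟨x, hx'⟩ (Subtype.ext hfx))

end Cfsg.Agent.S3955
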