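import Cfsg.Statements.S3957
import Cfsg.Agent.Lib.SchurBasic

set_option autoImplicit false
universe u v
open Cfsg

namespace Cfsg.Agent.S3957

open CfsgLib.H4 Subgroup
open scoped commutatorElement

/-- Let `Q` be a finite group with Schur multiplier `A` and let `τ : Δ →* Q` be a finite stem extension, `Δ` in the universe of `Q`. Then there is a finite stem extension `σ : Γ →* Q` with kernel isomorphic to `A` (a Schur covering group) and a surjective homomorphism `β : Γ →* Δ` with `τ ∘ β = σ`. -/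
theorem result {Q : Type u} [Group Q] [Finite Q] {A : Type v} [CommGroup A] (hA : Cfsg.HasSchurMultiplier Q A) {Δ : Type u} [Group Δ] [Finite Δ] (τ : Δ →* Q) (hτ : Cfsg.IsStemExtension τ) : ∃ (Γ : Type u) (_ : Group Γ) (_ : Finite Γ) (σ : Γ →* Q), Cfsg.IsStemExtension σ ∧ Nonempty (σ.ker ≃* A) ∧ ∃ β : Γ →* Δ, Function.Surjective β ∧ τ.comp β = σ := by
  have hU := uProj_isFreeExt Q
  obtain ⟨f, hf⟩ := hU.liftsAll.lift' (isCentExt_of_stem hτ)
  have hfs : Function.Surjective f := surjective_of_lift_of_stem hτ (hf ▸ hU.surj)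
  have hm := map_mult_of_lift hτ.2.1 hU.surj hf
  have hK : f.ker ⊔ mult (uProj Q) = (uProj Q).ker := by
    apply le_antisymm
    · refine sup_le ?_ (mult_le_ker _)
      intro x hx
      rw [← hf, MonoidHom.mem_ker, MonoidHom.comp_apply, MonoidHom.mem_ker.mp hx, map_one]
    · intro x hx
      have h1 : f x ∈ mult τ := by
        rw [mult_eq_ker_of_stem hτ]
        rw [← hf] at hx
        exact hx
      rw [← hm] at h1
      obtain ⟨m, hm1, hm2⟩ := h1
      have : x = (x * m⁻¹) * m := by simp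
      rw [this]
      refine mul_mem (mem_sup_left ?_) (mem_sup_right hm1)
      rw [MonoidHom.mem_ker, map_mul, map_inv, hm2, mul_inv_cancel]
  obtain ⟨S, hS, h1, h2⟩ := hU.exists_compl hK
  have hS' : S ≤ (uProj Q).ker := h2 ▸ le_sup_left
  have := normal_of_le_center (hS'.trans hU.central)
  obtain ⟨hfin, hs, hb⟩ := stem_of_compl hU.toIsCentExt S hS' h1 h2
  obtain ⟨e⟩ := hasSchurMultiplier_iff_uProj.mp hA
  refine ⟨_, inferInstance, hfin, _, hs,
    ⟨((MulEquiv.subgroupCongr (mult_eq_ker_of_stem hs).symm).trans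
      (MulEquiv.ofBijective _ hb).symm).trans e.symm⟩, QuotientGroup.lift S f hS, ?_, ?_⟩
  · intro y
    obtain ⟨x, rfl⟩ := hfs y
    exact ⟨x, rfl⟩
  · ext x
    exact DFunLike.congr_fun hf _

end Cfsg.Agent.S3957
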