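import Cfsg.Statements.S3958
import Cfsg.Agent.Lib.SchurBasic

set_option autoImplicit false
universe u v
open Cfsg

namespace Cfsg.Agent.S3958

open CfsgLib.H4 Subgroup
open scoped commutatorElement

/-- Let `σ : Γ →* Q` be a finite stem extension of the finite group `Q` with `Γ` of trivial Schur multiplier. Then `σ` is a Schur covering group of `Q`: for every finite stem extension `τ : Δ →* Q` with `Δ` in the same universe as `Q`, the kernel of `τ` is a homomorphic image of the kernel of `σ`. -/
theorem result {Q : Type u} [Group Q] [Finite Q] {Γ : Type v} [Group Γ] [Finite Γ] (σ : Γ →* Q) (hσ : Cfsg.IsStemExtension σ) (hΓ : Cfsg.HasCyclicSchurMultiplier Γ 1) (Δ : Type u) [Group Δ] [Finite Δ] (τ : Δ →* Q) (hτ : Cfsg.IsStemExtension τ) : ∃ π : σ.ker →* τ.ker, Function.Surjective π := by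
  have hU := uProj_isFreeExt Q
  obtain ⟨f, hf⟩ := hU.liftsAll.lift' (isCentExt_of_stem hσ)
  have hfs : Function.Surjective f := surjective_of_lift_of_stem hσ (hf ▸ hU.surj)
  have hfc : IsCentExt f := ⟨hfs, fun x hx => hU.central (by
    rw [← hf, MonoidHom.mem_ker, MonoidHom.comp_apply, MonoidHom.mem_ker.mp hx, map_one])⟩
  have h0 := mult_eq_bot_of_trivial hΓ hfc
  have hb : Function.Bijective (multMap (σ := σ) (π := uProj Q) f (hf ▸ le_rfl)) := by
    refine ⟨?_, multMap_surjective hσ.2.1 hU.surj hf⟩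
    rw [injective_iff_map_eq_one]
    intro x hx
    have : (x : UExt Q) ∈ mult f := ⟨congrArg Subtype.val hx, x.2.2⟩
    rw [h0] at this
    exact Subtype.ext this
  obtain ⟨g, hg⟩ := exists_multMap_surjective hU.surj hU.liftsAll (isCentExt_of_stem hτ)
  let e1 := (MulEquiv.subgroupCongr (mult_eq_ker_of_stem hσ).symm).trans
      (MulEquiv.ofBijective _ hb).symm
  let e2 := MulEquiv.subgroupCongr (mult_eq_ker_of_stem hτ)
  exact ⟨e2.toMonoidHom.comp (g.comp e1.toMonoidHom), e2.surjective.comp (hg.comp e1.surjective)⟩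

end Cfsg.Agent.S3958
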