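import Cfsg.Statements.S3959
import Cfsg.Agent.Lib.SchurBilin

set_option autoImplicit false
universe u v w
open Cfsg

namespace Cfsg.Agent.S3959

open CfsgLib.H4 Subgroup
open scoped commutatorElement IsMulCommutative

/-- Let `Q₁` and `Q₂` be finite groups with Schur multipliers `A` and `B`. Then the Schur multiplier of `Q₁ × Q₂` is isomorphic to `A × B × (Q₁ᵃᵇ ⊗ Q₂ᵃᵇ)`, the last factor being the tensor product over the integers of the commutator quotients, written multiplicatively. -/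
theorem result {Q₁ : Type u} {Q₂ : Type v} [Group Q₁] [Group Q₂] [Finite Q₁] [Finite Q₂] {A B : Type w} [CommGroup A] [CommGroup B] (hA : Cfsg.HasSchurMultiplier Q₁ A) (hB : Cfsg.HasSchurMultiplier Q₂ B) : Cfsg.HasSchurMultiplier (Q₁ × Q₂) (A × B × Multiplicative (TensorProduct ℤ (Additive (Abelianization Q₁)) (Additive (Abelianization Q₂)))) := by
  let T := Multiplicative (TensorProduct ℤ (Additive (Abelianization Q₁))
    (Additive (Abelianization Q₂)))
  obtain ⟨Γ₁, _, _, σ₁, hσ₁, ⟨e₁⟩⟩ := hA.1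
  obtain ⟨Γ₂, _, _, σ₂, hσ₂, ⟨e₂⟩⟩ := hB.1
  let t : Q₁ → Q₂ → T := fun a b => Multiplicative.ofAdd
    (Additive.ofMul (Abelianization.of a) ⊗ₜ[ℤ] Additive.ofMul (Abelianization.of b))
  have htl : ∀ a a' b, t (a * a') b = t a b * t a' b := by
    intro a a' b
    simp only [t, map_mul, ofMul_mul, TensorProduct.add_tmul, ofAdd_add]
  have htr : ∀ a b b', t a (b * b') = t a b * t a b' := by
    intro a b b'
    simp only [t, map_mul, ofMul_mul, TensorProduct.tmul_add, ofAdd_add]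
  have ht1 : ∀ b, t 1 b = 1 := by
    intro b
    simp only [t, map_one, ofMul_one, TensorProduct.zero_tmul, ofAdd_zero]
  have ht2 : ∀ a, t a 1 = 1 := by
    intro a
    simp only [t, map_one, ofMul_one, TensorProduct.tmul_zero, ofAdd_zero]
  have hgen : ∀ C : Subgroup T, (∀ a b, t a b ∈ C) → ∀ x, x ∈ C := by
    intro C hC x
    obtain ⟨x, rfl⟩ := Multiplicative.ofAdd.surjective x
    induction x using TensorProduct.induction_on with
    | zero => exact one_mem C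
    | tmul a b =>
      obtain ⟨a, rfl⟩ := Additive.ofMul.surjective a
      obtain ⟨b, rfl⟩ := Additive.ofMul.surjective b
      obtain ⟨a, rfl⟩ : ∃ y, Abelianization.of y = a := QuotientGroup.mk_surjective a
      obtain ⟨b, rfl⟩ : ∃ y, Abelianization.of y = b := QuotientGroup.mk_surjective b
      exact hC a b
    | add x y hx hy => exact mul_mem hx hy
  let β : (Γ₁ × Γ₂) →* (Γ₁ × Γ₂) →* T :=
    MonoidHom.mk' (fun x => MonoidHom.mk' (fun y => t (σ₁ x.1) (σ₂ y.2))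
      (fun y y' => by simp only [Prod.snd_mul, map_mul, htr]))
      (fun x x' => MonoidHom.ext (fun y => by
        simp only [Prod.fst_mul, map_mul, MonoidHom.mk'_apply, MonoidHom.mul_apply, htl]))
  have hβ : ∀ x y, β x y = t (σ₁ x.1) (σ₂ y.2) := fun _ _ => rfl
  let σ : BExt β →* Q₁ × Q₂ := (σ₁.prodMap σ₂).comp (BExt.proj β)
  have hσk : ∀ x : BExt β, x ∈ σ.ker ↔ σ₁ x.g.1 = 1 ∧ σ₂ x.g.2 = 1 := fun x => Prod.ext_iff
  have hσ : IsCentExt σ := by
    constructor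
    · rintro ⟨a, b⟩
      obtain ⟨a, rfl⟩ := hσ₁.1 a
      obtain ⟨b, rfl⟩ := hσ₂.1 b
      exact ⟨⟨1, (a, b)⟩, rfl⟩
    · intro x hx
      obtain ⟨h1, h2⟩ := (hσk x).mp hx
      rw [mem_center_iff]
      intro y
      ext
      · simp [hβ, h1, h2, ht1, ht2, mul_comm]
      · exact mem_center_iff.mp (hσ₁.2.1 h1) _
      · exact mem_center_iff.mp (hσ₂.2.1 h2) _
  let j₁ : Γ₁ →* BExt β := MonoidHom.mk' (fun a => ⟨1, (a, 1)⟩) (fun a a' => by
    ext <;> simp [hβ, ht2])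
  let j₂ : Γ₂ →* BExt β := MonoidHom.mk' (fun b => ⟨1, (1, b)⟩) (fun a a' => by
    ext <;> simp [hβ, ht1])
  let j₃ : T →* BExt β := MonoidHom.mk' (fun z => ⟨z, 1⟩) (fun a a' => by
    ext <;> simp)
  have hcm : ∀ {X : Type _} [Group X] (j : X →* BExt β) (x : X), x ∈ commutator X →
      j x ∈ commutator (BExt β) := by
    intro X _ j x hx
    have : (commutator X).map j ≤ commutator (BExt β) := by
      rw [commutator_def, map_commutator]
      exact commutator_mono le_top le_top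
    exact this (mem_map_of_mem _ hx)
  have hcm' : ∀ {X : Type _} [Group X] (j : X →* BExt β) (x : X), x ∈ commutator X →
      j x ∈ commutator (BExt β) := by
    intro X _ j x hx
    have : (commutator X).map j ≤ commutator (BExt β) := by
      rw [commutator_def, map_commutator]
      exact commutator_mono le_top le_top
    exact this (mem_map_of_mem _ hx)
  have hj₃ : ∀ z, j₃ z ∈ commutator (BExt β) := by
    apply hgen ((commutator (BExt β)).comap j₃)
    intro a b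
    obtain ⟨a, rfl⟩ := hσ₁.1 a
    obtain ⟨b, rfl⟩ := hσ₂.1 b
    have := BExt.commutatorElement_of_commute (j₁ a) (j₂ b) (by simp [j₁, j₂])
    have h2 : ⁅j₁ a, j₂ b⁆ = j₃ (t (σ₁ a) (σ₂ b)) := by
      rw [this]
      ext <;> simp [j₁, j₂, j₃, hβ, ht1]
    rw [mem_comap, ← h2]
    exact commutator_mem_commutator (mem_top _) (mem_top _)
  have hmem : ∀ (a : σ₁.ker) (b : σ₂.ker) (z : T),
      (⟨z, ((a : Γ₁), (b : Γ₂))⟩ : BExt β) ∈ mult σ := by
    intro a b z
    refine ⟨(hσk _).mpr ⟨a.2, b.2⟩, ?_⟩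
    have : (⟨z, ((a : Γ₁), (b : Γ₂))⟩ : BExt β) = j₃ z * (j₂ b * j₁ a) := by
      ext <;> simp [j₁, j₂, j₃, hβ, ht1]
    rw [this]
    exact mul_mem (hj₃ z) (mul_mem (hcm' j₂ _ (hσ₂.2.2 b.2)) (hcm j₁ _ (hσ₁.2.2 a.2)))
  let f : A × B × T →* mult σ := MonoidHom.mk'
    (fun x => ⟨⟨x.2.2, ((e₁.symm x.1 : Γ₁), (e₂.symm x.2.1 : Γ₂))⟩, hmem _ _ _⟩) (fun x y => by
      apply Subtype.ext
      have h1 : σ₁ (e₁.symm x.1) = 1 := (e₁.symm x.1).2
      ext <;> simp [hβ, h1, ht1])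
  have hf : Function.Bijective f := by
    constructor
    · rw [injective_iff_map_eq_one]
      rintro ⟨a, b, z⟩ h
      have h1 := congrArg Subtype.val h
      have h2 : z = 1 := congrArg BExt.t h1
      have h3 : ((e₁.symm a : Γ₁), (e₂.symm b : Γ₂)) = 1 := congrArg BExt.g h1
      have h4 : e₁.symm a = 1 := Subtype.ext (congrArg Prod.fst h3)
      have h5 : e₂.symm b = 1 := Subtype.ext (congrArg Prod.snd h3)
      rw [MulEquiv.map_eq_one_iff] at h4 h5
      rw [h2, h4, h5]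
      rfl
    · rintro ⟨⟨z, a, b⟩, hx⟩
      obtain ⟨h1, h2⟩ := (hσk _).mp hx.1
      refine ⟨(e₁ ⟨a, h1⟩, e₂ ⟨b, h2⟩, z), Subtype.ext ?_⟩
      simp [f]
  have hfin := finite_mult hσ.central
  have hfin' : Finite (A × B × T) := Finite.of_injective f hf.1
  refine hasSchurMultiplier_of_card_le hσ (MulEquiv.ofBijective f hf) ?_
  have hU := uProj_isCentExt (Q₁ × Q₂)
  obtain ⟨c, hc, hdec⟩ := exists_prod_decomp hU
  obtain ⟨f₁, hf₁⟩ := exists_surjective_mult hA (isCentExt_prodFst hU)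
  obtain ⟨f₂, hf₂⟩ := exists_surjective_mult hB (isCentExt_prodSnd hU)
  let c₁ : Abelianization Q₁ →* Abelianization Q₂ →* center (UExt (Q₁ × Q₂)) :=
    (Abelianization.lift (Abelianization.lift c).flip).flip
  have hc₁ : ∀ a b, c₁ (Abelianization.of a) (Abelianization.of b) = c a b := fun _ _ => rfl
  let c₂ : Additive (Abelianization Q₁) →+ Additive (Abelianization Q₂) →+
      Additive (center (UExt (Q₁ × Q₂))) :=
    AddMonoidHom.mk' (fun a => MonoidHom.toAdditive (c₁ a.toMul)) (fun a a' => by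
      ext b
      simp)
  let c₃ := TensorProduct.liftAddHom (R := ℤ) c₂ (fun r a b => by simp)
  let c₄ : T →* center (UExt (Q₁ × Q₂)) := AddMonoidHom.toMultiplicativeLeft c₃
  have hc₄ : ∀ a b, c₄ (t a b) = c a b := fun _ _ => rfl
  have hc₅ : ∀ z, (c₄ z : UExt (Q₁ × Q₂)) ∈ mult (uProj (Q₁ × Q₂)) :=
    hgen (((mult (uProj (Q₁ × Q₂))).subgroupOf _).comap c₄) hc
  let g₁ := multMap (σ := uProj (Q₁ × Q₂)) (π := prodFst (uProj (Q₁ × Q₂))) (Subgroup.subtype _)
    (fun x hx => Prod.ext hx x.2)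
  let g₂ := multMap (σ := uProj (Q₁ × Q₂)) (π := prodSnd (uProj (Q₁ × Q₂))) (Subgroup.subtype _)
    (fun x hx => Prod.ext x.2 hx)
  refine Nat.card_le_card_of_surjective
    (fun x : A × B × T => g₁ (f₁ x.1) * g₂ (f₂ x.2.1) * ⟨_, hc₅ x.2.2⟩) ?_
  rintro ⟨x, hx⟩
  obtain ⟨d₁, hd₁, d₂, hd₂, _, ⟨z, rfl⟩, rfl⟩ := hdec c₄.range (fun a b => ⟨t a b, rfl⟩) x hx
  obtain ⟨a, ha⟩ := hf₁ ⟨d₁, hd₁⟩
  obtain ⟨b, hb⟩ := hf₂ ⟨d₂, hd₂⟩
  refine ⟨(a, b, z), Subtype.ext ?_⟩
  simp only [ha, hb]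
  rfl

end Cfsg.Agent.S3959
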