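import Cfsg.Statements.S3960
import Cfsg.Agent.Lib.SchurBasic

set_option autoImplicit false
universe u
open Cfsg

namespace Cfsg.Agent.S3960

open CfsgLib.H4 Subgroup
open scoped commutatorElement

/-- A finite perfect group `Q` has a universal central extension: a finite perfect group `G` in the universe of `Q` and a surjective homomorphism `π : G →* Q` with central kernel such that for every group `X` in that universe and every surjective homomorphism `ξ : X →* Q` with central kernel there is exactly one homomorphism `η : G →* X` with `ξ ∘ η = π`. -/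
theorem result {Q : Type u} [Group Q] [Finite Q] (hQ : Group.IsPerfect Q) : ∃ (G : Type u) (_ : Group G) (_ : Finite G) (π : G →* Q), Group.IsPerfect G ∧ Function.Surjective π ∧ π.ker ≤ Subgroup.center G ∧ ∀ (X : Type u) [Group X] (ξ : X →* Q), Function.Surjective ξ → ξ.ker ≤ Subgroup.center X → ∃! η : G →* X, ξ.comp η = π := by
  have hU := uProj_isFreeExt Q
  have hfin := finite_commutator_of_central hU.central
  let π : commutator (UExt Q) →* Q := (uProj Q).comp (commutator (UExt Q)).subtype
  have hπ : Function.Surjective π := by
    intro q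
    have h1 : q ∈ (commutator (UExt Q)).map (uProj Q) := by
      rw [map_commutator_eq, MonoidHom.range_eq_top.mpr hU.surj]
      exact Group.IsPerfect.mem_commutator
    obtain ⟨x, hx, rfl⟩ := h1
    exact ⟨⟨x, hx⟩, rfl⟩
  have hperf : Group.IsPerfect (commutator (UExt Q)) := by
    rw [Subgroup.isPerfect_iff, ← map_subtype_commutator]
    exact map_commutator_of_lift hU.central hπ
  refine ⟨commutator (UExt Q), inferInstance, hfin, π, hperf, hπ, ?_, ?_⟩
  · intro x hx
    rw [mem_center_iff]
    intro y
    exact Subtype.ext (mem_center_iff.mp (hU.central hx) y)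
  · intro X _ ξ h1 h2
    obtain ⟨f, hf⟩ := hU.liftsAll.lift' ⟨h1, h2⟩
    refine ⟨f.comp (commutator (UExt Q)).subtype, ?_, ?_⟩
    · change ξ.comp (f.comp _) = _
      rw [← MonoidHom.comp_assoc, hf]
    · intro g hg
      ext x
      refine eq_on_commutator_of_lifts h2 ?_ Group.IsPerfect.mem_commutator
      rw [hg, ← MonoidHom.comp_assoc, hf]

end Cfsg.Agent.S3960
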