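import Cfsg.Statements.S3961
import Cfsg.Agent.Lib.SchurBasic
import Cfsg.Agent.S3962

set_option autoImplicit false
universe u v
open Cfsg

namespace Cfsg.Agent.S3961

open CfsgLib.H4 Subgroup
open scoped commutatorElement

/-- Let `π : G →* Q` be a surjective homomorphism with central kernel from a finite perfect group `G` (a perfect cover of `Q`). Then `π` is universal, in the sense that every surjective homomorphism `ξ : X →* Q` with central kernel from a group `X` in the universe of `G` admits a homomorphism `η : G →* X` with `ξ ∘ η = π`, if and only if `G` has trivial Schur multiplier. -/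
theorem result {G : Type u} {Q : Type v} [Group G] [Group Q] [Finite G] (hG : Group.IsPerfect G) (π : G →* Q) (hπ : Function.Surjective π) (hker : π.ker ≤ Subgroup.center G) : (∀ (X : Type u) [Group X] (ξ : X →* Q), Function.Surjective ξ → ξ.ker ≤ Subgroup.center X → ∃ η : G →* X, ξ.comp η = π) ↔ Cfsg.HasCyclicSchurMultiplier G 1 := by
  constructor
  · intro h
    obtain ⟨Γ, _, _, σ, hσ, ⟨e⟩⟩ := exists_cover G
    have hΓ : Group.IsPerfect Γ := by
      rw [Group.isPerfect_def, eq_top_iff]
      intro x _
      have h1 : σ x ∈ (commutator Γ).map σ := by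
        rw [map_commutator_eq, MonoidHom.range_eq_top.mpr hσ.1]
        exact Group.IsPerfect.mem_commutator
      obtain ⟨y, hy, hxy⟩ := h1
      have : x = y * (y⁻¹ * x) := by simp
      rw [this]
      refine mul_mem hy (hσ.2.2 ?_)
      rw [MonoidHom.mem_ker, map_mul, map_inv, hxy, inv_mul_cancel]
    have hc : (π.comp σ).ker ≤ center Γ := by
      intro x hx
      have h1 : σ x ∈ center G := hker hx
      rw [← Cfsg.Agent.S3962.result hΓ σ hσ.1 hσ.2.1] at h1
      obtain ⟨y, hy, hxy⟩ := h1
      have : x = y * (y⁻¹ * x) := by simp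
      rw [this]
      refine mul_mem hy (hσ.2.1 ?_)
      rw [MonoidHom.mem_ker, map_mul, map_inv, hxy, inv_mul_cancel]
    obtain ⟨η, hη⟩ := h Γ (π.comp σ) (hπ.comp hσ.1) hc
    have h2 : σ.comp η = MonoidHom.id G := by
      ext x
      exact eq_on_commutator_of_lifts hker (f := σ.comp η) (g := MonoidHom.id G)
        (by rw [← MonoidHom.comp_assoc, hη]; rfl) Group.IsPerfect.mem_commutator
    have h3 := map_mult_of_lift hσ.2.1 Function.surjective_id h2
    have h4 : mult (MonoidHom.id G) = ⊥ := by simp [mult]
    rw [h4, Subgroup.map_bot, mult_eq_ker_of_stem hσ] at h3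
    rw [hasTrivialMultiplier_iff (uProj_isCentExt G) (uProj_liftsAll G), eq_bot_iff_card,
      ← Nat.card_congr e.toEquiv, ← h3, card_bot]
  · intro h X _ ξ h1 h2
    have hU := uProj_isFreeExt G
    obtain ⟨f, hf⟩ := hU.liftsAll.lift ⟨h1, h2⟩ π
    have h0 := mult_eq_bot_of_trivial h hU.toIsCentExt
    let ρ : commutator (UExt G) →* G := (uProj G).comp (commutator (UExt G)).subtype
    have hρ : Function.Bijective ρ := by
      constructor
      · rw [injective_iff_map_eq_one]
        intro x hx
        have : (x : UExt G) ∈ mult (uProj G) := ⟨hx, x.2⟩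
        rw [h0] at this
        exact Subtype.ext this
      · intro q
        have h1 : q ∈ (commutator (UExt G)).map (uProj G) := by
          rw [map_commutator_eq, MonoidHom.range_eq_top.mpr hU.surj]
          exact Group.IsPerfect.mem_commutator
        obtain ⟨x, hx, rfl⟩ := h1
        exact ⟨⟨x, hx⟩, rfl⟩
    let e := MulEquiv.ofBijective ρ hρ
    refine ⟨(f.comp (commutator (UExt G)).subtype).comp e.symm.toMonoidHom, ?_⟩
    ext x
    obtain ⟨x, rfl⟩ := e.surjective x
    simp only [MonoidHom.comp_apply, MulEquiv.coe_toMonoidHom, MulEquiv.symm_apply_apply]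
    exact DFunLike.congr_fun hf _

end Cfsg.Agent.S3961
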