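import Cfsg.Statements.S3963
import Cfsg.Agent.Lib.SchurMetacyclic

set_option autoImplicit false
open Cfsg

namespace Cfsg.Agent.S3963

open CfsgLib.H4 Subgroup
open scoped commutatorElement IsMulCommutative

/-- For every `n ≥ 1` the dicyclic (generalized quaternion) group of order `4 n` has trivial Schur multiplier. -/
theorem result (n : ℕ) [NeZero n] : Cfsg.HasCyclicSchurMultiplier (QuaternionGroup n) 1 := by
  have hU := uProj_isCentExt (QuaternionGroup n)
  rw [hasTrivialMultiplier_iff hU (uProj_liftsAll _), eq_bot_iff]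
  obtain ⟨A, hA⟩ := hU.surj (QuaternionGroup.a 1)
  obtain ⟨B, hB⟩ := hU.surj (QuaternionGroup.xa 0)
  obtain ⟨h1, h2, -⟩ := exists_metacyclic_mult hU (A := A) (B := B) (r := -1) (by
    rw [hA, hB, eq_top_iff]
    have ha : ∀ i, QuaternionGroup.a i ∈ closure
        ({QuaternionGroup.a 1, QuaternionGroup.xa 0} : Set (QuaternionGroup n)) := by
      intro i
      rw [← ZMod.natCast_zmod_val i, ← QuaternionGroup.a_one_pow]
      exact pow_mem (subset_closure (by simp)) _
    rintro (i | i) _
    · exact ha i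
    · have : QuaternionGroup.xa i = QuaternionGroup.xa 0 * QuaternionGroup.a i := by simp
      rw [this]
      exact mul_mem (subset_closure (by simp)) (ha i)) (by
    rw [hA, hB, zpow_neg_one, mul_inv_eq_iff_eq_mul, eq_inv_mul_iff_mul_eq]
    simp)
  intro x hx
  obtain ⟨j, rfl, hj⟩ := h1 x hx
  have h3 := h2 n 2 (by
    rw [hA, hB, zpow_natCast, QuaternionGroup.a_one_pow, ← QuaternionGroup.xa_sq (0 : ZMod (2 * n))]
    rfl)
  rw [hA, ← orderOf_dvd_iff_zpow_eq_one, QuaternionGroup.orderOf_a_one] at hj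
  have h4 : (n : ℤ) ∣ j := by
    refine Int.dvd_of_mul_dvd_mul_left two_ne_zero ?_
    rw [← dvd_neg, show -(2 * j) = (-1 - 1) * j by ring]
    exact_mod_cast hj
  obtain ⟨k, rfl⟩ := h4
  rw [zpow_mul, h3, one_zpow]
  exact one_mem _

end Cfsg.Agent.S3963
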