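import Cfsg.Statements.S3964
import Cfsg.Agent.Lib.SchurMetacyclic

set_option autoImplicit false
open Cfsg

namespace Cfsg.Agent.S3964

open CfsgLib.H4 Subgroup
open scoped commutatorElement IsMulCommutative

theorem dihedral_aux (n : ℕ) [NeZero n] {E : Type*} [Group E] {π : E →* DihedralGroup n}
    (hU : IsCentExt π) : ∃ c : E, c ^ n = 1 ∧ ∀ x ∈ mult π, ∃ j : ℤ, x = c ^ j ∧ (n : ℤ) ∣ 2 * j := by
  obtain ⟨A, hA⟩ := hU.surj (DihedralGroup.r 1)
  obtain ⟨B, hB⟩ := hU.surj (DihedralGroup.sr 0)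
  obtain ⟨h1, h2, -⟩ := exists_metacyclic_mult hU (A := A) (B := B) (r := -1) (by
    rw [hA, hB, eq_top_iff]
    have ha : ∀ i, DihedralGroup.r i ∈ closure
        ({DihedralGroup.r 1, DihedralGroup.sr 0} : Set (DihedralGroup n)) := by
      intro i
      rw [← ZMod.natCast_zmod_val i, ← DihedralGroup.r_one_pow]
      exact pow_mem (subset_closure (by simp)) _
    rintro (i | i) _
    · exact ha i
    · have : DihedralGroup.sr i = DihedralGroup.sr 0 * DihedralGroup.r i := by simp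
      rw [this]
      exact mul_mem (subset_closure (by simp)) (ha i)) (by
    rw [hA, hB]
    simp)
  refine ⟨⁅B, A⁆, ?_, ?_⟩
  · rw [← zpow_natCast]
    exact h2 n 0 (by rw [hA, zpow_natCast, DihedralGroup.r_one_pow_n, zpow_zero])
  · intro x hx
    obtain ⟨j, rfl, hj⟩ := h1 x hx
    refine ⟨j, rfl, ?_⟩
    rw [hA, ← orderOf_dvd_iff_zpow_eq_one, DihedralGroup.orderOf_r_one] at hj
    rw [← dvd_neg, show -(2 * j) = (-1 - 1) * j by ring]
    exact hj


/-- For odd `n` the dihedral group of order `2 n` has trivial Schur multiplier. -/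
theorem result (n : ℕ) (hn : Odd n) : Cfsg.HasCyclicSchurMultiplier (DihedralGroup n) 1 := by
  have : NeZero n := ⟨hn.pos.ne'⟩
  have hU := uProj_isCentExt (DihedralGroup n)
  rw [hasTrivialMultiplier_iff hU (uProj_liftsAll _), eq_bot_iff]
  obtain ⟨c, hc, h⟩ := dihedral_aux n hU
  intro x hx
  obtain ⟨j, rfl, hj⟩ := h x hx
  have hcop : IsCoprime (n : ℤ) 2 := by
    have := Nat.isCoprime_iff_coprime.mpr (Nat.coprime_two_right.mpr hn)
    simpa using this
  obtain ⟨k, rfl⟩ := hcop.dvd_of_dvd_mul_left hj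
  rw [zpow_mul, zpow_natCast, hc, one_zpow]
  exact one_mem _

end Cfsg.Agent.S3964
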