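import Cfsg.Statements.S3966
import Cfsg.Agent.Lib.SchurMetacyclic

set_option autoImplicit false
open Cfsg

namespace Cfsg.Agent.S3966

open CfsgLib.H4 Subgroup
open scoped commutatorElement IsMulCommutative

/-- For even `n ≥ 2` the dicyclic group of order `4 n` is a stem extension of the dihedral group of order `2 n` with kernel of order `2`: there is a surjective homomorphism `QuaternionGroup n →* DihedralGroup n` whose kernel is central, lies in the commutator subgroup and has two elements. Together with the order of the multiplier this exhibits the dicyclic group as a Schur covering group of the dihedral group. -/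
theorem result (n : ℕ) [NeZero n] (hn : Even n) : ∃ σ : QuaternionGroup n →* DihedralGroup n, Cfsg.IsStemExtension σ ∧ Nat.card σ.ker = 2 := by
  let f : ZMod (2 * n) →+* ZMod n := ZMod.castHom (Dvd.intro_left 2 rfl) (ZMod n)
  let σ : QuaternionGroup n →* DihedralGroup n := MonoidHom.mk'
    (fun x => match x with
      | QuaternionGroup.a i => DihedralGroup.r (f i)
      | QuaternionGroup.xa i => DihedralGroup.sr (f i)) (by
      rintro (i | i) (j | j) <;> simp)
  have hf : Function.Surjective f := ZMod.castHom_surjective _
  have hker : ∀ x, x ∈ σ.ker ↔ x = 1 ∨ x = QuaternionGroup.a (n : ZMod (2 * n)) := by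
    rintro (i | i)
    · change DihedralGroup.r (f i) = DihedralGroup.r 0 ↔ QuaternionGroup.a i = QuaternionGroup.a 0 ∨ _
      simp only [DihedralGroup.r.injEq, QuaternionGroup.a.injEq]
      constructor
      · intro h
        rw [← ZMod.natCast_zmod_val i, map_natCast, ZMod.natCast_eq_zero_iff] at h
        obtain ⟨k, hk⟩ := h
        have hlt := ZMod.val_lt i
        have hk2 : k < 2 := by
          by_contra h2
          have : n * 2 ≤ n * k := Nat.mul_le_mul_left n (by omega)
          omega
        rw [← ZMod.natCast_zmod_val i, hk]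
        interval_cases k <;> simp
      · rintro (rfl | rfl) <;> simp
    · change DihedralGroup.sr (f i) = DihedralGroup.r 0 ↔ QuaternionGroup.xa i = QuaternionGroup.a 0 ∨ _
      simp only [reduceCtorEq, or_self]
  have hnn : (n : ZMod (2 * n)) + n = 0 := by
    rw [← two_mul]
    exact_mod_cast ZMod.natCast_self (2 * n)
  refine ⟨σ, ⟨?_, ?_, ?_⟩, ?_⟩
  · rintro (i | i)
    · obtain ⟨i, rfl⟩ := hf i
      exact ⟨QuaternionGroup.a i, rfl⟩
    · obtain ⟨i, rfl⟩ := hf i
      exact ⟨QuaternionGroup.xa i, rfl⟩
  · intro x hx
    rcases (hker x).mp hx with rfl | rfl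
    · exact one_mem _
    · rw [mem_center_iff]
      rintro (i | i)
      · simp [add_comm]
      · simp only [QuaternionGroup.xa_mul_a, QuaternionGroup.a_mul_xa, QuaternionGroup.xa.injEq]
        linear_combination hnn
  · intro x hx
    rcases (hker x).mp hx with rfl | rfl
    · exact one_mem _
    · obtain ⟨k, hk⟩ := hn
      have : QuaternionGroup.a (n : ZMod (2 * n)) =
          ⁅QuaternionGroup.a (k : ZMod (2 * n)), QuaternionGroup.xa (0 : ZMod (2 * n))⁆ := by
        rw [commutatorElement_def, eq_mul_inv_iff_mul_eq, eq_mul_inv_iff_mul_eq]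
        simp only [QuaternionGroup.xa_mul_a, QuaternionGroup.a_mul_xa, QuaternionGroup.xa.injEq]
        have : (n : ZMod (2 * n)) = k + k := by rw [← Nat.cast_add, ← hk]
        linear_combination (-1 : ZMod (2 * n)) * this
      rw [this]
      exact commutator_mem_commutator (mem_top _) (mem_top _)
  · have : (σ.ker : Set (QuaternionGroup n)) = {1, QuaternionGroup.a (n : ZMod (2 * n))} := by
      ext x
      exact hker x
    rw [← SetLike.coe_sort_coe, this, Nat.card_coe_set_eq, Set.ncard_pair]
    intro h
    have h1 : (0 : ZMod (2 * n)) = n := QuaternionGroup.a.inj h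
    rw [eq_comm, ZMod.natCast_eq_zero_iff] at h1
    have := Nat.le_of_dvd (Nat.pos_of_ne_zero (NeZero.ne n)) h1
    have := NeZero.ne n
    omega

end Cfsg.Agent.S3966
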