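import Cfsg.Statements.S3965
import Cfsg.Agent.Lib.SchurMetacyclic
import Cfsg.Agent.S3964
import Cfsg.Agent.S3966

set_option autoImplicit false
open Cfsg

namespace Cfsg.Agent.S3965

open CfsgLib.H4 Subgroup
open scoped commutatorElement IsMulCommutative

/-- For even `n ≥ 2` the dihedral group of order `2 n` has Schur multiplier cyclic of order `2`. -/
theorem result (n : ℕ) [NeZero n] (hn : Even n) : Cfsg.HasCyclicSchurMultiplier (DihedralGroup n) 2 := by
  obtain ⟨σ, hσ, hc⟩ := Cfsg.Agent.S3966.result n hn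
  rw [← mult_eq_ker_of_stem hσ] at hc
  have : Fact (Nat.Prime 2) := ⟨Nat.prime_two⟩
  have hcard : Nat.card (Multiplicative (ZMod 2)) = 2 := by simp
  refine hasSchurMultiplier_of_card_le (isCentExt_of_stem hσ)
    (mulEquivOfPrimeCardEq hcard hc) ?_
  rw [hcard]
  obtain ⟨c, hc, h⟩ := Cfsg.Agent.S3964.dihedral_aux n (uProj_isCentExt (DihedralGroup n))
  obtain ⟨k, hk⟩ := hn
  refine card_le_of_le_zpowers (c := c ^ k) two_pos (by rw [← pow_mul, mul_two, ← hk, hc]) ?_
  intro x hx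
  obtain ⟨j, rfl, hj⟩ := h x hx
  have h4 : (k : ℤ) ∣ j := by
    refine Int.dvd_of_mul_dvd_mul_left two_ne_zero ?_
    rw [show (2 * k : ℤ) = n by rw [hk]; push_cast; ring]
    exact hj
  obtain ⟨l, rfl⟩ := h4
  rw [zpow_mul, zpow_natCast]
  exact zpow_mem (mem_zpowers _) l

end Cfsg.Agent.S3965
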