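import Cfsg.Statements.S3967
import Cfsg.Agent.Lib.SchurMetacyclic

set_option autoImplicit false
open Cfsg

namespace Cfsg.Agent.S3967

open CfsgLib.H4 Subgroup
open scoped commutatorElement IsMulCommutative

/-- the automorphism `(x, y) ↦ (x, x + r y)`. -/
def autE (g r : ℕ) (r' : ZMod g) (h : r' * r = 1) : MulAut (Multiplicative (ℤ × ZMod g)) :=
  AddEquiv.toMultiplicative
    { toFun := fun p => (p.1, (p.1 : ZMod g) + r * p.2)
      invFun := fun p => (p.1, r' * (p.2 - p.1))
      left_inv := fun p => by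
        ext
        · rfl
        · simp only [add_sub_cancel_left, ← mul_assoc, h, one_mul]
      right_inv := fun p => by
        ext
        · rfl
        · simp only [← mul_assoc, mul_comm (r : ZMod g) r', h, one_mul, add_sub_cancel]
      map_add' := fun p q => by
        ext
        · rfl
        · simp only [Prod.fst_add, Prod.snd_add, Int.cast_add]
          ring }

theorem autE_apply (g r : ℕ) (r' : ZMod g) (h : r' * r = 1) (x : ℤ) (y : ZMod g) :
    autE g r r' h (.ofAdd (x, y)) = .ofAdd (x, (x : ZMod g) + r * y) := rfl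

theorem autE_pow_apply (g r : ℕ) (r' : ZMod g) (h : r' * r = 1) (i : ℕ) (x : ℤ) (y : ZMod g) :
    (autE g r r' h ^ i) (.ofAdd (x, y)) =
      .ofAdd (x, ((∑ j ∈ Finset.range i, r ^ j : ℕ) : ZMod g) * x + (r : ZMod g) ^ i * y) := by
  induction i with
  | zero => simp
  | succ i ih =>
    rw [pow_succ', MulAut.mul_apply, ih, autE_apply, Finset.sum_range_succ']
    congr 2
    simp only [pow_succ', ← Finset.mul_sum]
    push_cast
    ring

/-- multiplication by `r`. -/
def autC (m r : ℕ) (r' : ZMod m) (h : r' * r = 1) : MulAut (Multiplicative (ZMod m)) :=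
  AddEquiv.toMultiplicative
    { toFun := fun p => r * p
      invFun := fun p => r' * p
      left_inv := fun p => by simp only [← mul_assoc, h, one_mul]
      right_inv := fun p => by simp only [← mul_assoc, mul_comm (r : ZMod m) r', h, one_mul]
      map_add' := fun p q => mul_add _ _ _ }

theorem autC_apply (m r : ℕ) (r' : ZMod m) (h : r' * r = 1) (y : ZMod m) :
    autC m r r' h (.ofAdd y) = .ofAdd (r * y) := rfl

theorem autC_pow_apply (m r : ℕ) (r' : ZMod m) (h : r' * r = 1) (i : ℕ) (y : ZMod m) :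
    (autC m r r' h ^ i) (.ofAdd y) = .ofAdd ((r : ZMod m) ^ i * y) := by
  induction i with
  | zero => simp
  | succ i ih => rw [pow_succ', MulAut.mul_apply, ih, autC_apply, pow_succ', mul_assoc]


/-- Let `m, n ≥ 1`, `r ≥ 1` with `r ^ n ≡ 1 (mod m)`, and `l` a natural number; put `d = gcd(m, r - 1)`, `t = m l / d` and `h = d · gcd(m, 1 + r + ⋯ + r^(n-1)) / m`. The group presented by generators `a, b` and relations `a ^ m = 1`, `b ^ n = a ^ t`, `b a b⁻¹ = a ^ r` (a metacyclic group of order `m n`) has Schur multiplier cyclic of order `gcd(l, h)`. -/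
theorem result (m n r l : ℕ) (hm : 0 < m) (hn : 0 < n) (hr : 0 < r) (hrn : r ^ n ≡ 1 [MOD m]) : Cfsg.HasCyclicSchurMultiplier (PresentedGroup ({FreeGroup.of true ^ m, (FreeGroup.of false) ^ n * (FreeGroup.of true ^ (m * l / Nat.gcd m (r - 1)))⁻¹, FreeGroup.of false * FreeGroup.of true * (FreeGroup.of false)⁻¹ * (FreeGroup.of true ^ r)⁻¹} : Set (FreeGroup Bool))) (Nat.gcd l (Nat.gcd m (r - 1) * Nat.gcd m (∑ i ∈ Finset.range n, r ^ i) / m)) := by
  set d := Nat.gcd m (r - 1) with hd
  set s := ∑ i ∈ Finset.range n, r ^ i with hs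
  set e := Nat.gcd m s with he
  set h := d * e / m with hh
  set k := Nat.gcd l h with hk
  set t := m * l / d with ht
  set rels : Set (FreeGroup Bool) := {FreeGroup.of true ^ m,
    (FreeGroup.of false) ^ n * (FreeGroup.of true ^ t)⁻¹,
    FreeGroup.of false * FreeGroup.of true * (FreeGroup.of false)⁻¹ * (FreeGroup.of true ^ r)⁻¹}
    with hrels
  have hd0 : 0 < d := Nat.gcd_pos_of_pos_left _ hm
  have he0 : 0 < e := Nat.gcd_pos_of_pos_left _ hm
  obtain ⟨u, hu⟩ : d ∣ m := Nat.gcd_dvd_left _ _
  obtain ⟨v, hv⟩ : d ∣ r - 1 := Nat.gcd_dvd_right _ _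
  have hu0 : 0 < u := Nat.pos_of_mul_pos_left (hu ▸ hm)
  have htu : t = u * l := by
    rw [ht]
    apply Nat.div_eq_of_eq_mul_right hd0
    rw [← mul_assoc, ← hu]
  have hrs : m ∣ (r - 1) * s := by
    have h1 := (Nat.modEq_iff_dvd' (Nat.one_le_pow _ _ hr)).mp hrn.symm
    have h2 : (r - 1) * s = r ^ n - 1 := by
      zify [hr, Nat.one_le_pow n r hr]
      rw [hs]
      push_cast
      exact mul_geom_sum (r : ℤ) n
    rwa [h2]
  have hde : m ∣ d * e := by
    have := Nat.gcd_mul_right_dvd_mul_gcd m (r - 1) s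
    rwa [Nat.gcd_eq_left hrs] at this
  have heu : e = u * h := by
    have h1 : m * h = d * e := Nat.mul_div_cancel' hde
    apply Nat.eq_of_mul_eq_mul_left hd0
    rw [← h1, ← mul_assoc, ← hu]
  have hh0 : 0 < h := Nat.pos_of_mul_pos_left (heu ▸ he0)
  have hk0 : 0 < k := Nat.gcd_pos_of_pos_right _ hh0
  set g := u * k with hg
  have hgte : g = Nat.gcd t e := by rw [htu, heu, Nat.gcd_mul_left]
  have hgt : g ∣ t := hgte ▸ Nat.gcd_dvd_left _ _
  have hge : g ∣ e := hgte ▸ Nat.gcd_dvd_right _ _
  have hgm : g ∣ m := hge.trans (Nat.gcd_dvd_left _ _)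
  have hgs : g ∣ s := hge.trans (Nat.gcd_dvd_right _ _)
  have hrr : r ^ (n - 1) * r = r ^ n := by rw [← pow_succ, Nat.sub_add_cancel hn]
  have hrm : (r : ZMod m) ^ n = 1 := by
    have := (ZMod.natCast_eq_natCast_iff _ _ _).mpr hrn
    simpa using this
  have hrg : (r : ZMod g) ^ n = 1 := by
    have := (ZMod.natCast_eq_natCast_iff _ _ _).mpr (hrn.of_dvd hgm)
    simpa using this
  let φ := PresentedGroup.mk rels
  have hφ : Function.Surjective φ := PresentedGroup.mk_surjective rels
  have hker : ∀ {X : Type} [Group X] (ψ : FreeGroup Bool →* X) (N : Subgroup X) [N.Normal],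
      (∀ x ∈ rels, ψ x ∈ N) → ∀ x ∈ φ.ker, ψ x ∈ N := by
    intro X _ ψ N _ h x hx
    have h1 : x ∈ normalClosure rels := PresentedGroup.mk_eq_one_iff.mp hx
    exact (normalClosure_le_normal (N := N.comap ψ) h) h1
  set a := φ (FreeGroup.of true) with ha
  set b := φ (FreeGroup.of false) with hb
  have r1 : a ^ m = 1 := by
    rw [ha, ← map_pow]
    exact PresentedGroup.one_of_mem (by simp [hrels])
  have r2 : b ^ n = a ^ t := by
    rw [← mul_inv_eq_one, ha, hb, ← map_pow, ← map_pow, ← map_inv, ← map_mul]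
    exact PresentedGroup.one_of_mem (by simp [hrels])
  have r3 : b * a * b⁻¹ = a ^ r := by
    rw [← mul_inv_eq_one, ha, hb, ← map_pow, ← map_inv, ← map_inv, ← map_mul, ← map_mul, ← map_mul]
    exact PresentedGroup.one_of_mem (by simp [hrels])
  have hgen : closure ({a, b} : Set (PresentedGroup rels)) = ⊤ := by
    rw [← PresentedGroup.closure_range_of rels]
    congr 1
    ext x
    simp only [Set.mem_insert_iff, Set.mem_singleton_iff, Set.mem_range, Bool.exists_bool]
    constructor
    · rintro (rfl | rfl)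
      · exact Or.inr rfl
      · exact Or.inl rfl
    · rintro (rfl | rfl)
      · exact Or.inr rfl
      · exact Or.inl rfl
  have hafin : IsOfFinOrder a := isOfFinOrder_iff_pow_eq_one.mpr ⟨m, hm, r1⟩
  have hfin : Finite (PresentedGroup rels) := by
    have hN : (zpowers a).Normal := normal_zpowers_of_conj_mem hafin hgen (by
      rintro x (rfl | rfl)
      · simp
      · rw [r3]; exact pow_mem (mem_zpowers a) r)
    have : Finite (zpowers a) := hafin.finite_zpowers.to_subtype
    have hbfin : IsOfFinOrder (QuotientGroup.mk' (zpowers a) b) :=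
      isOfFinOrder_iff_pow_eq_one.mpr ⟨n, hn, by
        rw [← map_pow, r2, QuotientGroup.mk'_apply, QuotientGroup.eq_one_iff]
        exact pow_mem (mem_zpowers a) t⟩
    have htop : zpowers (QuotientGroup.mk' (zpowers a) b) = ⊤ := by
      rw [eq_top_iff, ← map_top_of_surjective _ (QuotientGroup.mk'_surjective (zpowers a)), ← hgen,
        MonoidHom.map_closure, closure_le, Set.image_pair]
      rintro x (rfl | rfl)
      · rw [QuotientGroup.mk'_apply _ a, (QuotientGroup.eq_one_iff a).mpr (mem_zpowers a)]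
        exact one_mem _
      · exact mem_zpowers _
    have : Finite (PresentedGroup rels ⧸ zpowers a) := by
      have h1 := hbfin.finite_zpowers
      rw [htop, coe_top] at h1
      exact Set.finite_univ_iff.mp h1
    exact Finite.of_subgroup_quotient (zpowers a)
  -- the order of `a` is `m`
  have horder : ∀ j : ℤ, a ^ j = 1 → (m : ℤ) ∣ j := by
    intro j hj
    have h' : ((r : ZMod m) ^ (n - 1)) * r = 1 := by rw [← pow_succ, Nat.sub_add_cancel hn, hrm]
    let β := autC m r _ h'
    let A₁ : SD β := SemidirectProduct.inl (.ofAdd 1)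
    let ψ : FreeGroup Bool →* SD β := FreeGroup.lift (fun x => cond x A₁ (sdB β))
    have hA : ∀ i : ℕ, A₁ ^ i = SemidirectProduct.inl (.ofAdd (i : ZMod m)) := by
      intro i
      rw [← map_pow, ← ofAdd_nsmul, nsmul_one]
    let w : SD β := sdB β ^ n * (A₁ ^ t)⁻¹
    have hw : w ∈ center (SD β) := by
      refine mul_mem (sdB_pow_mem_center β ?_) (inv_mem ?_)
      · ext y
        obtain ⟨y, rfl⟩ := Multiplicative.ofAdd.surjective y
        rw [autC_pow_apply, hrm, one_mul]
        rfl
      · rw [hA]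
        apply sd_inl_mem_center
        rw [autC_apply]
        congr 1
        have : (((r - 1) * t : ℕ) : ZMod m) = 0 := by
          rw [ZMod.natCast_eq_zero_iff, htu, hv]
          exact ⟨v * l, by rw [← mul_assoc m, mul_comm m, hu]; ring⟩
        rw [Nat.cast_mul, Nat.cast_sub hr] at this
        linear_combination this
    have := normal_of_le_center ((zpowers_le_of_mem hw))
    have h1 := hker ψ (zpowers w) (by
      rintro x (rfl | rfl | rfl)
      · simp only [ψ, map_pow, FreeGroup.lift_apply_of, cond_true]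
        rw [hA, ZMod.natCast_self, ofAdd_zero, map_one]
        exact one_mem _
      · simp only [ψ, map_pow, map_mul, map_inv, FreeGroup.lift_apply_of, cond_true, cond_false]
        exact mem_zpowers _
      · simp only [ψ, map_pow, map_mul, map_inv, FreeGroup.lift_apply_of, cond_true, cond_false]
        rw [hA, sdB_conj, autC_apply, mul_one, mul_inv_cancel]
        exact one_mem _) (FreeGroup.of true ^ j) (by rw [MonoidHom.mem_ker, map_zpow]; exact hj)
    simp only [ψ, map_zpow, FreeGroup.lift_apply_of, cond_true] at h1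
    obtain ⟨i, hi⟩ := h1
    have h2 : i = 0 := by
      have h2 := congrArg (fun x => (SemidirectProduct.rightHom x).toAdd) hi
      simp only [w, A₁, sdB, map_zpow, map_mul, map_pow, map_inv, SemidirectProduct.rightHom_inl,
        SemidirectProduct.rightHom_inr] at h2
      simpa [hn.ne'] using h2
    rw [h2] at hi
    simp only [zpow_zero, A₁, ← map_zpow] at hi
    have h3 := SemidirectProduct.inl_injective ((map_one _).trans hi)
    have h4 := congrArg Multiplicative.toAdd h3
    simp only [toAdd_one, toAdd_zpow, toAdd_ofAdd, zsmul_one] at h4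
    exact (ZMod.intCast_zmod_eq_zero_iff_dvd j m).mp h4.symm
  have hπ := cqProj_isCentExt hφ
  set A : CQ φ := QuotientGroup.mk (FreeGroup.of true) with hA
  set B : CQ φ := QuotientGroup.mk (FreeGroup.of false) with hB
  obtain ⟨h1, h2, h3⟩ := exists_metacyclic_mult hπ (A := A) (B := B) (r := r) hgen
    (by rw [zpow_natCast]; exact r3)
  set c := ⁅B, A⁆ with hc
  have hcg : c ^ g = 1 := by
    rw [← orderOf_dvd_iff_pow_eq_one, hgte]
    refine Nat.dvd_gcd ?_ (Nat.dvd_gcd ?_ ?_) <;> rw [orderOf_dvd_iff_pow_eq_one, ← zpow_natCast]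
    · exact h2 t n (by rw [zpow_natCast, zpow_natCast]; exact r2.symm)
    · exact h2 m 0 (by rw [zpow_natCast, zpow_zero]; exact r1)
    · have := h3 n t (by rw [zpow_natCast]; exact r2)
      rw [hs]
      push_cast
      exact this
  have hle : mult (cqProj φ) ≤ zpowers (c ^ u) := by
    intro x hx
    obtain ⟨j, rfl, hj⟩ := h1 x hx
    have h4 := horder _ hj
    have h5 : (r : ℤ) - 1 = d * v := by rw [← Nat.cast_mul, ← hv, Nat.cast_sub hr, Nat.cast_one]
    have h6 : (m : ℤ) = d * u := by rw [← Nat.cast_mul, ← hu]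
    rw [h5, h6, mul_assoc] at h4
    have h7 := Int.dvd_of_mul_dvd_mul_left (by exact_mod_cast hd0.ne') h4
    have hcop : Nat.Coprime u v := by
      have : Nat.gcd (d * u) (d * v) = d := by rw [← hu, ← hv]
      rw [Nat.gcd_mul_left] at this
      exact (Nat.mul_eq_left hd0.ne').mp this
    obtain ⟨i, rfl⟩ := (Nat.isCoprime_iff_coprime.mpr hcop).dvd_of_dvd_mul_left h7
    rw [zpow_mul, zpow_natCast]
    exact zpow_mem (mem_zpowers _) i
  have hcu : c ^ u ∈ mult (cqProj φ) := by
    refine ⟨?_, pow_mem (commutator_mem_commutator (mem_top _) (mem_top _)) u⟩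
    change cqProj φ (c ^ u) = 1
    rw [map_pow, hc, map_commutatorElement, commutatorElement_def]
    change (b * a * b⁻¹ * a⁻¹) ^ u = 1
    have : a ^ r * a⁻¹ = a ^ (r - 1) := by
      rw [mul_inv_eq_iff_eq_mul, ← pow_succ, Nat.sub_add_cancel hr]
    rw [r3, this, ← pow_mul, hv, mul_right_comm, ← hu, pow_mul, r1, one_pow]
  have heq : mult (cqProj φ) = zpowers (c ^ u) := le_antisymm hle (zpowers_le_of_mem hcu)
  have hdvd : g ∣ orderOf c := by
    have h' : ((r : ZMod g) ^ (n - 1)) * r = 1 := by rw [← pow_succ, Nat.sub_add_cancel hn, hrg]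
    let β := autE g r _ h'
    let A₁ : SD β := SemidirectProduct.inl (.ofAdd (1, 0))
    let ψ : FreeGroup Bool →* SD β := FreeGroup.lift (fun x => cond x A₁ (sdB β))
    have hA₁ : ∀ i : ℕ, A₁ ^ i = SemidirectProduct.inl (.ofAdd ((i : ℤ), (0 : ZMod g))) := by
      intro i
      rw [← map_pow, ← ofAdd_nsmul]
      simp
    have hAc : ∀ i : ℕ, g ∣ i → A₁ ^ i ∈ center (SD β) := by
      intro i hi
      rw [hA₁]
      apply sd_inl_mem_center
      rw [autE_apply]
      simp [(ZMod.natCast_eq_zero_iff i g).mpr hi]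
    have h1 := hker ψ (center _) (by
      rintro x (rfl | rfl | rfl)
      · simp only [ψ, map_pow, FreeGroup.lift_apply_of, cond_true]
        exact hAc m hgm
      · simp only [ψ, map_pow, map_mul, map_inv, FreeGroup.lift_apply_of, cond_true, cond_false]
        refine mul_mem (sdB_pow_mem_center β ?_) (inv_mem (hAc t hgt))
        refine MulEquiv.ext (fun y => ?_)
        obtain ⟨⟨x, y⟩, rfl⟩ := Multiplicative.ofAdd.surjective y
        rw [autE_pow_apply, hrg, ← hs, (ZMod.natCast_eq_zero_iff s g).mpr hgs]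
        simp
      · simp only [ψ, map_pow, map_mul, map_inv, FreeGroup.lift_apply_of, cond_true, cond_false]
        rw [hA₁, sdB_conj, autE_apply, ← map_inv, ← map_mul, ← ofAdd_neg, ← ofAdd_add]
        apply sd_inl_mem_center
        rw [Prod.neg_mk, Prod.mk_add_mk, autE_apply]
        simp)
    have h2 : cqLift φ ψ h1 c = SemidirectProduct.inl (.ofAdd ((0 : ℤ), (1 : ZMod g))) := by
      rw [hc, map_commutatorElement, hA, hB, cqLift_mk, cqLift_mk]
      simp only [ψ, FreeGroup.lift_apply_of, cond_true, cond_false, commutatorElement_def]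
      rw [sdB_conj, autE_apply, ← map_inv, ← map_mul, ← ofAdd_neg, ← ofAdd_add]
      simp
    refine dvd_trans ?_ (orderOf_map_dvd (cqLift φ ψ h1) c)
    rw [h2, orderOf_injective _ SemidirectProduct.inl_injective, orderOf_ofAdd_eq_addOrderOf,
      Prod.addOrderOf_mk, addOrderOf_zero, ZMod.addOrderOf_one]
    exact Nat.dvd_lcm_right _ _
  have hoc : orderOf c = g := Nat.dvd_antisymm (orderOf_dvd_of_pow_eq_one hcg) hdvd
  have hcard : Nat.card (mult (cqProj φ)) = k := by
    rw [heq, Nat.card_zpowers, orderOf_pow' _ hu0.ne', hoc, hg, Nat.gcd_mul_right_left,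
      Nat.mul_div_cancel_left _ hu0]
  have : IsCyclic (mult (cqProj φ)) := by rw [heq]; infer_instance
  refine (hasSchurMultiplier_iff hπ (cqProj_liftsAll φ)).mpr ⟨mulEquivOfCyclicCardEq ?_⟩
  rw [hcard]
  exact Nat.card_zmod k

end Cfsg.Agent.S3967
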