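import Cfsg.Statements.S3968
import Mathlib
import Cfsg.Agent.Lib.CharBurnside
import Cfsg.Agent.Lib.PGroupBasic
import Cfsg.Agent.Lib.H8ClassBound

set_option autoImplicit false
open Cfsg

namespace Cfsg.Agent.S3968
open Subgroup Cfsg CfsgLib
open scoped commutatorElement

/-- Let `p` be a prime and `G` a finite group with a faithful irreducible complex character of degree `p` (so `G` is an irreducible linear group in `p` variables). If `p ^ 2` divides the order of `G`, then the centre of `G` is nontrivial. -/
theorem result {G : Type*} [Group G] [Finite G] (p : ℕ) (hp : p.Prime) (χ : Cfsg.IrrCharacter G) (hdeg : χ.1 1 = p) (hfaith : ∀ g : G, χ.1 g = χ.1 1 → g = 1) (hdiv : p ^ 2 ∣ Nat.card G) : Subgroup.center G ≠ ⊥ := by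
  classical
  intro hZ
  have := Fact.mk hp
  have := Fintype.ofFinite G
  obtain ⟨P⟩ : Nonempty (Sylow p G) := inferInstance
  have := Fintype.ofFinite (P : Subgroup G)
  have hχ := χ.2.isCharacter
  have hcen : ∀ z : G, ‖χ.1 z‖ = ‖χ.1 1‖ → z = 1 := fun z hz => by
    rw [← mem_bot, ← hZ, mem_center_iff]
    intro g
    exact (commutatorElement_eq_one_iff_mul_comm.mp (hfaith _
      ((mem_charKer hχ).mp (hχ.commutator_mem_charKer hz g)))).symm
  have hzero : ∀ z : (P : Subgroup G), z ∈ center (P : Subgroup G) → z ≠ 1 → χ.1 z = 0 :=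
    fun z hz hz1 => (χ.2.eq_zero_or_norm_eq hdeg z (((Nat.Prime.coprime_iff_not_dvd hp).mpr
      fun h => P.not_dvd_index (h.trans (index_dvd_of_le fun y hy =>
        mem_centralizer_singleton_iff.mpr (congrArg Subtype.val
          (mem_center_iff.mp hz ⟨y, hy⟩))))).symm)).resolve_right
            fun h => hz1 (Subtype.ext (hcen z h))
  have hψ := hχ.comp (P : Subgroup G).subtype
  have hP2 := P.pow_dvd_card_of_pow_dvd_card hdiv
  have hp1 := hp.one_lt
  by_cases hc : IsMulCommutative (P : Subgroup G)
  · obtain ⟨n, hn⟩ := hψ.classInner_nat (isIrrCharacter_one (G := P)).isCharacter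
    rw [classInner, Finset.sum_eq_single 1 (fun z _ hz => by
      simp [hzero z (mem_center_iff.mpr fun y => mul_comm' y z) hz]) (by simp),
      inv_mul_eq_iff_eq_mul₀ natCard_ne_zero_complex] at hn
    simp only [Function.comp, map_one, hdeg, Pi.one_apply, mul_one] at hn
    have h1 : p = Nat.card (P : Subgroup G) * n := by exact_mod_cast hn
    have := Nat.le_of_dvd hp.pos (hP2.trans ⟨n, h1⟩)
    nlinarith
  · have := P.isPGroup'.isNilpotent
    have : Nontrivial (P : Subgroup G) := Finite.one_lt_card_iff_nontrivial.mp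
      (lt_of_lt_of_le (by nlinarith) (Nat.le_of_dvd Nat.card_pos hP2))
    obtain ⟨z, -, hz1, hz⟩ :=
      PGrp.exists_ne_one_mem_center_of_normal (⊤ : Subgroup (P : Subgroup G)) top_ne_bot
    obtain ⟨m, hm⟩ := P.isPGroup'.exists_card_eq
    have key : ∀ ψ : ↥(P : Subgroup G) → ℂ, IsCharacter _ ψ → ∃ n : ℕ, ψ 1 = n ∧
        ((∀ a b : ↥(P : Subgroup G), ψ ⁅a, b⁆ = ψ 1) ∨ p < n ∨ (p = n ∧ ‖ψ z‖ = ‖ψ 1‖)) := by
      intro ψ hψ
      refine hψ.induction (P := fun ψ => ∃ n : ℕ, ψ 1 = n ∧
        ((∀ a b : ↥(P : Subgroup G), ψ ⁅a, b⁆ = ψ 1) ∨ p < n ∨ (p = n ∧ ‖ψ z‖ = ‖ψ 1‖))) ⟨0, by simp, Or.inl (by simp)⟩ ?_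
      rintro φ ψ hφ hψ ⟨n, hn, h⟩
      obtain ⟨d, hd0, hd⟩ := hφ.exists_nat_one
      have hz' : ∀ a, ‖φ 1‖ = 1 ∨ a = z → ‖φ a‖ = ‖φ 1‖ := by
        intro a h
        have h0 : ‖φ 1‖ ≠ 0 := by simp [hd, hd0.ne']
        have h3 : φ a * φ a⁻¹ = φ 1 * φ 1 := by
          rcases h with h | rfl
          · have h1 : φ 1 = 1 := by
              rw [hd] at h ⊢
              exact_mod_cast (show d = 1 by exact_mod_cast h)
            rw [← ClBound.char_map_mul_of_degree_one hφ.isCharacter h1, mul_inv_cancel, h1, one_mul]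
          · have := hφ.sum_classFun_mul (f := fun g => if g = a then 1 else 0) (fun g x => by
              have : x * g * x⁻¹ = a ↔ g = a := by
                rw [mul_inv_eq_iff_eq_mul, ← mem_center_iff.mp hz x, mul_right_inj]
              simp only [this]) a⁻¹
            simp only [ite_mul, one_mul, zero_mul, Finset.sum_ite_eq', Finset.mem_univ, if_true,
              mul_inv_cancel] at this
            rw [norm_ne_zero_iff] at h0
            field_simp at this
            linear_combination -this
        rw [hφ.isCharacter.inv] at h3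
        have h4 := congrArg norm h3
        rw [norm_mul, norm_mul, RCLike.norm_conj] at h4
        exact (mul_self_inj (norm_nonneg _) (norm_nonneg _)).mp h4
      refine ⟨d + n, by simp [hd, hn], ?_⟩
      obtain ⟨e, -, he⟩ := (Nat.dvd_prime_pow hp).mp (hm ▸ hφ.degree_dvd_card hd)
      rcases e with _ | e
      · rcases h with h | h | h
        · left
          intro a b
          simp only [Pi.add_apply, h a b]
          rw [(mem_charKer hφ.isCharacter).mp (hφ.isCharacter.commutator_mem_charKer
            (hz' a (Or.inl (by simp [hd, he]))) b)]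
        · right; left; omega
        · right; left; omega
      · have : p ≤ d := he ▸ Nat.le_self_pow (by omega) p
        right
        by_cases h1 : p < d + n
        · exact Or.inl h1
        · obtain rfl : n = 0 := by omega
          refine Or.inr ⟨by omega, ?_⟩
          have h2 := hψ.norm_le z
          rw [hn, Nat.cast_zero, norm_zero, norm_le_zero_iff] at h2
          simp only [Pi.add_apply, h2, hn, Nat.cast_zero, add_zero]
          exact hz' z (Or.inr rfl)
    obtain ⟨n, hn, h | h | h⟩ := key _ hψ
    · exact hc (PGrp.isMulCommutative_iff_forall'.mpr fun a b =>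
        commutatorElement_eq_one_iff_mul_comm.mp (Subtype.ext (hfaith _ (h a b))))
    · have : (p : ℂ) = n := hdeg.symm.trans hn
      exact h.ne (by exact_mod_cast this)
    · exact hz1 (Subtype.ext (hcen z h.2))

end Cfsg.Agent.S3968
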