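import Cfsg.Statements.S3970
import Cfsg.Agent.Lib.PComplementMore

set_option autoImplicit false
open Cfsg

namespace Cfsg.Agent.S3970

open Subgroup CfsgLib CfsgLib.PCompl CfsgLib.PRes

theorem aux.{u} (G : Type u) [Group G] [Finite G] : (∀ p : ℕ, p.Prime → p ∣ Nat.card G → (∃ q : ℕ, q.Prime ∧ q ∣ Nat.card G ∧ p < q) → ∀ P : Sylow p G, IsMulCommutative (P : Subgroup G) ∧ Group.rank (P : Subgroup G) ≤ 2) → ¬ 12 ∣ Nat.card G → Group.IsSolvable G := by
  refine card_induction (P := fun G _ _ => (∀ p : ℕ, p.Prime → p ∣ Nat.card G → (∃ q : ℕ, q.Prime ∧ q ∣ Nat.card G ∧ p < q) → ∀ P : Sylow p G, IsMulCommutative (P : Subgroup G) ∧ Group.rank (P : Subgroup G) ≤ 2) → ¬ 12 ∣ Nat.card G → Group.IsSolvable G) ?_ G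
  intro G _ _ ih h h12
  by_cases h1 : Nat.card G = 1
  · have : Subsingleton G := (Nat.card_eq_one_iff_unique.1 h1).1
    infer_instance
  have hp : (Nat.card G).minFac.Prime := Nat.minFac_prime h1
  set p := (Nat.card G).minFac with hpdef
  have hpG : p ∣ Nat.card G := Nat.minFac_dvd _
  have hmin : ∀ q : ℕ, q.Prime → q ∣ Nat.card G → p ≤ q := fun q hq hqG =>
    Nat.minFac_le_of_dvd hq.two_le hqG
  have := Fact.mk hp
  by_cases hq : ∃ q : ℕ, q.Prime ∧ q ∣ Nat.card G ∧ p < q
  swap
  · have hG : IsPGroup p G := by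
      rw [IsPGroup.iff_card]
      refine ⟨_, Nat.eq_prime_pow_of_unique_prime_dvd Nat.card_pos.ne' fun {d} hd hdG => ?_⟩
      by_contra hne
      exact hq ⟨d, hd, hdG, lt_of_le_of_ne (hmin d hd hdG) (Ne.symm hne)⟩
    exact Cop.solvable_of_isPGroup hG
  obtain ⟨P⟩ : Nonempty (Sylow p G) := inferInstance
  obtain ⟨hab, hr⟩ := h p hp hpG hq P
  have hn : HasNormalPComplement p G := by
    by_cases h3 : p = 2 ∧ 3 ∣ Nat.card G
    · apply hnpc_of_isCyclic_minFac P rfl
      obtain ⟨k, hk⟩ := IsPGroup.iff_card.1 P.isPGroup'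
      have hk1 : k ≤ 1 := by
        by_contra hk2
        apply h12
        have h4 : 4 ∣ Nat.card G := by
          refine dvd_trans ?_ (card_subgroup_dvd_card (P : Subgroup G))
          rw [hk, h3.1]
          exact pow_dvd_pow 2 (show 2 ≤ k by omega)
        exact Nat.Coprime.mul_dvd_of_dvd_of_dvd (by norm_num : Nat.Coprime 3 4) h3.2 h4
      apply isCyclic_of_card_dvd_prime (p := p)
      rw [hk]
      simpa using pow_dvd_pow p hk1
    · refine hnpc_of_comm_of_rank P hab fun q hq hqG i hi1 hi2 hd => ?_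
      have hpq := hmin q hq hqG
      have hp2 := hp.two_le
      have hq1 : ¬ q ∣ p - 1 := fun h => by
        have := Nat.le_of_dvd (by omega) h
        omega
      have hi : i = 1 ∨ i = 2 := by omega
      rcases hi with rfl | rfl
      · exact hq1 (by simpa using hd)
      · have e : p ^ 2 - 1 = (p + 1) * (p - 1) := by
          have := Nat.sq_sub_sq p 1
          simpa using this
        rw [e] at hd
        have h5 := (hq.dvd_mul.1 hd).resolve_right hq1
        have h6 := Nat.le_of_dvd (by omega) h5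
        have h7 : q = p ∨ q = p + 1 := by omega
        rcases h7 with rfl | h7
        · exact hq.one_lt.ne' (Nat.eq_one_of_dvd_one ((Nat.dvd_add_right dvd_rfl).1 h5))
        · rcases hp.eq_two_or_odd' with h8 | h8
          · exact h3 ⟨h8, by rw [h7, h8] at hqG; exact hqG⟩
          · have h9 : q = 2 := hq.even_iff.1 (h7 ▸ h8.add_one)
            omega
  obtain ⟨N, hN, hcop, k, hk⟩ := hnpc_exists_normal hn
  have hNlt : Nat.card N < Nat.card G := by
    apply card_lt_of_ne_top
    rintro rfl
    rw [card_top] at hcop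
    exact hp.one_lt.ne' (Nat.Coprime.eq_one_of_dvd hcop.symm hpG)
  have hNs : Group.IsSolvable N := by
    refine ih N hNlt ?_ fun h => h12 (h.trans (card_subgroup_dvd_card N))
    rintro r hr hrN ⟨q, hq, hqN, hrq⟩ R
    have := Fact.mk hr
    have hrp : r ≠ p := by
      rintro rfl
      exact hp.one_lt.ne' (Nat.Coprime.eq_one_of_dvd hcop.symm hrN)
    have hR : IsSylowIn r ((R : Subgroup N).map N.subtype) ⊤ := by
      refine ⟨le_top, R.isPGroup'.map _, ?_⟩
      rw [relIndex_top_right, index_map_subtype, hk]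
      intro hd
      rcases hr.dvd_mul.1 hd with hd | hd
      · exact R.not_dvd_index hd
      · exact hrp ((Nat.prime_dvd_prime_iff_eq hr hp).1 (hr.dvd_of_dvd_pow hd))
    obtain ⟨R', hR'⟩ := IsSylowIn.top_iff.1 hR
    obtain ⟨h1, h2⟩ := h r hr (hrN.trans (card_subgroup_dvd_card N))
      ⟨q, hq, hqN.trans (card_subgroup_dvd_card N), hrq⟩ R'
    let e : (R : Subgroup N) ≃* (R' : Subgroup G) :=
      ((R : Subgroup N).equivMapOfInjective N.subtype N.subtype_injective).trans
        (MulEquiv.subgroupCongr hR'.symm)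
    refine ⟨⟨⟨fun a b => e.injective ?_⟩⟩, by rwa [Group.rank_congr e]⟩
    rw [map_mul, map_mul, h1.is_comm.comm]
  have hQ : Group.IsSolvable (G ⧸ N) := Cop.solvable_of_isPGroup (IsPGroup.of_card (p := p) hk)
  exact Group.isSolvable_of_ker_le_range N.subtype (QuotientGroup.mk' N) (by simp)

/-- Let `G` be a finite group such that for every prime `p` dividing its order, other than the largest such prime, the Sylow `p`-subgroups are abelian and generated by at most two elements, and suppose `12` does not divide the order of `G`. Then `G` is solvable. In particular a group of cube-free order not divisible by `12` is solvable. -/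
theorem result {G : Type*} [Group G] [Finite G] (h : ∀ p : ℕ, p.Prime → p ∣ Nat.card G → (∃ q : ℕ, q.Prime ∧ q ∣ Nat.card G ∧ p < q) → ∀ P : Sylow p G, IsMulCommutative (P : Subgroup G) ∧ Group.rank (P : Subgroup G) ≤ 2) (h12 : ¬ 12 ∣ Nat.card G) : Group.IsSolvable G := by
  exact aux G h h12

end Cfsg.Agent.S3970
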