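import Cfsg.Statements.S3971
import Cfsg.Agent.Lib.PComplementMore

set_option autoImplicit false
open Cfsg

namespace Cfsg.Agent.S3971

open Subgroup CfsgLib CfsgLib.PCompl CfsgLib.PRes

theorem rank_le_two {G : Type*} [Group G] [Finite G] (C : Subgroup G) (hC : IsCyclic C)
    (hi : C.index ∣ 2) : Group.rank G ≤ 2 := by
  classical
  obtain ⟨c, hc⟩ := (isCyclic_iff_exists_zpowers_eq_top).1 hC
  have hc' : zpowers (c : G) = C := by
    have := congrArg (Subgroup.map C.subtype) hc
    rwa [MonoidHom.map_zpowers, ← MonoidHom.range_eq_map, range_subtype] at this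
  generalize (c : G) = c at hc'
  have key : ∃ y : G, closure (({(c : G), y} : Finset G) : Set G) = ⊤ := by
    by_cases hC : C = ⊤
    · refine ⟨1, ?_⟩
      rw [eq_top_iff, ← hC, ← hc', zpowers_le]
      exact subset_closure (by simp)
    · obtain ⟨y, -, hy⟩ := SetLike.exists_of_lt (lt_top_iff_ne_top.2 hC)
      refine ⟨y, ?_⟩
      have h2 : C.index = 2 := by
        rcases (Nat.dvd_prime Nat.prime_two).1 hi with h | h
        · exact absurd (index_eq_one.1 h) hC
        · exact h
      have h3 : IsCoatom C := BurnsideBasis.isCoatom_of_index_prime (h2 ▸ Nat.prime_two)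
      refine h3.2 _ (lt_of_le_of_ne ?_ fun e => hy ?_)
      · rw [← hc', zpowers_le]
        exact subset_closure (by simp)
      · rw [e]
        exact subset_closure (by simp)
  obtain ⟨y, hy⟩ := key
  exact (Group.rank_le hy).trans Finset.card_le_two

/-- Let `G` be a finite group of order `2 ^ a * n` with `n` odd and not divisible by `3`, and suppose `G` has an element of order `2 ^ (a - 1)` (so a Sylow `2`-subgroup has a cyclic subgroup of index at most `2`). Then `G` has a normal subgroup of order `n`. -/
theorem result {G : Type*} [Group G] [Finite G] (a n : ℕ) (hG : Nat.card G = 2 ^ a * n) (hn : Odd n) (h3 : ¬ 3 ∣ n) (hx : ∃ x : G, orderOf x = 2 ^ (a - 1)) : ∃ N : Subgroup G, N.Normal ∧ Nat.card N = n := by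
  obtain ⟨x, hx⟩ := hx
  have hxp : IsPGroup 2 (zpowers x) := IsPGroup.of_card (by rw [Nat.card_zpowers, hx])
  obtain ⟨P, hP⟩ := hxp.exists_le_sylow
  have hn2 : ¬ 2 ∣ n := fun h => (Nat.not_even_iff_odd.2 hn) (even_iff_two_dvd.2 h)
  have hPc : Nat.card (P : Subgroup G) = 2 ^ a := by
    rw [P.card_eq_multiplicity, hG, Nat.factorization_mul (by positivity) hn.pos.ne',
      Nat.Prime.factorization_pow Nat.prime_two, Finsupp.add_apply, Finsupp.single_eq_same,
      Nat.factorization_eq_zero_of_not_dvd hn2, add_zero]
  have hidx : (zpowers x).relIndex (P : Subgroup G) ∣ 2 := by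
    have h1 := card_mul_relIndex hP
    rw [Nat.card_zpowers, hx, hPc] at h1
    rcases Nat.eq_zero_or_pos a with rfl | ha
    · have : (zpowers x).relIndex (P : Subgroup G) = 1 := by simpa using h1
      rw [this]; exact one_dvd _
    · obtain ⟨b, rfl⟩ : ∃ b, a = b + 1 := ⟨a - 1, by omega⟩
      rw [Nat.add_sub_cancel, pow_succ] at h1
      rw [Nat.eq_of_mul_eq_mul_left (by positivity) h1]
  have hnpc : HasNormalPComplement 2 G := by
    refine hnpc_of_rank_le P 2 (fun H hH => ?_) fun q hq hqG i h1 h2 hd => ?_
    · refine rank_le_two ((zpowers x).subgroupOf H) ?_ ?_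
      · have h0 : IsCyclic (zpowers x ⊓ H : Subgroup G) :=
          isCyclic_of_injective (inclusion (inf_le_left : zpowers x ⊓ H ≤ zpowers x))
            (inclusion_injective _)
        rw [← inf_subgroupOf_right]
        exact isCyclic_of_injective
          (subgroupOfEquivOfLe (inf_le_right : zpowers x ⊓ H ≤ H)).toMonoidHom (MulEquiv.injective _)
      · have hnorm : ((zpowers x).subgroupOf (P : Subgroup G)).Normal := by
          rcases (Nat.dvd_prime Nat.prime_two).1 hidx with h | h
          · rw [relIndex, index_eq_one] at h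
            rw [h]; infer_instance
          · exact normal_of_index_eq_two h
        have h3 := relIndex_dvd_index_of_normal ((zpowers x).subgroupOf (P : Subgroup G))
          (H.subgroupOf (P : Subgroup G))
        rw [relIndex_subgroupOf hH] at h3
        exact h3.trans hidx
    · have hi : i = 1 ∨ i = 2 := by omega
      rcases hi with rfl | rfl
      · exact hq.one_lt.ne' (by simpa using hd)
      · have h4 : q = 3 := (Nat.prime_dvd_prime_iff_eq hq Nat.prime_three).1 hd
        rw [h4, hG] at hqG
        exact h3 ((Nat.Coprime.pow_right a (by norm_num : Nat.Coprime 3 2)).dvd_of_dvd_mul_left hqG)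
  obtain ⟨N, hN, hc⟩ := hnpc_exists_isComplement' hnpc P
  refine ⟨N, hN, ?_⟩
  have h5 := hc.card_mul_card
  rw [hPc, hG, mul_comm] at h5
  exact Nat.eq_of_mul_eq_mul_left (by positivity) h5

end Cfsg.Agent.S3971
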