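import Cfsg.Statements.S3972
import Cfsg.Agent.Lib.BGroup

set_option autoImplicit false
open Cfsg

namespace Cfsg.Agent.S3972

open MulAction CfsgLib.BGrp

/-- Let `p` be a prime, `m ≥ 2`, and `G` a transitive but not doubly transitive permutation group on `p ^ m` points containing a permutation of order `p ^ m` (necessarily a full cycle). Then `G` is imprimitive, and the normal closure in `G` of the `p ^ (m - 1)`-th power of that permutation is an intransitive normal subgroup. -/
theorem result {Ω : Type*} [Fintype Ω] [DecidableEq Ω] (p m : ℕ) (hp : p.Prime) (hm : 2 ≤ m) (hΩ : Fintype.card Ω = p ^ m) (G : Subgroup (Equiv.Perm Ω)) (htr : MulAction.IsPretransitive G Ω) (h2 : ¬ MulAction.IsMultiplyPretransitive G Ω 2) (g : G) (hg : orderOf g = p ^ m) : ¬ MulAction.IsPreprimitive G Ω ∧ ¬ MulAction.IsPretransitive (Subgroup.normalClosure ({g ^ (p ^ (m - 1))} : Set G)) Ω := by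
  classical
  have hcard : Nat.card Ω = p ^ m := by rw [Nat.card_eq_fintype_card, hΩ]
  have hnp : ¬ (Nat.card Ω).Prime := by
    rw [hcard]; exact Nat.Prime.not_prime_pow hm
  have hpos : 0 < Nat.card Ω := by rw [hcard]; exact pow_pos hp.pos _
  have hne : Nonempty Ω := (Nat.card_pos_iff.1 hpos).1
  have : Fact p.Prime := ⟨hp⟩
  -- `g` is a full cycle
  have hcyc : IsPretransitive (Subgroup.zpowers g) Ω := by
    have hz : IsPGroup p (Subgroup.zpowers g) := by
      apply IsPGroup.of_card (n := m); rw [Nat.card_zpowers, hg]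
    by_contra hcon
    have hall : ∀ ω : Ω, g ^ (p ^ (m - 1)) • ω = ω := by
      intro ω
      obtain ⟨k, hk⟩ := hz.card_orbit ω
      have hlt : k < m := by
        by_contra hge
        apply hcon
        refine (isPretransitive_iff_orbit_eq_univ ω).2 ?_
        apply Set.eq_of_subset_of_ncard_le (Set.subset_univ _)
        rw [Set.ncard_univ, hcard]
        exact (Nat.pow_le_pow_right hp.pos (not_lt.1 hge)).trans hk.ge
      have := Fintype.ofFinite (orbit (Subgroup.zpowers g) ω)
      rw [pow_smul_eq_iff_minimalPeriod_dvd, minimalPeriod_eq_card, ← Nat.card_eq_fintype_card, hk]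
      exact pow_dvd_pow _ (by omega)
    have h1 : g ^ (p ^ (m - 1)) = 1 := by
      ext ω
      exact hall ω
    have := Nat.le_of_dvd (pow_pos hp.pos _) (orderOf_dvd_of_pow_eq_one h1)
    rw [hg] at this
    have := (Nat.pow_le_pow_iff_right hp.one_lt).1 this
    omega
  refine ⟨fun hprim => h2 (two_trans_of_primitive_of_cycle g hcyc hnp), fun hT => ?_⟩
  obtain ⟨e, he⟩ := exists_equiv_zmod g hcyc
  have : NeZero (Nat.card Ω) := ⟨hpos.ne'⟩
  have htr := addLeft_mem_transGrp e g he
  obtain ⟨K, hK1, hK2, hK⟩ := exists_invariant_of_not_two_trans hnp e htr h2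
  let N : Subgroup G :=
    { carrier := {x | ∀ y, transPerm e x y - y ∈ K}
      one_mem' := by intro y; simp [transPerm]
      mul_mem' := by
        intro x x' hx hx' y
        have h1 : transPerm e (x * x') y = transPerm e x (transPerm e x' y) := by
          simp [transPerm, mul_smul]
        rw [h1]
        simpa using K.add_mem (hx (transPerm e x' y)) (hx' y)
      inv_mem' := by
        intro x hx y
        have h1 : transPerm e x (transPerm e x⁻¹ y) = y := by simp [transPerm]
        have := K.neg_mem (hx (transPerm e x⁻¹ y))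
        rwa [h1, neg_sub] at this }
  have hNn : N.Normal := by
    constructor
    intro x hx h y
    have h1 : transPerm e (h * x * h⁻¹) y = transPerm e h (transPerm e x (transPerm e h⁻¹ y)) := by
      simp [transPerm, mul_smul]
    have h3 : transPerm e h (transPerm e h⁻¹ y) = y := by simp [transPerm]
    have := smul_coset e htr K hK h (hx (transPerm e h⁻¹ y))
    rwa [h3, ← h1] at this
  have hpow : ∀ (n : ℕ) y, g ^ n • e y = e (y + n) := by
    intro n
    induction n with
    | zero => simp
    | succ n ih => intro y; rw [pow_succ', mul_smul, ih, he]; push_cast; rw [add_assoc]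
  have hzK : ((p ^ (m - 1) : ℕ) : ZMod (Nat.card Ω)) ∈ K := by
    have hdvd : K.index ∣ p ^ m := by
      have := K.index_dvd_card
      rw [Nat.card_zmod] at this
      exact this.trans hcard.dvd
    obtain ⟨j, hj, hjK⟩ := (Nat.dvd_prime_pow hp).1 hdvd
    have hjm : j ≠ m := by
      rintro rfl
      apply hK1
      have := K.index_mul_card
      rw [Nat.card_zmod, hjK] at this
      exact AddSubgroup.eq_bot_of_card_eq _ (Nat.eq_of_mul_eq_mul_left (pow_pos hp.pos _)
        (this.trans (hcard.trans (mul_one _).symm)))
    have h1 := K.nsmul_index_mem (1 : ZMod (Nat.card Ω))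
    rw [hjK] at h1
    have h3 := K.nsmul_mem h1 (p ^ (m - 1 - j))
    rw [← mul_nsmul', ← pow_add, show m - 1 - j + j = m - 1 by omega] at h3
    simpa using h3
  have hle : Subgroup.normalClosure ({g ^ (p ^ (m - 1))} : Set G) ≤ N := by
    apply Subgroup.normalClosure_le_normal
    rintro _ rfl y
    have : transPerm e (g ^ (p ^ (m - 1))) y = y + (p ^ (m - 1) : ℕ) := by
      apply e.injective; rw [← smul_eq_transPerm, hpow]
    rw [this, add_sub_cancel_left]
    exact hzK
  apply hK2
  rw [eq_top_iff]
  intro k _
  obtain ⟨x, hx⟩ := hT.exists_smul_eq (e 0) (e k)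
  have h1 := hle x.2 0
  have h3 : transPerm e (x : G) 0 = k := by
    apply e.injective; rw [← smul_eq_transPerm]; exact hx
  rwa [h3, sub_zero] at h1

end Cfsg.Agent.S3972
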