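import Cfsg.Statements.S3973
import Cfsg.Agent.Lib.SchurBasic

set_option autoImplicit false
open Cfsg

namespace Cfsg.Agent.S3973

open CfsgLib.H4 Subgroup
open scoped commutatorElement IsMulCommutative

/-- If a finite group is presented by `n` generators and a finite set of `r` relators, then its Schur multiplier can be generated by `r - n` elements. In particular a finite group with a presentation having as many relators as generators has trivial Schur multiplier. -/
theorem result (n : ℕ) (rels : Finset (FreeGroup (Fin n))) [Finite (PresentedGroup (rels : Set (FreeGroup (Fin n))))] {A : Type*} [CommGroup A] [Finite A] (hA : Cfsg.HasSchurMultiplier (PresentedGroup (rels : Set (FreeGroup (Fin n)))) A) : Group.rank A ≤ rels.card - n := by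
  classical
  let φ := PresentedGroup.mk (rels : Set (FreeGroup (Fin n)))
  have hφ : Function.Surjective φ := PresentedGroup.mk_surjective _
  have hπ := cqProj_isCentExt hφ
  obtain ⟨e⟩ := (hasSchurMultiplier_iff hπ (cqProj_liftsAll φ)).mp hA
  have := ker_comm hπ.central
  have hrel : ∀ r : rels, ((r : FreeGroup (Fin n)) : CQ φ) ∈ (cqProj φ).ker :=
    fun r => PresentedGroup.one_of_mem r.2
  let Λ : (rels → ℤ) →ₗ[ℤ] Additive (cqProj φ).ker :=
    Fintype.linearCombination ℤ (fun r => Additive.ofMul ⟨_, hrel r⟩)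
  let Λ' : Multiplicative (rels → ℤ) →* CQ φ :=
    (cqProj φ).ker.subtype.comp (AddMonoidHom.toMultiplicativeLeft Λ.toAddMonoidHom)
  have hΛ : Function.Surjective Λ := by
    have hn : Λ'.range.Normal := normal_of_le_center (by
      rintro _ ⟨x, rfl⟩
      exact hπ.central (Subtype.prop _))
    intro t
    obtain ⟨⟨t, ht⟩, rfl⟩ := Additive.ofMul.surjective t
    obtain ⟨t, rfl⟩ := QuotientGroup.mk_surjective t
    have h1 : t ∈ normalClosure (rels : Set (FreeGroup (Fin n))) :=
      PresentedGroup.mk_eq_one_iff.mp ht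
    have h2 : normalClosure (rels : Set (FreeGroup (Fin n))) ≤
        Λ'.range.comap (QuotientGroup.mk' _) := by
      apply normalClosure_le_normal
      intro r hr
      refine ⟨.ofAdd (Pi.single ⟨r, hr⟩ 1), ?_⟩
      change ((Λ (Pi.single ⟨r, hr⟩ 1)).toMul : CQ φ) = _
      rw [Fintype.linearCombination_apply_single, one_smul]
      rfl
    obtain ⟨x, hx⟩ := h2 h1
    exact ⟨x.toAdd, congrArg Additive.ofMul (Subtype.ext hx)⟩
  let ν : (cqProj φ).ker →* Abelianization (FreeGroup (Fin n)) :=
    (cqAb φ).comp (Abelianization.of.comp (cqProj φ).ker.subtype)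
  let ν' : Additive (cqProj φ).ker →ₗ[ℤ] FreeAbelianGroup (Fin n) :=
    (MonoidHom.toAdditive ν).toIntLinearMap
  let μ := ν'.comp Λ
  have hrange : n ≤ Module.finrank ℤ (LinearMap.range μ) := by
    set N := Nat.card (PresentedGroup (rels : Set (FreeGroup (Fin n)))) with hN
    have hN0 : (N : ℤ) ≠ 0 := by exact_mod_cast Nat.card_pos.ne'
    have hmem : ∀ y : FreeAbelianGroup (Fin n), (N : ℤ) • y ∈ LinearMap.range μ := by
      intro y
      obtain ⟨x, hx⟩ : ∃ x : FreeGroup (Fin n), Abelianization.of x = Additive.toMul y :=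
        QuotientGroup.mk_surjective _
      have h1 : ((x ^ N : FreeGroup (Fin n)) : CQ φ) ∈ (cqProj φ).ker := by
        rw [MonoidHom.mem_ker, cqProj_mk, map_pow, hN, pow_card_eq_one']
      obtain ⟨z, hz⟩ := hΛ (Additive.ofMul ⟨_, h1⟩)
      refine ⟨z, ?_⟩
      rw [LinearMap.comp_apply, hz, natCast_zsmul]
      change Additive.ofMul (Abelianization.of (x ^ N)) = _
      rw [map_pow, hx]
      rfl
    have h2 := LinearMap.finrank_le_finrank_of_injective
      (f := ((N : ℤ) • LinearMap.id : FreeAbelianGroup (Fin n) →ₗ[ℤ] _).codRestrict _ hmem) (by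
        intro a b hab
        have : (N : ℤ) • a = (N : ℤ) • b := congrArg Subtype.val hab
        exact smul_right_injective _ hN0 this)
    rwa [Module.finrank_eq_card_basis (FreeAbelianGroup.basis (Fin n)), Fintype.card_fin] at h2
  have hsum := Submodule.finrank_quotient_add_finrank (LinearMap.ker μ)
  rw [(LinearMap.quotKerEquivRange μ).finrank_eq] at hsum
  rw [Module.finrank_fintype_fun_eq_card, Fintype.card_coe] at hsum
  let b := Module.finBasis ℤ (LinearMap.ker μ)
  have hmem : ∀ x : LinearMap.ker μ, ((Λ x).toMul : CQ φ) ∈ mult (cqProj φ) := by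
    intro x
    refine ⟨(Λ x).toMul.2, ?_⟩
    have h1 : ν (Λ x).toMul = 1 := x.2
    exact abelianization_of_eq_one_iff.mp (cqAb_injective φ (h1.trans (map_one _).symm))
  let ρ : Multiplicative (LinearMap.ker μ) →* mult (cqProj φ) :=
    (Λ'.comp (AddMonoidHom.toMultiplicative
      (LinearMap.ker μ).subtype.toAddMonoidHom)).codRestrict _ hmem
  have hρ : Function.Surjective ρ := by
    rintro ⟨x, hx⟩
    obtain ⟨z, hz⟩ := hΛ (Additive.ofMul ⟨x, hx.1⟩)
    have hz' : z ∈ LinearMap.ker μ := by
      rw [LinearMap.mem_ker, LinearMap.comp_apply, hz]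
      change Additive.ofMul (cqAb φ (Abelianization.of x)) = _
      rw [abelianization_of_eq_one_iff.mpr hx.2, map_one]
      rfl
    refine ⟨.ofAdd ⟨z, hz'⟩, Subtype.ext ?_⟩
    change ((Λ z).toMul : CQ φ) = x
    rw [hz]
    rfl
  let f : Multiplicative (LinearMap.ker μ) →* A := e.symm.toMonoidHom.comp ρ
  have hf : Function.Surjective f := e.symm.surjective.comp hρ
  let S : Finset A := Finset.univ.image (fun i => f (.ofAdd (b i)))
  have hS : closure (S : Set A) = ⊤ := by
    rw [eq_top_iff]
    intro a _
    obtain ⟨x, rfl⟩ := hf a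
    obtain ⟨x, rfl⟩ := Multiplicative.ofAdd.surjective x
    rw [← b.sum_repr x, ofAdd_sum, map_prod]
    refine Subgroup.prod_mem _ (fun i _ => ?_)
    rw [ofAdd_zsmul, map_zpow]
    exact zpow_mem (subset_closure (by simp [S])) _
  refine (Group.rank_le hS).trans (Finset.card_image_le.trans ?_)
  rw [Finset.card_univ, Fintype.card_fin]
  omega

end Cfsg.Agent.S3973
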