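import Cfsg.Statements.S3974
import Cfsg.Agent.Lib.SchurBasic

set_option autoImplicit false
universe u v
open Cfsg

namespace Cfsg.Agent.S3974

open CfsgLib.H4 Subgroup
open scoped commutatorElement IsMulCommutative

theorem exists_extension_of_coprime {K B D : Type*} [Group K] [CommGroup B] [CommGroup D]
    (i : K →* B) (g : K →* D) (hi : i.ker ≤ g.ker) (N : ℕ) (hN : ∀ b, b ^ N ∈ i.range)
    [Finite D] (hcop : Nat.Coprime N (Nat.card D)) : ∃ h : B →* D, ∀ k, h (i k) = g k := by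
  let g' : i.range →* D := i.rangeRestrict.liftOfSurjective i.rangeRestrict_surjective
    ⟨g, by rwa [MonoidHom.ker_rangeRestrict]⟩
  have hg' : ∀ k, g' (i.rangeRestrict k) = g k := fun k =>
    MonoidHom.liftOfRightInverse_comp_apply _ _ _ _ _
  obtain ⟨u, hu⟩ : ∃ u : ℕ, ∀ d : D, (d ^ N) ^ u = d := by
    obtain ⟨u, -, hu⟩ := Nat.exists_mul_mod_eq_of_coprime 1 hcop Nat.card_pos.ne'
    refine ⟨u, fun d => ?_⟩
    rw [← pow_mul, ← pow_mod_natCard, hu, pow_mod_natCard, pow_one]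
  refine ⟨(powMonoidHom u).comp (g'.comp ((powMonoidHom N).codRestrict _ hN)), fun k => ?_⟩
  have : (powMonoidHom N).codRestrict _ hN (i k) = i.rangeRestrict (k ^ N) :=
    Subtype.ext (map_pow i k N).symm
  rw [MonoidHom.comp_apply, MonoidHom.comp_apply, this, hg', map_pow, powMonoidHom_apply, hu]

theorem exists_retraction {E Γ Q : Type*} [Group E] [Group Γ] [Group Q] {π : E →* Q}
    {σ : Γ →* Q} (hσ : Cfsg.IsStemExtension σ) {f : E →* Γ} (hf : σ.comp f = π)
    (hb : Function.Bijective (multMap (σ := σ) (π := π) f (hf ▸ le_rfl))) :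
    ∃ θ : π.ker →* mult π, ∀ t, f (θ t) = f t := by
  let g : π.ker →* mult σ := (f.comp π.ker.subtype).codRestrict _ (fun t => by
    rw [mult_eq_ker_of_stem hσ]
    exact (DFunLike.congr_fun hf (t : E)).trans t.2)
  refine ⟨(MulEquiv.ofBijective _ hb).symm.toMonoidHom.comp g, fun t => ?_⟩
  exact congrArg Subtype.val ((MulEquiv.ofBijective _ hb).apply_symm_apply (g t))

theorem exists_mul_commutator {E Q : Type*} [Group E] [Group Q] {π : E →* Q}
    (hπ : Function.Surjective π) {x : E} (hx : π x ∈ commutator Q) :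
    ∃ t ∈ π.ker, ∃ c ∈ commutator E, x = t * c := by
  have : commutator Q = (commutator E).map π := by
    rw [map_commutator_eq, MonoidHom.range_eq_top.mpr hπ]
    rfl
  rw [this] at hx
  obtain ⟨c, hc, h⟩ := hx
  exact ⟨x * c⁻¹, by rw [MonoidHom.mem_ker, map_mul, map_inv, h, mul_inv_cancel], c, hc, by simp⟩


/-- Let `Q` be a finite group with Schur multiplier `A`. Any two Schur covering groups of `Q` (finite stem extensions `σ₁ : Γ₁ →* Q`, `σ₂ : Γ₂ →* Q` with kernels isomorphic to `A`, `Γ₁, Γ₂` in the universe of `Q`) are isomorphic over `Q` — there is a group isomorphism `e : Γ₁ ≃* Γ₂` with `σ₂ ∘ e = σ₁` — if and only if the order of the commutator quotient of `Q` is coprime to the order of `A`. In particular a finite perfect group has a unique Schur covering group up to isomorphism over it. -/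
theorem result {Q : Type u} [Group Q] [Finite Q] {A : Type v} [CommGroup A] (hA : Cfsg.HasSchurMultiplier Q A) : (∀ (Γ₁ Γ₂ : Type u) [Group Γ₁] [Finite Γ₁] [Group Γ₂] [Finite Γ₂] (σ₁ : Γ₁ →* Q) (σ₂ : Γ₂ →* Q), Cfsg.IsStemExtension σ₁ → Cfsg.IsStemExtension σ₂ → Nonempty (σ₁.ker ≃* A) → Nonempty (σ₂.ker ≃* A) → ∃ e : Γ₁ ≃* Γ₂, σ₂.comp e.toMonoidHom = σ₁) ↔ Nat.Coprime (Nat.card (Abelianization Q)) (Nat.card A) := by
  have hU := uProj_isFreeExt Q
  obtain ⟨eA⟩ := hasSchurMultiplier_iff_uProj.mp hA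
  have := mult_comm hU.central
  have := finite_mult hU.central
  have hinj : ∀ {Γ : Type u} [Group Γ] {σ : Γ →* Q} {f : UExt Q →* Γ} (hf : σ.comp f = uProj Q),
      Function.Bijective (multMap (σ := σ) (π := uProj Q) f (hf ▸ le_rfl)) →
      ∀ a b : mult (uProj Q), f a = f b → a = b := fun hf hb a b h => hb.1 (Subtype.ext h)
  constructor
  · intro h
    by_contra hcop
    classical
    obtain ⟨p, hp, hp1, hp2⟩ := Nat.Prime.not_coprime_iff_dvd.mp hcop
    have := Fact.mk hp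
    obtain ⟨ι, _, n, hn, ⟨e⟩⟩ :=
      CommGroup.equiv_prod_multiplicative_zmod_of_finite (Abelianization Q)
    have hc : Nat.card (Abelianization Q) = ∏ i, n i := by
      rw [Nat.card_congr e.toEquiv, Nat.card_pi]
      exact Finset.prod_congr rfl (fun i _ => Nat.card_zmod (n i))
    obtain ⟨i, -, hi⟩ := hp.prime.exists_mem_finset_dvd (hc ▸ hp1)
    let χ : Q →* Multiplicative (ZMod (n i)) :=
      (Pi.evalMonoidHom _ i).comp (e.toMonoidHom.comp Abelianization.of)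
    obtain ⟨q, hq⟩ : ∃ q : Q, Abelianization.of q = e.symm (Pi.mulSingle i (.ofAdd 1)) :=
      QuotientGroup.mk_surjective _
    have hχq : χ q = .ofAdd 1 := by simp [χ, hq]
    have hqn : q ^ n i ∈ commutator Q := by
      rw [← abelianization_of_eq_one_iff, map_pow, hq, ← map_pow, ← Pi.mulSingle_pow,
        ← ofAdd_nsmul, nsmul_one, ZMod.natCast_self, ofAdd_zero, Pi.mulSingle_one, map_one]
    let κ : Multiplicative ℤ →* Multiplicative (ZMod (n i)) :=
      AddMonoidHom.toMultiplicative (Int.castAddHom (ZMod (n i)))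
    have hκ : IsCentExt κ := ⟨fun y => ZMod.intCast_surjective y.toAdd, by
      rw [CommGroup.center_eq_top]; exact le_top⟩
    obtain ⟨χ', hχ'⟩ := hU.liftsAll.lift hκ χ
    have hχ'' : ∀ x, ((χ' x).toAdd : ZMod (n i)) = (χ (uProj Q x)).toAdd :=
      fun x => congrArg Multiplicative.toAdd (DFunLike.congr_fun hχ' x)
    have hdvd : ∀ t : (uProj Q).ker, (n i : ℤ) ∣ (χ' t).toAdd := by
      intro t
      rw [← ZMod.intCast_zmod_eq_zero_iff_dvd, hχ'', MonoidHom.mem_ker.mp t.2, map_one, toAdd_one]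
    obtain ⟨m₀, hm₀⟩ : ∃ m₀ : mult (uProj Q), ∀ m, m ^ p ≠ m₀ := by
      by_contra hall
      push Not at hall
      have hinj' : Function.Injective (powMonoidHom p : mult (uProj Q) →* mult (uProj Q)) :=
        Finite.injective_iff_surjective.mpr hall
      obtain ⟨x, hx⟩ := exists_prime_orderOf_dvd_card' (G := mult (uProj Q)) p
        (Nat.card_congr eA.toEquiv ▸ hp2)
      have h1 : x = 1 := (injective_iff_map_eq_one _).mp hinj' x (by
        rw [powMonoidHom_apply, ← hx, pow_orderOf_eq_one])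
      rw [h1, orderOf_one] at hx
      exact hp.one_lt.ne hx
    let δ : (uProj Q).ker →* mult (uProj Q) :=
      MonoidHom.mk' (fun t => m₀ ^ ((χ' t).toAdd / n i)) (fun a b => by
        rw [Subgroup.coe_mul, map_mul, toAdd_mul, Int.add_ediv_of_dvd_left (hdvd a), zpow_add])
    obtain ⟨Γ₁, _, _, σ₁, hσ₁, ⟨e₁⟩⟩ := hA.1
    obtain ⟨f₁, hf₁⟩ := hU.liftsAll.lift' (isCentExt_of_stem hσ₁)
    have hb₁ := multMap_bijective_of_cover hA hU.toIsCentExt hU.liftsAll hσ₁ ⟨e₁⟩ hf₁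
    obtain ⟨θ₁, hθ₁⟩ := exists_retraction hσ₁ hf₁ hb₁
    have hχc : ∀ c ∈ commutator (UExt Q), χ' c = 1 :=
      fun c hc => Abelianization.commutator_subset_ker χ' hc
    have hret : ∀ m : mult (uProj Q), (θ₁ * δ) (inclusion (mult_le_ker _) m) = m := by
      intro m
      have h1 : θ₁ (inclusion (mult_le_ker _) m) = m := hinj hf₁ hb₁ _ _ (hθ₁ _)
      have h2 : δ (inclusion (mult_le_ker _) m) = 1 := by
        change m₀ ^ ((χ' m).toAdd / n i) = 1
        rw [hχc m m.2.2]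
        simp
      rw [MonoidHom.mul_apply, h1, h2, mul_one]
    let S : Subgroup (UExt Q) := (θ₁ * δ).ker.map (uProj Q).ker.subtype
    have hS : S ≤ (uProj Q).ker := map_subtype_le _
    have := normal_of_le_center (hS.trans hU.central)
    have hSt : ∀ t : (uProj Q).ker, (t : UExt Q) * (((θ₁ * δ) t : mult (uProj Q)) : UExt Q)⁻¹ ∈ S := by
      intro t
      refine ⟨t * (inclusion (mult_le_ker _) ((θ₁ * δ) t))⁻¹, ?_, rfl⟩
      rw [SetLike.mem_coe, MonoidHom.mem_ker, map_mul, map_inv, hret, mul_inv_cancel]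
    obtain ⟨hfin, hσ₂, hb₂⟩ := stem_of_compl hU.toIsCentExt S hS (by
      rw [eq_bot_iff]
      rintro _ ⟨⟨t, ht, rfl⟩, hm⟩
      have h1 := hret ⟨t, hm⟩
      have h2 : inclusion (mult_le_ker _) (⟨t, hm⟩ : mult (uProj Q)) = t := rfl
      rw [h2, MonoidHom.mem_ker.mp ht] at h1
      exact (congrArg Subtype.val h1).symm) (by
      refine le_antisymm (sup_le hS (mult_le_ker _)) (fun t ht => ?_)
      have : t = t * (((θ₁ * δ) ⟨t, ht⟩ : mult (uProj Q)) : UExt Q)⁻¹ *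
          (((θ₁ * δ) ⟨t, ht⟩ : mult (uProj Q)) : UExt Q) := (inv_mul_cancel_right _ _).symm
      rw [this]
      exact mul_mem (mem_sup_left (hSt ⟨t, ht⟩)) (mem_sup_right (Subtype.prop _)))
    set σ₂ := QuotientGroup.lift S (uProj Q) hS with hσ₂def
    set f₂ := QuotientGroup.mk' S with hf₂def
    have hf₂ : σ₂.comp f₂ = uProj Q := rfl
    obtain ⟨ε, hε⟩ := h Γ₁ (UExt Q ⧸ S) σ₁ σ₂ hσ₁ hσ₂ ⟨e₁⟩
      ⟨((MulEquiv.subgroupCongr (mult_eq_ker_of_stem hσ₂).symm).trans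
        (MulEquiv.ofBijective _ hb₂).symm).trans eA.symm⟩
    have hcomp : σ₂.comp (ε.toMonoidHom.comp f₁) = σ₂.comp f₂ := by
      rw [← MonoidHom.comp_assoc, hε, hf₁, hf₂]
    have hagree : ∀ c ∈ commutator (UExt Q), ε (f₁ c) = f₂ c :=
      fun c hc => eq_on_commutator_of_lifts hσ₂.2.1 hcomp hc
    obtain ⟨x, hx⟩ := hU.surj q
    obtain ⟨t, ht, c, hc', hxn⟩ := exists_mul_commutator hU.surj (x := x ^ n i)
      (by rw [map_pow, hx]; exact hqn)
    have hDx : (ε (f₁ x))⁻¹ * f₂ x ∈ mult σ₂ := by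
      rw [mult_eq_ker_of_stem hσ₂, MonoidHom.mem_ker, map_mul, map_inv, inv_mul_eq_one]
      exact DFunLike.congr_fun hcomp x
    obtain ⟨m, hm⟩ := hb₂.2 ⟨_, hDx⟩
    have hm' : f₂ x = ε (f₁ x) * f₂ m := by
      have : f₂ m = (ε (f₁ x))⁻¹ * f₂ x := congrArg Subtype.val hm
      rw [this, mul_inv_cancel_left]
    have hmc : f₂ m ∈ center (UExt Q ⧸ S) := hσ₂.2.1 m.2.1
    have h1 : f₂ (x ^ n i) = ε (f₁ (x ^ n i)) * f₂ (m ^ n i : mult (uProj Q)) := by
      rw [map_pow, hm', Commute.mul_pow (mem_center_iff.mp hmc _), Subgroup.coe_pow, map_pow,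
        map_pow, map_pow]
    have h2 : f₂ t = ε (f₁ t) * f₂ (δ ⟨t, ht⟩) := by
      have h3 : f₂ t = f₂ ((θ₁ * δ) ⟨t, ht⟩) := by
        rw [← mul_inv_eq_one, ← map_inv, ← map_mul]
        exact (QuotientGroup.eq_one_iff _).mpr (hSt ⟨t, ht⟩)
      rw [h3, MonoidHom.mul_apply, Subgroup.coe_mul, map_mul, ← hagree _ (θ₁ ⟨t, ht⟩).2.2, hθ₁]
    have hδc : f₂ (δ ⟨t, ht⟩) ∈ center (UExt Q ⧸ S) := hσ₂.2.1 (δ ⟨t, ht⟩).2.1
    rw [hxn, map_mul, map_mul, map_mul, hagree c hc', h2, mul_assoc, mul_assoc,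
      ← mem_center_iff.mp hδc, mul_right_inj, mul_right_inj] at h1
    have h4 := hinj hf₂ hb₂ _ _ h1
    have hn0 : (n i : ℤ) ≠ 0 := by
      have := hn i
      omega
    have h5 : δ ⟨t, ht⟩ = m₀ ^ (χ' x).toAdd := by
      change m₀ ^ ((χ' t).toAdd / n i) = _
      have : χ' t = χ' x ^ n i := by rw [← map_pow, hxn, map_mul, hχc c hc', mul_one]
      rw [this, toAdd_pow, nsmul_eq_mul, Int.mul_ediv_cancel_left _ hn0]
    have h6 : (n i : ℤ) ∣ (χ' x).toAdd - 1 := by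
      rw [← ZMod.intCast_zmod_eq_zero_iff_dvd, Int.cast_sub, hχ'', hx, hχq]
      simp
    obtain ⟨k, hk⟩ := h6
    obtain ⟨l, hl⟩ := hi
    apply hm₀ ((m * m₀ ^ (-k)) ^ l)
    rw [← pow_mul, mul_comm l, ← hl, mul_pow, ← h4, h5, ← zpow_natCast, ← zpow_mul, ← zpow_add,
      show (χ' x).toAdd + -k * n i = 1 by linear_combination hk, zpow_one]
  · intro hcop Γ₁ Γ₂ _ _ _ _ σ₁ σ₂ hσ₁ hσ₂ hk₁ hk₂
    obtain ⟨f₁, hf₁⟩ := hU.liftsAll.lift' (isCentExt_of_stem hσ₁)
    obtain ⟨f₂, hf₂⟩ := hU.liftsAll.lift' (isCentExt_of_stem hσ₂)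
    have hb₁ := multMap_bijective_of_cover hA hU.toIsCentExt hU.liftsAll hσ₁ hk₁ hf₁
    have hb₂ := multMap_bijective_of_cover hA hU.toIsCentExt hU.liftsAll hσ₂ hk₂ hf₂
    obtain ⟨θ₁, hθ₁⟩ := exists_retraction hσ₁ hf₁ hb₁
    obtain ⟨θ₂, hθ₂⟩ := exists_retraction hσ₂ hf₂ hb₂
    obtain ⟨D, hD⟩ := exists_extension_of_coprime (Abelianization.of.comp (uProj Q).ker.subtype)
      (θ₂⁻¹ * θ₁) (by
        intro t ht
        have ht' : (t : UExt Q) ∈ mult (uProj Q) := ⟨t.2, abelianization_of_eq_one_iff.mp ht⟩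
        have h1 : θ₁ t = ⟨t, ht'⟩ := hinj hf₁ hb₁ _ _ (hθ₁ _)
        have h2 : θ₂ t = ⟨t, ht'⟩ := hinj hf₂ hb₂ _ _ (hθ₂ _)
        rw [MonoidHom.mem_ker, MonoidHom.mul_apply, MonoidHom.inv_apply, h1, h2, inv_mul_cancel])
      (Nat.card (Abelianization Q)) (by
        intro b
        obtain ⟨x, rfl⟩ : ∃ x : UExt Q, Abelianization.of x = b := QuotientGroup.mk_surjective b
        obtain ⟨t, ht, c, hc, hxn⟩ := exists_mul_commutator hU.surj
          (x := x ^ Nat.card (Abelianization Q)) (by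
            rw [← abelianization_of_eq_one_iff, map_pow, map_pow, pow_card_eq_one'])
        refine ⟨⟨t, ht⟩, ?_⟩
        rw [← map_pow, hxn, map_mul, abelianization_of_eq_one_iff.mpr hc, mul_one]
        rfl) (Nat.card_congr eA.toEquiv ▸ hcop)
    let f₃ : UExt Q →* Γ₂ := MonoidHom.mk' (fun x => f₂ (x * D (Abelianization.of x))) (by
      intro x y
      rw [← map_mul, map_mul Abelianization.of, map_mul D, Subgroup.coe_mul]
      congr 1
      rw [mul_assoc, mul_assoc, ← mul_assoc y, ← mul_assoc _ y,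
        mem_center_iff.mp (hU.central (D (Abelianization.of x)).2.1) y])
    have hf₃ : σ₂.comp f₃ = uProj Q := by
      refine MonoidHom.ext (fun x => ?_)
      change (σ₂.comp f₂) (_ * _) = uProj Q _
      rw [hf₂, map_mul, MonoidHom.mem_ker.mp (D _).2.1, mul_one]
    have hf₃t : ∀ t : (uProj Q).ker, f₃ t = f₂ (θ₁ t) := by
      intro t
      change f₂ (t * D ((Abelianization.of.comp (uProj Q).ker.subtype) t)) = _
      rw [hD, map_mul, ← hθ₂, ← map_mul, MonoidHom.mul_apply, MonoidHom.inv_apply,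
        ← Subgroup.coe_mul, mul_inv_cancel_left]
    have hs₁ : Function.Surjective f₁ := surjective_of_lift_of_stem hσ₁ (hf₁ ▸ hU.surj)
    have hs₃ : Function.Surjective f₃ := surjective_of_lift_of_stem hσ₂ (hf₃ ▸ hU.surj)
    have hker : f₁.ker ≤ f₃.ker := by
      intro x hx
      have hx' : x ∈ (uProj Q).ker := by
        rw [← hf₁, MonoidHom.mem_ker, MonoidHom.comp_apply, MonoidHom.mem_ker.mp hx, map_one]
      have h1 : θ₁ ⟨x, hx'⟩ = 1 := hinj hf₁ hb₁ _ _ (by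
        rw [hθ₁, Subgroup.coe_one, map_one]; exact hx)
      rw [MonoidHom.mem_ker, hf₃t ⟨x, hx'⟩, h1, Subgroup.coe_one, map_one]
    let g : Γ₁ →* Γ₂ := f₁.liftOfSurjective hs₁ ⟨f₃, hker⟩
    have hg : ∀ x, g (f₁ x) = f₃ x := fun x => MonoidHom.liftOfRightInverse_comp_apply _ _ _ _ _
    have hgb : Function.Bijective g := by
      constructor
      · rw [injective_iff_map_eq_one]
        intro y hy
        obtain ⟨x, rfl⟩ := hs₁ y
        rw [hg] at hy
        have hx' : x ∈ (uProj Q).ker := by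
          rw [← hf₃, MonoidHom.mem_ker, MonoidHom.comp_apply, hy, map_one]
        have h1 : θ₁ ⟨x, hx'⟩ = 1 := hinj hf₂ hb₂ _ _ (by
          rw [← hf₃t, Subgroup.coe_one, map_one]; exact hy)
        rw [← hθ₁ ⟨x, hx'⟩, h1, Subgroup.coe_one, map_one]
      · intro y
        obtain ⟨x, rfl⟩ := hs₃ y
        exact ⟨f₁ x, hg x⟩
    refine ⟨MulEquiv.ofBijective g hgb, ?_⟩
    ext y
    obtain ⟨x, rfl⟩ := hs₁ y
    change σ₂ (g (f₁ x)) = (σ₁.comp f₁) x
    rw [hg, hf₁, ← hf₃]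
    rfl

end Cfsg.Agent.S3974
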