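import Cfsg.Statements.S3976
import Cfsg.Agent.Lib.SubgroupCount

set_option autoImplicit false
open Cfsg

namespace Cfsg.Agent.S3976

open scoped Pointwise

/-- Let `p` be a prime and `G` a group of order `p ^ m`. For every `s ≤ m` the number of normal subgroups of `G` of order `p ^ s` is congruent to `1` modulo `p`. -/
theorem result {G : Type*} [Group G] [Finite G] (p m s : ℕ) (hp : p.Prime) (hG : Nat.card G = p ^ m) (hs : s ≤ m) : Nat.card {H : Subgroup G // H.Normal ∧ Nat.card H = p ^ s} ≡ 1 [MOD p] := by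

  have := Fact.mk hp
  have h1 := CfsgLib.H4.ncard_subgroups_modEq_one (G := G) (a := s) hp (hG ▸ pow_dvd_pow p hs)
  have h2 : {H : Subgroup G | Nat.card H = p ^ s}.ncard =
      {H : Subgroup G | H.Normal ∧ Nat.card H = p ^ s}.ncard +
      {H : Subgroup G | ¬ H.Normal ∧ Nat.card H = p ^ s}.ncard := by
    rw [← Set.ncard_union_eq (Set.disjoint_left.mpr fun x h h' => h'.1 h.1)]
    congr 1
    ext x
    simp only [Set.mem_ofPred_eq, Set.mem_union]
    tauto
  obtain ⟨t, ht⟩ : p ∣ {H : Subgroup G | ¬ H.Normal ∧ Nat.card H = p ^ s}.ncard := by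
    refine CfsgLib.Frob.dvd_ncard_of_dvd_index_stabilizer (A := ConjAct G) _ ?_ ?_
    · rintro g H ⟨h3, h4⟩
      refine ⟨fun h => h3 ?_, ?_⟩
      · have h5 := h.conjAct g⁻¹
        rw [inv_smul_smul] at h5
        rwa [h5]
      · rw [← h4]
        exact Nat.card_congr (Subgroup.equivSMul g H).symm.toEquiv
    · rintro H ⟨h3, -⟩
      have h4 : IsPGroup p (ConjAct G) := IsPGroup.of_card hG
      have : Finite (ConjAct G) := ‹Finite G›
      obtain ⟨k, hk⟩ := h4.index (MulAction.stabilizer (ConjAct G) H)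
      rw [hk]
      refine dvd_pow_self p ?_
      rintro rfl
      refine h3 (Subgroup.Normal.of_conjugate_fixed fun g => ?_)
      have : g ∈ MulAction.stabilizer (ConjAct G) H := by
        rw [Subgroup.index_eq_one.mp hk]; trivial
      exact this
  rw [h2, ht] at h1
  rw [Nat.ModEq, Nat.add_mul_mod_self_left] at h1
  exact h1

end Cfsg.Agent.S3976
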