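import Cfsg.Statements.S3977
import Mathlib
import Cfsg.Agent.Lib.TwoGroupMaxClass

set_option autoImplicit false
open Cfsg

namespace Cfsg.Agent.S3977

open CfsgLib.PGrp
open scoped commutatorElement

/-- Let `p` be a prime and `G` a group of order `p ^ m` which has exactly one subgroup of order `p ^ s`, where `1 ≤ s < m`, and where `s ≥ 2` if `p = 2`. Then `G` is cyclic. (For `p = 2` and `s = 1` the generalized quaternion groups also occur; that case is the classical criterion for a unique involution.) -/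
theorem result {G : Type*} [Group G] [Finite G] (p m s : ℕ) (hp : p.Prime) (hG : Nat.card G = p ^ m) (hs : 1 ≤ s) (hsm : s < m) (h2 : p ≠ 2 ∨ 2 ≤ s) (huniq : ∀ H K : Subgroup G, Nat.card H = p ^ s → Nat.card K = p ^ s → H = K) : IsCyclic G := by
  have := Fact.mk hp
  have hP : IsPGroup p G := IsPGroup.of_card hG
  have hle : ∀ H : Subgroup G, Nat.card H ≤ p ^ s → ∃ U : Subgroup G, Nat.card U = p ^ s ∧ H ≤ U := by
    intro H hH
    obtain ⟨k, hk⟩ := (hP.to_subgroup H).exists_card_eq
    exact Sylow.exists_subgroup_card_pow_prime_le p (by rw [hG]; exact pow_dvd_pow _ hsm.le) H hk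
      ((Nat.pow_le_pow_iff_right hp.one_lt).1 (hk ▸ hH))
  obtain ⟨U, hU, -⟩ := hle ⊥ (by simpa using Nat.one_le_pow _ _ hp.pos)
  have hle' : ∀ g : G, orderOf g ≤ p ^ s → g ∈ U := by
    intro g hg
    obtain ⟨V, hV, h⟩ := hle (Subgroup.zpowers g) (by rwa [Nat.card_zpowers])
    exact huniq V U hV hU ▸ h (Subgroup.mem_zpowers g)
  obtain ⟨K, hK, hUK⟩ := Sylow.exists_subgroup_card_pow_succ (p := p) (n := s)
    (by rw [hG]; exact pow_dvd_pow _ hsm) hU
  have hlt : ¬ K ≤ U := fun h => by
    have := Subgroup.card_le_of_le h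
    rw [hK, hU] at this
    exact absurd ((Nat.pow_le_pow_iff_right hp.one_lt).1 this) (by omega)
  obtain ⟨g, hgK, hgU⟩ := SetLike.not_le_iff_exists.1 hlt
  have hg : Subgroup.zpowers g = K := by
    apply Subgroup.eq_of_le_of_card_ge (Subgroup.zpowers_le.2 hgK)
    obtain ⟨k, hk⟩ := IsPGroup.iff_orderOf.1 hP g
    rw [hK, Nat.card_zpowers, hk]
    refine Nat.pow_le_pow_right hp.pos ?_
    by_contra h
    exact hgU (hle' g (hk ▸ Nat.pow_le_pow_right hp.pos (by omega)))
  have hUc : IsCyclic U := Subgroup.isCyclic_of_le (hg ▸ hUK : U ≤ Subgroup.zpowers g)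
  have hps : p ≤ p ^ s := by
    conv_lhs => rw [← pow_one p]
    exact Nat.pow_le_pow_right hp.pos hs
  rcases isCyclic_or_quaternion_of_mem_zpowers hP (fun a b ha hb _ =>
    mem_zpowers_of_orderOf_dvd (hle' b (hb ▸ hps)) (hle' a (ha ▸ hps)) (by rw [ha, hb])) with
    h | ⟨rfl, k, hk, ⟨e⟩⟩
  · exact h
  · exfalso
    obtain ⟨x, y, h, -⟩ := exists_isDQSDPair_of_mulEquiv_quaternionGroup hk e
    have h4 : ∀ g : G, g ∉ Subgroup.zpowers x → g ∈ U := by
      intro g hg
      apply hle'
      have h5 : (g ^ 2) ^ 2 = 1 := by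
        have := pow_card_eq_one' (x := (⟨g ^ 2, h.sq_mem_center hg⟩ : Subgroup.center G))
        rw [h.card_center] at this
        exact congrArg Subtype.val this
      rw [← pow_mul] at h5
      exact (Nat.le_of_dvd (by norm_num) (orderOf_dvd_of_pow_eq_one h5)).trans
        (Nat.pow_le_pow_right two_pos (i := 2) (by omega))
    have hy := h4 y h.2.2.2.1
    have hyx := h4 (y * x) fun h' => h.2.2.2.1 (by
      simpa using mul_mem h' (inv_mem (Subgroup.mem_zpowers x)))
    have hx : x ∈ U := by simpa using mul_mem (inv_mem hy) hyx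
    exact h.not_commute (isMulCommutative_iff_forall.1 inferInstance y hy x hx)

end Cfsg.Agent.S3977
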