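import Cfsg.Statements.S3980
import Cfsg.Agent.S3959

set_option autoImplicit false
universe u v w
open Cfsg

namespace Cfsg.Agent.S3980

open CfsgLib.H4 Subgroup
open scoped commutatorElement IsMulCommutative

/-- Let `Q₁` and `Q₂` be finite groups whose commutator quotients have coprime orders, with Schur multipliers `A` and `B`. Then the Schur multiplier of `Q₁ × Q₂` is isomorphic to `A × B`. -/
theorem result {Q₁ : Type u} {Q₂ : Type v} [Group Q₁] [Group Q₂] [Finite Q₁] [Finite Q₂] {A B : Type w} [CommGroup A] [CommGroup B] (hA : Cfsg.HasSchurMultiplier Q₁ A) (hB : Cfsg.HasSchurMultiplier Q₂ B) (hcop : Nat.Coprime (Nat.card (Abelianization Q₁)) (Nat.card (Abelianization Q₂))) : Cfsg.HasSchurMultiplier (Q₁ × Q₂) (A × B) := by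
  refine hasSchurMultiplier_congr (Cfsg.Agent.S3959.result hA hB) ?_
  have : Subsingleton (TensorProduct ℤ (Additive (Abelianization Q₁))
      (Additive (Abelianization Q₂))) := by
    refine subsingleton_of_forall_eq 0 ?_
    intro x
    induction x using TensorProduct.induction_on with
    | zero => rfl
    | tmul a b =>
      obtain ⟨u, v, h⟩ := Nat.isCoprime_iff_coprime.mpr hcop
      have ha : (Nat.card (Abelianization Q₁) : ℤ) • a = 0 := by
        rw [natCast_zsmul]
        exact card_nsmul_eq_zero' (G := Additive (Abelianization Q₁))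
      have hb : (Nat.card (Abelianization Q₂) : ℤ) • b = 0 := by
        rw [natCast_zsmul]
        exact card_nsmul_eq_zero' (G := Additive (Abelianization Q₂))
      have h1 : (Nat.card (Abelianization Q₁) : ℤ) • (a ⊗ₜ[ℤ] b) = 0 := by
        rw [TensorProduct.smul_tmul', ha, TensorProduct.zero_tmul]
      have h2 : (Nat.card (Abelianization Q₂) : ℤ) • (a ⊗ₜ[ℤ] b) = 0 := by
        rw [← TensorProduct.tmul_smul, hb, TensorProduct.tmul_zero]
      rw [← one_smul ℤ (a ⊗ₜ[ℤ] b), ← h, add_smul, mul_smul, mul_smul, h1, h2]
      simp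
    | add x y hx hy => rw [hx, hy, add_zero]
  have : Unique (Multiplicative (TensorProduct ℤ (Additive (Abelianization Q₁))
      (Additive (Abelianization Q₂)))) := uniqueOfSubsingleton 1
  exact MulEquiv.prodCongr (MulEquiv.refl A) MulEquiv.prodUnique

end Cfsg.Agent.S3980
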