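import Cfsg.Statements.S3992
import Mathlib
import Cfsg.Agent.Lib.H5Eppo
import Cfsg.Agent.Lib.CoreComponents
import Cfsg.Agent.Lib.FrobZGroup
import Cfsg.Agent.Lib.SylowIn

set_option autoImplicit false
open Cfsg

namespace Cfsg.Agent.S3992
open Subgroup Cfsg CfsgLib
open scoped commutatorElement

/-- Let G be a finite non-solvable group in which every element has prime-power order, and let R be its largest solvable normal subgroup. Then R is a p-group for some prime p; G/R has a non-abelian simple normal subgroup contained in every nontrivial normal subgroup of G/R (its unique minimal normal subgroup); and the order of every solvable subgroup of G has at most two prime divisors. -/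
theorem result {G : Type*} [Group G] [Finite G] (hns : ¬ Group.IsSolvable G) (hpp : ∀ g : G, g ≠ 1 → IsPrimePow (orderOf g))
    (R : Subgroup G) [R.Normal] (hRs : Group.IsSolvable ↥R) (hRmax : ∀ N : Subgroup G, N.Normal → Group.IsSolvable ↥N → N ≤ R) :
    (∃ p : ℕ, p.Prime ∧ IsPGroup p ↥R) ∧
      (∃ M : Subgroup (G ⧸ R), M.Normal ∧ IsSimpleGroup ↥M ∧ ¬ IsMulCommutative ↥M ∧
        ∀ N : Subgroup (G ⧸ R), N.Normal → N ≠ ⊥ → M ≤ N) ∧
      ∀ H : Subgroup G, Group.IsSolvable ↥H → (Nat.card ↥H).primeFactors.card ≤ 2 := by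
  have hE : H5.Eppo G := hpp
  refine ⟨?_, ?_, fun H hH => (hE.of_injective H.subtype H.subtype_injective).card_primeFactors_le_two hH⟩
  · by_cases hR : R = ⊥
    · exact ⟨2, Nat.prime_two, hR ▸ IsPGroup.of_bot⟩
    have h1 : fittingSubgroup G ≠ ⊥ := fun h =>
      inf_fitting_ne_bot_of_isSolvable hRs hR (by rw [h, inf_bot_eq])
    rw [Ne, fitting_eq_bot_iff] at h1
    push Not at h1
    obtain ⟨p, hp, hF⟩ := h1
    refine ⟨p, hp.out, (pCore_isPGroup (G := G) p).to_le ?_⟩
    by_contra hRF
    have := pCore_characteristic (G := G) p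
    set F := pCore p G with hFdef
    have hs := QuotientGroup.mk'_surjective F
    have : (R.map (QuotientGroup.mk' F)).Normal := Normal.map inferInstance _ hs
    obtain ⟨M, hM, hMR⟩ := exists_isMinNormal_le (R.map (QuotientGroup.mk' F)) fun h =>
      hRF (by rwa [Subgroup.map_eq_bot_iff, QuotientGroup.ker_mk'] at h)
    have := hM.1
    obtain ⟨q, hq, hMq⟩ := hM.exists_isElementaryAbelian
      (isSolvable_of_le (isSolvable_map hRs _) hMR)
    have := Fact.mk hq
    have hMq' := isPGroup_of_isElementaryAbelian hMq
    have hqp : q ≠ p := by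
      rintro rfl
      exact hM.2.1 (le_bot_iff.mp (pCore_quotient_pCore (G := G) q ▸ le_pCore hMq'))
    obtain ⟨S, hS⟩ := IsSylowIn.exists_in (p := q) (M.comap (QuotientGroup.mk' F))
    have hSM := hS.map (QuotientGroup.mk' F)
    rw [map_comap_eq_self_of_surjective hs] at hSM
    have hSM' := hSM.eq_of_le hMq' hSM.le le_rfl
    have hcop : (Nat.card S).Coprime (Nat.card F) :=
      IsPGroup.coprime_card_of_ne q p hqp S F hS.isPGroup (pCore_isPGroup p)
    have hSc : IsCyclic S := (hE.hasFPF le_normalizer_of_normal hF hcop).isCyclic_of_comm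
      fun a b => Subtype.ext (by
        rw [coe_mul, coe_mul, ← commutatorElement_eq_one_iff_mul_comm, ← mem_bot,
          ← inf_eq_bot_of_coprime hcop]
        refine mem_inf.mpr ⟨(⁅a, b⁆ : S).2, ?_⟩
        rw [← QuotientGroup.eq_one_iff, ← QuotientGroup.mk'_apply,
          map_commutatorElement, commutatorElement_eq_one_iff_mul_comm]
        exact PGrp.isMulCommutative_iff_forall.mp hMq.1 _ (hS.le a.2) _ (hS.le b.2))
    have hMc : IsCyclic M := hSM' ▸ isCyclic_of_surjective _
      ((QuotientGroup.mk' F).subgroupMap_surjective S)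
    obtain ⟨⟨y, hy⟩, hy1⟩ := ne_bot_iff_exists_ne_one.mp hM.2.1
    refine hns (isSolvable_of_normal_of_quotient F (isSolvable_of_isPGroup (pCore_isPGroup p))
      (isSolvable_of_normal_of_quotient (centralizer (M : Set (G ⧸ F))) (isSolvable_of_le
        ((hE.of_surjective _ hs).isSolvable_centralizer fun h => hy1 (Subtype.ext h))
        (centralizer_le (Set.singleton_subset_iff.mpr hy))) (isSolvable_of_comm fun a b => ?_)))
    obtain ⟨a, rfl⟩ := QuotientGroup.mk_surjective a
    obtain ⟨b, rfl⟩ := QuotientGroup.mk_surjective b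
    rw [← commutatorElement_eq_one_iff_mul_comm, ← QuotientGroup.mk'_apply,
      ← QuotientGroup.mk'_apply, ← map_commutatorElement, QuotientGroup.mk'_apply,
      QuotientGroup.eq_one_iff]
    exact Frob.commutator_mem_centralizer_of_isCyclic (le_normalizer_of_normal (mem_top a))
      (le_normalizer_of_normal (mem_top b))
  · have hs := QuotientGroup.mk'_surjective R
    have hE' := hE.of_surjective _ hs
    have h0 : ∀ N : Subgroup (G ⧸ R), N.Normal → Group.IsSolvable N → N = ⊥ := fun N hN h => by
      rw [← map_comap_eq_self_of_surjective hs N, Subgroup.map_eq_bot_iff, QuotientGroup.ker_mk']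
      exact hRmax _ (hN.comap _) (isSolvable_comap_mk' hRs h)
    have : Nontrivial (G ⧸ R) := by
      by_contra h
      rw [not_nontrivial_iff_subsingleton] at h
      exact hns (isSolvable_of_normal_of_quotient R hRs inferInstance)
    obtain ⟨M, hM⟩ := exists_isMinNormal (G := G ⧸ R)
    obtain ⟨K, hK, -⟩ := hM.exists_component fun h => hM.2.1 (h0 M hM.1 h)
    have key : ∀ L : Subgroup (G ⧸ R), L.IsSubnormal → L ≠ ⊥ → K ≤ L := fun L hL hL0 =>
      (isComponent_le_or_commutator_eq_bot hK hL).resolve_right fun h => by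
        obtain ⟨⟨y, hy⟩, hy1⟩ := ne_bot_iff_exists_ne_one.mp hL0
        exact isComponent_not_isSolvable hK (isSolvable_of_le
          (hE'.isSolvable_centralizer fun h => hy1 (Subtype.ext h))
          ((Cop.commutator_eq_bot_iff_le_centralizer'.mp h).trans
            (centralizer_le (Set.singleton_subset_iff.mpr hy))))
    have hKn : K.Normal := ⟨fun x hx g => by
      have := isComponent_map_conj hK g⁻¹
      simpa using mem_map_conj_iff.mp (key _ this.1 (isComponent_ne_bot this) hx)⟩
    refine ⟨K, hKn, isSimpleGroup_of_isQuasisimple hK.2 ?_, fun h => isComponent_not_isSolvable hK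
      isSolvable_of_isMulCommutative, fun N hN h => key N hN.isSubnormal h⟩
    rw [← map_eq_bot_iff_of_injective _ K.subtype_injective]
    exact h0 _ inferInstance (isSolvable_map_subtype_iff.mpr isSolvable_of_isMulCommutative)

end Cfsg.Agent.S3992
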