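import Cfsg.Statements.S3994
import Cfsg.Agent.Lib.FrobeniusCount

set_option autoImplicit false
open Cfsg

namespace Cfsg.Agent.S3994

/-- Let G be a finite group and n a positive integer. The number of elements of G whose order is divisible by n is either 0 or divisible by the largest divisor of the order of G that is coprime to n. -/
theorem result {G : Type*} [Group G] [Finite G] (n : ℕ) (hn : 0 < n) :
    Nat.card {g : G // n ∣ orderOf g} = 0 ∨
      (Nat.card G / Nat.gcd (Nat.card G) (n ^ Nat.card G)) ∣ Nat.card {g : G // n ∣ orderOf g} := by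
  right
  set m := Nat.card G / Nat.gcd (Nat.card G) (n ^ Nat.card G) with hm
  have hG : 0 < Nat.card G := Nat.card_pos
  have hmd : m ∣ Nat.card G := Nat.div_dvd_of_dvd (Nat.gcd_dvd_left _ _)
  have hcop : Nat.Coprime n m := by
    rw [Nat.coprime_comm]
    apply Nat.coprime_of_dvd
    intro p hp hpm hpn
    have hmul : m * Nat.gcd (Nat.card G) (n ^ Nat.card G) = Nat.card G :=
      Nat.div_mul_cancel (Nat.gcd_dvd_left _ _)
    set k := (Nat.card G).factorization p with hk
    have h1 : p ^ k ∣ Nat.gcd (Nat.card G) (n ^ Nat.card G) := by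
      refine Nat.dvd_gcd (Nat.ordProj_dvd _ _) ?_
      refine dvd_trans (pow_dvd_pow p ?_) (pow_dvd_pow_of_dvd hpn _)
      exact (Nat.factorization_lt p hG.ne').le
    have h2 : p ^ (k + 1) ∣ Nat.card G := by
      rw [← hmul, pow_succ']
      exact Nat.mul_dvd_mul hpm h1
    have := (hp.pow_dvd_iff_le_factorization hG.ne').mp h2
    omega
  have h1 := CfsgLib.H4.frobenius_gcd_dvd_ncard m {y : G | n ∣ orderOf y} (by
    intro c hc y hy
    obtain ⟨g, rfl⟩ := isConj_iff.mp hy
    have : orderOf (g * c * g⁻¹) = orderOf c := (MulAut.conj g).orderOf_eq c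
    simpa [this] using hc)
  rw [Nat.gcd_eq_left hmd] at h1
  have h2 : {x : G | x ^ m ∈ {y : G | n ∣ orderOf y}} = {g : G | n ∣ orderOf g} := by
    ext x
    simp only [Set.mem_ofPred_eq]
    constructor
    · intro h
      exact h.trans (orderOf_pow_dvd m)
    · intro h
      rw [orderOf_pow]
      refine Nat.Coprime.dvd_of_dvd_mul_right
        (Nat.Coprime.coprime_dvd_right (Nat.gcd_dvd_right (orderOf x) m) hcop) ?_
      rwa [Nat.div_mul_cancel (Nat.gcd_dvd_left _ _)]
  rw [h2] at h1
  exact h1

end Cfsg.Agent.S3994
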