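import Cfsg.Statements.S3995
import Mathlib
import Cfsg.Agent.Lib.H5SameOrder
import Cfsg.Agent.Lib.PGroupRankOne
import Cfsg.Agent.Lib.PComplement

set_option autoImplicit false
open Cfsg

namespace Cfsg.Agent.S3995
open Subgroup Cfsg CfsgLib CfsgLib.H5
open scoped commutatorElement

theorem hpg {X : Type*} [Group X] [Finite X] (p : ℕ) (hp : p.Prime) (hd : p ∣ Nat.card X)
    (h : ∀ y : X, y ^ p = 1) : IsPGroup p X ∧ Monoid.exponent X = p := by
  have := Fact.mk hp
  obtain ⟨g, hg⟩ := exists_prime_orderOf_dvd_card' p hd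
  exact ⟨fun y => ⟨1, by simpa using h y⟩, Nat.dvd_antisymm
    (Monoid.exponent_dvd_of_forall_pow_eq_one h) (hg ▸ Monoid.order_dvd_exponent g)⟩

/-- Let G be a finite group such that the numbers of elements of each order that occurs in G (the numbers #{g : o(g) = m}, m ranging over the element orders of G) take exactly two values, 1 and some n ≠ 1. Then either G is a p-group of exponent p and order at least 3 for some prime p, or G is the quaternion group of order 8, or G is cyclic of order 4, or G ≅ Z₂ × P for a p-group P of exponent p with p an odd prime. -/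
theorem result {G : Type*} [Group G] [Finite G] (n : ℕ) (hn : n ≠ 1) (h : ((fun m : ℕ => Nat.card {g : G // orderOf g = m}) '' Set.range (orderOf : G → ℕ)) = {1, n}) :
    (∃ p : ℕ, p.Prime ∧ IsPGroup p G ∧ 3 ≤ Nat.card G ∧ Monoid.exponent G = p) ∨
      Nonempty (G ≃* QuaternionGroup 2) ∨ (IsCyclic G ∧ Nat.card G = 4) ∨
      (∃ (p : ℕ) (P : Type) (_ : Group P) (_ : Finite P), p.Prime ∧ p ≠ 2 ∧ IsPGroup p P ∧ Monoid.exponent P = p ∧
        Nonempty (G ≃* Multiplicative (ZMod 2) × P)) := by
  have hs : ∀ d, ordCount G d = 0 ∨ ordCount G d = 1 ∨ ordCount G d = n := fun d =>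
    or_iff_not_imp_left.mpr fun h0 => h.le ⟨d, ordCount_ne_zero_iff.mp h0, rfl⟩
  obtain ⟨_, ⟨x, rfl⟩, hx⟩ := h.ge (Or.inr rfl : n ∈ ({1, n} : Set ℕ))
  change ordCount G (orderOf x) = n at hx
  have hx1 : orderOf x ≠ 1 := fun h => hn (by rw [← hx, h, ordCount_one])
  have hT : TwoVal G n n := fun d hd => by
    have := two_dvd_ordCount (G := G) hd
    have := hs d
    omega
  have hno : ∀ p : ℕ, p.Prime → p ≠ 2 → p ∣ Nat.card G → ordCount G p = n ∧ ¬ p ∣ n + n :=
    fun p hp h2 hG => by
      have h1 := (hT.prime hp h2 hG).elim id id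
      refine ⟨h1, fun h => ?_⟩
      rw [← two_mul, hp.dvd_mul] at h
      exact h.elim (fun h => h2 ((Nat.prime_dvd_prime_iff_eq hp Nat.prime_two).mp h))
        (h1 ▸ not_dvd_ordCount hp hG)
  have huniq : ∀ p q : ℕ, p.Prime → p ≠ 2 → p ∣ Nat.card G → q.Prime → q ≠ 2 → q ∣ Nat.card G →
      q = p := fun p q hp hp2 hpG hq hq2 hqG => by
    by_contra hne
    exact (hno q hq hq2 hqG).2 (hT.same hq hp hq2 hne hqG (hno q hq hq2 hqG).1
      (hno p hp hp2 hpG).1).2
  have hexp : ∀ p : ℕ, p.Prime → p ≠ 2 → p ∣ Nat.card G → ∀ y : G, ¬ 2 ∣ orderOf y → y ^ p = 1 :=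
    fun p hp hp2 hpG y hy => by
      obtain ⟨k, hk⟩ := (isPiNum_singleton_iff hp (orderOf_pos y).ne').mp fun q hq hd =>
        huniq p q hp hp2 hpG hq (fun h => hy (h ▸ hd)) (hd.trans (_root_.orderOf_dvd_natCard y))
      refine pow_eq_one_of_ordCount_sq hp ((hT _ (by nlinarith [hp.two_le])).resolve_right
        fun h => ?_) hk.dvd
      have := prime_dvd_ordCount_of_sq_dvd (G := G) hp dvd_rfl
      rw [h.elim id id] at this
      exact (hno p hp hp2 hpG).2 (dvd_add this this)
  rcases hs 2 with h2 | h2 | h2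
  · have hodd : ¬ 2 ∣ Nat.card G := fun h => not_dvd_ordCount Nat.prime_two h (by simp [h2])
    obtain ⟨p, hp, hd⟩ := Nat.exists_prime_and_dvd hx1
    have hpG := hd.trans (_root_.orderOf_dvd_natCard x)
    have hp2 : p ≠ 2 := fun h => hodd (h ▸ hpG)
    have := hpg p hp hpG fun y => hexp p hp hp2 hpG y fun h =>
      hodd (h.trans (_root_.orderOf_dvd_natCard y))
    exact Or.inl ⟨p, hp, this.1, (lt_of_le_of_ne hp.two_le hp2.symm).trans_le
      (Nat.le_of_dvd Nat.card_pos hpG), this.2⟩
  · obtain ⟨z, hz⟩ := Set.ncard_eq_one.mp h2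
    have hz1 : ∀ y : G, orderOf y = 2 ↔ y = z := fun y => Set.ext_iff.mp hz y
    have hz2 := (hz1 z).mpr rfl
    have h4 : 4 ∣ Nat.card G → ordCount G 4 = n ∧ 4 ∣ 2 + n := fun h => by
      have := four_dvd_ordCount h
      have := hT 4 (by norm_num)
      omega
    right
    by_cases hp : ∃ p : ℕ, p.Prime ∧ p ≠ 2 ∧ p ∣ Nat.card G
    · obtain ⟨p, hp, hp2, hpG⟩ := hp
      have h5 : ¬ 4 ∣ Nat.card G := fun h => (hno p hp hp2 hpG).2 (hT.eq_other (d := p * 4) hp hp2
        (by nlinarith [hp.two_le]) ((hno p hp hp2 hpG).1 ▸ prime_dvd_one_add_ordCount hp hpG)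
        ((h4 h).1 ▸ prime_dvd_ordCount_add hp hpG fun h => hp2
          ((Nat.prime_dvd_prime_iff_eq hp Nat.prime_two).mp (hp.dvd_of_dvd_pow (n := 2) h)))).2
      obtain ⟨S⟩ : Nonempty (Sylow 2 G) := inferInstance
      obtain ⟨k, hk⟩ := S.isPGroup'.exists_card_eq
      have hk1 : Nat.card S ∣ 2 := by
        rw [hk]
        refine pow_dvd_pow 2 (show k ≤ 1 from ?_)
        by_contra! hlt
        exact h5 ((hk ▸ pow_dvd_pow 2 hlt).trans (card_subgroup_dvd_card (S : Subgroup G)))
      obtain ⟨N, hN, hN2, j, hj⟩ := PCompl.hnpc_exists_normal (PCompl.hnpc_two_of_isCyclic S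
        (isCyclic_of_card_dvd_prime hk1))
      have hNodd : ∀ y ∈ N, ¬ 2 ∣ orderOf y := fun y hy h => by
        simpa using hN2.coprime_dvd_left (h.trans (orderOf_dvd_natCard N hy))
      have hzN : z ∉ N := fun h => hNodd z h hz2.symm.dvd
      have hi : N.index = 2 := by
        rcases j with _ | _ | j
        · exact absurd (index_eq_one.mp hj ▸ mem_top z) hzN
        · exact hj
        · exact absurd (Dvd.dvd.trans ⟨2 ^ j, hj.trans (by ring)⟩ N.index_dvd_card) h5
      have hpN : p ∣ Nat.card N := by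
        rw [← N.card_mul_index, hi, hp.dvd_mul] at hpG
        exact hpG.resolve_right fun h => hp2 ((Nat.prime_dvd_prime_iff_eq hp Nat.prime_two).mp h)
      have hzc : ∀ g, Commute z g := fun g => mul_inv_eq_iff_eq_mul.mp ((hz1 _).mp
        ((orderOf_injective (MulAut.conj g).toMonoidHom (MulAut.conj g).injective z).trans hz2))
          |>.symm
      let f : zpowers z × N →* G := (zpowers z).subtype.noncommCoprod N.subtype
        fun ⟨_, k, rfl⟩ b => (hzc b).zpow_left k
      have hf : Function.Bijective f := (Nat.bijective_iff_surjective_and_card f).mpr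
        ⟨fun g => by
          by_cases hg : g ∈ N
          · exact ⟨(1, ⟨g, hg⟩), by simp [f]⟩
          · exact ⟨(⟨z, mem_zpowers z⟩, ⟨z⁻¹ * g, (mul_mem_iff_of_index_two hi).mpr
              (by simp [hzN, hg])⟩), by simp [f]⟩,
        by rw [Nat.card_prod, Nat.card_zpowers, hz2, ← N.card_mul_index, hi, mul_comm]⟩
      let e : Shrink.{0} N ≃* N := Shrink.mulEquiv
      have : Finite (Shrink.{0} N) := Finite.of_equiv _ e.toEquiv.symm
      have := hpg (X := Shrink.{0} N) p hp (Nat.card_congr e.toEquiv ▸ hpN) fun y => e.injective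
        (Subtype.ext (by simpa using hexp p hp hp2 hpG _ (hNodd _ (e y).2)))
      exact Or.inr (Or.inr ⟨p, Shrink.{0} N, inferInstance, inferInstance, hp, hp2, this.1, this.2,
        ⟨(MulEquiv.ofBijective f hf).symm.trans (MulEquiv.prodCongr (mulEquivOfPrimeCardEq (p := 2)
          (by rw [Nat.card_zpowers, hz2]) (by simp)) e.symm)⟩⟩)
    · obtain ⟨k, hk⟩ := (isPiNum_singleton_iff Nat.prime_two (Nat.card_pos (α := G)).ne').mp
        fun q hq hd => by_contra fun h => hp ⟨q, hq, h, hd⟩
      have hord : ∀ y : G, orderOf y ≤ 2 ∨ 4 ∣ Nat.card G ∧ orderOf y = 4 := fun y => by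
        have h5 := _root_.orderOf_dvd_natCard y
        obtain ⟨j, -, hj⟩ := (Nat.dvd_prime_pow Nat.prime_two).mp (hk ▸ h5)
        rcases j with _ | _ | _ | j
        · omega
        · omega
        · exact Or.inr ⟨hj.symm.dvd.trans h5, hj⟩
        · have h6 : 8 ∣ orderOf y := ⟨2 ^ j, hj.trans (by ring)⟩
          have h7 : 4 ∣ _ := (Nat.totient_dvd_of_dvd h6).trans (totient_dvd_ordCount (G := G) _)
          have := hT _ (lt_of_lt_of_le (by norm_num) (Nat.le_of_dvd (orderOf_pos y) h6))
          have := ordCount_orderOf_ne_zero y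
          have := h4 (Dvd.dvd.trans (by norm_num) (h6.trans h5))
          omega
      have hG4 : 4 ∣ Nat.card G := ((hord x).resolve_left fun h => by
        have := orderOf_pos x
        exact hn (by rw [← hx, show orderOf x = 2 by omega, h2])).1
      rcases PGrp.isCyclic_or_quaternion_of_mem_zpowers (IsPGroup.of_card hk) fun a b ha hb _ => by
        rw [(hz1 a).mp ha, (hz1 b).mp hb]; exact mem_zpowers z with hc | ⟨-, k, hk, ⟨e⟩⟩
      · obtain ⟨g, hg⟩ := isCyclic_iff_exists_orderOf_eq_natCard.mp hc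
        have := hord g
        have := Nat.le_of_dvd Nat.card_pos hG4
        exact Or.inr (Or.inl ⟨hc, by omega⟩)
      · have h5 := hord (e.symm (QuaternionGroup.a 1))
        rw [MulEquiv.orderOf_eq, QuaternionGroup.orderOf_a_one] at h5
        obtain rfl : k = 1 := by
          by_contra hne
          have : 2 ^ 2 ≤ 2 ^ k := Nat.pow_le_pow_right (by norm_num) (by omega)
          omega
        exact Or.inl ⟨e⟩
  · have hn0 := hx ▸ ordCount_orderOf_ne_zero x
    obtain ⟨t, ht⟩ := ordCount_ne_zero_iff.mp (h2 ▸ hn0)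
    have hG := ht ▸ _root_.orderOf_dvd_natCard t
    have h3 := h2 ▸ not_dvd_ordCount Nat.prime_two hG
    have := hpg 2 Nat.prime_two hG fun y => orderOf_dvd_iff_pow_eq_one.mp (by
      by_contra hne
      have h5 : 2 < orderOf y := by
        have := orderOf_pos y
        by_contra! hle
        interval_cases orderOf y <;> omega
      have := hT _ h5
      have := two_dvd_ordCount (G := G) h5
      have := ordCount_orderOf_ne_zero y
      omega)
    have h4 := add_ordCount_le (G := G) (a := 2) (b := 0) (by norm_num) (by norm_num) (by norm_num)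
    exact Or.inl ⟨2, Nat.prime_two, this.1, by omega, this.2⟩

end Cfsg.Agent.S3995
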