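import Cfsg.Statements.S3996
import Mathlib
import Cfsg.Agent.Lib.H5SameOrder
import Cfsg.Agent.Lib.PComplement
import Cfsg.Agent.Lib.CharBurnside

set_option autoImplicit false
open Cfsg

namespace Cfsg.Agent.S3996
open Subgroup Cfsg CfsgLib CfsgLib.H5
open scoped commutatorElement

/-- A finite group in which the numbers of elements of each order that occurs (the numbers #{g : o(g) = m}, m ranging over the element orders) take exactly three different values is solvable. -/
theorem result {G : Type*} [Group G] [Finite G] (h : (((fun m : ℕ => Nat.card {g : G // orderOf g = m}) '' Set.range (orderOf : G → ℕ))).ncard = 3) : Group.IsSolvable G := by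
  obtain ⟨m, n, hT, hs⟩ := exists_twoVal_of_ncard_eq_three h
  have hodd : (∀ p q : ℕ, p.Prime → p ≠ 2 → p ∣ Nat.card G → q.Prime → q ≠ 2 → q ∣ Nat.card G →
      q = p) → Group.IsSolvable G := fun h => by
    by_cases hp : ∃ p : ℕ, p.Prime ∧ p ≠ 2 ∧ p ∣ Nat.card G
    · obtain ⟨p, hp, hp2, hpG⟩ := hp
      exact isSolvable_of_two_primes Nat.prime_two hp fun q hq hd =>
        or_iff_not_imp_left.mpr fun h2 => h p q hp hp2 hpG hq h2 hd
    · exact isSolvable_of_two_primes Nat.prime_two Nat.prime_two fun q hq hd =>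
        Or.inl (by_contra fun h2 => hp ⟨q, hq, h2, hd⟩)
  by_cases h4 : 4 ∣ Nat.card G
  · have h2 := not_dvd_ordCount Nat.prime_two (Dvd.dvd.trans (by norm_num) h4)
    by_cases h1 : ordCount G 2 = 1
    · have h5 := four_dvd_ordCount h4
      wlog h6 : ordCount G 4 = m generalizing m n
      · exact this n m hT.symm (fun d => by have := hs d; tauto)
          (by have := hT 4 (by norm_num); omega)
      have h7 : ∀ p : ℕ, p.Prime → p ≠ 2 → ¬ p ∣ 4 := fun p hp hp2 h =>
        hp2 ((Nat.prime_dvd_prime_iff_eq hp Nat.prime_two).mp (hp.dvd_of_dvd_pow (n := 2) h))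
      have h8 : ∀ p : ℕ, p.Prime → p ≠ 2 → p ∣ Nat.card G → ordCount G p = m →
          ordCount G (p * 4) = n ∧ p ∣ m + n := fun p hp hp2 hpG h =>
        hT.eq_other hp hp2 (by nlinarith [hp.two_le]) (h ▸ prime_dvd_one_add_ordCount hp hpG)
          (h6 ▸ prime_dvd_ordCount_add hp hpG (h7 p hp hp2))
      have h9 : ∀ p q d : ℕ, p.Prime → p ≠ 2 → q.Prime → q ≠ 2 → p ≠ q → p * q ∣ d →
          ordCount G d ≠ m := fun p q d hp hp2 hq hq2 hpq hd he => by
        have := (Nat.totient_dvd_of_dvd hd).trans (he ▸ totient_dvd_ordCount (G := G) d)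
        rw [Nat.totient_mul ((Nat.coprime_primes hp hq).mpr hpq)] at this
        have : 2 * 2 ∣ m := (Nat.mul_dvd_mul (Nat.totient_even (lt_of_le_of_ne hp.two_le
          hp2.symm)).two_dvd (Nat.totient_even (lt_of_le_of_ne hq.two_le
          hq2.symm)).two_dvd).trans this
        omega
      refine hodd fun p q hp hp2 hpG hq hq2 hqG => by_contra fun hne => ?_
      rcases hT.prime hp hp2 hpG with h10 | h10 <;> rcases hT.prime hq hq2 hqG with h11 | h11
      · have h12 := h8 p hp hp2 hpG h10
        have h13 := h10 ▸ prime_dvd_one_add_ordCount hp hpG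
        have h14 := prime_dvd_ordCount_add (d := q * 4) hp hpG (hp.not_dvd_mul
          (fun h => hne ((Nat.prime_dvd_prime_iff_eq hp hq).mp h).symm) (h7 p hp hp2))
        rw [(h8 q hq hq2 hqG h11).1] at h14
        have h15 := not_dvd_of_dvd_add hp h13 h12.2
        rcases hT (p * (q * 4)) (by nlinarith [hp.two_le, hq.two_le]) with h | h | h
        · exact h15 (by simpa [h] using h14)
        · exact h9 p q _ hp hp2 hq hq2 (Ne.symm hne) ⟨4, by ring⟩ h
        · rw [h, ← two_mul, hp.dvd_mul] at h14
          exact h14.elim (fun h => hp2 ((Nat.prime_dvd_prime_iff_eq hp Nat.prime_two).mp h)) h15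
      · exact hT.mixed hp hq hp2 hq2 (Ne.symm hne) hpG h10 h11 (h8 p hp hp2 hpG h10).2
      · exact hT.mixed hq hp hq2 hp2 hne hqG h11 h10 (h8 q hq hq2 hqG h11).2
      · exact h9 p q _ hp hp2 hq hq2 (Ne.symm hne) dvd_rfl
          (hT.symm.same hp hq hp2 (Ne.symm hne) hpG h10 h11).1
    · wlog h6 : ordCount G 2 = m generalizing m n
      · exact this n m hT.symm (fun d => by have := hs d; tauto) (by have := hs 2; omega)
      have hT' : TwoVal G n n := fun d hd => by
        have := hT d hd
        have := two_dvd_ordCount (G := G) hd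
        omega
      refine hodd fun p q hp hp2 hpG hq hq2 hqG => by_contra fun hne => ?_
      have h10 := (hT'.prime hp hp2 hpG).elim id id
      have h11 := (hT'.prime hq hq2 hqG).elim id id
      exact hT'.mixed hq hp hq2 hp2 hne hqG h11 h10 (hT'.same hq hp hq2 hne hqG h11 h10).2
  · obtain ⟨S⟩ : Nonempty (Sylow 2 G) := inferInstance
    obtain ⟨k, hk⟩ := S.isPGroup'.exists_card_eq
    have hk1 : Nat.card S ∣ 2 := by
      rw [hk]
      refine pow_dvd_pow 2 (show k ≤ 1 from ?_)
      by_contra! hlt
      exact h4 ((hk ▸ pow_dvd_pow 2 hlt).trans (card_subgroup_dvd_card (S : Subgroup G)))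
    obtain ⟨N, hN, hN2, j, hj⟩ := PCompl.hnpc_exists_normal (PCompl.hnpc_two_of_isCyclic S
      (isCyclic_of_card_dvd_prime hk1))
    have hN2' : ¬ 2 ∣ Nat.card N := fun h => by simpa using hN2.coprime_dvd_left h
    have hTN : TwoVal N m n := fun d hd => or_iff_not_imp_left.mpr fun h0 => by
      obtain ⟨y, hy⟩ := ordCount_ne_zero_iff.mp h0
      have h5 : ordCount N d = ordCount G d := by
        rw [ordCount, ← Set.ncard_image_of_injective _ N.subtype_injective]
        congr 1
        ext g
        refine ⟨fun ⟨x, hx, he⟩ => he ▸ (orderOf_coe x).trans hx, fun hg => ⟨⟨g,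
          mem_of_coprime_index ?_⟩, (orderOf_mk _ _).trans hg, rfl⟩⟩
        rw [hj, hg, ← hy]
        exact (hN2.coprime_dvd_left (_root_.orderOf_dvd_natCard y)).pow_right j
      exact h5 ▸ (hT d hd).resolve_left (h5 ▸ h0)
    exact isSolvable_of_normal_of_quotient N (isSolvable_of_card_primeFactors_le_two
      (hTN.card_primeFactors_le hN2')) (isSolvable_of_isPGroup (IsPGroup.of_card hj))

end Cfsg.Agent.S3996
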