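import Cfsg.Statements.S3997
import Cfsg.Agent.Lib.CoreElements

set_option autoImplicit false
open Cfsg

namespace Cfsg.Agent.S3997

open CfsgLib Subgroup

theorem ncard_eq_of_orderType {G H : Type*} [Group G] [Finite G] [Group H] [Finite H]
    (hT : ∀ m : ℕ, Nat.card {g : G // orderOf g = m} = Nat.card {h : H // orderOf h = m})
    (D : Set ℕ) : {g : G | orderOf g ∈ D}.ncard = {h : H | orderOf h ∈ D}.ncard := by
  have e : ∀ m : ℕ, {g : G // orderOf g = m} ≃ {h : H // orderOf h = m} := fun m =>
    (Finite.card_eq.mp (hT m)).some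
  let E : G ≃ H := (Equiv.sigmaFiberEquiv (orderOf : G → ℕ)).symm.trans
    ((Equiv.sigmaCongrRight e).trans (Equiv.sigmaFiberEquiv (orderOf : H → ℕ)))
  have hE : ∀ g, orderOf (E g) = orderOf g := fun g => (e (orderOf g) ⟨g, rfl⟩).2
  rw [← Set.ncard_image_of_injective _ E.injective]
  congr 1
  ext h
  obtain ⟨g, rfl⟩ := E.surjective h
  simp [hE]


/-- Let G and H be finite groups with the same order type: for every m they have the same number of elements of order m. If G is nilpotent then so is H. -/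
theorem result {G H : Type*} [Group G] [Finite G] [Group H] [Finite H] (hT : (∀ m : ℕ, Nat.card {g : G // orderOf g = m} = Nat.card {h : H // orderOf h = m})) (hG : Group.IsNilpotent G) :
    Group.IsNilpotent H := by
  have hcard : Nat.card G = Nat.card H := by
    have := ncard_eq_of_orderType hT Set.univ
    simpa [Set.ncard_univ] using this
  suffices h : ∀ (p : ℕ) (_ : Fact p.Prime) (P : Sylow p H), (P : Subgroup H).Normal from
    ((Group.isNilpotent_of_finite_tfae (G := H)).out 0 3).mpr h
  intro p hp Q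
  obtain ⟨P⟩ : Nonempty (Sylow p G) := inferInstance
  have hG' : ∀ (p : ℕ) (_ : Fact p.Prime) (P : Sylow p G), (P : Subgroup G).Normal :=
    ((Group.isNilpotent_of_finite_tfae (G := G)).out 0 3).mp hG
  have hP := hG' p hp P
  have h1 := ncard_eq_of_orderType hT {n | ∃ k, n = p ^ k}
  have h2 : {g : G | orderOf g ∈ {n | ∃ k, n = p ^ k}} = (P : Subgroup G) := by
    ext g
    constructor
    · rintro ⟨k, hk⟩
      exact mem_of_coprime_index (by
        rw [hk]
        exact Nat.Coprime.pow_left _ ((Nat.Prime.coprime_iff_not_dvd hp.out).mpr P.not_dvd_index))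
    · intro hg
      obtain ⟨k, hk⟩ := IsPGroup.iff_orderOf.mp P.isPGroup' ⟨g, hg⟩
      exact ⟨k, by rwa [orderOf_mk] at hk⟩
  have h3 : ((Q : Subgroup H) : Set H) = {g : H | orderOf g ∈ {n | ∃ k, n = p ^ k}} := by
    apply Set.eq_of_subset_of_ncard_le
    · intro g hg
      obtain ⟨k, hk⟩ := IsPGroup.iff_orderOf.mp Q.isPGroup' ⟨g, hg⟩
      exact ⟨k, by rwa [orderOf_mk] at hk⟩
    · rw [← h1, h2, ← Nat.card_coe_set_eq, ← Nat.card_coe_set_eq]
      exact ((P.card_eq_multiplicity.trans (by rw [hcard])).trans Q.card_eq_multiplicity.symm).le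
    · exact Set.toFinite _
  refine ⟨fun n hn g => ?_⟩
  rw [← SetLike.mem_coe, h3] at hn ⊢
  have : orderOf (g * n * g⁻¹) = orderOf n := (MulAut.conj g).orderOf_eq n
  simpa only [Set.mem_ofPred_eq, this] using hn

end Cfsg.Agent.S3997
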