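import Cfsg.Statements.S3998
import Cfsg.Agent.Lib.OrderType
import Cfsg.Agent.Lib.PGroupCyclicMax
import Cfsg.Agent.Lib.FusionRadical

set_option autoImplicit false
open Cfsg

namespace Cfsg.Agent.S3998


open CfsgLib Subgroup

theorem solvable {G : Type*} [Group G] (hG : IsSupersolvable G) : Group.IsSolvable G := by
  obtain ⟨n, H, h0, hl, hN, hs⟩ := hG
  have : ∀ i, Group.IsSolvable (H i) := by
    intro i
    induction i using Fin.induction with
    | zero => rw [h0]; infer_instance
    | succ i ih =>
      obtain ⟨g, hg⟩ := hs i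
      have := hN i.castSucc
      rw [hg, sup_comm]
      exact isSolvable_sup_of_normal (isSolvable_of_comm fun a b => mul_comm' a b) ih
  have h := this (Fin.last n)
  rw [hl] at h
  exact solvable_of_surjective (f := (⊤ : Subgroup G).subtype) fun x => ⟨⟨x, trivial⟩, rfl⟩

theorem closed {G : Type*} [Group G] [Finite G] (hG : IsSupersolvable G) (π : Set ℕ)
    (hπ : ∀ p q, p ∈ π → q ∉ π → q < p) : H4.IsPiClosure π (piCore π G) := by
  refine H4.isPiClosure_piCore fun x hx => H5.mem_piCore_of_piSep
    (PiSep.of_isSolvable (solvable hG)) (fun p q k Q x hp hq hpπ hqπ hQ hx hn => ?_) hx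
  have hlt := hπ p q hpπ hqπ
  have := Fact.mk hq
  obtain ⟨n, H, h0, hl, hN, hs⟩ := hG
  have key : ∀ i, x ∈ centralizer ((Q ⊓ H i : Subgroup G) : Set G) := by
    intro i
    induction i using Fin.induction with
    | zero =>
      rw [h0, inf_bot_eq]
      simp [mem_centralizer_iff]
    | succ i ih =>
      obtain ⟨g, hg⟩ := hs i
      have := hN i.castSucc
      have := hN i.succ
      refine FrobNPC.mem_centralizer_of_stabilizes (p := q) (hQ.to_inf_left)
        (by rw [hx]; exact ((Nat.coprime_primes hp hq).mpr hlt.ne').pow_left k) ih ?_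
      intro y hy
      refine mem_inf.mpr ⟨mul_mem ((mem_normalizer_iff.mp hn y).mp hy.1) (inv_mem hy.1), ?_⟩
      set f := QuotientGroup.mk' (H i.castSucc)
      have hmap : (H i.succ).map f = zpowers (f g) := by
        rw [hg, Subgroup.map_sup, MonoidHom.map_zpowers, (Subgroup.map_eq_bot_iff _).mpr
          (by rw [QuotientGroup.ker_mk']), bot_sup_eq]
      have hy' : f y ∈ zpowers (f g) := hmap ▸ mem_map_of_mem f hy.2
      have hxy : f (x * y * x⁻¹) ∈ zpowers (f g) :=
        hmap ▸ mem_map_of_mem f ((hN i.succ).conj_mem y hy.2 x)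
      have hz : f x * f y * (f x)⁻¹ ∈ zpowers (f y) := by
        refine PGrp.mem_zpowers_of_orderOf_dvd (C := zpowers (f g)) (by simpa using hxy) hy' ?_
        exact ((MulAut.conj (f x)).orderOf_eq (f y)).dvd
      obtain ⟨j, hj⟩ := orderOf_eq_pow_of_mem_isPGroup hQ hy.1
      obtain ⟨j', -, hj'⟩ := (Nat.dvd_prime_pow hq).mp (hj ▸ orderOf_map_dvd f y)
      obtain ⟨k', -, hk'⟩ := (Nat.dvd_prime_pow hp).mp (hx ▸ orderOf_map_dvd f x)
      have hc := H4.mem_centralizer_of_isCyclic_of_lt hp hq hlt (Q := zpowers (f y))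
        (IsPGroup.of_card (by rw [Nat.card_zpowers, hj'])) hk'
        (H5.mem_normalizer_zpowers_of_conj_mem hz)
      have := mem_centralizer_iff.mp hc (f y) (mem_zpowers _)
      rw [← QuotientGroup.eq_one_iff]
      change f (x * y * x⁻¹ * y⁻¹) = 1
      simp only [map_mul, map_inv, ← this]
      group
  have := key (Fin.last n)
  rwa [hl, inf_top_eq] at this

/-- Let G and H be finite groups with the same order type (for every m the same number of elements of order m). If G is supersolvable then H is solvable. -/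
theorem result {G H : Type*} [Group G] [Finite G] [Group H] [Finite H] (hT : (∀ m : ℕ, Nat.card {g : G // orderOf g = m} = Nat.card {h : H // orderOf h = m})) (hG : Cfsg.IsSupersolvable G) :
    Group.IsSolvable H := by

  obtain ⟨N, hs, hN⟩ := H4.SameType.chain hT ∅ Set.univ 0 (fun r _ => ⟨_, closed hG _ (by
    intro p q hp hq
    simp only [Set.empty_union, Set.univ_inter, Set.mem_ofPred_eq] at hp hq
    omega)⟩) H4.isPiClosure_empty_bot inferInstance
  have : N = ⊤ := by
    rw [eq_top_iff]
    intro x _
    exact (hN x).mpr fun q _ _ => by simp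
  subst this
  exact solvable_of_surjective (f := (⊤ : Subgroup H).subtype) fun x => ⟨⟨x, trivial⟩, rfl⟩

end Cfsg.Agent.S3998
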