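import Cfsg.Statements.S3999
import Cfsg.Agent.Lib.OrderType
import Cfsg.Agent.Lib.FrobMain
import Cfsg.Agent.Lib.H5Kegel
import Cfsg.Agent.Lib.CharBurnside

set_option autoImplicit false
open Cfsg

namespace Cfsg.Agent.S3999


open CfsgLib Subgroup H4 Frob

theorem closure_kernel {F : Type*} [Group F] [Finite F] {K : Subgroup F}
    (hK : IsFrobeniusKernel K) : IsPiClosure {q | q ∣ Nat.card K} K := by
  intro x
  refine ⟨fun hx q _ hd => hd.trans (K.orderOf_dvd_natCard hx), fun hx => ?_⟩
  by_contra h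
  have h1 : orderOf x ≠ 1 := fun h1 => h (orderOf_eq_one_iff.mp h1 ▸ one_mem K)
  obtain ⟨q, hq, hd⟩ := Nat.exists_prime_and_dvd h1
  exact hq.one_lt.ne' (Nat.dvd_one.mp ((hK.coprime_orderOf h) ▸ Nat.dvd_gcd hd (hx q hq hd)))

theorem exists_kernel {F G : Type*} [Group F] [Finite F] [Group G] [Finite G] {K : Subgroup F}
    (hK : IsFrobeniusKernel K) (hT : SameType F G) : ∃ N : Subgroup G, Group.IsSolvable N ∧
      IsPiClosure {q | q ∣ Nat.card K} N ∧ IsFrobeniusKernel N := by
  have hKc := closure_kernel hK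
  set π : Set ℕ := {q | q ∣ Nat.card K}
  have := H5.isNilpotent_of_isFrobeniusKernel hK
  obtain ⟨N, hs, hN⟩ := hT.chain ∅ π 0 (fun r _ => ⟨(piCore (∅ ∪ (π ∩ {q | r ≤ q})) K).map K.subtype,
    fun x => by
      constructor
      · rintro ⟨y, hy, rfl⟩
        have := (exists_isPiClosure_of_isNilpotent _ y).mp hy
        rwa [← Subgroup.orderOf_coe] at this
      · intro hx
        refine ⟨⟨x, (hKc x).mpr (hx.mono ?_)⟩, (exists_isPiClosure_of_isNilpotent _ _).mpr ?_, rfl⟩
        · rintro q (h | h)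
          · exact h.elim
          · exact h.1
        · rwa [orderOf_mk]⟩) isPiClosure_empty_bot inferInstance
  replace hN : IsPiClosure π N := hN.congr fun q _ _ => by simp
  obtain ⟨E, hE⟩ := hT.exists_equiv
  refine ⟨N, hs, hN, hN.normal, ?_, ?_, ?_⟩
  · obtain ⟨⟨k, hk⟩, h1⟩ := ne_bot_iff_exists_ne_one.mp hK.ne_bot
    refine ne_bot_iff_exists_ne_one.mpr ⟨⟨E k, (hN _).mpr (hE k ▸ (hKc k).mp hk)⟩, fun h => h1 ?_⟩
    have h2 : E k = 1 := congrArg Subtype.val h
    exact Subtype.ext (orderOf_eq_one_iff.mp (by rw [← hE, h2, orderOf_one]))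
  · intro h
    refine hK.ne_top (eq_top_iff.mpr fun x _ => (hKc x).mpr ?_)
    rw [← hE]
    exact (hN _).mp (h ▸ mem_top _)
  · intro k hk h1 g hg
    obtain ⟨u, hu, v, hv, rfl, -, hou, hov⟩ := exists_pi_part π g
    refine mul_mem ((hN u).mpr hou) ?_
    have hc : Commute k v := by
      obtain ⟨m, hm⟩ := hv
      exact hm ▸ (show Commute k (u * v) from hg.symm).zpow_right m
    have hok := (hN k).mp hk
    have hcop := hok.coprime_compl hov
    obtain ⟨z, hz⟩ := E.surjective (k * v)
    have hoz : orderOf z = orderOf k * orderOf v := by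
      rw [← hE, hz, hc.orderOf_mul_eq_mul_orderOf_of_coprime hcop]
    have h2 : orderOf (z ^ orderOf v) = orderOf k := by
      rw [orderOf_pow_of_dvd (orderOf_pos v).ne' (hoz ▸ Dvd.intro_left _ rfl), hoz,
        Nat.mul_div_cancel _ (orderOf_pos v)]
    have h3 : z ∈ K := hK.mem_of_commute (z ^ orderOf v) ((hKc _).mpr (h2 ▸ hok))
      (fun h => h1 (orderOf_eq_one_iff.mp (by rw [← h2, h, orderOf_one]))) z
      (Commute.self_pow z _).eq
    exact (hN v).mpr (((hKc z).mp h3).of_dvd (hoz ▸ Dvd.intro_left _ rfl))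

theorem closed_of_hasFPF {A : Type*} [Group A] [Finite A] (h : HasFPF A) (hs : Group.IsSolvable A)
    {r : ℕ} (hr : 5 ≤ r) : IsPiClosure {q | r ≤ q} (piCore {q | r ≤ q} A) := by
  refine isPiClosure_piCore fun x hx => H5.mem_piCore_of_piSep
    (PiSep.of_isSolvable hs) (fun p q k Q x hp hq hpπ hqπ hQ hx hn => ?_) hx
  simp only [Set.mem_ofPred_eq] at hpπ hqπ
  have := Fact.mk hq
  rcases h.isCyclic_or_quaternion hQ with hc | ⟨rfl, j, -, ⟨e⟩⟩
  · exact mem_centralizer_of_isCyclic_of_lt hp hq (by omega) hQ hx hn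
  · refine mem_centralizer_of_rank (d := 2) hp hq (by omega) hQ
      ((Group.rank_congr e).trans_le (rank_quaternion_le _)) (fun i h1 h2 h3 => ?_) hx hn
    interval_cases i
    · have := Nat.le_of_dvd (by norm_num) h3
      omega
    · have := Nat.le_of_dvd (by norm_num) h3
      omega

theorem solvable {F G : Type*} [Group F] [Finite F] [Group G] [Finite G] {K : Subgroup F}
    (hK : IsFrobeniusKernel K) (hT : SameType F G) (hs : Group.IsSolvable F) :
    Group.IsSolvable G := by
  obtain ⟨N, hNs, hN, -⟩ := exists_kernel hK hT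
  have := hK.normal
  obtain ⟨M, hMs, hM⟩ := hT.chain {q | q ∣ Nat.card K} Set.univ 5 (fun r hr =>
    ⟨(piCore {q | r ≤ q} (F ⧸ K)).comap (QuotientGroup.mk' K), fun x => by
      rw [mem_comap, closed_of_hasFPF hK.hasFPF_quotient inferInstance hr]
      by_cases hx : x ∈ K
      · rw [show QuotientGroup.mk' K x = 1 from (QuotientGroup.eq_one_iff x).mpr hx, orderOf_one]
        exact ⟨fun _ q _ hd => Or.inl (hd.trans (K.orderOf_dvd_natCard hx)),
          fun _ => isPiNum_one _⟩
      · rw [QuotientGroup.mk'_apply, hK.orderOf_mk hx]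
        refine ⟨fun h q hq hd => Or.inr ⟨trivial, h q hq hd⟩, fun h q hq hd => ?_⟩
        rcases h q hq hd with h1 | h1
        · exact absurd (Nat.dvd_one.mp ((hK.coprime_orderOf hx) ▸ Nat.dvd_gcd hd h1))
            hq.one_lt.ne'
        · exact h1.2⟩) hN hNs
  have := hM.normal
  refine isSolvable_of_normal_of_quotient M hMs
    (isSolvable_of_two_primes Nat.prime_two Nat.prime_three fun r hr hd => ?_)
  have h1 : ¬ 5 ≤ r := fun h => hM.isPiNum_index r hr hd (Or.inr ⟨trivial, h⟩)
  have := hr.two_le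
  have : r ≠ 4 := by rintro rfl; exact absurd hr (by norm_num)
  omega

/-- Let F be a finite Frobenius group (it has a Frobenius complement) and G a finite group with the same order type as F (for every m the same number of elements of order m). Then G is a Frobenius group; moreover G is solvable if and only if F is. -/
theorem result {F G : Type*} [Group F] [Finite F] [Group G] [Finite G] (hF : (∃ C : Subgroup F, Cfsg.IsFrobeniusComplement C)) (hT : (∀ m : ℕ, Nat.card {g : F // orderOf g = m} = Nat.card {h : G // orderOf h = m})) :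
    (∃ C : Subgroup G, Cfsg.IsFrobeniusComplement C) ∧ (Group.IsSolvable G ↔ Group.IsSolvable F) := by

  obtain ⟨C, hC⟩ := hF
  obtain ⟨K, hK⟩ := hC.exists_isFrobeniusPair
  obtain ⟨N, -, -, hN⟩ := exists_kernel hK.isFrobeniusKernel hT
  obtain ⟨D, hD⟩ := hN.exists_isFrobeniusPair
  exact ⟨⟨D, hD.isFrobeniusComplement⟩, solvable hN (H4.SameType.symm hT),
    solvable hK.isFrobeniusKernel hT⟩

end Cfsg.Agent.S3999
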