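import Cfsg.Statements.S4001
import Cfsg.Agent.Lib.FrobTwo

set_option autoImplicit false
open Cfsg

namespace Cfsg.Agent.S4001

open Subgroup CfsgLib CfsgLib.Frob

theorem exists_mem_center_orderOf {H : Type*} [Group H] [Finite H] [Group.IsNilpotent H] {p : ℕ}
    (hp : p.Prime) (hd : p ∣ Nat.card H) : omegaCenter p H ≠ ⊥ := by
  have := Fact.mk hp
  obtain ⟨P⟩ : Nonempty (Sylow p H) := inferInstance
  have : (P : Subgroup H).Normal := inferInstance
  obtain ⟨⟨z, hz1, hz2⟩, hz⟩ := ne_bot_iff_exists_ne_one.mp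
    (inf_center_ne_bot_of_isNilpotent (P.ne_bot_of_dvd_card hd))
  obtain ⟨q, hq, hqd, y, hy, hyq⟩ := exists_orderOf_prime_mem_zpowers (x := z)
    (fun e => hz (Subtype.ext e))
  obtain ⟨k, hk⟩ := orderOf_eq_pow_of_mem_isPGroup P.2 hz1
  have hqp : q = p := (Nat.prime_dvd_prime_iff_eq hq hp).mp (hq.dvd_of_dvd_pow (hk ▸ hqd))
  subst hqp
  refine ne_bot_iff_exists_ne_one.mpr ⟨⟨y, zpowers_le.mpr hz2 hy, hyq ▸ pow_orderOf_eq_one y⟩,
    fun e => ?_⟩
  have : y = 1 := congrArg Subtype.val e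
  rw [this, orderOf_one] at hyq
  exact hp.one_lt.ne hyq

theorem mixed {G : Type*} [Group G] [Finite G] (H K : Subgroup G) [H.Normal] [K.Normal]
    (hle : H ≤ K) (h1 : IsFrobeniusKernel (H.subgroupOf K))
    (h2 : IsFrobeniusKernel (K.map (QuotientGroup.mk' H))) [Group.IsNilpotent H] {p q : ℕ}
    (hp : p.Prime) (hq : q.Prime) (hpq : p ≠ q) (hpH : p ∣ Nat.card H) (hqK : ¬ q ∣ Nat.card K)
    (hqG : q ∣ Nat.card G) : ∃ g : G, orderOf g = p * q := by
  by_contra hcon
  have := Fact.mk hq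
  obtain ⟨c, hc⟩ := exists_prime_orderOf_dvd_card' q hqG
  have hcK : c ∉ K := fun h => hqK (hc ▸ K.orderOf_dvd_natCard h)
  have := omegaCenter_characteristic p H
  set W : Subgroup G := (omegaCenter p H).map H.subtype with hW
  have : W.Normal := inferInstance
  have : Nontrivial W := by
    rw [nontrivial_iff_ne_bot, hW, Ne, map_eq_bot_iff_of_injective _ H.subtype_injective]
    exact exists_mem_center_orderOf hp hpH
  let φ : G ⧸ H →* MulAut W := QuotientGroup.lift H MulAut.conjNormal fun h hh => by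
    rw [MonoidHom.mem_ker]
    ext ⟨_, w, hw, rfl⟩
    have := congrArg Subtype.val (mem_center_iff.mp hw.1 ⟨h, hh⟩)
    exact mul_inv_eq_iff_eq_mul.mpr this
  set Kb := K.map (QuotientGroup.mk' H) with hKb
  have hmem : ∀ x : G, (x : G ⧸ H) ∈ Kb ↔ x ∈ K := fun x => by
    rw [← QuotientGroup.mk'_apply, ← mem_comap, comap_map_eq, QuotientGroup.ker_mk',
      sup_eq_left.mpr hle]
  have := h2.normal
  set L := zpowers (c : G ⧸ H) ⊔ Kb with hL
  have hF : IsFPF (φ.comp L.subtype) := by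
    rintro ⟨g, hg⟩ hg1 ⟨_, w, hw, rfl⟩ hgw
    obtain ⟨g, rfl⟩ := QuotientGroup.mk_surjective g
    have hc1 : g * w = w * g := mul_inv_eq_iff_eq_mul.mp (congrArg Subtype.val hgw)
    by_contra hw1
    have hw1' : (w : G) ≠ 1 := fun e => hw1 (Subtype.ext e)
    by_cases hgK : g ∈ K
    · exact hg1 (Subtype.ext ((QuotientGroup.eq_one_iff g).mpr
        (h1.mem_of_commute_of_subgroupOf w.2 (hle w.2) hw1' hgK hc1)))
    · have h3 := h2.coprime_orderOf (mt (hmem g).mp hgK)
      have h4 : orderOf (g : G ⧸ H) ∣ q := by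
        refine (h3.dvd_of_dvd_mul_right ((L.orderOf_dvd_natCard hg).trans
          (card_sup_dvd_mul le_normalizer_of_normal))).trans ?_
        rw [Nat.card_zpowers, ← hc]
        exact orderOf_map_dvd (QuotientGroup.mk' H) c
      have h5 : orderOf (g : G ⧸ H) = q := ((Nat.dvd_prime hq).mp h4).resolve_left fun e =>
        hg1 (Subtype.ext (orderOf_eq_one_iff.mp e))
      obtain ⟨y, hy, hyq⟩ := exists_orderOf_eq_mem_zpowers (x := g) (d := q)
        (h5 ▸ orderOf_map_dvd (QuotientGroup.mk' H) g)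
      have h6 : orderOf (w : G) = p := by
        have := Fact.mk hp
        exact orderOf_eq_prime (by rw [← Subgroup.coe_pow, hw.2]; rfl) hw1'
      have h7 : Commute (w : G) y := by
        obtain ⟨k, rfl⟩ := hy
        exact (Commute.symm hc1).zpow_right k
      exact hcon ⟨w * y, by
        rw [h7.orderOf_mul_eq_mul_orderOf_of_coprime (by
          rw [h6, hyq]; exact (Nat.coprime_primes hp hq).mpr hpq), h6, hyq]⟩
  refine hF.hasFPF.not_isFrobeniusKernel _ (h2.subgroupOf ?_ fun h => hcK ?_)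
  · rw [inf_eq_left.mpr le_sup_right]; exact h2.ne_bot
  · exact (hmem c).mp (h (mem_sup_left (mem_zpowers _)))

/-- Let G be a 2-Frobenius group: it has normal subgroups H < K with K a Frobenius group with kernel H and G/H a Frobenius group with kernel K/H. Then G is solvable; K/H has odd order coprime to the order of H and to the order of G/K (it is the image of an odd-order Hall subgroup); G/K is cyclic; and the prime graph of G has exactly two connected components, both complete: for distinct primes p, q dividing the order of G, G has an element of order pq exactly when p and q either both divide the order of K/H or both do not. -/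
theorem result {G : Type*} [Group G] [Finite G] (H K : Subgroup G) [H.Normal] [K.Normal] (hlt : H < K)
    (hK : ∃ C : Subgroup ↥K, Cfsg.IsFrobeniusComplement C ∧ Cfsg.frobeniusKernel C = (H.subgroupOf K : Set ↥K))
    (hGH : ∃ C : Subgroup (G ⧸ H), Cfsg.IsFrobeniusComplement C ∧ Cfsg.frobeniusKernel C = (K.map (QuotientGroup.mk' H) : Set (G ⧸ H))) :
    Group.IsSolvable G ∧ Odd (Nat.card (↥K ⧸ H.subgroupOf K)) ∧
      Nat.Coprime (Nat.card (↥K ⧸ H.subgroupOf K)) (Nat.card ↥H * Nat.card (G ⧸ K)) ∧ IsCyclic (G ⧸ K) ∧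
      ∀ p q : ℕ, p.Prime → q.Prime → p ≠ q → p ∣ Nat.card G → q ∣ Nat.card G →
        ((∃ g : G, orderOf g = p * q) ↔ (p ∣ Nat.card (↥K ⧸ H.subgroupOf K) ↔ q ∣ Nat.card (↥K ⧸ H.subgroupOf K))) := by
  have h1 := isFrobeniusKernel_iff.mpr hK
  have h2 := isFrobeniusKernel_iff.mpr hGH
  set Kb := K.map (QuotientGroup.mk' H) with hKb
  have := h2.normal
  obtain ⟨e⟩ := nonempty_quotient_subgroupOf_equiv_map H K
  have hF : HasFPF Kb := h1.hasFPF_quotient.of_mulEquiv e
  have hcyc : IsCyclic Kb := h2.isCyclic_of_hasFPF hF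
  have hB : Nat.card (K ⧸ H.subgroupOf K) = Nat.card Kb := Nat.card_congr e.toEquiv
  have e2 : (G ⧸ H) ⧸ Kb ≃* G ⧸ K := QuotientGroup.quotientQuotientEquivQuotient H K hlt.le
  have hC : IsCyclic (G ⧸ K) := by
    have := h2.isCyclic_quotient
    exact isCyclic_of_surjective e2 e2.surjective
  have hnil : Group.IsNilpotent H := by
    have := H5.isNilpotent_of_isFrobeniusKernel h1
    exact isNilpotent_of_injective (subgroupOfEquivOfLe hlt.le).symm.toMonoidHom
      (subgroupOfEquivOfLe hlt.le).symm.injective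
  have hcop1 : (Nat.card Kb).Coprime (Nat.card H) := by
    have := h1.coprime
    rw [card_subgroupOf_of_le hlt.le] at this
    rw [← hB]
    exact this.symm
  have hcop2 : (Nat.card Kb).Coprime (Nat.card (G ⧸ K)) := by
    rw [← Nat.card_congr e2.toEquiv]; exact h2.coprime
  have hKc : Nat.card K = Nat.card Kb * Nat.card H := by
    rw [← card_map_mk'_mul_card_inf K H, inf_eq_left.mpr hlt.le]
  have hGc : Nat.card G = Nat.card (G ⧸ K) * (Nat.card Kb * Nat.card H) := by
    rw [← hKc, card_eq_card_quotient_mul_card_subgroup K]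
  have hmem : ∀ x : G, (x : G ⧸ H) ∈ Kb ↔ x ∈ K := fun x => by
    rw [← QuotientGroup.mk'_apply, ← mem_comap, comap_map_eq, QuotientGroup.ker_mk',
      sup_eq_left.mpr hlt.le]
  rw [hB]
  refine ⟨?_, h2.odd_of_hasFPF hF, Nat.Coprime.mul_right hcop1 hcop2, hC, ?_⟩
  · refine isSolvable_of_normal_of_quotient K (isSolvable_of_map_mk' (N := H) inferInstance ?_) ?_
    · exact isSolvable_of_isMulCommutative
    · exact isSolvable_of_isMulCommutative
  have key : ∀ p q : ℕ, p.Prime → q.Prime → p ∣ Nat.card Kb → ¬ q ∣ Nat.card Kb →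
      ¬ ∃ g : G, orderOf g = p * q := by
    rintro p q hp hq hpd hqd ⟨g, hg⟩
    obtain ⟨x, hx, hxp⟩ := exists_orderOf_eq_mem_zpowers (x := g) (d := p) (hg ▸ dvd_mul_right p q)
    obtain ⟨y, hy, hyq⟩ := exists_orderOf_eq_mem_zpowers (x := g) (d := q) (hg ▸ dvd_mul_left q p)
    have hc : Commute x y := commute_of_mem_zpowers hx hy
    have hxK : x ∈ K := mem_of_coprime_index (hxp ▸ Nat.Coprime.coprime_dvd_left hpd hcop2)
    have hxH : x ∉ H := fun h => hp.one_lt.ne' (Nat.eq_one_of_dvd_coprimes hcop1 hpd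
      (hxp ▸ H.orderOf_dvd_natCard h))
    have h3 : (y : G ⧸ H) ∈ Kb := h2.mem_of_commute _ ((hmem x).mpr hxK)
      (fun e => hxH ((QuotientGroup.eq_one_iff x).mp e)) _
      (by rw [← QuotientGroup.mk_mul, ← QuotientGroup.mk_mul, hc.eq])
    have h4 : y ∈ H := by
      rw [← QuotientGroup.eq_one_iff, ← orderOf_eq_one_iff]
      exact Nat.eq_one_of_dvd_coprimes ((Nat.Prime.coprime_iff_not_dvd hq).mpr hqd)
        (hyq ▸ orderOf_map_dvd (QuotientGroup.mk' H) y) (Kb.orderOf_dvd_natCard h3)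
    refine hxH (h1.mem_of_commute_of_subgroupOf h4 (hlt.le h4) ?_ hxK hc)
    rintro rfl
    exact hq.one_lt.ne (by rw [← hyq, orderOf_one])
  intro p q hp hq hpq hpG hqG
  have hcop : p.Coprime q := (Nat.coprime_primes hp hq).mpr hpq
  constructor
  · intro h
    refine ⟨fun h3 => ?_, fun h3 => ?_⟩
    · by_contra h4
      exact key p q hp hq h3 h4 h
    · by_contra h4
      exact key q p hq hp h3 h4 (by rwa [mul_comm])
  · intro h
    by_cases hpB : p ∣ Nat.card Kb
    · obtain ⟨g, -, hg⟩ := exists_orderOf_eq_of_isCyclic Kb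
        (hcop.mul_dvd_of_dvd_of_dvd hpB (h.mp hpB))
      obtain ⟨g, rfl⟩ := QuotientGroup.mk'_surjective H g
      exact exists_orderOf_eq_of_dvd_orderOf_map _ g hg.symm.dvd
    have hqB : ¬ q ∣ Nat.card Kb := mt h.mpr hpB
    by_cases hpH : p ∣ Nat.card H <;> by_cases hqH : q ∣ Nat.card H
    · obtain ⟨x, hx, hxp⟩ := exists_orderOf_prime_mem H hp hpH
      obtain ⟨y, hy, hyq⟩ := exists_orderOf_prime_mem H hq hqH
      have h3 : (orderOf x).Coprime (orderOf y) := by rw [hxp, hyq]; exact hcop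
      exact ⟨x * y, by rw [Commute.orderOf_mul_eq_mul_orderOf_of_coprime
        (commute_of_coprime_of_mem_isNilpotent hnil hx hy h3) h3, hxp, hyq]⟩
    · exact mixed H K hlt.le h1 h2 hp hq hpq hpH (by
        rw [hKc, hq.dvd_mul]; exact not_or.mpr ⟨hqB, hqH⟩) hqG
    · rw [mul_comm]
      exact mixed H K hlt.le h1 h2 hq hp hpq.symm hqH (by
        rw [hKc, hp.dvd_mul]; exact not_or.mpr ⟨hpB, hpH⟩) hpG
    · rw [hGc, hp.dvd_mul, hp.dvd_mul] at hpG
      rw [hGc, hq.dvd_mul, hq.dvd_mul] at hqG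
      obtain ⟨g, -, hg⟩ := exists_orderOf_eq_of_isCyclic (⊤ : Subgroup (G ⧸ K)) (d := p * q) (by
        rw [card_top]
        exact hcop.mul_dvd_of_dvd_of_dvd (by tauto) (by tauto))
      obtain ⟨g, rfl⟩ := QuotientGroup.mk'_surjective K g
      exact exists_orderOf_eq_of_dvd_orderOf_map _ g hg.symm.dvd

end Cfsg.Agent.S4001
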