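import Cfsg.Statements.S4002
import Mathlib
import Cfsg.Agent.Lib.H5Eppo

set_option autoImplicit false
open Cfsg

namespace Cfsg.Agent.S4002
open Subgroup Cfsg CfsgLib
open scoped commutatorElement

/-- If the set of element orders of a finite group G is {1, 2, …, n} with n ≥ 7, then G is not solvable. -/
theorem result {G : Type*} [Group G] [Finite G] (n : ℕ) (hn : 7 ≤ n) (h : Set.range (orderOf : G → ℕ) = {k : ℕ | 1 ≤ k ∧ k ≤ n}) : ¬ Group.IsSolvable G := by
  intro hs
  have h1 : ∀ g : G, orderOf g ≤ n := fun g => (h.le ⟨g, rfl⟩).2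
  have key : ∀ p q r : ℕ, p.Prime → q.Prime → r.Prime → p < q → q < r → r ≤ n → p * q ≤ n := by
    intro p q r hp hq hr hpq hqr hrn
    by_contra! hlt
    obtain ⟨K, hK⟩ := Hall.exists_isPiHall hs {p, q, r}
    have hE : H5.Eppo K := fun g hg => by
      rw [isPrimePow_iff_unique_prime_dvd]
      obtain ⟨a, ha, had⟩ := Nat.exists_prime_and_dvd (mt orderOf_eq_one_iff.mp hg)
      refine ⟨a, ⟨ha, had⟩, fun b ⟨hb, hbd⟩ => ?_⟩
      by_contra hne
      have h2 := Nat.le_of_dvd (orderOf_pos g) (((Nat.coprime_primes hb ha).mpr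
        hne).mul_dvd_of_dvd_of_dvd hbd had)
      have h3 := h1 g
      rw [orderOf_coe] at h3
      have h4 := hK.1 a ha (had.trans (_root_.orderOf_dvd_natCard g))
      have h5 := hK.1 b hb (hbd.trans (_root_.orderOf_dvd_natCard g))
      simp only [Set.mem_insert_iff, Set.mem_singleton_iff] at h4 h5
      rcases h4 with rfl | rfl | rfl <;> rcases h5 with rfl | rfl | rfl <;>
        first | exact hne rfl | nlinarith
    have h2 := hE.card_primeFactors_le_two inferInstance
    have h3 : ({p, q, r} : Finset ℕ) ⊆ (Nat.card K).primeFactors := fun a ha => by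
      have ha' : a.Prime ∧ a ≤ n := by
        simp only [Finset.mem_insert, Finset.mem_singleton] at ha
        rcases ha with rfl | rfl | rfl
        exacts [⟨hp, by omega⟩, ⟨hq, by omega⟩, ⟨hr, hrn⟩]
      obtain ⟨g, hg⟩ := h.ge (⟨ha'.1.one_le, ha'.2⟩ : a ∈ {k : ℕ | 1 ≤ k ∧ k ≤ n})
      have := hg ▸ _root_.orderOf_dvd_natCard g
      rw [← K.card_mul_index, ha'.1.dvd_mul] at this
      exact Nat.mem_primeFactors.mpr ⟨ha'.1, this.resolve_right (hK.2 a ha'.1
        (by simpa using ha)), Nat.card_pos.ne'⟩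
    have h4 := Finset.card_le_card h3
    rw [Finset.card_eq_three.mpr ⟨p, q, r, hpq.ne, (hpq.trans hqr).ne, hqr.ne, rfl⟩] at h4
    omega
  by_cases h2 : n ≤ 14
  · have := key 3 5 7 (by norm_num) (by norm_num) (by norm_num) (by norm_num) (by norm_num) hn
    omega
  by_cases h3 : n ≤ 34
  · have := key 5 7 11 (by norm_num) (by norm_num) (by norm_num) (by norm_num) (by norm_num)
      (by omega)
    omega
  obtain ⟨p, hp, hp1, hp2⟩ := Nat.exists_prime_lt_and_le_two_mul (n / 8) (by omega)
  obtain ⟨q, hq, hq1, hq2⟩ := Nat.exists_prime_lt_and_le_two_mul (2 * (n / 8)) (by omega)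
  obtain ⟨r, hr, hr1, hr2⟩ := Nat.exists_prime_lt_and_le_two_mul (4 * (n / 8)) (by omega)
  have := key p q r hp hq hr (by omega) (by omega) (by omega)
  have : p * 8 ≤ p * q := Nat.mul_le_mul_left p (by omega)
  omega

end Cfsg.Agent.S4002
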