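import Cfsg.Statements.S4004
import Mathlib
import Cfsg.Agent.Lib.H5SameOrder
import Cfsg.Agent.Lib.H5Eppo2
import Cfsg.Agent.Lib.H5Kegel

set_option autoImplicit false
open Cfsg

namespace Cfsg.Agent.S4004
open Subgroup Cfsg CfsgLib CfsgLib.H5
open scoped commutatorElement

theorem frob {G : Type*} [Group G] [Finite G] [Group.IsSolvable G] {p q : ℕ} [hp : Fact p.Prime]
    (hq : q.Prime) (hq2 : q ≠ 2) (hpq : p ≠ q) (hqG : q ∣ Nat.card G)
    (h : ∀ x : G, x ^ p = 1 ∨ x ^ q = 1) (hF : pCore p G ≠ ⊥) :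
    ∃ C : Subgroup G, Cfsg.IsFrobeniusComplement C ∧ (Nat.card ↥C).Prime := by
  have := Fact.mk hq
  have hE : Eppo G := fun x hx => by
    rcases h x with h | h <;> rw [orderOf_eq_prime h hx]
    exacts [hp.out.isPrimePow, hq.isPrimePow]
  have := pCore_characteristic (G := G) p
  set F := pCore p G with hFdef
  have hFp : IsPGroup p F := pCore_isPGroup p
  have hpq' : ∀ r : ℕ, r.Prime → r ∣ Nat.card G → r = p ∨ r = q := fun r hr hd => by
    have := Fact.mk hr
    obtain ⟨x, hx⟩ := exists_prime_orderOf_dvd_card' r hd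
    exact (h x).imp (fun h => (Nat.prime_dvd_prime_iff_eq hr hp.out).mp
      (hx ▸ orderOf_dvd_of_pow_eq_one h)) fun h => (Nat.prime_dvd_prime_iff_eq hr hq).mp
      (hx ▸ orderOf_dvd_of_pow_eq_one h)
  obtain ⟨k, hk⟩ := hFp.exists_card_eq
  have hqF : q ∣ F.index := by
    rw [← F.card_mul_index, hq.dvd_mul, hk] at hqG
    exact hqG.resolve_left fun h =>
      hpq ((Nat.prime_dvd_prime_iff_eq hq hp.out).mp (hq.dvd_of_dvd_pow h)).symm
  have hF1 : F ≠ ⊤ := fun h => hq.not_dvd_one (by simpa [h] using hqF)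
  by_cases hi : p ∣ F.index
  · have := QuotientGroup.nontrivial_iff.mpr hF1
    obtain ⟨r, hr, hM⟩ := exists_pCore_ne_bot (G := G ⧸ F)
    have := Fact.mk hr
    have hrp : r ≠ p := fun h => hM (by subst h; exact pCore_quotient_pCore r)
    obtain ⟨x, hx⟩ := exists_prime_orderOf_dvd_card' (G := G ⧸ F) p hi
    obtain ⟨x, rfl⟩ := QuotientGroup.mk_surjective x
    have := pCore_characteristic (G := G ⧸ F) r
    have hco : ∀ y ∈ pCore r (G ⧸ F), (orderOf y).Coprime p := fun y hy => by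
      obtain ⟨j, hj⟩ := orderOf_eq_pow_of_mem_isPGroup (pCore_isPGroup r) hy
      exact hj ▸ ((Nat.coprime_primes hr hp.out).mpr hrp).pow_left j
    have hK := isNilpotent_of_coset_pow_eq_one hp.out
      (K := (pCore r (G ⧸ F)).comap (QuotientGroup.mk' F)) (t := x)
      (le_normalizer_of_normal (mem_top x)) fun y hy => (h _).resolve_right fun h1 => by
        have h2 : ((x : G ⧸ F) : (G ⧸ F) ⧸ pCore r (G ⧸ F)) ^ q = 1 := by
          have := congrArg (fun g : G => ((g : G ⧸ F) : (G ⧸ F) ⧸ pCore r (G ⧸ F))) h1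
          simpa [(QuotientGroup.eq_one_iff (N := pCore r (G ⧸ F)) (y : G ⧸ F)).mpr hy] using this
        rw [← QuotientGroup.mk_pow, QuotientGroup.eq_one_iff] at h2
        have := hco _ h2
        rw [Nat.Coprime.orderOf_pow (by rw [hx]; exact (Nat.coprime_primes hp.out hq).mpr hpq),
          hx] at this
        exact hp.out.one_lt.ne' (by simpa using this)
    obtain ⟨⟨y, hy⟩, hy1⟩ := ne_bot_iff_exists_ne_one.mp hM
    obtain ⟨y, rfl⟩ := QuotientGroup.mk_surjective y
    obtain ⟨⟨z, hz⟩, hz1⟩ := ne_bot_iff_exists_ne_one.mp hF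
    have hy2 : y ≠ 1 := fun h => hy1 (by simp [h])
    have hyq : orderOf y = q := orderOf_eq_prime ((h y).resolve_left fun h1 => hy1 (Subtype.ext
      (orderOf_eq_one_iff.mp ((hco _ hy).eq_one_of_dvd (orderOf_dvd_of_pow_eq_one
        (by rw [← QuotientGroup.mk_pow, h1]; rfl)))))) hy2
    obtain ⟨j, hj⟩ := orderOf_eq_pow_of_mem_isPGroup hFp hz
    have hc : (orderOf y).Coprime (orderOf z) :=
      hyq ▸ hj ▸ ((Nat.coprime_primes hq hp.out).mpr hpq.symm).pow_right j
    exact ((hE.eq_one_or_eq_one (commute_of_coprime_of_mem_isNilpotent hK hy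
      (QuotientGroup.le_comap_mk' F _ hz) hc) hc).elim hy2 fun h => hz1 (Subtype.ext h)).elim
  · have hK := hE.isFrobeniusKernel hFp hF hF1 hi
    obtain ⟨C, hC⟩ := hK.exists_isFrobeniusPair
    refine ⟨C, hC.isFrobeniusComplement, ?_⟩
    obtain ⟨j, hj⟩ := (isPiNum_singleton_iff hq F.index_ne_zero_of_finite).mp fun r hr hd =>
      (hpq' r hr (hd.trans F.index_dvd_card)).resolve_left fun h => hi (h ▸ hd)
    have hc := hC.hasFPF.isCyclic_of_isPGroup hq2 ((IsPGroup.of_card
      (hC.card_eq_index.trans hj)).to_subgroup ⊤)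
    have hc' : IsCyclic C := isCyclic_of_surjective _ topEquiv.surjective
    obtain ⟨g, hg⟩ := isCyclic_iff_exists_orderOf_eq_natCard.mp hc'
    have hg1 : (g : G) ≠ 1 := fun h => hC.ne_bot (card_eq_one.mp
      (by rw [← hg, ← orderOf_coe, h, orderOf_one]))
    rw [← hg, ← orderOf_coe]
    rcases h g with h | h <;> rw [orderOf_eq_prime h hg1]
    exacts [hp.out, hq]

/-- Let G be a finite group of odd order in which the numbers of elements of each order that occurs (the numbers #{g : o(g) = m}, m ranging over the element orders of G) take exactly three different values. Then the order of G has at most two prime divisors; and if it has exactly two, then every Sylow subgroup of G for a prime dividing its order has prime exponent, G is a Frobenius group, and some Frobenius complement of G has prime order. -/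
theorem result {G : Type*} [Group G] [Finite G] (hodd : Odd (Nat.card G)) (h : (((fun m : ℕ => Nat.card {g : G // orderOf g = m}) '' Set.range (orderOf : G → ℕ))).ncard = 3) :
    (Nat.card G).primeFactors.card ≤ 2 ∧
      ((Nat.card G).primeFactors.card = 2 →
        (∀ (p : ℕ) [Fact p.Prime] (P : Sylow p G), p ∣ Nat.card G → Monoid.exponent ↥(P : Subgroup G) = p) ∧
        ∃ C : Subgroup G, Cfsg.IsFrobeniusComplement C ∧ (Nat.card ↥C).Prime) := by
  obtain ⟨m, n, hT, -⟩ := exists_twoVal_of_ncard_eq_three h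
  have h2 : ¬ 2 ∣ Nat.card G := hodd.not_two_dvd_nat
  refine ⟨hT.card_primeFactors_le h2, fun h3 => ?_⟩
  obtain ⟨p, q, hpq, he⟩ := Finset.card_eq_two.mp h3
  have hpq' : ∀ r : ℕ, r.Prime → r ∣ Nat.card G → r = p ∨ r = q := fun r hr hd => by
    simpa [he] using Nat.mem_primeFactors.mpr ⟨hr, hd, Nat.card_pos.ne'⟩
  obtain ⟨hp, hpG, -⟩ := Nat.mem_primeFactors.mp (he.ge (by simp) : p ∈ _)
  obtain ⟨hq, hqG, -⟩ := Nat.mem_primeFactors.mp (he.ge (by simp) : q ∈ _)
  have hp2 : p ≠ 2 := fun h => h2 (h ▸ hpG)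
  have hq2 : q ≠ 2 := fun h => h2 (h ▸ hqG)
  have hne := hT.ne_of_odd h2 hp hq hpq hpG hqG
  have hT' : TwoVal G (ordCount G p) (ordCount G q) := fun d hd => by
    have := hT d hd
    have := hT.prime hp hp2 hpG
    have := hT.prime hq hq2 hqG
    omega
  have h4 : ordCount G (p * q) = 0 := by
    rcases hT' (p * q) (by nlinarith [hp.two_le, hq.two_le]) with h | h | h
    · exact h
    · exact (hT'.mixed hp hq hp2 hq2 hpq hpG rfl rfl (add_comm (ordCount G q) _ ▸ h ▸
        prime_dvd_ordCount_add hp hpG (mt (Nat.prime_dvd_prime_iff_eq hp hq).mp hpq))).elim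
    · exact (hT'.symm.mixed hq hp hq2 hp2 hpq.symm hqG rfl rfl (add_comm (ordCount G p) _ ▸ h ▸
        mul_comm q p ▸ prime_dvd_ordCount_add hq hqG
          (mt (Nat.prime_dvd_prime_iff_eq hq hp).mp hpq.symm))).elim
  have h5 : ∀ x : G, ¬ p * q ∣ orderOf x := fun x hx => ordCount_ne_zero_iff.mpr
    ⟨_, orderOf_pow_orderOf_div (orderOf_pos x).ne' hx⟩ h4
  have h6 : ∀ p q : ℕ, p.Prime → q.Prime → p ≠ q → p ∣ Nat.card G → q ∣ Nat.card G →
      TwoVal G (ordCount G p) (ordCount G q) → (∀ x : G, ¬ p * q ∣ orderOf x) →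
      ordCount G (p ^ 2) = 0 := by
    intro p q hp hq hpq hpG hqG hT h5
    have h7 : 2 < p ^ 2 := by nlinarith [hp.two_le]
    rcases hT _ h7 with h | h | h
    · exact h
    · exact absurd (h ▸ prime_dvd_ordCount_of_sq_dvd hp dvd_rfl) (not_dvd_ordCount hp hpG)
    · obtain ⟨x, hx⟩ := ordCount_ne_zero_iff.mp (ordCount_lt hq hqG (fun h => hpq
        ((Nat.prime_dvd_prime_iff_eq hq hp).mp (hq.dvd_of_dvd_pow h)).symm) h7
        (h ▸ not_dvd_ordCount hq hqG)).ne_bot
      exact absurd ⟨p, hx.trans (by ring)⟩ (h5 x)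
  have h7 := h6 p q hp hq hpq hpG hqG hT' h5
  have h8 := h6 q p hq hp hpq.symm hqG hpG hT'.symm (mul_comm p q ▸ h5)
  have h9 : ∀ x : G, x ^ p = 1 ∨ x ^ q = 1 := fun x => by
    by_cases hx : p ∣ orderOf x
    · obtain ⟨k, hk⟩ := (isPiNum_singleton_iff hp (orderOf_pos x).ne').mp fun r hr hd =>
        (hpq' r hr (hd.trans (_root_.orderOf_dvd_natCard x))).resolve_right fun h =>
          h5 x (((Nat.coprime_primes hp hq).mpr hpq).mul_dvd_of_dvd_of_dvd hx (h ▸ hd))
      exact Or.inl (pow_eq_one_of_ordCount_sq hp h7 hk.dvd)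
    · obtain ⟨k, hk⟩ := (isPiNum_singleton_iff hq (orderOf_pos x).ne').mp fun r hr hd =>
        (hpq' r hr (hd.trans (_root_.orderOf_dvd_natCard x))).resolve_left fun h => hx (h ▸ hd)
      exact Or.inr (pow_eq_one_of_ordCount_sq hq h8 hk.dvd)
  constructor
  · intro r hr P hd
    obtain ⟨g, hg⟩ := exists_prime_orderOf_dvd_card' r (P.dvd_card_of_dvd_card hd)
    refine Nat.dvd_antisymm (Monoid.exponent_dvd_of_forall_pow_eq_one fun x => Subtype.ext ?_)
      (hg.symm.dvd.trans (Monoid.order_dvd_exponent g))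
    obtain ⟨k, hk⟩ := orderOf_eq_pow_of_mem_isPGroup P.isPGroup' x.2
    rcases hpq' r hr.out hd with rfl | rfl
    exacts [pow_eq_one_of_ordCount_sq hp h7 hk.dvd, pow_eq_one_of_ordCount_sq hq h8 hk.dvd]
  · have := isSolvable_of_two_primes hp hq hpq'
    have : Nontrivial G := Finite.one_lt_card_iff_nontrivial.mp
      (hp.one_lt.trans_le (Nat.le_of_dvd Nat.card_pos hpG))
    obtain ⟨r, hr, hF⟩ := exists_pCore_ne_bot (G := G)
    have := Fact.mk hr
    obtain ⟨k, hk⟩ := (pCore_isPGroup (G := G) r).exists_card_eq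
    rcases hpq' r hr ((dvd_pow_self r fun h => hF (card_eq_one.mp (by simpa [h] using hk))).trans
      (hk.symm.dvd.trans (card_subgroup_dvd_card (pCore r G)))) with rfl | rfl
    · exact frob hq hq2 hpq hqG h9 hF
    · exact frob hp hp2 hpq.symm hpG (fun x => (h9 x).symm) hF

end Cfsg.Agent.S4004
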