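import Cfsg.Statements.S4005
import Mathlib
import Cfsg.Agent.Lib.H5Eppo2

set_option autoImplicit false
open Cfsg

namespace Cfsg.Agent.S4005
open Subgroup Cfsg CfsgLib
open scoped commutatorElement

/-- A finite group whose set of element orders is exactly {1, 2, 3} has either a normal elementary abelian 3-subgroup of index 2 or a normal elementary abelian 2-subgroup of index 3. -/
theorem result {G : Type*} [Group G] [Finite G] (h : Set.range (orderOf : G → ℕ) = {k : ℕ | 1 ≤ k ∧ k ≤ 3}) :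
    (∃ N : Subgroup G, N.Normal ∧ Cfsg.IsElementaryAbelian 3 N ∧ N.index = 2) ∨
      (∃ N : Subgroup G, N.Normal ∧ Cfsg.IsElementaryAbelian 2 N ∧ N.index = 3) := by
  have h1 : ∀ g : G, orderOf g ≤ 3 := fun g => (h.le ⟨g, rfl⟩).2
  obtain ⟨hE, h23, hs⟩ := H5.eppo_of_orderOf_le (by norm_num) h1
  obtain ⟨t, ht⟩ := h.ge (⟨by norm_num, by norm_num⟩ : 2 ∈ {k : ℕ | 1 ≤ k ∧ k ≤ 3})
  obtain ⟨a, ha⟩ := h.ge (⟨by norm_num, by norm_num⟩ : 3 ∈ {k : ℕ | 1 ≤ k ∧ k ≤ 3})
  have h2 : ∀ (p : ℕ) (g : G), p = 2 ∨ p = 3 → (∃ k, orderOf g = p ^ k) → g ^ p = 1 := by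
    rintro p g hp ⟨k, hk⟩
    refine orderOf_dvd_iff_pow_eq_one.mp ?_
    have := hk ▸ h1 g
    rcases k with _ | _ | k
    · simp [hk]
    · simp [hk]
    · have : p ^ 2 ≤ p ^ (k + 1 + 1) := Nat.pow_le_pow_right (by omega) (by omega)
      rcases hp with rfl | rfl <;> omega
  have : Nontrivial G := nontrivial_of_ne t 1 fun h => by simp [h] at ht
  obtain ⟨p, hp, hF⟩ := exists_pCore_ne_bot (G := G)
  have := Fact.mk hp
  have := pCore_characteristic (G := G) p
  obtain ⟨⟨x, hx⟩, hx1⟩ := ne_bot_iff_exists_ne_one.mp hF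
  obtain ⟨k, hk⟩ := orderOf_eq_pow_of_mem_isPGroup (pCore_isPGroup p) hx
  have hp23 := h23 p hp ((dvd_pow_self p fun h0 => hx1 (Subtype.ext (orderOf_eq_one_iff.mp
    (by simpa [h0] using hk)))).trans (hk ▸ _root_.orderOf_dvd_natCard x))
  have hexp : ∀ x ∈ pCore p G, x ^ p = 1 := fun x hx =>
    h2 p x hp23 (orderOf_eq_pow_of_mem_isPGroup (pCore_isPGroup p) hx)
  rcases hp23 with rfl | rfl
  · obtain ⟨S⟩ : Nonempty (Sylow 2 G) := inferInstance
    have hS : ∀ x ∈ (S : Subgroup G), x⁻¹ = x := fun x hx => inv_eq_of_mul_eq_one_left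
      ((pow_two x).symm.trans (h2 2 x (Or.inl rfl) (orderOf_eq_pow_of_mem_isPGroup S.isPGroup' hx)))
    have hS' : ∀ x ∈ (S : Subgroup G), ∀ y ∈ (S : Subgroup G), x * y = y * x := fun x hx y hy => by
      rw [← hS _ (mul_mem hx hy), mul_inv_rev, hS x hx, hS y hy]
    have hle := pCore_le_sylow S
    have h3 : (S : Subgroup G) ≤ pCore 2 G := fun x hx =>
      hE.centralizer_pCore_le hs hF fun y hy => hS' y (hle hy) x hx
    refine Or.inr ⟨pCore 2 G, inferInstance, ⟨PGrp.isMulCommutative_iff_forall.mpr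
      fun x hx y hy => hS' x (hle hx) y (hle hy), hexp⟩, ?_⟩
    have h4 : ¬ 2 ∣ (pCore 2 G).index := fun h => S.not_dvd_index (h.trans (index_dvd_of_le h3))
    have h5 := (pCore 2 G).index_dvd_card
    obtain ⟨n, hn⟩ := (isPiNum_singleton_iff Nat.prime_three (pCore 2 G).index_ne_zero_of_finite).mp
      fun r hr hd => (h23 r hr (hd.trans h5)).resolve_left fun h => h4 (h ▸ hd)
    have h6 := H5.not_nine_dvd_of_orderOf_le (fun g => (h1 g).trans (by norm_num)) hF
    rcases n with _ | _ | n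
    · have := hexp a (index_eq_one.mp hn ▸ mem_top a)
      rw [← orderOf_dvd_iff_pow_eq_one, ha] at this
      omega
    · exact hn
    · exact absurd (Dvd.dvd.trans ⟨3 ^ n, hn.trans (by ring)⟩ h5) h6
  · obtain ⟨hQ, hK⟩ := hE.odd_core hs (by norm_num) hF (ht ▸ _root_.orderOf_dvd_natCard t)
    have htF : t ∉ pCore 3 G := fun h => by
      have := hexp t h
      rw [← orderOf_dvd_iff_pow_eq_one, ht] at this
      omega
    have hi : (pCore 3 G).index = 2 := by
      have h3 : ∀ g : G ⧸ pCore 3 G, g * g = 1 := fun g => by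
        obtain ⟨g, rfl⟩ := QuotientGroup.mk_surjective g
        by_cases hg : g ∈ pCore 3 G
        · simp [(QuotientGroup.eq_one_iff g).mpr hg]
        · obtain ⟨k, hk⟩ := (IsPGroup.iff_orderOf.mp hQ) g
          rw [← pow_two, ← QuotientGroup.mk_pow, h2 2 g (Or.inl rfl) ⟨k, hK.orderOf_mk hg ▸ hk⟩]
          rfl
      have ht1 := mt (QuotientGroup.eq_one_iff t).mp htF
      refine (Nat.card_eq_two_iff' 1).mpr ⟨t, ht1, fun g hg => ?_⟩
      exact hK.hasFPF_quotient.involution_unique hg (h3 g) ht1 (h3 t)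
    exact Or.inl ⟨pCore 3 G, inferInstance, ⟨PGrp.isMulCommutative_iff_forall.mpr
      (hK.comm_of_even_index (hi ▸ even_two)), hexp⟩, hi⟩

end Cfsg.Agent.S4005
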