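import Cfsg.Statements.S4006
import Mathlib
import Cfsg.Agent.Lib.H5Eppo2
import Cfsg.Agent.Lib.HigmanGroup
import Cfsg.Agent.Lib.SylowIn

set_option autoImplicit false
open Cfsg

namespace Cfsg.Agent.S4006
open Subgroup Cfsg CfsgLib
open scoped commutatorElement

/-- A finite group whose set of element orders is exactly {1, 2, 3, 4} has a normal subgroup N such that either N is a 2-group of exponent 4 and nilpotency class at most 2 with G/N of order 3, or N is an elementary abelian 2-group with G/N isomorphic to the symmetric group of degree 3, or N is an elementary abelian 3-group with G/N cyclic of order 4 or quaternion of order 8. -/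
theorem result {G : Type*} [Group G] [Finite G] (h : Set.range (orderOf : G → ℕ) = {k : ℕ | 1 ≤ k ∧ k ≤ 4}) :
    ∃ (N : Subgroup G) (_ : N.Normal),
      (IsPGroup 2 ↥N ∧ Monoid.exponent ↥N = 4 ∧ Group.nilpotencyClass ↥N ≤ 2 ∧ N.index = 3) ∨
      (Cfsg.IsElementaryAbelian 2 N ∧ Nonempty (G ⧸ N ≃* Equiv.Perm (Fin 3))) ∨
      (Cfsg.IsElementaryAbelian 3 N ∧ ((IsCyclic (G ⧸ N) ∧ N.index = 4) ∨ Nonempty (G ⧸ N ≃* QuaternionGroup 2))) := by
  classical
  have h1 : ∀ g : G, orderOf g ≤ 4 := fun g => (h.le ⟨g, rfl⟩).2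
  obtain ⟨hE, h23, hs⟩ := H5.eppo_of_orderOf_le (by norm_num) h1
  obtain ⟨s, hs4⟩ := h.ge (⟨by norm_num, by norm_num⟩ : 4 ∈ {k : ℕ | 1 ≤ k ∧ k ≤ 4})
  obtain ⟨a, ha⟩ := h.ge (⟨by norm_num, by norm_num⟩ : 3 ∈ {k : ℕ | 1 ≤ k ∧ k ≤ 4})
  have h4 : ∀ g : G, 2 ∣ orderOf g → g ^ 4 = 1 := fun g hg => by
    have := h1 g
    have := orderOf_pos g
    refine orderOf_dvd_iff_pow_eq_one.mp ?_
    interval_cases orderOf g <;> omega
  have : Nontrivial G := nontrivial_of_ne a 1 fun h => by simp [h] at ha
  obtain ⟨p, hp, hF⟩ := exists_pCore_ne_bot (G := G)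
  have := Fact.mk hp
  have := pCore_characteristic (G := G) p
  have hco : ∀ x ∈ pCore p G, ∀ q : ℕ, q.Prime → q ∣ orderOf x → q = p := fun x hx q hq hd => by
    obtain ⟨k, hk⟩ := orderOf_eq_pow_of_mem_isPGroup (pCore_isPGroup p) hx
    exact (Nat.prime_dvd_prime_iff_eq hq hp).mp (hq.dvd_of_dvd_pow (hk ▸ hd))
  have hp23 : p = 2 ∨ p = 3 := by
    obtain ⟨⟨x, hx⟩, hx1⟩ := ne_bot_iff_exists_ne_one.mp hF
    obtain ⟨q, hq, hd⟩ := Nat.exists_prime_and_dvd (mt (orderOf_eq_one_iff (x := x)).mp
      fun h => hx1 (Subtype.ext h))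
    exact hco x hx q hq hd ▸ h23 q hq (hd.trans (_root_.orderOf_dvd_natCard x))
  refine ⟨pCore p G, inferInstance, ?_⟩
  rcases hp23 with rfl | rfl
  · set F := pCore 2 G with hFdef
    have h9 := H5.not_nine_dvd_of_orderOf_le h1 hF
    have haF : a ∉ F := fun h => by simpa using hco a h 3 Nat.prime_three ha.symm.dvd
    have hα : MulAut.conjNormal (H := F) a ^ 3 = 1 := by
      rw [← map_pow, ← ha, pow_orderOf_eq_one, map_one]
    have hfa : ∀ x ∈ F, a * x = x * a → x = 1 := fun x hx h =>
      (hE.eq_one_or_eq_one h (by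
        rw [ha, Nat.Prime.coprime_iff_not_dvd Nat.prime_three]
        exact fun h => by simpa using hco x hx 3 Nat.prime_three h)).resolve_left
          fun h => haF (h ▸ one_mem _)
    have hf : ∀ x : F, MulAut.conjNormal (H := F) a x = x → x = 1 := fun x hx =>
      Subtype.ext (hfa x x.2 (mul_inv_eq_iff_eq_mul.mp (congrArg Subtype.val hx)))
    have := Fact.mk Nat.prime_three
    have hlcs := HigmanGroup.lcs_eq_bot_of_fpf HigmanLie.higmanBound_three hα hf
    have hsurj := QuotientGroup.mk'_surjective F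
    have hab : orderOf (a : G ⧸ F) = 3 := orderOf_eq_prime
      (by rw [← QuotientGroup.mk_pow, ← ha, pow_orderOf_eq_one]; rfl)
      (mt (QuotientGroup.eq_one_iff a).mp haF)
    have hQG : Nat.card (G ⧸ F) ∣ Nat.card G := F.index_dvd_card
    by_cases h2 : 2 ∣ F.index
    · right; left
      have : Nontrivial (G ⧸ F) := nontrivial_of_ne (a : G ⧸ F) 1 fun h => by simp [h] at hab
      obtain ⟨q, hq, hM⟩ := exists_pCore_ne_bot (G := G ⧸ F)
      have := Fact.mk hq
      obtain ⟨m, hm⟩ := (pCore_isPGroup (G := G ⧸ F) q).exists_card_eq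
      have hm0 : m ≠ 0 := fun h => hM (card_eq_one.mp (by simpa [h] using hm))
      have hMQ := (card_subgroup_dvd_card (pCore q (G ⧸ F))).trans hQG
      obtain rfl : q = 3 := (h23 q hq ((dvd_pow_self q hm0).trans (hm ▸ hMQ))).resolve_left
        fun h => hM (by subst h; exact pCore_quotient_pCore 2)
      obtain rfl : m = 1 := by
        by_contra h
        exact h9 ((hm ▸ pow_dvd_pow 3 (show 2 ≤ m by omega)).trans hMQ)
      have := pCore_characteristic (G := G ⧸ F) 3
      obtain ⟨hQ, hK⟩ := (hE.of_surjective _ hsurj).odd_core (p := 3) inferInstance (by norm_num)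
        hM h2
      have hi : (pCore 3 (G ⧸ F)).index = 2 := ((Nat.dvd_prime Nat.prime_two).mp
        (by simpa [hm] using hK.index_dvd_card_sub_one)).resolve_left
          fun h => hK.ne_top (index_eq_one.mp h)
      have h6 : Nat.card (G ⧸ F) = 6 := by rw [← (pCore 3 (G ⧸ F)).card_mul_index, hm, hi]; rfl
      constructor
      · have haM : (a : G ⧸ F) ∈ pCore 3 (G ⧸ F) :=
          mem_of_coprime_index (by rw [hab, hi]; norm_num)
        have hT : IsSylowIn 3 (zpowers a) ((pCore 3 (G ⧸ F)).comap (QuotientGroup.mk' F)) := by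
          refine ⟨zpowers_le.mpr haM, isPGroup_zpowers_iff.mpr ⟨1, ha⟩, fun h => h9 ?_⟩
          rw [← (zpowers a).card_mul_index, Nat.card_zpowers, ha]
          exact Nat.mul_dvd_mul_left 3 (h.trans (relIndex_dvd_index_of_le (zpowers_le.mpr haM)))
        obtain ⟨g, hg⟩ := SetLike.exists_of_lt hK.ne_top.lt_top
        obtain ⟨g, rfl⟩ := hsurj g
        obtain ⟨k, hk, ht⟩ := hT.frattini_elem (g := g) (le_normalizer_of_normal (mem_top g))
        have htM : ((k * g : G) : G ⧸ F) ∉ pCore 3 (G ⧸ F) := fun h =>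
          hg.2 ((mul_mem_cancel_left hk).mp h)
        generalize k * g = t at ht htM
        have hout : ∀ y : G, (y : G ⧸ F) ∉ pCore 3 (G ⧸ F) → orderOf (y : G ⧸ F) = 2 := fun y hy =>
          ((Nat.dvd_prime Nat.prime_two).mp ((hK.orderOf_dvd_index hy).trans hi.dvd)).resolve_left
            fun h => hy (orderOf_eq_one_iff.mp h ▸ one_mem _)
        have hout4 : ∀ y : G, (y : G ⧸ F) ∉ pCore 3 (G ⧸ F) → y ^ 4 = 1 := fun y hy =>
          h4 y (hout y hy ▸ orderOf_map_dvd (QuotientGroup.mk' F) y)
        have ha3 : a ^ 3 = 1 := ha ▸ pow_orderOf_eq_one a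
        have hta : t * a * t⁻¹ = a ^ 2 := by
          obtain ⟨n, hn, he⟩ := Finset.mem_image.mp ((mem_zpowers_iff_mem_range_orderOf).mp
            (conj_mem_of_mem_normalizer ht (mem_zpowers a)))
          rw [ha, Finset.mem_range] at hn
          interval_cases n
          · exact absurd (by simpa using he.symm) fun h : a = 1 => haF (h ▸ one_mem _)
          · refine absurd (hK.fpf htM _ haM ?_) (mt (QuotientGroup.eq_one_iff a).mp haF)
            rw [← QuotientGroup.mk_mul, ← QuotientGroup.mk_mul,
              mul_inv_eq_iff_eq_mul.mp (he.symm.trans (pow_one a))]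
          · exact he.symm
        have hta' : t * a = a ^ 2 * t := mul_inv_eq_iff_eq_mul.mp hta
        have htaa : t * a * a = a * t := by
          rw [hta', mul_assoc, hta', ← mul_assoc, ← pow_add, pow_succ', ha3, mul_one]
        have ht2 : t * t = 1 := hfa _ (by
          rw [← QuotientGroup.eq_one_iff, ← pow_two, QuotientGroup.mk_pow]
          exact orderOf_dvd_iff_pow_eq_one.mp (hout t htM).dvd) (by
          rw [mul_assoc t t, hta', ← mul_assoc, ← htaa]
          simp only [pow_two, mul_assoc])
        have hti : t⁻¹ = t := inv_eq_of_mul_eq_one_left ht2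
        have hsq := H5.sq_eq_one_of_s3 (τ := MulAut.conjNormal (H := F) t) hα hf (fun x =>
          Subtype.ext (by
            simp only [MulAut.conjNormal_apply]
            calc _ = (t * a * a) * x * (t * a * a)⁻¹ := by group
              _ = _ := by rw [htaa]; group))
          (fun x y z => commutatorElement_eq_one_iff_commute.mp (mem_bot.mp (hlcs.le
            (commutator_mem_commutator (commutator_mem_commutator (mem_top x) (mem_top y))
              (mem_top z)))))
          (fun x => Subtype.ext (by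
            have := hout4 (x * t) (by simpa [(QuotientGroup.eq_one_iff _).mpr x.2] using htM)
            simp only [SubmonoidClass.coe_pow, coe_mul, MulAut.conjNormal_apply, hti, coe_one]
            rw [← this]
            simp only [pow_succ, pow_zero, one_mul, mul_assoc]))
          (fun x => Subtype.ext (by
            have := hout4 (x * (t * a)) (by
              simpa [(QuotientGroup.eq_one_iff _).mpr x.2, mul_mem_cancel_right haM] using htM)
            have h5 : a⁻¹ * t⁻¹ = t * a := by
              rw [← mul_inv_rev, inv_eq_iff_mul_eq_one, ← mul_assoc, hta', mul_assoc _ t t, ht2,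
                mul_one, ← pow_succ, ha3]
            simp only [SubmonoidClass.coe_pow, coe_mul, MulAut.conjNormal_apply, coe_one,
              mul_assoc, h5]
            rw [← this]
            simp only [pow_succ, pow_zero, one_mul, mul_assoc]))
        have hinv : ∀ x : F, x⁻¹ = x := fun x =>
          inv_eq_of_mul_eq_one_left ((pow_two x).symm.trans (hsq x))
        exact ⟨PGrp.isMulCommutative_iff_forall'.mpr fun x y => by
          rw [← hinv (x * y), mul_inv_rev, hinv, hinv],
          fun x hx => congrArg Subtype.val (hsq ⟨x, hx⟩)⟩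
      · obtain ⟨S, hS⟩ := Sylow.exists_subgroup_card_pow_prime (G := G ⧸ F) 2 (n := 1) h2
        refine H5.nonempty_equiv_perm_of_normalCore (H := S) (le_bot_iff.mp ?_) (by norm_num) ?_ h6
        · rw [← pCore_quotient_pCore (G := G) 2]
          exact le_pCore ((IsPGroup.of_card hS).to_le S.normalCore_le)
        · have := S.card_mul_index
          rw [hS, h6] at this
          omega
    · left
      have := (pCore_isPGroup (G := G) 2).isNilpotent
      refine ⟨pCore_isPGroup 2, Nat.dvd_antisymm (Monoid.exponent_dvd_of_forall_pow_eq_one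
        fun x => Subtype.ext ?_) ?_, Subgroup.lowerCentralSeries_eq_bot_iff_nilpotencyClass_le.mp hlcs, ?_⟩
      · by_cases hx : (x : G) = 1
        · simp [hx]
        · obtain ⟨q, hq, hd⟩ := Nat.exists_prime_and_dvd (mt orderOf_eq_one_iff.mp hx)
          exact h4 x (hco x x.2 q hq hd ▸ hd)
      · have hsF : s ∈ F := mem_of_coprime_index (hs4 ▸
          ((Nat.Prime.coprime_iff_not_dvd Nat.prime_two).mpr h2).pow_left 2)
        rw [← hs4, ← orderOf_mk s hsF]
        exact Monoid.order_dvd_exponent _
      · obtain ⟨n, hn⟩ := (isPiNum_singleton_iff Nat.prime_three F.index_ne_zero_of_finite).mp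
          fun r hr hd => (h23 r hr (hd.trans hQG)).resolve_left fun h => h2 (h ▸ hd)
        rcases n with _ | _ | n
        · exact absurd (index_eq_one.mp hn ▸ mem_top a) haF
        · exact hn
        · exact absurd (Dvd.dvd.trans ⟨3 ^ n, hn.trans (by ring)⟩ hQG) h9
  · right; right
    obtain ⟨hQ, hK⟩ := hE.odd_core hs (by norm_num) hF
      (Dvd.dvd.trans (by norm_num) (hs4 ▸ _root_.orderOf_dvd_natCard s))
    have hsF : s ∉ pCore 3 G := fun h => by simpa using hco s h 2 Nat.prime_two (by simp [hs4])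
    have hd : 4 ∣ (pCore 3 G).index := hs4 ▸ hK.orderOf_dvd_index hsF
    have hQ4 : ∀ g : G ⧸ pCore 3 G, orderOf g ≤ 4 := fun g => by
      obtain ⟨g, rfl⟩ := QuotientGroup.mk_surjective g
      exact (Nat.le_of_dvd (orderOf_pos g) (orderOf_map_dvd (QuotientGroup.mk' _) g)).trans (h1 g)
    refine ⟨⟨PGrp.isMulCommutative_iff_forall.mpr (hK.comm_of_even_index (even_iff_two_dvd.mpr
      (Dvd.dvd.trans (by norm_num) hd))), fun x hx => orderOf_dvd_iff_pow_eq_one.mp ?_⟩, ?_⟩
    · have h5 := hco x hx 2 Nat.prime_two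
      have := h1 x
      have := orderOf_pos x
      interval_cases orderOf x <;> omega
    rcases hK.hasFPF_quotient.isCyclic_or_quaternion (hQ.to_subgroup ⊤) with hc | ⟨-, k, hk, ⟨e⟩⟩
    · have hc' : IsCyclic (G ⧸ pCore 3 G) := isCyclic_of_surjective _ topEquiv.surjective
      obtain ⟨g, hg⟩ := isCyclic_iff_exists_orderOf_eq_natCard.mp hc'
      exact Or.inl ⟨hc', le_antisymm (hg.ge.trans (hQ4 g))
        (Nat.le_of_dvd (Nat.pos_of_ne_zero index_ne_zero_of_finite) hd)⟩
    · have h5 := hQ4 ((topEquiv.symm.trans e).symm (QuaternionGroup.a 1))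
      rw [MulEquiv.orderOf_eq, QuaternionGroup.orderOf_a_one] at h5
      obtain rfl : k = 1 := by
        by_contra hne
        have : 2 ^ 2 ≤ 2 ^ k := Nat.pow_le_pow_right (by norm_num) (by omega)
        omega
      exact Or.inr ⟨topEquiv.symm.trans e⟩

end Cfsg.Agent.S4006
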