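import Cfsg.Statements.S4198
import Cfsg.Agent.Lib.CoreBasic
import Mathlib.GroupTheory.SpecificGroups.Alternating.Centralizer
import Mathlib.GroupTheory.Perm.Cycle.PossibleTypes

set_option autoImplicit false
open Cfsg

namespace Cfsg.Agent.S4198

open Subgroup CfsgLib
open scoped Pointwise commutatorElement

open Equiv Equiv.Perm

def T (n : ℕ) : Set (Multiset ℕ) := {m | m.sum ≤ n ∧ ∀ a ∈ m, 2 ≤ a}

noncomputable def ty {n : ℕ} (c : ConjClasses (Perm (Fin n))) : Multiset ℕ :=
  (Quotient.out c : Perm (Fin n)).cycleType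

theorem mk_out {G : Type*} [Group G] (c : ConjClasses G) : ConjClasses.mk (Quotient.out c) = c :=
  Quotient.out_eq c

theorem ty_inj {n : ℕ} : Function.Injective (ty (n := n)) := by
  intro c d h
  rw [← mk_out c, ← mk_out d, ConjClasses.mk_eq_mk_iff_isConj]
  exact isConj_iff_cycleType_eq.2 h

theorem range_ty {n : ℕ} : Set.range (ty (n := n)) = T n := by
  ext m
  constructor
  · rintro ⟨c, rfl⟩
    have := (exists_with_cycleType_iff (α := Fin n)).1 ⟨_, (rfl : ty c = ty c)⟩
    simpa [T] using this
  · intro hm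
    obtain ⟨g, rfl⟩ := (exists_with_cycleType_iff (α := Fin n) (m := m)).2 (by simpa [T] using hm)
    refine ⟨ConjClasses.mk g, ?_⟩
    apply isConj_iff_cycleType_eq.1
    rw [← ConjClasses.mk_eq_mk_iff_isConj, mk_out]

theorem card_eq (n : ℕ) : Nat.card (ConjClasses (Perm (Fin n))) = (T n).ncard := by
  rw [← range_ty, Set.ncard_range_of_injective ty_inj]

theorem finite_T (n : ℕ) : (T n).Finite := by
  rw [← range_ty]; exact Set.finite_range _

theorem T_five : (T 5).ncard ≤ 8 := by
  have : T 5 ⊆ ↑({0, {2}, {3}, {4}, {5}, {2, 2}, {2, 3}} : Finset (Multiset ℕ)) := by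
    rintro m ⟨h1, h2⟩
    have hc : m.card • 2 ≤ m.sum := Multiset.card_nsmul_le_sum h2
    have hc2 : m.card ≤ 2 := by simp at hc; omega
    have h3 : m.card = 0 ∨ m.card = 1 ∨ m.card = 2 := by omega
    rcases h3 with h | h | h
    · rw [Multiset.card_eq_zero.1 h]; simp
    · obtain ⟨a, rfl⟩ := Multiset.card_eq_one.1 h
      have := h2 a (by simp)
      simp at h1
      interval_cases a <;> simp
    · obtain ⟨a, b, rfl⟩ := Multiset.card_eq_two.1 h
      have ha := h2 a (by simp)
      have hb := h2 b (by simp)
      simp at h1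
      have ha' : a ≤ 3 := by omega
      have hb' : b ≤ 3 := by omega
      interval_cases a <;> interval_cases b <;> first | omega | decide
  refine (Set.ncard_le_ncard this (Finset.finite_toSet _)).trans ?_
  rw [Set.ncard_coe_finset]
  decide

theorem T_succ (n : ℕ) : (T (n + 1)).ncard ≤ 2 * (T n).ncard := by
  classical
  have hmin : ∀ m : Multiset ℕ, m ≠ 0 → ∃ a ∈ m, ∀ b ∈ m, a ≤ b := by
    intro m hm
    obtain ⟨a, ha, h⟩ := m.toFinset.exists_min_image id (Multiset.toFinset_nonempty.2 hm)
    exact ⟨a, by simpa using ha, fun b hb => h b (by simpa using hb)⟩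
  choose! mn hmn1 hmn2 using hmin
  let f : Multiset ℕ → Multiset ℕ := fun m =>
    if mn m = 2 then m.erase 2 else (mn m - 1) ::ₘ m.erase (mn m)
  let S : Set (Multiset ℕ) := {m | m.sum = n + 1 ∧ ∀ a ∈ m, 2 ≤ a}
  have hsub : T (n + 1) ⊆ T n ∪ S := by
    rintro m ⟨h1, h2⟩
    by_cases h : m.sum ≤ n
    · exact Or.inl ⟨h, h2⟩
    · exact Or.inr ⟨by omega, h2⟩
  have hne : ∀ m ∈ S, m ≠ 0 := by
    rintro m ⟨h1, -⟩ rfl
    simp at h1
  have hsum : ∀ m ∈ S, mn m + (m.erase (mn m)).sum = n + 1 := by
    intro m hm
    rw [← Multiset.sum_cons, Multiset.cons_erase (hmn1 m (hne m hm)), hm.1]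
  have hS : S.ncard ≤ (T n).ncard := by
    refine Set.ncard_le_ncard_of_injOn f ?_ ?_ (finite_T n)
    · intro m hm
      have h1 := hsum m hm
      have h2 := hm.2 _ (hmn1 m (hne m hm))
      simp only [f]
      split_ifs with h
      · rw [h] at h1
        exact ⟨by omega, fun a ha => hm.2 a (Multiset.mem_of_mem_erase ha)⟩
      · refine ⟨by rw [Multiset.sum_cons]; omega, fun a ha => ?_⟩
        rcases Multiset.mem_cons.1 ha with rfl | ha
        · omega
        · exact hm.2 a (Multiset.mem_of_mem_erase ha)
    · intro m hm m' hm' h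
      have h1 := hsum m hm
      have h1' := hsum m' hm'
      have h2 := hm.2 _ (hmn1 m (hne m hm))
      have h2' := hm'.2 _ (hmn1 m' (hne m' hm'))
      have e := Multiset.cons_erase (hmn1 m (hne m hm))
      have e' := Multiset.cons_erase (hmn1 m' (hne m' hm'))
      simp only [f] at h
      split_ifs at h with c1 c2 c2
      · rw [← e, ← e', c1, c2, h]
      · have := congrArg Multiset.sum h
        rw [c1] at h1
        rw [Multiset.sum_cons] at this
        omega
      · have := congrArg Multiset.sum h
        rw [c2] at h1'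
        rw [Multiset.sum_cons] at this
        omega
      · have k1 : mn m - 1 ∈ (mn m' - 1) ::ₘ m'.erase (mn m') := h ▸ Multiset.mem_cons_self _ _
        have k2 : mn m' - 1 ∈ (mn m - 1) ::ₘ m.erase (mn m) := h ▸ Multiset.mem_cons_self _ _
        have k : mn m = mn m' := by
          rcases Multiset.mem_cons.1 k1 with k1 | k1
          · omega
          rcases Multiset.mem_cons.1 k2 with k2 | k2
          · omega
          have a1 := hmn2 m' (hne m' hm') _ (Multiset.mem_of_mem_erase k1)
          have a2 := hmn2 m (hne m hm) _ (Multiset.mem_of_mem_erase k2)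
          omega
        rw [k, Multiset.cons_inj_right] at h
        rw [← e, ← e', k, h]
  have hSf : S.Finite := (finite_T (n + 1)).subset fun m hm => ⟨hm.1.le, hm.2⟩
  calc (T (n + 1)).ncard ≤ (T n ∪ S).ncard := Set.ncard_le_ncard hsub ((finite_T n).union hSf)
    _ ≤ (T n).ncard + S.ncard := Set.ncard_union_le _ _
    _ ≤ _ := by omega

theorem T_le (n : ℕ) (hn : 5 ≤ n) : (T n).ncard ≤ 2 ^ (n - 2) := by
  induction n, hn using Nat.le_induction with
  | base => exact T_five
  | succ n hn ih =>
    have := T_succ n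
    have h2 : n + 1 - 2 = (n - 2) + 1 := by omega
    rw [h2, pow_succ]
    omega

theorem isConj_alt {n : ℕ} {x y : alternatingGroup (Fin n)} {s : Perm (Fin n)}
    (hs : s ∈ alternatingGroup (Fin n)) (h : s * x * s⁻¹ = y) : IsConj x y :=
  isConj_iff.2 ⟨⟨s, hs⟩, Subtype.ext h⟩

theorem mul_mem_alt {n : ℕ} {s t : Perm (Fin n)} (hs : s ∉ alternatingGroup (Fin n))
    (ht : t ∉ alternatingGroup (Fin n)) : s * t ∈ alternatingGroup (Fin n) := by
  rw [mem_alternatingGroup] at *
  rw [map_mul, (Int.units_eq_one_or _).resolve_left hs, (Int.units_eq_one_or _).resolve_left ht]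
  simp

theorem three {n : ℕ} {x y z : alternatingGroup (Fin n)}
    (h1 : (x : Perm (Fin n)).cycleType = (y : Perm (Fin n)).cycleType)
    (h2 : (x : Perm (Fin n)).cycleType = (z : Perm (Fin n)).cycleType) :
    IsConj x y ∨ IsConj x z ∨ IsConj y z := by
  obtain ⟨s, hs⟩ := isConj_iff.1 (isConj_iff_cycleType_eq.2 h1)
  obtain ⟨t, ht⟩ := isConj_iff.1 (isConj_iff_cycleType_eq.2 h2)
  by_cases a : s ∈ alternatingGroup (Fin n)
  · exact Or.inl (isConj_alt a hs)
  by_cases b : t ∈ alternatingGroup (Fin n)
  · exact Or.inr (Or.inl (isConj_alt b ht))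
  refine Or.inr (Or.inr (isConj_alt (mul_mem_alt b (s := t) (t := s⁻¹) (by simpa using a)) ?_))
  rw [← hs, ← ht]; group

theorem cent_le {n : ℕ} {x y : alternatingGroup (Fin n)}
    (h1 : (x : Perm (Fin n)).cycleType = (y : Perm (Fin n)).cycleType) (h : ¬ IsConj x y) :
    centralizer {(x : Perm (Fin n))} ≤ alternatingGroup (Fin n) := by
  obtain ⟨s, hs⟩ := isConj_iff.1 (isConj_iff_cycleType_eq.2 h1)
  intro c hc
  by_contra hcA
  have a : s ∉ alternatingGroup (Fin n) := fun a => h (isConj_alt a hs)
  refine h (isConj_alt (mul_mem_alt a hcA) ?_)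
  rw [mem_centralizer_singleton_iff] at hc
  rw [← hs, mul_assoc s c, hc]; group

theorem alt_lt (n : ℕ) (hn : 5 ≤ n) :
    Nat.card (ConjClasses (alternatingGroup (Fin n))) < (T n).ncard := by
  classical
  let t : ConjClasses (alternatingGroup (Fin n)) → Multiset ℕ := fun c =>
    ((Quotient.out c : alternatingGroup (Fin n)) : Perm (Fin n)).cycleType
  have hb : ∀ m : Multiset ℕ, (∃ c, t c = m) → ∃ c, t c = m := fun m h => h
  choose! base hbase using hb
  have hel : ∀ m : Multiset ℕ, m ≠ 0 → ∃ a, a ∈ m := fun m h => Multiset.exists_mem_of_ne_zero h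
  choose! el hel using hel
  let F : ConjClasses (alternatingGroup (Fin n)) → Multiset ℕ := fun c =>
    if c = base (t c) then t c else (el (t c) - 1) ::ₘ (t c).erase (el (t c))
  have hT : ∀ c, t c ∈ T n := fun c => by
    have := (exists_with_cycleType_iff (α := Fin n)).1 ⟨_, (rfl : t c = t c)⟩
    simpa [T] using this
  have heven : ∀ c, Even ((t c).sum + (t c).card) := by
    intro c
    have h1 := (Quotient.out c : alternatingGroup (Fin n)).2
    rw [mem_alternatingGroup, sign_of_cycleType] at h1
    by_contra h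
    rw [Nat.not_even_iff_odd] at h
    rw [h.neg_one_pow] at h1
    exact absurd h1 (by decide)
  have hsplit : ∀ c, c ≠ base (t c) → (∀ a ∈ t c, Odd a) ∧ n ≤ (t c).sum + 1 := by
    intro c hc
    have h1 : ¬ IsConj (Quotient.out c : alternatingGroup (Fin n)) (Quotient.out (base (t c))) := by
      intro h
      apply hc
      rw [← ConjClasses.mk_eq_mk_iff_isConj, mk_out, mk_out] at h
      exact h
    have := centralizer_le_alternating_iff.1 (cent_le (hbase _ ⟨c, rfl⟩).symm h1)
    exact ⟨this.1, by simpa using this.2.1⟩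
  have hel' : ∀ c, c ≠ base (t c) → el (t c) ∈ t c := by
    intro c hc
    apply hel
    intro h0
    have := (hsplit c hc).2
    rw [h0] at this
    simp at this; omega
  have h3 : ∀ c, c ≠ base (t c) → 3 ≤ el (t c) := by
    intro c hc
    have a := (hT c).2 _ (hel' c hc)
    obtain ⟨k, hk⟩ := (hsplit c hc).1 _ (hel' c hc)
    omega
  have hsum : ∀ c, c ≠ base (t c) → (F c).sum + 1 = (t c).sum ∧ (F c).card = (t c).card := by
    intro c hc
    have e := Multiset.cons_erase (hel' c hc)
    have := h3 c hc
    simp only [F, if_neg hc]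
    conv_rhs => rw [← e]
    conv_lhs => rw [← e]
    constructor
    · simp only [Multiset.sum_cons, Multiset.erase_cons_head, e]
      conv_rhs => rw [← e, Multiset.sum_cons]
      omega
    · simp only [Multiset.card_cons, e]
      conv_rhs => rw [← e, Multiset.card_cons]
  have hinj : Function.Injective F := by
    intro c d h
    by_cases hc : c = base (t c) <;> by_cases hd : d = base (t d)
    · simp only [F, if_pos hc, if_pos hd] at h
      rw [hc, hd, h]
    · exfalso
      have a := hsum d hd
      have b := heven c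
      have b' := heven d
      rw [← h] at a
      simp only [F, if_pos hc] at a
      rw [Nat.even_iff] at b b'
      omega
    · exfalso
      have a := hsum c hc
      have b := heven c
      have b' := heven d
      rw [h] at a
      simp only [F, if_pos hd] at a
      rw [Nat.even_iff] at b b'
      omega
    · simp only [F, if_neg hc, if_neg hd] at h
      have k1 : el (t c) - 1 ∈ (el (t d) - 1) ::ₘ (t d).erase (el (t d)) :=
        h ▸ Multiset.mem_cons_self _ _
      have k : el (t c) = el (t d) := by
        have a := h3 c hc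
        have b := h3 d hd
        rcases Multiset.mem_cons.1 k1 with k1 | k1
        · omega
        · obtain ⟨u, hu⟩ := (hsplit d hd).1 _ (Multiset.mem_of_mem_erase k1)
          obtain ⟨v, hv⟩ := (hsplit c hc).1 _ (hel' c hc)
          omega
      rw [k, Multiset.cons_inj_right] at h
      have htt : t c = t d := by
        rw [← Multiset.cons_erase (hel' c hc), ← Multiset.cons_erase (hel' d hd), k, h]
      rcases three (x := Quotient.out c) (y := Quotient.out d) (z := Quotient.out (base (t c))) htt
        (hbase _ ⟨c, rfl⟩).symm with h | h | h <;>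
        rw [← ConjClasses.mk_eq_mk_iff_isConj, mk_out, mk_out] at h
      · exact h
      · exact absurd h hc
      · exact absurd (htt ▸ h) hd
  rw [← Set.ncard_range_of_injective hinj]
  refine Set.ncard_lt_ncard ⟨?_, ?_⟩ (finite_T n)
  · rintro _ ⟨c, rfl⟩
    by_cases hc : c = base (t c)
    · simp only [F, if_pos hc]; exact hT c
    · refine ⟨by have := (hsum c hc).1; have := (hT c).1; omega, ?_⟩
      simp only [F, if_neg hc]
      intro a ha
      rcases Multiset.mem_cons.1 ha with rfl | ha
      · have := h3 c hc; omega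
      · exact (hT c).2 a (Multiset.mem_of_mem_erase ha)
  · intro hsub
    obtain ⟨c, hc2⟩ := hsub (show ({2} : Multiset ℕ) ∈ T n from ⟨by simp; omega, by simp⟩)
    by_cases hc : c = base (t c)
    · have b := heven c
      simp only [F, if_pos hc] at hc2
      rw [hc2] at b
      simp at b
      exact absurd b (by decide)
    · have a := (hsum c hc).1
      have b := (hsplit c hc).2
      rw [hc2] at a
      simp at a
      omega

theorem result (n : ℕ) (hn : 5 ≤ n) : Nat.card (ConjClasses (alternatingGroup (Fin n))) < Nat.card (ConjClasses (Equiv.Perm (Fin n))) ∧ Nat.card (ConjClasses (Equiv.Perm (Fin n))) ≤ 2 ^ (n - 2) := by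
  rw [card_eq]
  exact ⟨alt_lt n hn, T_le n hn⟩

end Cfsg.Agent.S4198
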