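import Cfsg.Statements.S4203
import Cfsg.Agent.Lib.CharBurnside
import Cfsg.Agent.Lib.CoreSolvable
import Cfsg.Agent.Lib.SylowIn

set_option autoImplicit false
open Cfsg

namespace Cfsg.Agent.S4203

open Subgroup CfsgLib

theorem relIndex_normalizer_modEq {G : Type*} [Group G] [Finite G] {p : ℕ} [Fact p.Prime]
    {S H : Subgroup G} (h : IsSylowIn p S H) :
    (normalizer (S : Set G)).relIndex H ≡ 1 [MOD p] := by
  obtain ⟨P, hP⟩ := h.exists_sylow
  have := card_sylow_modEq_one p H
  rw [P.card_eq_index_normalizer, ← Sylow.coe_coe, hP] at this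
  rw [relIndex, subgroupOf_normalizer_eq h.le]
  exact this

theorem aux.{u} (G : Type u) [Group G] [Finite G] : (∀ M : Subgroup G, IsCoatom M →
    ∃ p : ℕ, p.Prime ∧ (M.index = p ∨ M.index = p ^ 2)) → Group.IsSolvable G := by
  revert G
  refine card_induction fun G _ _ ih h => ?_
  rcases subsingleton_or_nontrivial G with hG | hG
  · infer_instance
  obtain ⟨N, hN⟩ := exists_isMinNormal (G := G)
  have := hN.1
  refine isSolvable_of_normal_of_quotient N ?_ (ih _ (card_quotient_lt hN.2.1) fun M hM => ?_)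
  swap
  · have := h _ (isCoatom_comap_of_surjective (QuotientGroup.mk'_surjective N) hM)
    rwa [index_comap_of_surjective _ (QuotientGroup.mk'_surjective N)] at this
  have hne : (Nat.card N).primeFactors.Nonempty :=
    Nat.nonempty_primeFactors.mpr ((one_lt_card_iff_ne_bot N).mpr hN.2.1)
  obtain ⟨p, hpm, hmax⟩ : ∃ p : ℕ, (p.Prime ∧ p ∣ Nat.card N) ∧
      ∀ r : ℕ, r.Prime → r ∣ Nat.card N → r ≤ p := by
    have hpm := Nat.mem_primeFactors.mp ((Nat.card N).primeFactors.max'_mem hne)
    exact ⟨_, ⟨hpm.1, hpm.2.1⟩, fun r hr hd =>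
      Finset.le_max' _ _ (Nat.mem_primeFactors.mpr ⟨hr, hd, Nat.card_pos.ne'⟩)⟩
  have := Fact.mk hpm.1
  obtain ⟨S, hS⟩ := IsSylowIn.exists_in (p := p) N
  rcases eq_top_or_exists_le_coatom (normalizer (S : Set G)) with h1 | ⟨M, hM, hle⟩
  · rcases hN.2.2 S (normalizer_eq_top_iff.mp h1) hS.le with h2 | h2
    · exact absurd h2 (hS.ne_bot hpm.2)
    · exact isSolvable_of_isPGroup (h2 ▸ hS.isPGroup)
  have hNM : N ⊔ M = ⊤ := by
    rw [eq_top_iff]
    refine (hS.frattini_le (H := ⊤) le_top (by rw [normalizer_eq_top])).trans ?_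
    exact sup_le_sup_left (inf_le_right.trans hle) _
  have h2 : M.relIndex N = M.index := by
    have e3 := relIndex_mul_index (inf_le_left : M ⊓ N ≤ M)
    have e4 := relIndex_mul_index (inf_le_right : M ⊓ N ≤ N)
    rw [inf_relIndex_left, ← relIndex_sup_left, hNM, relIndex_top_right, mul_comm] at e3
    rw [inf_relIndex_right, ← e3] at e4
    exact Nat.eq_of_mul_eq_mul_right (Nat.pos_of_ne_zero index_ne_zero_of_finite) e4
  have h3 : M.index ≡ 1 [MOD p] := by
    have e1 := relIndex_normalizer_modEq hS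
    have e2 := relIndex_normalizer_modEq (hS.mono (K := M ⊓ N)
      (le_inf (le_normalizer.trans hle) hS.le) inf_le_right)
    rw [← inf_eq_left.mpr hle, ← relIndex_inf_mul_relIndex, h2] at e1
    have e3 := (e2.mul_right M.index).symm.trans e1
    rwa [one_mul] at e3
  obtain ⟨q, hq, hq'⟩ := h M hM
  have hqd : q ∣ Nat.card N := by
    refine Dvd.dvd.trans ?_ (relIndex_dvd_card M N)
    rw [h2]
    rcases hq' with e | e <;> rw [e]
    exact dvd_pow_self q two_ne_zero
  have hqp := hmax q hq hqd
  have hq2 := hq.two_le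
  have h4 : ¬ p ∣ q - 1 := fun h => by have := Nat.le_of_dvd (by omega) h; omega
  have h5 : p ≤ 3 := by
    rcases hq' with e | e
    · rw [e] at h3
      exact absurd ((Nat.modEq_iff_dvd' hq.one_le).mp h3.symm) h4
    · rw [e] at h3
      have h6 := (Nat.modEq_iff_dvd' (Nat.one_le_pow _ _ hq.pos)).mp h3.symm
      rw [show q ^ 2 - 1 = (q + 1) * (q - 1) by simpa using Nat.sq_sub_sq q 1] at h6
      have h7 := ((Nat.Prime.dvd_mul hpm.1).mp h6).resolve_right h4
      have h8 : p = q + 1 := by
        rcases hqp.lt_or_eq with h | h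
        · have := Nat.le_of_dvd (by omega) h7; omega
        · rw [← h] at h7
          exact absurd ((Nat.dvd_add_right dvd_rfl).mp h7) hq.not_dvd_one
      rcases hq.eq_two_or_odd' with h | h
      · omega
      · have := hpm.1.eq_two_or_odd'
        rw [h8, Nat.odd_add_one] at this
        rcases this with h' | h'
        · omega
        · exact absurd h h'
  refine isSolvable_of_two_primes Nat.prime_two Nat.prime_three fun r hr hd => ?_
  have := hmax r hr hd
  have := hr.two_le
  omega


/-- A finite group in which every maximal subgroup has index a prime or the square of a prime is solvable. -/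
theorem result {G : Type*} [Group G] [Finite G] (h : ∀ M : Subgroup G, IsCoatom M → ∃ p : ℕ, p.Prime ∧ (M.index = p ∨ M.index = p ^ 2)) : Group.IsSolvable G := by
  exact aux G h

end Cfsg.Agent.S4203
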