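import Cfsg.Statements.S4206
import Cfsg.Agent.Lib.CommCalc

set_option autoImplicit false
open Cfsg

namespace Cfsg.Agent.S4206

/-- Let `H 0 ≥ H 1 ≥ H 2 ≥ ⋯` be normal subgroups of a finite group and `L` a subgroup with `⁅H i, L⁆ ≤ H (i+1)` for all `i`. Then `⁅H i, γ⁆ ≤ H (i + j + 1)` where `γ` is the `j`-th term of the lower central series of `L` (indexed from `0`, so the term with index `j` is the `(j+1)`-fold commutator). -/
theorem result {G : Type*} [Group G] [Finite G] (H : ℕ → Subgroup G) (hN : ∀ i, (H i).Normal) (hdesc : ∀ i, H (i + 1) ≤ H i) (L : Subgroup G) (hL : ∀ i, ⁅H i, L⁆ ≤ H (i + 1)) (i j : ℕ) : ⁅H i, L.lowerCentralSeries j⁆ ≤ H (i + j + 1) := by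
  exact CfsgLib.CommCalc.commutator_chain_lowerCentralSeries H L
    (fun i => by have := hN i; exact CfsgLib.CommCalc.le_normalizer_of_normal' _ _)
    (fun i j => by have := hN j; exact CfsgLib.CommCalc.le_normalizer_of_normal' _ _) hL j i

end Cfsg.Agent.S4206
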