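import Cfsg.Statements.S4211
import Cfsg.Agent.Lib.PGroupDihQuat
import Cfsg.Agent.Lib.PGroupBasic
import Cfsg.Agent.Lib.CoreElements

set_option autoImplicit false
open Cfsg

namespace Cfsg.Agent.S4211

open Subgroup CfsgLib
open scoped Pointwise commutatorElement

variable {G : Type*} [Group G] [Finite G]

theorem zpowers_eq_of_prime {p : ℕ} (hp : p.Prime) {a c : G} (ha : a ^ p = 1) (h : c ∈ zpowers a)
    (hc : c ≠ 1) : zpowers c = zpowers a := by
  haveI := Fact.mk hp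
  have h1 : orderOf a = p := orderOf_eq_prime ha (by rintro rfl; exact hc (by simpa using h))
  have h5 := zpowers_le.mpr h
  have h6 := card_dvd_of_le h5
  rw [Nat.card_zpowers a, h1, Nat.dvd_prime hp, card_eq_one, zpowers_eq_bot] at h6
  exact eq_of_le_of_card_ge h5 (by rw [h6.resolve_left hc, Nat.card_zpowers a, h1])

theorem zpowers_eq_pow {p m : ℕ} (hp : p.Prime) {x c : G} (hx : orderOf x = p ^ (m + 1))
    (h : c ∈ zpowers x) (hc : c ≠ 1) (hcp : c ^ p = 1) : zpowers c = zpowers (x ^ p ^ m) := by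
  refine zpowers_eq_of_prime hp (by rw [← pow_mul, ← pow_succ, ← hx, pow_orderOf_eq_one]) ?_ hc
  obtain ⟨i, rfl⟩ := (mem_powers_iff_mem_zpowers (x := x) (y := c)).mpr h
  have h1 : orderOf x ∣ i * p := orderOf_dvd_of_pow_eq_one (by rwa [pow_mul])
  rw [hx, pow_succ] at h1
  obtain ⟨j, rfl⟩ := Nat.dvd_of_mul_dvd_mul_right hp.pos h1
  exact ⟨j, by simp [pow_mul]⟩

theorem comm_mem (hn : ∀ H : Subgroup G, H.Normal) (x y : G) :
    ⁅x, y⁆ ∈ zpowers x ∧ ⁅x, y⁆ ∈ zpowers y := by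
  constructor
  · have := mul_mem (mem_zpowers x) ((hn _).conj_mem _ (inv_mem (mem_zpowers x)) y)
    simpa [commutatorElement_def, mul_assoc] using this
  · exact mul_mem ((hn _).conj_mem _ (mem_zpowers y) x) (inv_mem (mem_zpowers y))

theorem commute_of_mem {x c : G} (h : c ∈ zpowers x) : Commute c x := by
  obtain ⟨i, rfl⟩ := h
  exact Commute.zpow_self x i

theorem mul_right_iff_left {a b c : G} (h : Commute a b) : Commute a (b * c) ↔ Commute a c :=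
  ⟨fun h' => by simpa using h.inv_right.mul_right h', h.mul_right⟩

theorem key (hn : ∀ H : Subgroup G, H.Normal) (S : Subgroup G) (h : ¬ IsMulCommutative S) :
    ∃ x ∈ S, ∃ y ∈ S, orderOf x = 4 ∧ y ^ 2 = x ^ 2 ∧ y * x * y⁻¹ = x⁻¹ := by
  classical
  have h0 : ∃ n, ∃ x ∈ S, ∃ y ∈ S, ⁅x, y⁆ ≠ 1 ∧ orderOf x + orderOf y = n := by
    by_contra h1
    push Not at h1
    refine h ⟨⟨fun a b => Subtype.ext ?_⟩⟩
    by_contra h2
    exact h1 _ a a.2 b b.2 (mt commutatorElement_eq_one_iff_mul_comm.mp h2) rfl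
  have hmin : ∀ x ∈ S, ∀ y ∈ S, orderOf x + orderOf y < Nat.find h0 → ⁅x, y⁆ = 1 := by
    intro x hx y hy h1
    by_contra h2
    exact Nat.find_min h0 h1 ⟨x, hx, y, hy, h2, rfl⟩
  obtain ⟨x, hx, y, hy, hc, hs, hle⟩ : ∃ x ∈ S, ∃ y ∈ S, ⁅x, y⁆ ≠ 1 ∧
      orderOf x + orderOf y = Nat.find h0 ∧ orderOf y ≤ orderOf x := by
    obtain ⟨x, hx, y, hy, hc, hs⟩ := Nat.find_spec h0
    rcases le_total (orderOf y) (orderOf x) with h1 | h1
    · exact ⟨x, hx, y, hy, hc, hs, h1⟩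
    · exact ⟨y, hy, x, hx, by rwa [← commutatorElement_inv, inv_ne_one], by omega, h1⟩
  rw [← hs] at hmin
  obtain ⟨hcx, hcy⟩ := comm_mem hn x y
  have hlt : ∀ (z : G) (q : ℕ), q.Prime → q ∣ orderOf z → orderOf (z ^ q) < orderOf z :=
    fun z q hq hd => by
      rw [orderOf_pow_of_dvd hq.ne_zero hd]
      exact Nat.div_lt_self (orderOf_pos z) hq.one_lt
  have h1 : ∀ q : ℕ, q.Prime → q ∣ orderOf x → orderOf ⁅x, y⁆ = q := fun q hq hd => by
    haveI := Fact.mk hq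
    refine orderOf_eq_prime ?_ hc
    rw [← PGrp.commutatorElement_pow_left (commute_of_mem hcx)]
    exact hmin _ (pow_mem hx q) _ hy (by have := hlt x q hq hd; omega)
  have h2 : ∀ q : ℕ, q.Prime → q ∣ orderOf y → orderOf ⁅x, y⁆ = q := fun q hq hd => by
    haveI := Fact.mk hq
    refine orderOf_eq_prime ?_ hc
    rw [← PGrp.commutatorElement_pow_right (commute_of_mem hcy)]
    exact hmin _ hx _ (pow_mem hy q) (by have := hlt y q hq hd; omega)
  obtain ⟨p, hp, hpx⟩ := Nat.exists_prime_and_dvd (n := orderOf x) (by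
    rw [Ne, orderOf_eq_one_iff]; rintro rfl; simp at hc)
  have hcp := h1 p hp hpx
  have hcp' : ⁅x, y⁆ ^ p = 1 := hcp ▸ pow_orderOf_eq_one _
  obtain ⟨m, hm⟩ : ∃ m, orderOf x = p ^ m := ⟨_, Nat.eq_prime_pow_of_unique_prime_dvd
    (orderOf_pos x).ne' fun hq hd => (h1 _ hq hd).symm.trans hcp⟩
  obtain ⟨n, hn'⟩ : ∃ n, orderOf y = p ^ n := ⟨_, Nat.eq_prime_pow_of_unique_prime_dvd
    (orderOf_pos y).ne' fun hq hd => (h2 _ hq hd).symm.trans hcp⟩
  obtain ⟨n, rfl⟩ : ∃ k, n = k + 1 := Nat.exists_eq_succ_of_ne_zero (by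
    rintro rfl
    rw [pow_zero, orderOf_eq_one_iff] at hn'
    simp [hn'] at hc)
  obtain ⟨d, rfl⟩ : ∃ d, m = d + n + 1 := by
    rw [hm, hn', Nat.pow_le_pow_iff_right hp.one_lt] at hle
    exact ⟨m - (n + 1), by omega⟩
  have hX := zpowers_eq_pow hp hm hcx hc hcp'
  have hY := zpowers_eq_pow hp hn' hcy hc hcp'
  have hn0 : n ≠ 0 := by
    rintro rfl
    rw [pow_zero, pow_one] at hY
    have h3 : Commute y x := commute_of_mem (zpowers_le.mpr hcx (hY ▸ mem_zpowers y))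
    exact hc (commutatorElement_eq_one_iff_commute.mpr h3.symm)
  obtain ⟨k, hk⟩ := (mem_powers_iff_mem_zpowers (x := x ^ p ^ (d + n)) (y := (y ^ p ^ n)⁻¹)).mpr
    (by rw [← hX, hY]; exact inv_mem (mem_zpowers _))
  replace hk : (x ^ p ^ (d + n)) ^ k = (y ^ p ^ n)⁻¹ := hk
  obtain ⟨hcy', hcx'⟩ := comm_mem hn y x
  have h3 : (x ^ (p ^ d * k) * y) ^ p ^ n = ⁅y, x⁆ ^ (p ^ d * k * (p ^ n).choose 2) := by
    obtain ⟨h4, h5⟩ := comm_mem hn y (x ^ (p ^ d * k))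
    rw [PGrp.mul_pow_eq_of_commute_commutator (commute_of_mem h5) (commute_of_mem h4),
      PGrp.commutatorElement_pow_right (commute_of_mem hcx'), ← pow_mul, ← pow_mul,
      mul_right_comm, ← pow_add, pow_mul x, hk, inv_mul_cancel, one_mul]
  have h4 : ¬ p ∣ p ^ d * k * (p ^ n).choose 2 := by
    rintro ⟨j, hj⟩
    rw [hj, pow_mul ⁅y, x⁆, ← commutatorElement_inv, inv_pow, hcp', inv_one, one_pow] at h3
    have h5 := Nat.le_of_dvd (pow_pos hp.pos n) (orderOf_dvd_of_pow_eq_one h3)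
    have h6 := hmin x hx _ (mul_mem (pow_mem hx (p ^ d * k)) hy) (by
      have : p ^ n < p ^ (n + 1) := Nat.pow_lt_pow_right hp.one_lt n.lt_succ_self
      omega)
    rw [commutatorElement_eq_one_iff_commute,
      mul_right_iff_left (Commute.self_pow x _)] at h6
    exact hc (commutatorElement_eq_one_iff_commute.mpr h6)
  have hd : d = 0 := by
    by_contra h5
    exact h4 (((dvd_pow_self p h5).mul_right _).mul_right _)
  have h5 : 2 = p ^ n := by
    by_contra h5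
    exact h4 ((hp.dvd_choose_pow two_ne_zero h5).mul_left _)
  obtain ⟨rfl, rfl⟩ : p = 2 ∧ n = 1 := (Nat.Prime.pow_eq_iff Nat.prime_two).mp h5.symm
  subst hd
  have h6 : ∀ w ∈ zpowers ⁅x, y⁆, w ≠ 1 → w = ⁅x, y⁆ := by
    intro w hw hw1
    rw [mem_zpowers_iff_mem_range_orderOf, hcp, Finset.mem_image] at hw
    obtain ⟨i, hi, rfl⟩ := hw
    rw [Finset.mem_range] at hi
    interval_cases i
    · exact absurd (pow_zero _) hw1
    · exact pow_one _
  have h7 : x ^ 2 = ⁅x, y⁆ := h6 _ (hX ▸ mem_zpowers _) (pow_ne_one_of_lt_orderOf two_ne_zero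
    (by rw [hm]; norm_num))
  have h8 : y ^ 2 = ⁅x, y⁆ := h6 _ (hY ▸ mem_zpowers _) (pow_ne_one_of_lt_orderOf two_ne_zero
    (by rw [hn']; norm_num))
  refine ⟨x, hx, y, hy, hm, h8.trans h7.symm, ?_⟩
  rw [pow_two, commutatorElement_def, mul_assoc, mul_assoc, mul_right_inj] at h7
  rw [← inv_inj, inv_inv]
  conv_rhs => rw [h7]
  group


theorem result {G : Type*} [Group G] [Finite G] (hna : ¬ IsMulCommutative G) (hn : ∀ H : Subgroup G, H.Normal) : ∃ Q E A : Subgroup G, Nonempty (Q ≃* QuaternionGroup 2) ∧ Cfsg.IsElementaryAbelian 2 E ∧ IsMulCommutative A ∧ Odd (Nat.card A) ∧ E ⊓ A = ⊥ ∧ Q ⊓ (E ⊔ A) = ⊥ ∧ Q ⊔ (E ⊔ A) = ⊤ := by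
  obtain ⟨x, -, y, -, hx, hy, hxy⟩ := key hn ⊤ fun h => hna
    ⟨⟨fun a b => congrArg Subtype.val (h.is_comm.comm ⟨a, mem_top a⟩ ⟨b, mem_top b⟩)⟩⟩
  have hx4 : x ^ 4 = 1 := hx ▸ pow_orderOf_eq_one x
  have hx2 : x ^ 2 ≠ 1 := pow_ne_one_of_lt_orderOf two_ne_zero (by omega)
  have hnc : ¬ Commute x y := fun h => hx2 (by
    rw [← h.eq, mul_inv_cancel_right] at hxy
    rw [pow_two, ← eq_inv_iff_mul_eq_one, ← hxy])
  have hyx : y ∉ zpowers x := fun h => hnc (commute_of_mem h).symm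
  have hxi : x⁻¹ = x ^ 3 := by rw [inv_eq_iff_mul_eq_one, ← pow_succ', hx4]
  have hmem : ∀ z : G, z ^ 4 = 1 → ∀ w ∈ zpowers z, w = 1 ∨ w = z ∨ w = z ^ 2 ∨ w = z ^ 3 := by
    intro z hz w hw
    obtain ⟨i, rfl⟩ := (mem_powers_iff_mem_zpowers (x := z) (y := w)).mpr hw
    show z ^ i = 1 ∨ z ^ i = z ∨ z ^ i = z ^ 2 ∨ z ^ i = z ^ 3
    rw [← Nat.div_add_mod i 4, pow_add, pow_mul, hz, one_pow, one_mul]
    have : i % 4 < 4 := Nat.mod_lt _ (by norm_num)
    generalize i % 4 = j at this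
    interval_cases j <;> simp
  set Q := zpowers x ⊔ zpowers y with hQ
  have hxQ : x ∈ Q := mem_sup_left (mem_zpowers x)
  have hyQ : y ∈ Q := mem_sup_right (mem_zpowers y)
  set C := centralizer ({x, y} : Set G) with hC
  have hCm : ∀ u, u ∈ C ↔ Commute x u ∧ Commute y u := fun u => by
    simp [hC, mem_centralizer_iff, commute_iff_eq]
  have hC4 : ∀ u ∈ C, u ^ 4 = 1 → u ^ 2 = 1 := by
    intro u hu h4
    obtain ⟨h1, h2⟩ := (hCm u).mp hu
    have h3 := (hn _).conj_mem _ (mem_zpowers (x * u)) y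
    rw [show y * (x * u) * y⁻¹ = x ^ 3 * u by
      rw [← hxi, ← hxy, mul_assoc (y * x), h2.inv_left.eq]; group] at h3
    rcases hmem _ (by rw [h1.mul_pow, hx4, h4, one_mul]) _ h3 with h | h | h | h
    · rw [← hxi, inv_mul_eq_one] at h
      exact absurd (h ▸ h2.symm) hnc
    · rw [mul_left_inj, pow_succ, mul_eq_right] at h
      exact absurd h hx2
    · rw [h1.mul_pow, pow_succ, pow_two u, ← mul_assoc, mul_left_inj, mul_right_inj] at h
      exact absurd (h ▸ h2.symm) hnc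
    · rw [h1.mul_pow, mul_right_inj, pow_succ, eq_comm, mul_eq_right] at h
      exact h
  have hCc : IsMulCommutative C := by
    by_contra h
    obtain ⟨u, hu, -, -, h1, -⟩ := key hn C h
    exact pow_ne_one_of_lt_orderOf two_ne_zero (by omega)
      (hC4 u hu (h1 ▸ pow_orderOf_eq_one u))
  have hcm : ∀ a ∈ C, ∀ b ∈ C, Commute a b := fun a ha b hb =>
    congrArg Subtype.val (hCc.is_comm.comm ⟨a, ha⟩ ⟨b, hb⟩)
  let T : ℕ → Subgroup G := fun n =>
    { carrier := {u | u ∈ C ∧ u ^ n = 1}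
      one_mem' := ⟨one_mem _, one_pow n⟩
      mul_mem' := fun {a b} ha hb => ⟨mul_mem ha.1 hb.1, by
        rw [(hcm a ha.1 b hb.1).mul_pow, ha.2, hb.2, one_mul]⟩
      inv_mem' := fun {a} ha => ⟨inv_mem ha.1, by rw [inv_pow, ha.2, inv_one]⟩ }
  have hT : ∀ n u, u ∈ T n ↔ u ∈ C ∧ u ^ n = 1 := fun _ _ => Iff.rfl
  have hTC : ∀ n, T n ≤ C := fun n u hu => hu.1
  obtain ⟨k, m, hm, hkm⟩ := Nat.exists_eq_two_pow_mul_odd (Nat.card_pos (α := G)).ne'
  have hcC : x ^ 2 ∈ C := (hCm _).mpr ⟨Commute.self_pow x 2, hy ▸ Commute.self_pow y 2⟩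
  obtain ⟨E, -, hE⟩ := Finite.exists_le_maximal (p := fun E : Subgroup G => E ≤ T 2 ∧ x ^ 2 ∉ E)
    (a := ⊥) ⟨bot_le, hx2⟩
  have hodd : ∀ u : G, u ^ 2 = 1 → u ^ m = 1 → u = 1 := fun u h1 h2 => by
    obtain ⟨j, rfl⟩ := hm
    rwa [pow_succ, pow_mul, h1, one_pow, one_mul] at h2
  have hle : ∀ {A B : Subgroup G}, B ≤ C → A ≤ B → IsMulCommutative A := fun h1 h2 =>
    ⟨⟨fun a b => Subtype.ext (hcm _ (h1 (h2 a.2)) _ (h1 (h2 b.2)))⟩⟩
  have hsup : ∀ (A B : Subgroup G) (g : G), g ∈ A ⊔ B → ∃ a ∈ A, ∃ b ∈ B, a * b = g := by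
    intro A B g hg
    haveI := hn B
    rwa [← SetLike.mem_coe, mul_normal] at hg
  refine ⟨Q, E, T m, ?_, ⟨hle (hTC 2) hE.1.1, fun a ha => (hE.1.1 ha).2⟩, hle (hTC m) le_rfl,
    ?_, ?_, ?_, ?_⟩
  · haveI := hn (zpowers x)
    refine PGrp.nonempty_mulEquiv_quaternionGroup (x := ⟨x, hxQ⟩) (y := ⟨y, hyQ⟩)
      (by rw [← orderOf_coe]; exact hx) ?_ (Subtype.ext hy) (Subtype.ext hxy) ?_
    · rintro ⟨i, hi⟩
      exact hyx ⟨i, congrArg Subtype.val hi⟩
    · rw [PGrp.card_sup_zpowers_of_pow_mem (p := 2) _ hyx (hy ▸ pow_mem (mem_zpowers x) 2),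
        Nat.card_zpowers, hx]
  · rw [← Nat.not_even_iff_odd, even_iff_two_dvd]
    intro h
    obtain ⟨⟨u, hu⟩, h1⟩ := exists_prime_orderOf_dvd_card' 2 h
    rw [← orderOf_coe, orderOf_eq_prime_iff] at h1
    exact h1.2 (hodd u h1.1 hu.2)
  · exact eq_bot_iff.mpr fun u hu => hodd u (hE.1.1 hu.1).2 hu.2.2
  · rw [eq_bot_iff]
    rintro u ⟨h1, h2⟩
    have h3 : u ∈ C := sup_le (hE.1.1.trans (hTC 2)) (hTC m) h2
    have h4 : u = 1 ∨ u = x ^ 2 := by
      obtain ⟨a, ha, b, hb, rfl⟩ := hsup _ _ _ h1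
      obtain ⟨h5, h6⟩ := (hCm _).mp h3
      rw [mul_right_iff_left (commute_of_mem ha).symm] at h5
      have h7 : b ∈ zpowers x := by
        rcases hmem y (by rw [show 4 = 2 * 2 from rfl, pow_mul, hy, ← pow_mul, hx4]) b hb with
          rfl | rfl | rfl | rfl
        · exact one_mem _
        · exact absurd h5 hnc
        · exact hy ▸ pow_mem (mem_zpowers x) 2
        · rw [pow_succ, hy, mul_right_iff_left (Commute.self_pow x 2)] at h5
          exact absurd h5 hnc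
      rcases hmem x hx4 _ (mul_mem ha h7) with h | h | h | h
      · exact Or.inl h
      · exact absurd (h ▸ h6.symm) hnc
      · exact Or.inr h
      · rw [h, ← hxi, Commute.inv_right_iff] at h6
        exact absurd h6.symm hnc
    refine h4.resolve_right ?_
    rintro rfl
    obtain ⟨e, he, a, ha, h5⟩ := hsup _ _ _ h2
    have h6 : a ∈ T 2 := by
      rw [← (T 2).mul_mem_cancel_left (hE.1.1 he), h5]
      exact ⟨hcC, by rw [← pow_mul, hx4]⟩
    rw [hodd a h6.2 ha.2, mul_one] at h5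
    exact hE.1.2 (h5 ▸ he)
  · have h1 : T 2 ≤ Q ⊔ (E ⊔ T m) := by
      intro u hu
      by_cases h : u ∈ E
      · exact mem_sup_right (mem_sup_left h)
      have h2 : x ^ 2 ∈ E ⊔ zpowers u := by
        by_contra h2
        exact h (hE.2 ⟨sup_le hE.1.1 (zpowers_le.mpr hu), h2⟩ le_sup_left
          (mem_sup_right (mem_zpowers u)))
      obtain ⟨e, he, a, ha, h3⟩ := hsup _ _ _ h2
      have h4 : a ≠ 1 := by
        rintro rfl
        exact hE.1.2 (by rwa [← h3, mul_one])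
      refine zpowers_le.mpr ?_ (zpowers_eq_of_prime Nat.prime_two hu.2 ha h4 ▸ mem_zpowers u)
      rw [← Subgroup.mul_mem_cancel_left _ (mem_sup_right (mem_sup_left he)), h3]
      exact mem_sup_left (pow_mem hxQ 2)
    have h2 : C ≤ Q ⊔ (E ⊔ T m) := by
      intro u hu
      have h3 : ∀ (j : ℕ) (v : G), v ∈ C → v ^ 2 ^ j = 1 → v ^ 2 = 1 := by
        intro j
        induction j with
        | zero => intro v _ h; rw [pow_zero, pow_one] at h; rw [h, one_pow]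
        | succ j ih =>
          intro v hv h
          rw [pow_succ', pow_mul] at h
          exact hC4 v hv (by rw [← ih _ (pow_mem hv 2) h, ← pow_mul])
      have h4 : (u ^ m) ^ 2 = 1 := h3 k _ (pow_mem hu m)
        (by rw [← pow_mul, mul_comm, ← hkm, pow_card_eq_one'])
      obtain ⟨j, hj⟩ := hm
      have h5 : (u ^ 2) ^ m = 1 := by rw [← pow_mul, mul_comm, pow_mul, h4]
      have h6 : u ^ 2 ∈ Q ⊔ (E ⊔ T m) := mem_sup_right (mem_sup_right ⟨pow_mem hu 2, h5⟩)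
      have h7 : u ^ m ∈ Q ⊔ (E ⊔ T m) := h1 ⟨pow_mem hu m, h4⟩
      nth_rewrite 2 [hj] at h7
      rwa [pow_succ, pow_mul, Subgroup.mul_mem_cancel_left _ (pow_mem h6 j)] at h7
    have h3 : ∀ z : G, z ^ 4 = 1 → z ^ 2 ≠ 1 → ∀ g : G, g * z * g⁻¹ = z ∨ g * z * g⁻¹ = z⁻¹ := by
      intro z h4 h5 g
      rcases hmem z h4 _ ((hn _).conj_mem _ (mem_zpowers z) g) with h | h | h | h
      · rw [conj_eq_one_iff] at h
        exact absurd (by rw [h, one_pow]) h5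
      · exact Or.inl h
      · refine absurd ?_ h5
        rw [← conj_eq_one_iff (a := g), ← conj_pow, h, ← pow_mul, h4]
      · exact Or.inr (by rw [h, eq_inv_iff_mul_eq_one, ← pow_succ, h4])
    have hyx' : x * y * x⁻¹ = y⁻¹ := by
      have : y * x = x⁻¹ * y := by rw [← hxy, inv_mul_cancel_right]
      rw [eq_inv_iff_mul_eq_one, mul_assoc, ← this, ← mul_assoc, mul_assoc x, ← pow_two, hy,
        ← hx4]
      group
    rw [eq_top_iff]
    intro g _
    have h4 : ∀ q ∈ Q, q * g * x * (q * g)⁻¹ = x → q * g * y * (q * g)⁻¹ = y →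
        g ∈ Q ⊔ (E ⊔ T m) := fun q hq h5 h6 => by
      rw [← Subgroup.mul_mem_cancel_left _ (mem_sup_left hq)]
      exact h2 ((hCm _).mpr ⟨(mul_inv_eq_iff_eq_mul.mp h5).symm, (mul_inv_eq_iff_eq_mul.mp h6).symm⟩)
    have h5 : ∀ q z : G, q * g * z * (q * g)⁻¹ = q * (g * z * g⁻¹) * q⁻¹ := fun q z => by group
    have h6 : y * x⁻¹ * y⁻¹ = x := by rw [← conj_inv, hxy, inv_inv]
    have h7 : x * y⁻¹ * x⁻¹ = y := by rw [← conj_inv, hyx', inv_inv]
    rcases h3 x hx4 hx2 g with ha | ha <;>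
      rcases h3 y (by rw [show 4 = 2 * 2 from rfl, pow_mul, hy, ← pow_mul, hx4]) (hy ▸ hx2) g
        with hb | hb
    · exact h4 1 (one_mem _) (by rwa [one_mul]) (by rwa [one_mul])
    · exact h4 x hxQ (by rw [h5, ha]; group) (by rw [h5, hb, h7])
    · exact h4 y hyQ (by rw [h5, ha, h6]) (by rw [h5, hb]; group)
    · refine h4 (x * y) (mul_mem hxQ hyQ) ?_ ?_
      · rw [h5, ha, show x * y * x⁻¹ * (x * y)⁻¹ = x * (y * x⁻¹ * y⁻¹) * x⁻¹ by group, h6]; group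
      · rw [h5, hb, show x * y * y⁻¹ * (x * y)⁻¹ = x * y⁻¹ * x⁻¹ by group, h7]

end Cfsg.Agent.S4211
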