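import Cfsg.Statements.S4212
import Cfsg.Agent.Lib.FrobeniusCount

set_option autoImplicit false
open Cfsg

namespace Cfsg.Agent.S4212

/-- Let `G` be a finite group of order `g`, `c` an element whose conjugacy class has `h` elements, and `n` a natural number. Then the number of elements `x` of `G` with `x^n` conjugate to `c` is a multiple of `gcd(hn, g)`. -/
theorem result {G : Type*} [Group G] [Finite G] (c : G) (n : ℕ) : Nat.gcd (Nat.card {y : G // IsConj c y} * n) (Nat.card G) ∣ Nat.card {x : G // IsConj c (x ^ n)} := by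
  have h1 := CfsgLib.H4.ncard_root_class c n
  have h2 := CfsgLib.H4.frobenius_gcd_dvd_ncard_root n c
  have h3 := CfsgLib.H4.ncard_conj_mul_card_centralizer c
  change Nat.gcd ({y : G | IsConj c y}.ncard * n) (Nat.card G) ∣ {x : G | IsConj c (x ^ n)}.ncard
  rw [h1, ← h3, Nat.gcd_mul_left]
  exact Nat.mul_dvd_mul_left _ h2

end Cfsg.Agent.S4212
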