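import Cfsg.Statements.S4213
import Cfsg.Agent.Lib.CoreSolvable
import Cfsg.Agent.Lib.CoreElements
import Cfsg.Agent.Lib.FrobeniusCount

set_option autoImplicit false
open Cfsg

namespace Cfsg.Agent.S4213

open CfsgLib Subgroup

theorem ncard_comap_mk {G : Type*} [Group G] [Finite G] (K : Subgroup G) [K.Normal]
    (T : Set (G ⧸ K)) : {x : G | (x : G ⧸ K) ∈ T}.ncard = T.ncard * Nat.card K := by
  refine H4.ncard_eq_mul_of_fibers _ (fun x : G => (x : G ⧸ K)) T (Set.toFinite _) _
    (fun a ha => ha) ?_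
  intro b hb
  obtain ⟨b, rfl⟩ := QuotientGroup.mk_surjective b
  have : {x | x ∈ {x : G | (x : G ⧸ K) ∈ T} ∧ (x : G ⧸ K) = b} = (fun k => b * k) '' (K : Set G) := by
    ext x
    constructor
    · rintro ⟨-, h⟩
      exact ⟨b⁻¹ * x, QuotientGroup.eq.mp h.symm, by simp⟩
    · rintro ⟨k, hk, rfl⟩
      have : ((b * k : G) : G ⧸ K) = b := QuotientGroup.mk_mul_of_mem b hk
      exact ⟨by simpa only [Set.mem_ofPred_eq, this] using hb, this⟩
  rw [this, Set.ncard_image_of_injective _ (mul_right_injective b), ← Nat.card_coe_set_eq]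
  rfl

universe u in
theorem aux (G : Type u) [Group G] [Finite G] : ∀ [Group.IsSolvable G] (n : ℕ),
    n ∣ Nat.card G → {x : G | x ^ n = 1}.ncard = n →
      ∃ H : Subgroup G, H.Normal ∧ (H : Set G) = {x : G | x ^ n = 1} := by
  refine card_induction (P := fun G _ _ => ∀ [Group.IsSolvable G] (n : ℕ),
    n ∣ Nat.card G → {x : G | x ^ n = 1}.ncard = n →
      ∃ H : Subgroup G, H.Normal ∧ (H : Set G) = {x : G | x ^ n = 1}) (fun G _ _ ih => ?_) G
  intro _ n hn hcount
  have hn0 : 0 < n := Nat.pos_of_dvd_of_pos hn Nat.card_pos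
  rcases subsingleton_or_nontrivial G with hG | hG
  · exact ⟨⊤, inferInstance, by ext x; simp [Subsingleton.elim x 1]⟩
  obtain ⟨K, hK⟩ := exists_isMinNormal (G := G)
  have := hK.1
  obtain ⟨p, hp, hKe⟩ := hK.exists_isElementaryAbelian inferInstance
  have := Fact.mk hp
  have hKp : IsPGroup p K := fun g => ⟨1, Subtype.ext (by simpa using hKe.2 g g.2)⟩
  obtain ⟨i, hi⟩ := hKp.exists_card_eq
  have hi0 : i ≠ 0 := by
    rintro rfl
    exact hK.2.1 (eq_bot_of_card_eq _ hi)
  have hlt := card_quotient_lt (N := K) hK.2.1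
  have hcard : Nat.card (G ⧸ K) * p ^ i = Nat.card G := by
    rw [← hi]; exact (card_eq_card_quotient_mul_card_subgroup K).symm
  have hone : ∀ m : ℕ, 0 < {x : G ⧸ K | x ^ m = 1}.ncard := fun m =>
    (Set.ncard_pos (Set.toFinite _)).mpr ⟨1, by simp⟩
  by_cases hpn : p ∣ n
  · set u := n / Nat.gcd n (p ^ i) with hu
    have hun : u * Nat.gcd n (p ^ i) = n := Nat.div_mul_cancel (Nat.gcd_dvd_left _ _)
    have hgpos : 0 < Nat.gcd n (p ^ i) := Nat.gcd_pos_of_pos_left _ hn0
    have hud : u ∣ Nat.card (G ⧸ K) := by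
      have h1 : n ∣ Nat.card (G ⧸ K) * Nat.gcd n (p ^ i) := by
        rw [← Nat.gcd_mul_left]
        exact Nat.dvd_gcd (Dvd.intro_left _ rfl) (hcard ▸ hn)
      exact Nat.dvd_of_mul_dvd_mul_right hgpos (hun.symm ▸ h1 : u * Nat.gcd n (p ^ i) ∣ _)
    have hup : u * p ∣ n := by
      rw [← hun]
      exact Nat.mul_dvd_mul_left _ (Nat.dvd_gcd hpn (dvd_pow_self p hi0))
    have hsub : {x : G | (x : G ⧸ K) ∈ {z : G ⧸ K | z ^ u = 1}} ⊆ {x : G | x ^ n = 1} := by
      intro x hx
      have h1 : x ^ u ∈ K := by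
        rw [← QuotientGroup.eq_one_iff, QuotientGroup.mk_pow]; exact hx
      obtain ⟨c, hc⟩ := hup
      change x ^ n = 1
      rw [hc, pow_mul, pow_mul, hKe.2 _ h1, one_pow]
    have h1 := Set.ncard_le_ncard hsub
    rw [ncard_comap_mk, hcount, hi] at h1
    have h2 := Nat.le_of_dvd (hone u) (H4.frobenius_dvd_ncard_pow_eq_one hud)
    have h3 : Nat.gcd n (p ^ i) ≤ p ^ i := Nat.gcd_le_right _ (pow_pos hp.pos i)
    have h4 : {z : G ⧸ K | z ^ u = 1}.ncard = u := by
      refine le_antisymm ?_ h2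
      refine Nat.le_of_mul_le_mul_right (h1.trans ?_) (pow_pos hp.pos i)
      rw [← hun]
      exact Nat.mul_le_mul_left _ h3
    obtain ⟨H, hH, hH'⟩ := ih (G ⧸ K) hlt u hud h4
    refine ⟨H.comap (QuotientGroup.mk' K), hH.comap _, ?_⟩
    refine Eq.trans ?_ (Set.eq_of_subset_of_ncard_le hsub ?_)
    · rw [← hH']; rfl
    · rw [ncard_comap_mk, hcount, hi, h4, ← hun]
      exact Nat.mul_le_mul_left _ h3
  · have hcop : Nat.Coprime n p := ((Nat.Prime.coprime_iff_not_dvd hp).mpr hpn).symm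
    have hnd : n ∣ Nat.card (G ⧸ K) :=
      (Nat.Coprime.pow_right i hcop).dvd_of_dvd_mul_right (hcard ▸ hn)
    have hsub : {z : G ⧸ K | z ^ n = 1} ⊆ (fun x : G => (x : G ⧸ K)) '' {x : G | x ^ n = 1} := by
      intro z hz
      obtain ⟨x, rfl⟩ := QuotientGroup.mk_surjective z
      obtain ⟨a, -, ha⟩ := Nat.exists_mul_mod_eq_of_coprime 1 hcop.symm hn0.ne'
      have h1 : x ^ n ∈ K := by
        rw [← QuotientGroup.eq_one_iff, QuotientGroup.mk_pow]; exact hz
      refine ⟨x ^ (p * a), ?_, ?_⟩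
      · change (x ^ (p * a)) ^ n = 1
        rw [← pow_mul, mul_comm, pow_mul, pow_mul, hKe.2 _ h1, one_pow]
      · change ((x ^ (p * a) : G) : G ⧸ K) = x
        rw [QuotientGroup.mk_pow, pow_eq_pow_mod _ hz, ha, ← pow_eq_pow_mod _ hz, pow_one]
    have h4 : {z : G ⧸ K | z ^ n = 1}.ncard = n := by
      refine le_antisymm ?_ (Nat.le_of_dvd (hone n) (H4.frobenius_dvd_ncard_pow_eq_one hnd))
      exact ((Set.ncard_le_ncard hsub).trans (Set.ncard_image_le)).trans hcount.le
    obtain ⟨H, hH, hH'⟩ := ih (G ⧸ K) hlt n hnd h4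
    have hHc : Nat.card H = n := by
      rw [← h4, ← hH', ← Nat.card_coe_set_eq]; rfl
    let M := H.comap (QuotientGroup.mk' K)
    have hKM : K ≤ M := QuotientGroup.le_comap_mk' K H
    have hMc : Nat.card M = n * p ^ i := by rw [card_comap_mk', hHc, hi]
    have hKc : Nat.card (K.subgroupOf M) = p ^ i := by rw [card_subgroupOf_of_le hKM, hi]
    have hidx : (K.subgroupOf M).index = n := by
      have := (K.subgroupOf M).index_mul_card
      rw [hKc, hMc] at this
      exact Nat.eq_of_mul_eq_mul_right (pow_pos hp.pos i) this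
    obtain ⟨L, hL⟩ := exists_right_complement'_of_coprime (N := K.subgroupOf M) (by
      rw [hKc, hidx]; exact (Nat.Coprime.pow_right i hcop).symm)
    have hLc : Nat.card (L.map M.subtype) = n := by
      rw [card_map_subtype, ← hL.symm.index_eq_card, hidx]
    have heq : ((L.map M.subtype : Subgroup G) : Set G) = {x : G | x ^ n = 1} := by
      apply Set.eq_of_subset_of_ncard_le
      · intro x hx
        change x ^ n = 1
        rw [← hLc]
        exact congrArg Subtype.val (pow_card_eq_one' (G := L.map M.subtype) (x := ⟨x, hx⟩))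
      · rw [hcount, ← Nat.card_coe_set_eq]
        exact hLc.ge
      · exact Set.toFinite _
    refine ⟨_, ⟨fun x hx g => ?_⟩, heq⟩
    rw [← SetLike.mem_coe, heq] at hx ⊢
    change (g * x * g⁻¹) ^ n = 1
    rw [conj_pow, hx, mul_one, mul_inv_cancel]


/-- If `G` is a finite solvable group and `n` divides the order of `G` and exactly `n` elements `x` of `G` satisfy `x^n = 1`, then these elements form a normal subgroup. -/
theorem result {G : Type*} [Group G] [Finite G] [Group.IsSolvable G] (n : ℕ) (hn : n ∣ Nat.card G) (hcount : Nat.card {x : G // x ^ n = 1} = n) : ∃ H : Subgroup G, H.Normal ∧ (H : Set G) = {x : G | x ^ n = 1} := by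
  exact aux G n hn hcount

end Cfsg.Agent.S4213
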