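import Cfsg.Statements.S4214
import Cfsg.Agent.Lib.Hall
import Cfsg.Agent.Lib.H5Misc
import Cfsg.Agent.Lib.H1Misc
import Cfsg.Agent.Lib.ClassSize
import Cfsg.Agent.Lib.CoprimeAction
import Cfsg.Agent.Lib.CoreAbelianMax

set_option autoImplicit false
open Cfsg

namespace Cfsg.Agent.S4214

open Subgroup CfsgLib
open scoped Pointwise commutatorElement

variable {G : Type*} [Group G]

/-- products of numbers with a property -/
def IsProd (P : ℕ → Prop) (x : ℕ) : Prop := ∃ l : List ℕ, x = l.prod ∧ ∀ y ∈ l, P y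

theorem IsProd.one {P : ℕ → Prop} : IsProd P 1 := ⟨[], rfl, by simp⟩

theorem IsProd.mul {P : ℕ → Prop} {x y : ℕ} (hx : IsProd P x) (hy : IsProd P y) :
    IsProd P (x * y) := by
  obtain ⟨l, rfl, h1⟩ := hx
  obtain ⟨l', rfl, h2⟩ := hy
  exact ⟨l ++ l', List.prod_append.symm, fun y hy => (List.mem_append.mp hy).elim (h1 y) (h2 y)⟩

theorem IsProd.single {P : ℕ → Prop} {x : ℕ} (hx : P x) : IsProd P x :=
  ⟨[x], by simp, by simpa using hx⟩

theorem IsProd.mono {P Q : ℕ → Prop} (h : ∀ y, P y → Q y) {x : ℕ} (hx : IsProd P x) :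
    IsProd Q x :=
  let ⟨l, h1, h2⟩ := hx; ⟨l, h1, fun y hy => h y (h2 y hy)⟩

theorem isProd_centralizer [Finite G] [Group.IsSolvable G] (N : Subgroup G) [N.Normal]
    (S : Subgroup G) (hc : (Nat.card S).Coprime (Nat.card N)) :
    IsProd (fun y => y ∣ Nat.card N ∧ ∃ r : ℕ, r.Prime ∧ r ∣ Nat.card S ∧ y ≡ 1 [MOD r])
      ((centralizer (S : Set G)).relIndex N) := by
  induction hn : Nat.card S using Nat.strong_induction_on generalizing S with
  | _ n ih =>
  subst hn
  by_cases hS : S = ⊥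
  · have : (centralizer (S : Set G)).relIndex N = 1 := by
      rw [relIndex_eq_one, hS]
      intro x _ y hy
      rw [mem_bot.mp hy, one_mul, mul_one]
    rw [this]; exact IsProd.one
  haveI : Nontrivial S := (nontrivial_iff_ne_bot S).mpr hS
  obtain ⟨T, hT, -, hr⟩ := H5.exists_normal_prime_index_ge (L := (⊥ : Subgroup S)) bot_ne_top
  haveI := Fact.mk hr
  obtain ⟨P⟩ : Nonempty (Sylow T.index S) := inferInstance
  have h1 : ¬ (P : Subgroup S) ≤ T := fun h => P.not_dvd_index (index_dvd_of_le h)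
  have h2 := sup_eq_top_of_index_prime hr rfl h1
  set T' := T.map S.subtype with hT'
  set P' := (P : Subgroup S).map S.subtype with hP'
  have h3 : T' ⊔ P' = S := by
    rw [hT', hP', ← Subgroup.map_sup, h2, ← MonoidHom.range_eq_map, range_subtype]
  have h4 : T' ≤ S := map_subtype_le _
  have h5 : Nat.card T' * T.index = Nat.card S := by
    rw [hT', card_map_of_injective S.subtype_injective, card_mul_index]
  have h6 := ih (Nat.card T') (by
    have := hr.two_le
    have : 0 < Nat.card T' := Nat.card_pos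
    nlinarith) T' (hc.coprime_dvd_left (card_dvd_of_le h4)) rfl
  have h7 : P' ≤ normalizer (T' : Set G) := by
    rintro _ ⟨x, -, rfl⟩
    refine mem_normalizer_of_map_conj_eq ?_
    have := congrArg (Subgroup.map S.subtype) (map_conj_eq_of_normal x T)
    rw [map_map] at this
    rw [hT', map_map]
    exact this
  set U := N ⊓ centralizer (T' : Set G) with hU
  have h8 := H1.card_modEq_card_inf_centralizer (U := U) (P.2.map S.subtype)
    (Cop.le_normalizer_inf_centralizer le_normalizer_of_normal h7)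
  have h9 : U ⊓ centralizer (P' : Set G) = centralizer (S : Set G) ⊓ U := by
    apply le_antisymm
    · refine le_inf ?_ inf_le_left
      rw [← le_centralizer_iff, ← h3, sup_le_iff, le_centralizer_iff, le_centralizer_iff (H := P')]
      exact ⟨inf_le_left.trans inf_le_right, inf_le_right⟩
    · exact le_inf inf_le_right (inf_le_left.trans (centralizer_le (h3 ▸ le_sup_right : P' ≤ S)))
  rw [← hP', h9] at h8
  have h10 : (centralizer (S : Set G)).relIndex N =
      (centralizer (S : Set G)).relIndex U * (centralizer (T' : Set G)).relIndex N := by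
    have h11 : centralizer (S : Set G) ⊓ U = centralizer (S : Set G) ⊓ N :=
      le_antisymm (inf_le_inf_left _ inf_le_left) (le_inf inf_le_left
        (le_inf inf_le_right (inf_le_left.trans (centralizer_le h4))))
    rw [← inf_relIndex_right (centralizer (T' : Set G)) N, inf_comm, ← hU,
      ← inf_relIndex_right (centralizer (S : Set G)) U, relIndex_mul_relIndex _ _ _ inf_le_right
      inf_le_left, h11, inf_relIndex_right]
  rw [h10]
  have hd : T.index ∣ Nat.card S := index_dvd_card T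
  refine IsProd.mul (IsProd.single ⟨(relIndex_dvd_card _ _).trans (card_dvd_of_le inf_le_left),
    _, hr, hd, ?_⟩) (h6.mono fun y ⟨h, r, hr, hd, hy⟩ => ⟨h, r, hr, hd.trans (card_dvd_of_le h4), hy⟩)
  rw [← card_inf_mul_relIndex (centralizer (S : Set G)) U] at h8
  refine Nat.ModEq.cancel_left_of_coprime ?_ (h8.trans (by rw [mul_one]))
  exact (hc.coprime_dvd_left hd).coprime_dvd_right
    (card_dvd_of_le (inf_le_right.trans inf_le_left))

universe u

theorem main (G : Type u) [Group G] [Finite G] : Group.IsSolvable G → ∀ H : Subgroup G,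
    (Nat.card H).Coprime H.index →
    IsProd (fun y => (∃ q e : ℕ, q.Prime ∧ y = q ^ e) ∧ (∃ K L : Subgroup G, K.Normal ∧ L.Normal ∧
      K < L ∧ (∀ M : Subgroup G, M.Normal → K ≤ M → M ≤ L → M = K ∨ M = L) ∧ y ∣ K.relIndex L) ∧
      (∃ q : ℕ, q.Prime ∧ q ∣ Nat.card H ∧ y ≡ 1 [MOD q])) (normalizer (H : Set G)).index := by
  refine card_induction (P := fun G _ _ => Group.IsSolvable G → ∀ H : Subgroup G,
    (Nat.card H).Coprime H.index →
    IsProd (fun y => (∃ q e : ℕ, q.Prime ∧ y = q ^ e) ∧ (∃ K L : Subgroup G, K.Normal ∧ L.Normal ∧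
      K < L ∧ (∀ M : Subgroup G, M.Normal → K ≤ M → M ≤ L → M = K ∨ M = L) ∧ y ∣ K.relIndex L) ∧
      (∃ q : ℕ, q.Prime ∧ q ∣ Nat.card H ∧ y ≡ 1 [MOD q])) (normalizer (H : Set G)).index)
    (fun G _ _ ih hs H hH => ?_) G
  rcases subsingleton_or_nontrivial G with h | h
  · rw [Subsingleton.elim (normalizer (H : Set G)) ⊤, index_top]; exact IsProd.one
  obtain ⟨N, hN⟩ := exists_isMinNormal (G := G)
  haveI := hN.1
  obtain ⟨q, hq, hNq⟩ := hN.exists_isPGroup inferInstance
  haveI := Fact.mk hq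
  set f := QuotientGroup.mk' N with hf
  have hfs : Function.Surjective f := QuotientGroup.mk'_surjective N
  have hk : f.ker = N := QuotientGroup.ker_mk' N
  have h1 := ih (G ⧸ N) (card_quotient_lt hN.2.1) inferInstance (H.map f)
    ((hH.coprime_dvd_left (card_map_dvd H f)).coprime_dvd_right (index_map_dvd H hfs))
  replace h1 := h1.mono (Q := fun y => (∃ q e : ℕ, q.Prime ∧ y = q ^ e) ∧
      (∃ K L : Subgroup G, K.Normal ∧ L.Normal ∧
      K < L ∧ (∀ M : Subgroup G, M.Normal → K ≤ M → M ≤ L → M = K ∨ M = L) ∧ y ∣ K.relIndex L) ∧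
      (∃ q : ℕ, q.Prime ∧ q ∣ Nat.card H ∧ y ≡ 1 [MOD q])) (by
    rintro y ⟨h2, ⟨K, L, hK, hL, hKL, h3, h4⟩, r, hr, h5, h6⟩
    refine ⟨h2, ⟨K.comap f, L.comap f, inferInstance, inferInstance,
      (comap_lt_comap_of_surjective hfs).mpr hKL, fun M hM h7 h8 => ?_, ?_⟩,
      r, hr, h5.trans (card_map_dvd H f), h6⟩
    · have h9 : (M.map f).comap f = M :=
        comap_map_eq_self (le_trans (comap_mono bot_le) h7)
      rw [← h9]
      exact (h3 (M.map f) (hM.map f hfs) (by
        rw [← map_comap_eq_self_of_surjective hfs K]; exact map_mono h7)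
        (map_le_iff_le_comap.mpr h8)).imp (congrArg _) (congrArg _)
    · rwa [relIndex_comap, map_comap_eq_self_of_surjective hfs])
  obtain ⟨a, ha⟩ := hNq.exists_card_eq
  by_cases h2 : q ∣ Nat.card H
  · have h3 : N ≤ H := by
      rw [← relIndex_eq_one]
      refine Nat.eq_one_of_dvd_coprimes (a := H.index) (b := q ^ a) (Nat.Coprime.pow_right _
        (hH.coprime_dvd_left h2).symm) (Frob.relIndex_normal_dvd_index _ _)
        (ha ▸ relIndex_dvd_card _ _)
    rwa [← index_comap_of_surjective _ hfs, comap_normalizer_eq_of_surjective _ hfs,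
      comap_map_eq_self (hk.trans_le h3)] at h1
  · have hc : (Nat.card H).Coprime (Nat.card N) :=
      ha ▸ ((hq.coprime_iff_not_dvd.mpr h2).symm.pow_right a)
    rw [Cop.normalizer_map_mk' N hc (Or.inl inferInstance), index_map,
      MonoidHom.range_eq_top.mpr hfs, index_top, mul_one, hk] at h1
    rw [← relIndex_mul_index (le_sup_left : normalizer (H : Set G) ≤ _ ⊔ N),
      Frob.relIndex_sup_eq_of_normal]
    refine IsProd.mul ?_ h1
    have h3 : normalizer (H : Set G) ⊓ N = centralizer (H : Set G) ⊓ N := by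
      refine le_antisymm (le_inf ?_ inf_le_right) (inf_le_inf_right _ (centralizer_le_normalizer _))
      intro x hx y hy
      have h4 : x * y * x⁻¹ * y⁻¹ ∈ H ⊓ N :=
        ⟨H.mul_mem ((mem_normalizer_iff.mp hx.1 y).mp hy) (H.inv_mem hy), by
          have := N.mul_mem hx.2 (hN.1.conj_mem _ (N.inv_mem hx.2) y)
          simpa [mul_assoc] using this⟩
      rw [inf_eq_bot_of_coprime hc, mem_bot, mul_inv_eq_one, mul_inv_eq_iff_eq_mul] at h4
      exact h4.symm
    rw [← inf_relIndex_right, h3, inf_relIndex_right]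
    refine (isProd_centralizer N H hc).mono fun y ⟨h4, h5⟩ => ⟨?_, ⟨⊥, N, inferInstance, hN.1,
      bot_lt_iff_ne_bot.mpr hN.2.1, fun M hM _ h => hN.2.2 M hM h, by rwa [relIndex_bot_left]⟩, h5⟩
    obtain ⟨e, -, he⟩ := (Nat.dvd_prime_pow hq).mp (ha ▸ h4)
    exact ⟨q, e, hq, he⟩


theorem result {G : Type*} [Group G] [Finite G] [Group.IsSolvable G] (m n : ℕ) (hG : Nat.card G = m * n) (hmn : Nat.Coprime m n) : ∃ (k : ℕ) (f : Fin k → ℕ), Nat.card {H : Subgroup G // Nat.card H = m} = ∏ i, f i ∧ ∀ i, (∃ q e : ℕ, q.Prime ∧ f i = q ^ e) ∧ (∃ K L : Subgroup G, K.Normal ∧ L.Normal ∧ K < L ∧ (∀ M : Subgroup G, M.Normal → K ≤ M → M ≤ L → M = K ∨ M = L) ∧ f i ∣ K.relIndex L) ∧ (∃ q : ℕ, q.Prime ∧ q ∣ m ∧ f i ≡ 1 [MOD q]) := by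
  obtain ⟨H, hH⟩ := Hall.exists_subgroup_card_eq_of_coprime inferInstance hmn hG
  have hm : 0 < m := hH ▸ Nat.card_pos
  have hi : ∀ K : Subgroup G, Nat.card K = m → IsPiHall {p | p ∣ m} K := by
    intro K hK
    have h1 : K.index = n := Nat.eq_of_mul_eq_mul_left hm (by rw [← hG, ← hK, card_mul_index])
    have := Hall.isPiHall_of_coprime (H := K) (by rw [hK, h1]; exact hmn)
    rwa [hK] at this
  obtain ⟨l, h1, h2⟩ := main G inferInstance H (Hall.hall_coprime (hi H hH))
  rw [hH] at h2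
  refine ⟨l.length, fun i => l[i], ?_, fun i => h2 _ (List.getElem_mem _)⟩
  rw [show ∏ i : Fin l.length, l[i] = l.prod from Fin.prod_univ_getElem l, ← h1]
  let _ : MulAction G (Subgroup G) := MulAction.compHom _ (MulAut.conj : G →* MulAut G)
  have h3 : MulAction.stabilizer G H = normalizer (H : Set G) := by
    ext g
    exact map_conj_eq_iff_mem_normalizer
  rw [← h3, MulAction.index_stabilizer, ← Nat.card_coe_set_eq]
  refine Nat.card_congr (Equiv.subtypeEquivRight fun K => ⟨fun hK => ?_, ?_⟩)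
  · obtain ⟨g, rfl⟩ := Hall.conj_hall inferInstance (hi H hH) (hi K hK)
    exact ⟨g, rfl⟩
  · rintro ⟨g, rfl⟩
    exact (card_map_of_injective (MulAut.conj g).injective).trans hH

end Cfsg.Agent.S4214
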