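import Cfsg.Statements.S4217
import Cfsg.Agent.Lib.Gaschuetz

set_option autoImplicit false
open Cfsg

namespace Cfsg.Agent.S4217

/-- Let `A` be an abelian normal subgroup of the finite group `G`. Then `A` has a complement in `G` if and only if, for every prime `p` dividing the index of `A`, there are a Sylow `p`-subgroup `S` of `G/A` and a subgroup `K` of `G` with `K ∩ A = 1` and `KA` equal to the preimage of `S` (that is, `A` has a complement in the preimage of a Sylow `p`-subgroup of `G/A`). -/
theorem result {G : Type*} [Group G] [Finite G] (A : Subgroup G) [A.Normal] (hA : IsMulCommutative A) : (∃ K : Subgroup G, K.IsComplement' A) ↔ ∀ p : ℕ, p.Prime → p ∣ A.index → ∃ (S : Sylow p (G ⧸ A)) (K : Subgroup G), K ⊓ A = ⊥ ∧ K ⊔ A = (S : Subgroup (G ⧸ A)).comap (QuotientGroup.mk' A) := by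
  constructor
  · rintro ⟨K, hK⟩ p hp _
    have := Fact.mk hp
    obtain ⟨S⟩ : Nonempty (Sylow p (G ⧸ A)) := inferInstance
    exact ⟨S, _, CfsgLib.Gaschuetz.inf_sup_eq_of_isComplement' hK (QuotientGroup.le_comap_mk' A _)⟩
  · intro h
    refine CfsgLib.Gaschuetz.exists_isComplement'_of_forall_prime fun p hp hd => ?_
    have := Fact.mk hp
    obtain ⟨S, K, h1, h2⟩ := h p hp hd
    refine ⟨_, K, h1, h2, ?_⟩
    rw [Subgroup.index_comap_of_surjective _ (QuotientGroup.mk'_surjective A)]
    exact S.not_dvd_index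

end Cfsg.Agent.S4217
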