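import Cfsg.Statements.S4218
import Cfsg.Agent.Lib.CorePiSep
import Cfsg.Agent.Lib.CoreElements
import Cfsg.Agent.Lib.CoprimeAction
import Cfsg.Agent.Lib.BurnsideBasis

set_option autoImplicit false
open Cfsg

namespace Cfsg.Agent.S4218

open Subgroup CfsgLib
open scoped Pointwise commutatorElement

theorem aux {G : Type*} [Group G] [Finite G] {p : ℕ} [Fact p.Prime] (hG : Cfsg.IsPSolvable p G)
    (h0 : Cfsg.pPrimeCore p G = ⊥) (g : G) (hg : ∀ x ∈ Cfsg.pCore p G,
      g * x * g⁻¹ * x⁻¹ ∈ (frattini (Cfsg.pCore p G)).map (Cfsg.pCore p G).subtype) :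
    g ∈ Cfsg.pCore p G := by
  set Q := Cfsg.pCore p G with hQ
  set F := (frattini Q).map Q.subtype with hF
  have hFn : F.Normal := inferInstance
  let K : Subgroup G :=
    { carrier := {g | ∀ x ∈ Q, g * x * g⁻¹ * x⁻¹ ∈ F}
      one_mem' := fun x _ => by simp
      mul_mem' := fun {a b} ha hb x hx => by
        have := F.mul_mem (hFn.conj_mem _ (hb x hx) a) (ha x hx)
        convert this using 1
        group
      inv_mem' := fun {a} ha x hx => by
        have := hFn.conj_mem _ (F.inv_mem (ha x hx)) a⁻¹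
        convert this using 1
        group }
  have hK : K.Normal := ⟨fun a ha c x hx => by
    have := hFn.conj_mem _ (ha _ (Normal.conj_mem inferInstance x hx c⁻¹)) c
    convert this using 1
    group⟩
  refine le_pCore (N := K) (isPGroup_of_forall_orderOf fun y hy => ?_) hg
  obtain ⟨u, -, v, hv, h1, -, h3, h4⟩ := exists_p_part (Fact.out : p.Prime) y
  have hvK : zpowers v ≤ K := zpowers_le.mpr (zpowers_le.mpr hy hv)
  have h5 : ⁅Q, zpowers v⁆ = ⊥ := Cop.commutator_eq_bot_of_le_frattini (by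
    obtain ⟨n, hn⟩ := IsPGroup.iff_card.mp (pCore_isPGroup (G := G) p)
    rw [Nat.card_zpowers, hn]; exact h4.pow_right n) (by
    rw [commutator_comm, commutator_le]
    exact fun a ha x hx => hvK ha x hx)
  have h6 : v ∈ Q := centralizer_pCore_le hG h0
    (Cop.commutator_eq_bot_iff_le_centralizer'.mp h5 (mem_zpowers v))
  obtain ⟨k, hk⟩ := orderOf_eq_pow_of_mem_isPGroup (pCore_isPGroup p) h6
  have h7 : orderOf v = 1 := Nat.eq_one_of_dvd_coprimes (h4.pow_right k) dvd_rfl (hk ▸ dvd_rfl)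
  rwa [h1, orderOf_eq_one_iff.mp h7, mul_one]

theorem result {G : Type*} [Group G] [Finite G] {p : ℕ} [Fact p.Prime] (hG : Cfsg.IsPSolvable p G) (g : G) : (∀ x ∈ Cfsg.pPrimePCore p G, g * x * g⁻¹ * x⁻¹ ∈ ((frattini (↥(Cfsg.pPrimePCore p G) ⧸ (Cfsg.pPrimeCore p G).subgroupOf (Cfsg.pPrimePCore p G))).comap (QuotientGroup.mk' ((Cfsg.pPrimeCore p G).subgroupOf (Cfsg.pPrimePCore p G)))).map (Cfsg.pPrimePCore p G).subtype) ↔ g ∈ Cfsg.pPrimePCore p G := by
  set N := Cfsg.pPrimeCore p G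
  set P := Cfsg.pPrimePCore p G
  set Q := Cfsg.pCore p (G ⧸ N)
  let f : P →* Q := ((QuotientGroup.mk' N).comp P.subtype).codRestrict Q fun x => x.2
  have hf : ∀ x : P, f x = 1 ↔ x ∈ N.subgroupOf P := fun x => by
    rw [mem_subgroupOf, ← QuotientGroup.eq_one_iff]
    exact Subtype.ext_iff
  let φ : P ⧸ N.subgroupOf P →* Q := QuotientGroup.lift _ f fun x hx => (hf x).mpr hx
  have hφ1 : Function.Surjective φ := by
    rintro ⟨y, hy⟩
    obtain ⟨x, rfl⟩ := QuotientGroup.mk'_surjective N y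
    exact ⟨QuotientGroup.mk' _ (⟨x, hy⟩ : P), rfl⟩
  have hφ2 : Function.Injective φ := by
    rw [injective_iff_map_eq_one]
    intro x hx
    obtain ⟨x, rfl⟩ := QuotientGroup.mk'_surjective _ x
    exact (QuotientGroup.eq_one_iff x).mpr ((hf x).mp hx)
  constructor
  · intro h
    refine aux (isPSolvable_quotient hG N) (pPrimeCore_quotient_pPrimeCore p)
      (QuotientGroup.mk' N g) fun x hx => ?_
    obtain ⟨x, rfl⟩ := QuotientGroup.mk'_surjective N x
    obtain ⟨y, hy, hy2⟩ := h x hx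
    refine ⟨f y, frattini_le_comap_frattini_of_surjective hφ1 hy, ?_⟩
    have : (y : G) = g * x * g⁻¹ * x⁻¹ := hy2
    show QuotientGroup.mk' N y = _
    rw [this]
    simp
  · intro hg x hx
    have hP : IsPGroup p (P ⧸ N.subgroupOf P) := (pCore_isPGroup p).of_injective φ hφ2
    exact ⟨⁅(⟨g, hg⟩ : P), ⟨x, hx⟩⁆, by
      rw [SetLike.mem_coe, mem_comap, map_commutatorElement]
      exact BurnsideBasis.commutatorElement_mem_frattini hP _ _, rfl⟩

end Cfsg.Agent.S4218
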