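import Cfsg.Statements.S4219

set_option autoImplicit false
open Cfsg

namespace Cfsg.Agent.S4219

theorem aux {G : Type*} [Group G] [Finite G] {Ω : Type*} [MulAction G Ω]
    [MulAction.IsPretransitive G Ω] (x : Ω) {p : ℕ} [Fact p.Prime]
    (P : Sylow p (MulAction.stabilizer G x)) (a b : Ω) (Q : Subgroup G)
    (hQ : Q = (P : Subgroup (MulAction.stabilizer G x)).map (MulAction.stabilizer G x).subtype)
    (ha : Q ≤ MulAction.stabilizer G a) (hb : Q ≤ MulAction.stabilizer G b) :
    ∃ g ∈ Subgroup.normalizer (Q : Set G), g • a = b := by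
  obtain ⟨g, hg⟩ := MulAction.exists_smul_eq G a b
  have hcard : Nat.card (MulAction.stabilizer G b) = Nat.card (MulAction.stabilizer G x) := by
    obtain ⟨h, rfl⟩ := MulAction.exists_smul_eq G x b
    rw [MulAction.stabilizer_smul_eq_stabilizer_map_conj, Subgroup.card_map_of_injective]
    exact (MulAut.conj h).injective
  have hQc : Nat.card Q = p ^ (Nat.card (MulAction.stabilizer G b)).factorization p := by
    rw [hcard, ← P.card_eq_multiplicity, hQ,
      Subgroup.card_map_of_injective (Subgroup.subtype_injective _)]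
  have hb' : Q.map (MulAut.conj g).toMonoidHom ≤ MulAction.stabilizer G b := by
    rw [← hg, MulAction.stabilizer_smul_eq_stabilizer_map_conj]
    exact Subgroup.map_mono ha
  let S1 : Sylow p (MulAction.stabilizer G b) := Sylow.ofCard (Q.subgroupOf _)
    ((Nat.card_congr (Subgroup.subgroupOfEquivOfLe hb).toEquiv).trans hQc)
  let S2 : Sylow p (MulAction.stabilizer G b) :=
    Sylow.ofCard ((Q.map (MulAut.conj g).toMonoidHom).subgroupOf _)
    ((Nat.card_congr (Subgroup.subgroupOfEquivOfLe hb').toEquiv).trans
      ((Subgroup.card_map_of_injective (MulAut.conj g).injective).trans hQc))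
  obtain ⟨h, hh⟩ := MulAction.exists_smul_eq (MulAction.stabilizer G b) S2 S1
  refine ⟨h * g, ?_, by rw [mul_smul, hg]; exact h.2⟩
  apply Subgroup.mem_normalizer_fintype
  intro n hn
  have h1 : (⟨g * n * g⁻¹, hb' ⟨n, hn, rfl⟩⟩ : MulAction.stabilizer G b) ∈
      (S2 : Subgroup (MulAction.stabilizer G b)) := ⟨n, hn, rfl⟩
  have h2 := Subgroup.smul_mem_pointwise_smul _ (MulAut.conj h) _ h1
  rw [← Sylow.coe_subgroup_smul, hh] at h2
  have h3 : (h : G) * (g * n * g⁻¹) * (h : G)⁻¹ ∈ Q := h2
  have e : (h : G) * g * n * ((h : G) * g)⁻¹ = (h : G) * (g * n * g⁻¹) * (h : G)⁻¹ := by group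
  rw [e]
  exact h3


/-- Let a finite group `G` act `t`-fold transitively on a finite set, let `H` be the stabilizer of `t` distinct points and `P` a Sylow `p`-subgroup of `H`. Then the normalizer of `P` in `G` is `t`-fold transitive on the fixed points of `P`: any `t` distinct fixed points of `P` can be carried to any other `t` distinct fixed points of `P` by an element normalizing `P`. -/
theorem result {G : Type*} [Group G] [Finite G] {α : Type*} [Fintype α] [MulAction G α] {t : ℕ} (hG : MulAction.IsMultiplyPretransitive G α t) (x : Fin t ↪ α) {p : ℕ} [Fact p.Prime] (P : Sylow p (MulAction.stabilizer G x)) (a b : Fin t ↪ α) (ha : ∀ i, a i ∈ MulAction.fixedPoints ((P : Subgroup (MulAction.stabilizer G x)).map (MulAction.stabilizer G x).subtype) α) (hb : ∀ i, b i ∈ MulAction.fixedPoints ((P : Subgroup (MulAction.stabilizer G x)).map (MulAction.stabilizer G x).subtype) α) : ∃ g ∈ Subgroup.normalizer ((((P : Subgroup (MulAction.stabilizer G x)).map (MulAction.stabilizer G x).subtype) : Subgroup G) : Set G), g • a = b := by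
  refine aux x P a b _ rfl (fun q hq => ?_) (fun q hq => ?_)
  · ext i
    exact ha i ⟨q, hq⟩
  · ext i
    exact hb i ⟨q, hq⟩

end Cfsg.Agent.S4219
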