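import Cfsg.Statements.S4223
import Cfsg.Agent.Lib.CoreBasic

set_option autoImplicit false
open Cfsg

namespace Cfsg.Agent.S4223

open Subgroup CfsgLib
open scoped Pointwise commutatorElement

/-- indecomposable -/
def Indec (A : Type*) [Group A] : Prop :=
  Nontrivial A ∧ ∀ H K : Subgroup A, H.Normal → K.Normal → H ⊓ K = ⊥ → H ⊔ K = ⊤ → H = ⊥ ∨ K = ⊥

theorem fitting {A : Type*} [Group A] [Finite A] (hA : Indec A) (a : A →* A)
    (ha : ∀ g x, a (g * x * g⁻¹) = g * a x * g⁻¹) {x : A} (hx : x ≠ 1) (hax : a x = x) :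
    Function.Injective a := by
  obtain ⟨c, hc⟩ : ∃ c : ℕ → A →* A, ∀ k x, c k x = a^[k] x :=
    ⟨fun k => MonoidHom.mk' a^[k] (iterate_map_mul a k), fun _ _ => rfl⟩
  obtain ⟨N, hN⟩ : ∃ N, ∀ k, N ≤ k → (c N).ker = (c k).ker :=
    WellFoundedGT.monotone_chain_condition (α := Subgroup A)
      ⟨fun k => (c k).ker, monotone_nat_of_le_succ fun k y hy => by
        rw [MonoidHom.mem_ker, hc] at hy ⊢
        rw [Function.iterate_succ_apply', hy, map_one]⟩
  have h1 : ∀ k g x, a^[k] (g * x * g⁻¹) = g * a^[k] x * g⁻¹ := by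
    intro k g
    induction k with
    | zero => exact fun x => rfl
    | succ k ih => intro x; rw [Function.iterate_succ_apply, ha, ih]; rfl
  have h3 : (c (N + 1)).range.Normal := ⟨by
    rintro _ ⟨y, rfl⟩ g
    exact ⟨g * y * g⁻¹, by rw [hc, hc, h1]⟩⟩
  have h4 : (c (N + 1)).ker ⊓ (c (N + 1)).range = ⊥ := by
    rw [eq_bot_iff]
    rintro _ ⟨h, y, rfl⟩
    have h5 : y ∈ (c (N + 1 + (N + 1))).ker := by
      rw [MonoidHom.mem_ker, hc, Function.iterate_add_apply, ← hc, ← hc]; exact h
    rw [← hN _ (by omega), hN (N + 1) (by omega)] at h5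
    exact h5
  have h5 : (c (N + 1)).ker ⊔ (c (N + 1)).range = ⊤ := by
    apply eq_top_of_card_eq
    have h6 := card_sup_mul_card_inf (H := (c (N + 1)).ker) (N := (c (N + 1)).range)
      le_normalizer_of_normal
    rw [h4, card_bot, mul_one, ← index_ker, card_mul_index] at h6
    exact h6
  rcases hA.2 _ _ inferInstance h3 h4 h5 with h | h
  · rw [injective_iff_map_eq_one]
    intro y hy
    refine mem_bot.mp (h ▸ ?_)
    rw [MonoidHom.mem_ker, hc, Function.iterate_succ_apply, hy, iterate_map_one]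
  · exact absurd (mem_bot.mp (h ▸ ⟨x, by rw [hc, Function.iterate_fixed hax]⟩)) hx

section

variable {A G : Type*} [Group A] [Finite A] [Group G]

theorem exists_injective (hA : Indec A) {ι : Type*} [DecidableEq ι] (θ : Finset ι → A →* A)
    (h0 : ∀ x, θ ∅ x = 1) (h1 : ∀ S j x, j ∉ S → θ (insert j S) x = θ {j} x * θ S x)
    (h2 : ∀ S g x, θ S (g * x * g⁻¹) = g * θ S x * g⁻¹) (S : Finset ι)
    (h : Function.Injective (θ S)) : ∃ j, Function.Injective (θ {j}) := by
  induction S using Finset.induction_on with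
  | empty =>
    obtain ⟨x, y, hxy⟩ := hA.1
    exact absurd (h ((h0 x).trans (h0 y).symm)) hxy
  | insert j S hj ih =>
    by_cases h3 : Function.Injective (θ S)
    · exact ih h3
    rw [injective_iff_map_eq_one] at h3
    push Not at h3
    obtain ⟨x, hx, hx1⟩ := h3
    let γ := MulEquiv.ofBijective _ (Finite.injective_iff_bijective.mp h)
    have h4 := fitting hA (γ.symm.toMonoidHom.comp (θ {j})) (fun g y => γ.injective (by
      show γ (γ.symm _) = θ (insert j S) _
      rw [γ.apply_symm_apply, h2, h2]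
      exact congrArg (g * · * g⁻¹) (γ.apply_symm_apply _).symm)) hx1 (γ.injective (by
      show γ (γ.symm _) = θ (insert j S) _
      rw [γ.apply_symm_apply, h1 _ _ _ hj, hx, mul_one]))
    exact ⟨j, Function.Injective.of_comp (f := γ.symm) h4⟩

end

theorem mulSingle_conj {n : ℕ} {B : Fin n → Type*} [∀ j, Group (B j)] (j : Fin n)
    (h : ∀ j, B j) (z : B j) :
    (Pi.mulSingle j (h j * z * (h j)⁻¹) : ∀ j, B j) = h * Pi.mulSingle j z * h⁻¹ := by
  funext k
  by_cases hk : k = j
  · subst hk; simp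
  · simp [hk]

universe u v

theorem main (m : ℕ) : ∀ {n : ℕ} {A : Fin m → Type u} {B : Fin n → Type v} [∀ i, Group (A i)]
    [∀ j, Group (B j)] [∀ i, Finite (A i)] [∀ j, Finite (B j)] (_ : ∀ i, Indec (A i))
    (_ : ∀ j, Indec (B j)) (_ : ((i : Fin m) → A i) ≃* ((j : Fin n) → B j)),
    ∃ σ : Fin m ≃ Fin n, ∀ i, Nonempty (A i ≃* B (σ i)) := by
  induction m with
  | zero =>
    intro n A B _ _ _ _ hA hB e
    rcases n with _ | n
    · exact ⟨Equiv.refl _, fun i => i.elim0⟩
    · obtain ⟨x, y, hxy⟩ := (hB 0).1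
      exact absurd (Pi.mulSingle_injective 0 (e.symm.injective (Subsingleton.elim _ _))) hxy
  | succ m ih =>
    intro n A B _ _ _ _ hA hB e
    let P : Finset (Fin n) → (∀ j, B j) →* (∀ j, B j) := fun S =>
      MonoidHom.mk' (fun b j => if j ∈ S then b j else 1) fun a b => by
        funext j; by_cases h : j ∈ S <;> simp [h]
    have hP : ∀ S b j, P S b j = if j ∈ S then b j else 1 := fun _ _ _ => rfl
    let θ : Finset (Fin n) → A 0 →* A 0 := fun S => (Pi.evalMonoidHom A 0).comp
      (e.symm.toMonoidHom.comp ((P S).comp (e.toMonoidHom.comp (MonoidHom.mulSingle A 0))))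
    have hθ : ∀ S x, θ S x = e.symm (P S (e (Pi.mulSingle 0 x))) 0 := fun _ _ => rfl
    have hθ2 : ∀ S g x, θ S (g * x * g⁻¹) = g * θ S x * g⁻¹ := fun S g x => by
      have h1 : ∀ h b, P S (h * b * h⁻¹) = h * P S b * h⁻¹ := fun h b => by
        funext j; by_cases h : j ∈ S <;> simp [hP, h]
      rw [hθ, hθ, Pi.mulSingle_mul, Pi.mulSingle_mul, Pi.mulSingle_inv, map_mul e, map_mul e,
        map_inv e, h1]
      simp
    obtain ⟨j, hj⟩ := exists_injective (hA 0) θ (fun x => by
        rw [hθ, show P ∅ _ = 1 from funext fun j => by simp [hP], map_one, Pi.one_apply])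
      (fun S j x hj => by
        rw [hθ, hθ, hθ, ← Pi.mul_apply, ← map_mul]
        refine congrFun (congrArg _ (funext fun k => ?_)) 0
        by_cases h : k = j
        · subst h; simp [hP, hj]
        · simp [hP, h]) hθ2 Finset.univ (fun x y h => by
        rw [hθ, hθ] at h
        have h1 : ∀ b, P Finset.univ b = b := fun b => funext fun j => by simp [hP]
        simpa [h1] using h)
    let α : A 0 →* B j := (Pi.evalMonoidHom B j).comp (e.toMonoidHom.comp (MonoidHom.mulSingle A 0))
    let β : B j →* A 0 :=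
      (Pi.evalMonoidHom A 0).comp (e.symm.toMonoidHom.comp (MonoidHom.mulSingle B j))
    have hα : ∀ x, α x = e (Pi.mulSingle 0 x) j := fun _ => rfl
    have hβ : ∀ x, β x = e.symm (Pi.mulSingle j x) 0 := fun _ => rfl
    have h1 : ∀ x, θ {j} x = β (α x) := fun x => by
      rw [hθ, hβ, hα]
      refine congrFun (congrArg _ (funext fun k => ?_)) 0
      by_cases h : k = j
      · subst h; simp [hP]
      · simp [hP, h]
    have hαi : Function.Injective α := fun x y h => hj (by rw [h1, h1, h])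
    let γ := MulEquiv.ofBijective _ (Finite.injective_iff_bijective.mp hj)
    obtain ⟨x, hx⟩ := @exists_ne _ (hA 0).1 1
    have h2 := fitting (hB j) (α.comp (γ.symm.toMonoidHom.comp β)) (fun g y => by
      show α (γ.symm (β _)) = g * α (γ.symm (β y)) * g⁻¹
      have h3 : γ.symm (β (g * y * g⁻¹)) = β g * γ.symm (β y) * (β g)⁻¹ := γ.injective (by
        show γ (γ.symm _) = θ {j} _
        rw [γ.apply_symm_apply, hθ2, map_mul, map_mul, map_inv]
        exact congrArg (β g * · * (β g)⁻¹) (γ.apply_symm_apply _).symm)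
      rw [h3, hα, hα, hβ g, mulSingle_conj]
      simp) (x := α x) (fun h => hx (hαi (h.trans (map_one α).symm))) (by
      show α (γ.symm (β (α x))) = α x
      rw [← h1]
      exact congrArg α (γ.symm_apply_apply x))
    have hβi : Function.Injective β := Function.Injective.of_comp (f := α ∘ γ.symm) h2
    have hc : Nat.card (A 0) = Nat.card (B j) :=
      le_antisymm (Nat.card_le_card_of_injective _ hαi) (Nat.card_le_card_of_injective _ hβi)
    obtain ⟨n, rfl⟩ : ∃ k, n = k + 1 := Nat.exists_eq_succ_of_ne_zero (by rintro rfl; exact j.elim0)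
    let δ : (∀ k : Fin n, B (j.succAbove k)) →* (∀ i : Fin m, A i.succ) :=
      MonoidHom.mk' (fun b i => e.symm (Fin.insertNth j 1 b) i.succ) fun a b => by
        funext i
        rw [Pi.mul_apply, ← Pi.mul_apply, ← map_mul, ← Fin.insertNth_mul, one_mul]
    have hδ : Function.Injective δ := by
      rw [injective_iff_map_eq_one]
      intro b hb
      have h3 : e.symm (Fin.insertNth j 1 b) =
          Pi.mulSingle 0 (e.symm (Fin.insertNth j 1 b) 0) := by
        funext i
        refine Fin.cases (by simp) (fun i => ?_) i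
        rw [Pi.mulSingle_eq_of_ne (Fin.succ_ne_zero i)]
        exact congrFun hb i
      have h4 : α (e.symm (Fin.insertNth j 1 b) 0) = 1 := by
        rw [hα, ← h3, e.apply_symm_apply, Fin.insertNth_apply_same]
      rw [hαi (h4.trans (map_one α).symm), Pi.mulSingle_one, map_eq_one_iff _ e.symm.injective] at h3
      funext k
      simpa using congrFun h3 (j.succAbove k)
    have hc2 : Nat.card (∀ k : Fin n, B (j.succAbove k)) = Nat.card (∀ i : Fin m, A i.succ) := by
      have h3 := Nat.card_congr e.toEquiv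
      rw [Nat.card_pi, Nat.card_pi, Fin.prod_univ_succ, Fin.prod_univ_succAbove _ j, hc] at h3
      rw [Nat.card_pi, Nat.card_pi]
      exact (Nat.eq_of_mul_eq_mul_left Nat.card_pos h3).symm
    obtain ⟨σ, hσ⟩ := ih (fun i => hA i.succ) (fun k => hB (j.succAbove k))
      (MulEquiv.ofBijective δ ((Nat.bijective_iff_injective_and_card δ).mpr ⟨hδ, hc2⟩)).symm
    refine ⟨(finSuccEquiv m).trans (σ.optionCongr.trans (finSuccEquiv' j).symm), fun i => ?_⟩
    refine Fin.cases ?_ (fun i => ?_) i
    · have : (finSuccEquiv m).trans (σ.optionCongr.trans (finSuccEquiv' j).symm) 0 = j := by simp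
      rw [this]
      exact ⟨MulEquiv.ofBijective α ((Nat.bijective_iff_injective_and_card α).mpr ⟨hαi, hc⟩)⟩
    · have : (finSuccEquiv m).trans (σ.optionCongr.trans (finSuccEquiv' j).symm) i.succ =
          j.succAbove (σ i) := by simp
      rw [this]
      exact hσ i


theorem result {m n : ℕ} {A : Fin m → Type*} {B : Fin n → Type*} [∀ i, Group (A i)] [∀ j, Group (B j)] [∀ i, Finite (A i)] [∀ j, Finite (B j)] (hA : ∀ i, Nontrivial (A i) ∧ ∀ H K : Subgroup (A i), H.Normal → K.Normal → H ⊓ K = ⊥ → H ⊔ K = ⊤ → H = ⊥ ∨ K = ⊥) (hB : ∀ j, Nontrivial (B j) ∧ ∀ H K : Subgroup (B j), H.Normal → K.Normal → H ⊓ K = ⊥ → H ⊔ K = ⊤ → H = ⊥ ∨ K = ⊥) (e : ((i : Fin m) → A i) ≃* ((j : Fin n) → B j)) : ∃ σ : Fin m ≃ Fin n, ∀ i, Nonempty (A i ≃* B (σ i)) := by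
  exact main m hA hB e

end Cfsg.Agent.S4223
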