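import Cfsg.Statements.S4227
import Cfsg.Agent.Lib.H9PLenHH
import Cfsg.Agent.Lib.CharBurnside

set_option autoImplicit false
open Cfsg

namespace Cfsg.Agent.S4227

open Subgroup CfsgLib CfsgLib.H9

theorem pExp_one {G : Type*} [Group G] (h : ∀ x : G, x ^ 6 = 1) {p q : ℕ} (hpq : p * q = 6)
    (hc : q.Coprime p) : PExp p 1 G := by
  intro x k hx
  rw [pow_one]
  have h1 : (x ^ p) ^ q = 1 := by rw [← pow_mul, hpq, h]
  have h2 : (x ^ p) ^ p ^ k = 1 := by rw [← pow_mul, mul_comm, pow_mul, hx, one_pow]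
  exact orderOf_eq_one_iff.1 (Nat.eq_one_of_dvd_coprimes (hc.pow_right k)
    (orderOf_dvd_of_pow_eq_one h1) (orderOf_dvd_of_pow_eq_one h2))

/-- A finite group in which every element has order dividing `6` has `2`-length at most `1` and `3`-length at most `1`. -/
theorem result {G : Type*} [Group G] [Finite G] (h : ∀ x : G, x ^ 6 = 1) : Cfsg.PLengthLE 2 1 G ∧ Cfsg.PLengthLE 3 1 G := by
  have h3 : Fact (Nat.Prime 3) := ⟨Nat.prime_three⟩
  have hs : Group.IsSolvable G := by
    refine isSolvable_of_two_primes Nat.prime_two Nat.prime_three fun r hr hd => ?_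
    have := Fact.mk hr
    obtain ⟨x, hx⟩ := exists_prime_orderOf_dvd_card' r hd
    have h1 : r ∣ 2 * 3 := hx ▸ orderOf_dvd_of_pow_eq_one (h x)
    exact (hr.dvd_mul.1 h1).imp (Nat.prime_dvd_prime_iff_eq hr Nat.prime_two).1
      (Nat.prime_dvd_prime_iff_eq hr Nat.prime_three).1
  have e2 := pExp_one h (p := 2) (q := 3) rfl (by norm_num)
  have e3 := pExp_one h (p := 3) (q := 2) rfl (by norm_num)
  refine ⟨pLengthLE_of_pExp 1 (isPSolvable_of_isSolvable hs) e2 ?_,
    pLengthLE_of_pExp 1 (isPSolvable_of_isSolvable hs) e3 ?_⟩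
  · intro q d m hq hd hm hm1 h1
    obtain rfl : m = 1 := by omega
    have := Nat.one_lt_pow (n := d) (by omega) hq.one_lt
    omega
  · intro q d m hq hd hm hm1 h1 Q hQ
    obtain ⟨rfl, -⟩ := fermat_of_pow_add_one Nat.prime_three (by norm_num) hq h1
    have hsq : ∀ a ∈ Q, a * a = 1 := by
      intro a ha
      obtain ⟨k, hk⟩ := hQ ⟨a, ha⟩
      simpa [pow_two] using e2 a k (congrArg Subtype.val hk)
    refine PGrp.isMulCommutative_iff_forall.2 fun a ha b hb => ?_
    have hab := hsq _ (mul_mem ha hb)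
    calc a * b = a * ((a * b) * (a * b)) * b := by rw [hab, mul_one]
      _ = (a * a) * (b * a) * (b * b) := by group
      _ = b * a := by rw [hsq a ha, hsq b hb, one_mul, mul_one]

end Cfsg.Agent.S4227
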