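import Cfsg.Statements.S4274
import Cfsg.Agent.Lib.SylowAction
import Cfsg.Agent.Lib.H9SylowNum
import Cfsg.Agent.Lib.CoreBasic

set_option autoImplicit false
open Cfsg

namespace Cfsg.Agent.S4274

open Subgroup MulAction CfsgLib CfsgLib.H4
open scoped Pointwise
set_option linter.unusedSectionVars false

section
variable {S : Type*} [Group S] [Finite S]

omit [Group S] in
theorem mul_le_ncard {ι : Type*} [Finite ι] (X : Set S) (F : ι → Set S) (hX : ∀ i, F i ⊆ X)
    (hd : ∀ i j x, x ∈ F i → x ∈ F j → i = j) (k : ℕ) (hk : ∀ i, k ≤ (F i).ncard) :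
    Nat.card ι * k ≤ X.ncard := by
  classical
  have := Fintype.ofFinite ι
  have h1 : Nat.card (Σ i, F i) ≤ Nat.card X := Nat.card_le_card_of_injective
    (fun a => (⟨a.2.1, hX _ a.2.2⟩ : X)) (by
      rintro ⟨i, x, hx⟩ ⟨j, y, hy⟩ h
      have h' : x = y := congrArg Subtype.val h
      subst h'
      obtain rfl := hd i j x hx hy
      rfl)
  rw [Nat.card_sigma] at h1
  refine le_trans ?_ h1
  rw [Nat.card_eq_fintype_card, ← smul_eq_mul]
  exact Finset.card_nsmul_le_sum _ _ _ fun i _ => hk i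

variable {p : ℕ} [hp : Fact p.Prime]

theorem card_sylow {m : ℕ} (hm : Nat.card S = p * m) (hpm : ¬ p ∣ m) (P : Sylow p S) :
    Nat.card (P : Subgroup S) = p := by
  have h0 : m ≠ 0 := by rintro rfl; exact hpm (dvd_zero p)
  rw [P.card_eq_multiplicity, hm, Nat.factorization_mul hp.out.ne_zero h0, Finsupp.add_apply,
    hp.out.factorization_self, Nat.factorization_eq_zero_of_not_dvd hpm, add_zero, pow_one]

theorem eq_of_mem {m : ℕ} (hm : Nat.card S = p * m) (hpm : ¬ p ∣ m) {P Q : Sylow p S} {x : S}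
    (hx : x ≠ 1) (hP : x ∈ (P : Subgroup S)) (hQ : x ∈ (Q : Subgroup S)) : P = Q := by
  have key : ∀ P : Sylow p S, x ∈ (P : Subgroup S) → zpowers x = P := fun P hP => by
    refine eq_of_le_of_card_ge (zpowers_le.2 hP) ?_
    have h1 := card_dvd_of_le (zpowers_le.2 hP)
    rw [card_sylow hm hpm] at h1 ⊢
    rcases (Nat.dvd_prime hp.out).1 h1 with h | h
    · exact absurd (zpowers_eq_bot.1 (card_eq_one.1 h)) hx
    · exact h.ge
  exact Sylow.ext ((key P hP).symm.trans (key Q hQ))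

theorem pow_mem {m : ℕ} (hm : Nat.card S = p * m) {x : S} {P : Sylow p S}
    (hx : x ∈ centralizer ((P : Subgroup S) : Set S)) : x ^ m ∈ (P : Subgroup S) := by
  have h1 : (x ^ m) ^ p = 1 := by rw [← pow_mul, mul_comm, ← hm, pow_card_eq_one']
  obtain ⟨k, -, hk⟩ := (Nat.dvd_prime_pow hp.out (m := 1) (i := orderOf (x ^ m))).1
    (by rw [pow_one]; exact orderOf_dvd_of_pow_eq_one h1)
  exact (sylow_smul_eq_iff_mem hk P).1 (Sylow.smul_eq_iff_mem_normalizer.2
    (centralizer_le_normalizer _ (Subgroup.pow_mem _ hx m)))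

theorem exists_cent {m : ℕ} (hm : Nat.card S = p * m) (hpm : ¬ p ∣ m) {x : S}
    (hx : p ∣ orderOf x) : x ^ m ≠ 1 ∧ ∃ P : Sylow p S, x ^ m ∈ (P : Subgroup S) ∧
      x ∈ centralizer ((P : Subgroup S) : Set S) := by
  have h1 : (x ^ m) ^ p = 1 := by rw [← pow_mul, mul_comm, ← hm, pow_card_eq_one']
  have h2 : x ^ m ≠ 1 := fun h => hpm (hx.trans (orderOf_dvd_of_pow_eq_one h))
  have h3 : orderOf (x ^ m) = p := orderOf_eq_prime h1 h2
  obtain ⟨P, hP⟩ := (IsPGroup.of_card (p := p) (G := zpowers (x ^ m)) (n := 1)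
    (by rw [Nat.card_zpowers, h3, pow_one])).exists_le_sylow
  refine ⟨h2, P, zpowers_le.1 hP, ?_⟩
  have : zpowers (x ^ m) = P := eq_of_le_of_card_ge hP
    (by rw [card_sylow hm hpm, Nat.card_zpowers, h3])
  rw [← this, centralizer_coe_zpowers, mem_centralizer_singleton_iff]
  exact (Commute.self_pow x m).eq

theorem card_cent (P Q : Sylow p S) : Nat.card (centralizer ((P : Subgroup S) : Set S)) =
    Nat.card (centralizer ((Q : Subgroup S) : Set S)) := by
  obtain ⟨g, rfl⟩ := exists_smul_eq S P Q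
  refine Nat.card_congr ⟨fun x => ⟨g * x * g⁻¹, ?_⟩, fun x => ⟨g⁻¹ * x * g, ?_⟩,
    fun x => Subtype.ext (by simp [mul_assoc]), fun x => Subtype.ext (by simp [mul_assoc])⟩
  · rintro _ ⟨y, hy, rfl⟩
    have := x.2 y hy
    simp only [MulAut.smul_def, MulAut.conj_apply, MulDistribMulAction.toMonoidEnd_apply,
      MulDistribMulAction.toMonoidHom_apply]
    calc g * y * g⁻¹ * (g * x * g⁻¹) = g * (y * x) * g⁻¹ := by group
      _ = _ := by rw [this]; group
  · intro y hy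
    have := x.2 (g * y * g⁻¹) ⟨y, hy, rfl⟩
    calc y * (g⁻¹ * x * g) = g⁻¹ * (g * y * g⁻¹ * x) * g := by group
      _ = _ := by rw [this]; group

theorem sing_bound {m : ℕ} (hm : Nat.card S = p * m) (hpm : ¬ p ∣ m) (P : Sylow p S) :
    Nat.card (centralizer ((P : Subgroup S) : Set S)) -
      Nat.card (centralizer ((P : Subgroup S) : Set S)) / p ≤
      {x | x ∈ centralizer ((P : Subgroup S) : Set S) ∧ x ^ m ≠ 1}.ncard := by
  set C := centralizer ((P : Subgroup S) : Set S) with hC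
  have hPc := card_sylow hm hpm P
  have hcyc : IsCyclic (P : Subgroup S) := isCyclic_of_prime_card hPc
  have hPC : (P : Subgroup S) ≤ C := le_centralizer _
  have h1 : Nat.card ({x | x ∈ C ∧ x ^ m = 1} × (P : Subgroup S)) ≤ Nat.card C :=
    Nat.card_le_card_of_injective (fun a => (⟨a.1.1 * a.2.1, C.mul_mem a.1.2.1 (hPC a.2.2)⟩ : C)) (by
      rintro ⟨⟨x, hx, hx'⟩, ⟨y, hy⟩⟩ ⟨⟨z, hz, hz'⟩, ⟨w, hw⟩⟩ h
      have h' : x * y = z * w := congrArg Subtype.val h
      have h2 : y ^ m = w ^ m := by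
        have a1 : (x * y) ^ m = y ^ m := by
          rw [(show Commute x y from (hx y hy).symm).mul_pow, hx', one_mul]
        have a2 : (z * w) ^ m = w ^ m := by
          rw [(show Commute z w from (hz w hw).symm).mul_pow, hz', one_mul]
        rw [← a1, h', a2]
      have h3 : y = w := congrArg Subtype.val ((powCoprime (G := (P : Subgroup S)) (n := m)
        (by rw [hPc]; exact (Nat.Prime.coprime_iff_not_dvd hp.out).2 hpm)).injective
        (a₁ := ⟨y, hy⟩) (a₂ := ⟨w, hw⟩) (Subtype.ext h2))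
      subst h3
      obtain rfl := mul_right_cancel h'
      rfl)
  rw [Nat.card_prod, hPc] at h1
  have h2 : {x | x ∈ C ∧ x ^ m = 1}.ncard ≤ Nat.card C / p :=
    (Nat.le_div_iff_mul_le hp.out.pos).2 h1
  have h3 : Nat.card C ≤ {x | x ∈ C ∧ x ^ m = 1}.ncard + {x | x ∈ C ∧ x ^ m ≠ 1}.ncard := by
    refine le_trans (le_of_eq ?_) (Set.ncard_union_le _ _)
    change (C : Set S).ncard = _
    congr 1
    ext x
    simp only [SetLike.mem_coe, Set.mem_union, Set.mem_ofPred_eq]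
    tauto
  omega

def Good (g p : ℕ) (o : ℕ × ℕ) : Prop :=
  ∃ e, o.1 * e * o.2 = g ∧ o.1 % p = 1 ∧ 19 ≤ o.1 ∧ e ∣ p - 1 ∧ 1 < e ∧ p ∣ o.2

theorem faithful [IsSimpleGroup S] (h : Nat.card (Sylow p S) ≠ 1) : FaithfulSMul S (Sylow p S) := by
  obtain ⟨g, P, hg⟩ := exists_sylow_smul_ne h
  exact faithfulSMul_of_simple hg

theorem data [IsSimpleGroup S] {m : ℕ} (hm : Nat.card S = p * m) (hpm : ¬ p ∣ m) (hm1 : m ≠ 1)
    (h19 : 19 ∣ Nat.card S) : ∃ o : ℕ × ℕ, Good (Nat.card S) p o ∧ o.1 = Nat.card (Sylow p S) ∧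
      (∀ P : Sylow p S, o.2 = Nat.card (centralizer ((P : Subgroup S) : Set S))) ∧
      o.1 * (p - 1) ≤ {x : S | orderOf x = p}.ncard ∧
      o.1 * (o.2 - o.2 / p) ≤ {x : S | p ∣ orderOf x}.ncard ∧
      (∀ q, q.Prime → q ≠ p → (q ∣ o.2 ↔ ∃ x : S, p ∣ orderOf x ∧ q ∣ orderOf x)) ∧
      (∀ q, q.Prime → q ≠ p → q ∣ o.2 → ∃ f < o.1, f % p = 1 ∧ f % q = o.1 % q) := by
  obtain ⟨P⟩ : Nonempty (Sylow p S) := inferInstance
  have hPc := card_sylow hm hpm P
  have hcyc : IsCyclic (P : Subgroup S) := isCyclic_of_prime_card hPc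
  set C := centralizer ((P : Subgroup S) : Set S) with hC
  set N := normalizer ((P : Subgroup S) : Set S) with hN
  have hPC : (P : Subgroup S) ≤ C := le_centralizer _
  have hCN : C ≤ N := centralizer_le_normalizer _
  have hPtop : (P : Subgroup S) ≠ ⊤ := fun h => hm1 (by
    rw [h, card_top, hm] at hPc
    exact (Nat.mul_eq_left hp.out.ne_zero).1 hPc)
  have hPbot : (P : Subgroup S) ≠ ⊥ := fun h => hp.out.ne_one (by rw [← hPc, h, card_bot])
  have hn1 : Nat.card (Sylow p S) ≠ 1 := fun h => by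
    have : Subsingleton (Sylow p S) := (Nat.card_eq_one_iff_unique.1 h).1
    rcases (Sylow.normal_of_subsingleton P).eq_bot_or_eq_top with h | h <;> contradiction
  have hf := faithful hn1
  refine ⟨(Nat.card (Sylow p S), Nat.card C), ⟨C.relIndex N, ?_, ?_, ?_, ?_, ?_, ?_⟩, rfl,
    fun Q => card_cent P Q, ?_, ?_, fun q hq hqp => ⟨fun h => ?_, ?_⟩, fun q hq hqp h => ?_⟩
  · simp only
    rw [H9.card_sylow_eq_index P, mul_comm N.index, relIndex_mul_index hCN, index_mul_card]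
  · exact Eq.trans (card_sylow_modEq_one p S) (Nat.mod_eq_of_lt hp.out.one_lt)
  · have h1 := card_dvd_of_injective (toPermHom S (Sylow p S)) toPerm_injective
    rw [Nat.card_perm] at h1
    exact (Nat.Prime.dvd_factorial (by norm_num)).1 (h19.trans h1)
  · have := relIndex_centralizer_dvd_totient (P : Subgroup S)
    rwa [hPc, Nat.totient_prime hp.out] at this
  · have h0 : C.relIndex N ≠ 0 := FiniteIndex.index_ne_zero
    have h1 : C.relIndex N ≠ 1 := fun h => by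
      have h2 := MonoidHom.ker_transferSylow_isComplement' P (relIndex_eq_one.1 h)
      rcases (MonoidHom.normal_ker (MonoidHom.transferSylow P (relIndex_eq_one.1 h))).eq_bot_or_eq_top
        with h3 | h3
      · rw [h3] at h2; exact hPtop (isComplement'_bot_left.1 h2)
      · rw [h3] at h2; exact hPbot (isComplement'_top_left.1 h2)
    omega
  · exact hPc ▸ card_dvd_of_le hPC
  · refine mul_le_ncard _ (fun Q : Sylow p S => ((Q : Subgroup S) : Set S) \ {1})
      (fun Q x hx => orderOf_eq_prime ?_ hx.2) (fun Q R x hQ hR => eq_of_mem hm hpm hQ.2 hQ.1 hR.1)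
      _ fun Q => ?_
    · have := pow_card_eq_one' (G := (Q : Subgroup S)) (x := ⟨x, hx.1⟩)
      rw [card_sylow hm hpm] at this
      exact congrArg Subtype.val this
    · rw [Set.ncard_sdiff_singleton_of_mem (Q : Subgroup S).one_mem]
      exact Nat.sub_le_sub_right (card_sylow hm hpm Q).ge 1
  · refine mul_le_ncard _ (fun Q : Sylow p S =>
      {x | x ∈ centralizer ((Q : Subgroup S) : Set S) ∧ x ^ m ≠ 1}) (fun Q x hx => ?_)
      (fun Q R x hQ hR => eq_of_mem hm hpm hQ.2 (pow_mem hm hQ.1) (pow_mem hm hR.1)) _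
      fun Q => (card_cent P Q) ▸ sing_bound hm hpm Q
    by_contra h
    refine hx.2 (orderOf_dvd_iff_pow_eq_one.1 (((Nat.Prime.coprime_iff_not_dvd hp.out).2 h).symm.dvd_of_dvd_mul_left ?_))
    rw [← hm]; exact orderOf_dvd_natCard x
  · have : Fact q.Prime := ⟨hq⟩
    obtain ⟨y, hy⟩ := exists_prime_orderOf_dvd_card' q h
    obtain ⟨x, hx, hx'⟩ := exists_zpowers_eq_of_card_prime hPc
    have hc : Commute x y := y.2 x (by rw [← hx']; exact mem_zpowers x)
    rw [← orderOf_coe] at hy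
    refine ⟨x * y, ?_⟩
    rw [hc.orderOf_mul_eq_mul_orderOf_of_coprime
      (by rw [hx, hy]; exact (Nat.coprime_primes hp.out hq).2 hqp.symm), hx, hy]
    exact ⟨dvd_mul_right _ _, dvd_mul_left _ _⟩
  · rintro ⟨x, h1, h2⟩
    obtain ⟨-, Q, -, hQ⟩ := exists_cent hm hpm h1
    simp only
    rw [card_cent P Q]
    exact h2.trans (orderOf_dvd_natCard _ hQ)
  · have : Fact q.Prime := ⟨hq⟩
    obtain ⟨y, hy⟩ := exists_prime_orderOf_dvd_card' q h
    rw [← orderOf_coe] at hy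
    obtain ⟨x, hx, hx'⟩ := exists_zpowers_eq_of_card_prime hPc
    have hc : Commute x y := y.2 x (by rw [← hx']; exact mem_zpowers x)
    refine ⟨(fixedBy (Sylow p S) (y : S)).ncard, ncard_fixedBy_lt (fun h => hq.ne_one (by
      rw [← hy, h, orderOf_one])), ?_, (card_modEq_ncard_fixedBy (k := 1) (by rw [hy, pow_one])).symm⟩
    have h1 := ncard_modEq_ncard_fixedBy (k := 1) (y := x) (by rw [hx, pow_one])
      (fixedBy (Sylow p S) (y : S)) fun R hR => smul_mem_fixedBy_of_commute hc hR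
    have h2 : fixedBy (Sylow p S) (y : S) ∩ fixedBy (Sylow p S) x = {P} := by
      have hxP : x ∈ (P : Subgroup S) := by rw [← hx']; exact mem_zpowers x
      ext R
      constructor
      · rintro ⟨-, hR⟩
        exact eq_of_mem hm hpm (fun h => hp.out.ne_one (by rw [← hx, h, orderOf_one]))
          ((sylow_smul_eq_iff_mem (k := 1) (by rw [hx, pow_one]) R).1 hR) hxP
      · rintro rfl
        exact ⟨Sylow.smul_eq_iff_mem_normalizer.2 (hCN y.2),
          Sylow.smul_eq_iff_mem_normalizer.2 (hCN (hPC hxP))⟩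
    rw [h2, Set.ncard_singleton] at h1
    exact Eq.trans h1 (Nat.mod_eq_of_lt hp.out.one_lt)

end

def D : List ℕ := [1, 2, 3, 4, 5, 6, 7, 8, 10, 11, 12, 14, 15, 19, 20, 21, 22, 24, 28, 30, 33, 35, 38, 40, 42, 44, 55, 56, 57, 60, 66, 70, 76, 77, 84, 88, 95, 105, 110, 114, 120, 132, 133, 140, 152, 154, 165, 168, 190, 209, 210, 220, 228, 231, 264, 266, 280, 285, 308, 330, 380, 385, 399, 418, 420, 440, 456, 462, 532, 570, 616, 627, 660, 665, 760, 770, 798, 836, 840, 924, 1045, 1064, 1140, 1155, 1254, 1320, 1330, 1463, 1540, 1596, 1672, 1848, 1995, 2090, 2280, 2310, 2508, 2660, 2926, 3080, 3135, 3192, 3990, 4180, 4389, 4620, 5016, 5320, 5852, 6270, 7315, 7980, 8360, 8778, 9240, 11704, 12540, 14630, 15960, 17556, 21945, 25080, 29260, 35112, 43890, 58520, 87780, 175560]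

theorem mem_D {d : ℕ} (h : d ∣ 175560) : d ∈ D := by
  rw [show 175560 = 2 ^ 3 * (3 * (5 * (7 * (11 * 19)))) by norm_num] at h
  obtain ⟨a, _, ha, h1, rfl⟩ := Nat.dvd_mul.1 h
  obtain ⟨b, _, hb, h2, rfl⟩ := Nat.dvd_mul.1 h1
  obtain ⟨c, _, hc, h3, rfl⟩ := Nat.dvd_mul.1 h2
  obtain ⟨d, _, hd, h4, rfl⟩ := Nat.dvd_mul.1 h3
  obtain ⟨e, f, he, hf, rfl⟩ := Nat.dvd_mul.1 h4
  clear h h1 h2 h3 h4
  obtain ⟨k, hk, rfl⟩ := (Nat.dvd_prime_pow Nat.prime_two).1 ha
  rcases (Nat.dvd_prime (by norm_num)).1 hb with rfl | rfl <;>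
  rcases (Nat.dvd_prime (by norm_num)).1 hc with rfl | rfl <;>
  rcases (Nat.dvd_prime (by norm_num)).1 hd with rfl | rfl <;>
  rcases (Nat.dvd_prime (by norm_num)).1 he with rfl | rfl <;>
  rcases (Nat.dvd_prime (by norm_num)).1 hf with rfl | rfl <;>
  interval_cases k <;> decide +kernel

def opts (g p : ℕ) : List (ℕ × ℕ) :=
  if g % p = 0 then (D.filter fun n => n % p = 1 ∧ 19 ≤ n ∧ g % n = 0).flatMap fun n =>
    ((List.range p).filter fun e => 1 < e ∧ (p - 1) % e = 0 ∧ n * e * (g / (n * e)) = g ∧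
      g / (n * e) % p = 0).map fun e => (n, g / (n * e))
  else [(0, 1)]

theorem mem_opts {g p : ℕ} (hg : g ∣ 175560) (hp : p.Prime) {o : ℕ × ℕ} (h : Good g p o) :
    o ∈ opts g p := by
  obtain ⟨n, c⟩ := o
  obtain ⟨e, h1, h2, h3, h4, h5, h6⟩ := h
  simp only at h1 h2 h3 h6
  have hn : n ∣ g := ⟨e * c, by rw [← h1, mul_assoc]⟩
  have hc : g / (n * e) = c := by rw [← h1, Nat.mul_div_cancel_left _ (by positivity)]
  have he : e < p := by
    have := Nat.le_of_dvd (by have := hp.two_le; omega) h4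
    have := hp.two_le
    omega
  rw [opts, if_pos (Nat.mod_eq_zero_of_dvd (h6.trans ⟨n * e, by rw [← h1, mul_comm]⟩))]
  simp only [List.mem_flatMap, List.mem_filter, List.mem_map, List.mem_range, decide_eq_true_eq]
  exact ⟨n, ⟨mem_D (hn.trans hg), h2, h3, Nat.mod_eq_zero_of_dvd hn⟩, e,
    ⟨he, h5, Nat.mod_eq_zero_of_dvd h4, by rw [hc, h1], by rw [hc]; exact Nat.mod_eq_zero_of_dvd h6⟩,
    by rw [hc]⟩

def a (p : ℕ) (o : ℕ × ℕ) : ℕ := o.1 * (o.2 - o.2 / p)
def b (p : ℕ) (o : ℕ × ℕ) : ℕ := o.1 * (p - 1)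

set_option synthInstance.maxSize 4000 in
set_option synthInstance.maxHeartbeats 400000 in
theorem numeric : ∀ g ∈ D, 19 ∣ g → g ≠ 175560 → ∀ o19 ∈ opts g 19,
    (∀ q ∈ [2, 3, 5, 7, 11], q ∣ o19.2 → ∃ f < o19.1, f % 19 = 1 ∧ f % q = o19.1 % q) →
    ∀ o11 ∈ opts g 11, (11 ∣ o19.2 ↔ 19 ∣ o11.2) →
    ∀ o7 ∈ opts g 7, (7 ∣ o19.2 ↔ 19 ∣ o7.2) → (7 ∣ o11.2 ↔ 11 ∣ o7.2) →
    ∀ o5 ∈ opts g 5, (5 ∣ o19.2 ↔ 19 ∣ o5.2) → (5 ∣ o11.2 ↔ 11 ∣ o5.2) → (5 ∣ o7.2 ↔ 7 ∣ o5.2) →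
    ∀ o3 ∈ opts g 3, (3 ∣ o19.2 ↔ 19 ∣ o3.2) → (3 ∣ o11.2 ↔ 11 ∣ o3.2) → (3 ∣ o7.2 ↔ 7 ∣ o3.2) →
    (3 ∣ o5.2 ↔ 5 ∣ o3.2) →
    (o19 = (20, 19) ∧ 8 ∣ g) ∨
    ((¬ 11 ∣ o19.2 ∧ ¬ 7 ∣ o19.2 ∧ ¬ 7 ∣ o11.2 ∧ ¬ 5 ∣ o19.2 ∧ ¬ 5 ∣ o11.2 ∧ ¬ 5 ∣ o7.2) ∧
      g < b 3 o3 + a 5 o5 + a 7 o7 + a 11 o11 + a 19 o19 + 1) ∨
    ((¬ 11 ∣ o19.2 ∧ ¬ 7 ∣ o19.2 ∧ ¬ 7 ∣ o11.2 ∧ ¬ 3 ∣ o19.2 ∧ ¬ 3 ∣ o11.2 ∧ ¬ 3 ∣ o7.2) ∧
      g < a 3 o3 + b 5 o5 + a 7 o7 + a 11 o11 + a 19 o19 + 1) ∨
    (¬ 5 ∣ o19.2 ∧ g < b 3 o3 + a 5 o5 + b 7 o7 + b 11 o11 + a 19 o19 + 1) := by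
  decide +kernel

section
variable {S : Type*} [Group S] [Finite S]

theorem five_le (X1 X2 X3 X4 X5 : Set S) (h1 : (1 : S) ∉ X1 ∪ X2 ∪ X3 ∪ X4 ∪ X5)
    (h12 : Disjoint X1 X2) (h3 : Disjoint X1 X3 ∧ Disjoint X2 X3)
    (h4 : Disjoint X1 X4 ∧ Disjoint X2 X4 ∧ Disjoint X3 X4)
    (h5 : Disjoint X1 X5 ∧ Disjoint X2 X5 ∧ Disjoint X3 X5 ∧ Disjoint X4 X5) :
    X1.ncard + X2.ncard + X3.ncard + X4.ncard + X5.ncard + 1 ≤ Nat.card S := by
  rw [← Set.ncard_union_eq h12, ← Set.ncard_union_eq (by simp [h3]),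
    ← Set.ncard_union_eq (by simp [h4]), ← Set.ncard_union_eq (by simp [h5]),
    ← Set.ncard_insert_of_notMem h1]
  exact Set.ncard_le_card _

theorem data' [IsSimpleGroup S] (hg : Nat.card S ∣ 175560) (h19 : 19 ∣ Nat.card S)
    (hne : Nat.card S ≠ 19) (p : ℕ) (hp : p.Prime) (h2 : ¬ p * p ∣ 175560) :
    ∃ o ∈ opts (Nat.card S) p, b p o ≤ {x : S | orderOf x = p}.ncard ∧
      a p o ≤ {x : S | p ∣ orderOf x}.ncard ∧
      (∀ q, q.Prime → q ≠ p → (q ∣ o.2 ↔ ∃ x : S, p ∣ orderOf x ∧ q ∣ orderOf x)) := by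
  have : Fact p.Prime := ⟨hp⟩
  by_cases h : p ∣ Nat.card S
  · obtain ⟨m, hm⟩ := h
    obtain ⟨o, h1, -, -, h3, h4, h5, -⟩ := data hm
      (fun h => h2 ((mul_dvd_mul_left p h).trans (hm ▸ hg))) (by
        rintro rfl
        rw [hm, mul_one] at h19 hne
        exact hne ((Nat.prime_dvd_prime_iff_eq (by norm_num) hp).1 h19).symm) h19
    exact ⟨o, mem_opts hg hp h1, h3, h4, h5⟩
  · refine ⟨(0, 1), by rw [opts, if_neg (fun h' => h (Nat.dvd_of_mod_eq_zero h'))]; simp,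
      by simp [b], by simp [a], fun q hq _ => ⟨fun h => absurd (Nat.dvd_one.1 h) hq.ne_one, ?_⟩⟩
    rintro ⟨x, hx, -⟩
    exact absurd (hx.trans (orderOf_dvd_natCard x)) h

theorem disj_aa {p q : ℕ} (h : ¬ ∃ x : S, q ∣ orderOf x ∧ p ∣ orderOf x) :
    Disjoint {x : S | p ∣ orderOf x} {x : S | q ∣ orderOf x} :=
  Set.disjoint_left.2 fun x h1 h2 => h ⟨x, h2, h1⟩

theorem disj_ba {p q : ℕ} (h : ¬ q ∣ p) :
    Disjoint {x : S | orderOf x = p} {x : S | q ∣ orderOf x} :=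
  Set.disjoint_left.2 fun _ h1 h2 => h (h1 ▸ h2)

theorem disj_bb {p q : ℕ} (h : p ≠ q) :
    Disjoint {x : S | orderOf x = p} {x : S | orderOf x = q} :=
  Set.disjoint_left.2 fun _ h1 h2 => h (h1.symm.trans h2)

theorem not_twenty [IsSimpleGroup S] [Fact (Nat.Prime 19)] {m : ℕ} (hm : Nat.card S = 19 * m)
    (hpm : ¬ 19 ∣ m) (h8 : 8 ∣ Nat.card S) (hn : Nat.card (Sylow 19 S) = 20)
    (hc : ∀ P : Sylow 19 S, Nat.card (centralizer ((P : Subgroup S) : Set S)) = 19) : False := by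
  classical
  have := Fintype.ofFinite (Sylow 19 S)
  obtain ⟨P⟩ : Nonempty (Sylow 19 S) := inferInstance
  have hPc := card_sylow hm hpm P
  have h1 : 2 ∣ Nat.card (normalizer ((P : Subgroup S) : Set S)) := by
    have := (normalizer ((P : Subgroup S) : Set S)).index_mul_card
    rw [← H9.card_sylow_eq_index P, hn] at this
    omega
  obtain ⟨⟨t, htN⟩, ht⟩ := exists_prime_orderOf_dvd_card' 2 h1
  rw [← orderOf_coe] at ht
  simp only at ht
  have ht2 : t ^ 2 = 1 := by rw [← ht, pow_orderOf_eq_one]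
  have hs := sign_toPerm_of_sq (Ω := Sylow 19 S) ht2
  rw [sign_eq_one_of_simple (by intro h; have := Nat.le_of_dvd two_pos (h8.trans h); omega), hn] at hs
  have hmod := card_modEq_ncard_fixedBy (Ω := Sylow 19 S) (p := 2) (k := 1) (y := t) (by rw [ht, pow_one])
  have hP : P ∈ fixedBy (Sylow 19 S) t := Sylow.smul_eq_iff_mem_normalizer.2 htN
  have key : ∀ Q R : Sylow 19 S, Q ≠ P → R ≠ P → t • Q = Q → t • R = R → Q = R := by
    intro Q R hQ hR h1 h2
    have hst : ∀ x ∈ (P : Subgroup S), x • Q = Q → x = 1 := fun x hx h => by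
      by_contra hx1
      obtain ⟨k, hk⟩ := IsPGroup.iff_orderOf.1 P.isPGroup' ⟨x, hx⟩
      rw [← orderOf_coe] at hk
      exact hQ (eq_of_mem hm hpm hx1 ((sylow_smul_eq_iff_mem hk Q).1 h) hx)
    have hinj : Function.Injective fun x : (P : Subgroup S) =>
        (⟨(x : S) • Q, fun h => hQ (by
          rw [← inv_smul_smul (x : S) Q, h]
          exact Sylow.smul_eq_iff_mem_normalizer.2 (le_normalizer (inv_mem x.2)))⟩ :
          {R : Sylow 19 S // R ≠ P}) := fun x y h => by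
      have h' : (x : S) • Q = (y : S) • Q := congrArg Subtype.val h
      have := hst ((y : S)⁻¹ * x) (mul_mem (inv_mem y.2) x.2) (by rw [mul_smul, h', inv_smul_smul])
      exact Subtype.ext (inv_mul_eq_one.1 this).symm
    obtain ⟨⟨x, hx⟩, hxR⟩ := ((Nat.bijective_iff_injective_and_card _).2 ⟨hinj, by
      rw [hPc, Nat.card_eq_fintype_card, Fintype.card_subtype_compl, Fintype.card_subtype_eq,
        ← Nat.card_eq_fintype_card, hn]⟩).2 ⟨R, hR⟩
    have hxR' : x • Q = R := congrArg Subtype.val hxR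
    have h3 := hst (x⁻¹ * (t * x * t⁻¹)) (mul_mem (inv_mem hx) ((mem_normalizer_iff.1 htN x).1 hx)) (by
      rw [mul_smul, mul_smul, mul_smul, inv_smul_eq_iff.2 h1.symm, hxR', h2, ← hxR', inv_smul_smul])
    by_contra hQR
    have hx1 : x ≠ 1 := by rintro rfl; exact hQR (by simpa using hxR')
    have h4 : zpowers x = P := by
      refine eq_of_le_of_card_ge (zpowers_le.2 hx) ?_
      have h1 := card_dvd_of_le (zpowers_le.2 hx)
      rw [hPc] at h1 ⊢
      rcases (Nat.dvd_prime (by norm_num)).1 h1 with h | h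
      · exact absurd (zpowers_eq_bot.1 (card_eq_one.1 h)) hx1
      · exact h.ge
    have h5 : t ∈ centralizer ((P : Subgroup S) : Set S) := by
      rw [← h4, centralizer_coe_zpowers, mem_centralizer_singleton_iff]
      calc t * x = x * (x⁻¹ * (t * x * t⁻¹)) * t := by group
        _ = x * t := by rw [h3, mul_one]
    have h6 := orderOf_dvd_natCard _ h5
    rw [ht, hc] at h6
    omega
  have hle : (fixedBy (Sylow 19 S) t).ncard ≤ 2 := by
    rw [← Set.ncard_sdiff_singleton_add_one hP]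
    exact Nat.succ_le_succ ((Set.ncard_le_one (Set.toFinite _)).2
      fun Q hQ R hR => key Q R hQ.2 hR.2 hQ.1 hR.1)
  have hpos : 0 < (fixedBy (Sylow 19 S) t).ncard := (Set.ncard_pos (Set.toFinite _)).2 ⟨P, hP⟩
  rw [hn, Nat.ModEq] at hmod
  have h2 : (fixedBy (Sylow 19 S) t).ncard = 2 := by omega
  rw [h2] at hs
  exact absurd hs (by decide)

theorem no_simple [IsSimpleGroup S] (hg : Nat.card S ∣ 175560) (h19 : 19 ∣ Nat.card S)
    (hne : Nat.card S ≠ 19) : Nat.card S = 175560 := by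
  by_contra hlt
  have : Fact (Nat.Prime 19) := ⟨by norm_num⟩
  obtain ⟨m, hm⟩ := id h19
  have hpm : ¬ 19 ∣ m := fun h => absurd ((mul_dvd_mul_left 19 h).trans (hm ▸ hg)) (by norm_num)
  obtain ⟨o19, g19, n19, c19, b19, a19, i19, f19⟩ := data hm hpm (by rintro rfl; exact hne hm) h19
  obtain ⟨o11, g11, b11, a11, i11⟩ := data' hg h19 hne 11 (by norm_num) (by norm_num)
  obtain ⟨o7, g7, b7, a7, i7⟩ := data' hg h19 hne 7 (by norm_num) (by norm_num)
  obtain ⟨o5, g5, b5, a5, i5⟩ := data' hg h19 hne 5 (by norm_num) (by norm_num)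
  obtain ⟨o3, g3, b3, a3, i3⟩ := data' hg h19 hne 3 (by norm_num) (by norm_num)
  have sw : ∀ p q : ℕ, (∃ x : S, p ∣ orderOf x ∧ q ∣ orderOf x) ↔
      ∃ x : S, q ∣ orderOf x ∧ p ∣ orderOf x := fun p q => by simp only [and_comm]
  have p3 : Nat.Prime 3 := by norm_num
  have p5 : Nat.Prime 5 := by norm_num
  have p7 : Nat.Prime 7 := by norm_num
  have p11 : Nat.Prime 11 := by norm_num
  have p19 : Nat.Prime 19 := by norm_num
  rcases numeric _ (mem_D hg) h19 hlt o19 (mem_opts hg p19 g19) (fun q hq => f19 q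
      (by fin_cases hq <;> norm_num) (by fin_cases hq <;> norm_num))
    o11 g11 (by rw [i19 _ p11 (by norm_num), i11 _ p19 (by norm_num), sw])
    o7 g7 (by rw [i19 _ p7 (by norm_num), i7 _ p19 (by norm_num), sw])
    (by rw [i11 _ p7 (by norm_num), i7 _ p11 (by norm_num), sw])
    o5 g5 (by rw [i19 _ p5 (by norm_num), i5 _ p19 (by norm_num), sw])
    (by rw [i11 _ p5 (by norm_num), i5 _ p11 (by norm_num), sw])
    (by rw [i7 _ p5 (by norm_num), i5 _ p7 (by norm_num), sw])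
    o3 g3 (by rw [i19 _ p3 (by norm_num), i3 _ p19 (by norm_num), sw])
    (by rw [i11 _ p3 (by norm_num), i3 _ p11 (by norm_num), sw])
    (by rw [i7 _ p3 (by norm_num), i3 _ p7 (by norm_num), sw])
    (by rw [i5 _ p3 (by norm_num), i3 _ p5 (by norm_num), sw]) with
    ⟨h, h8⟩ | ⟨⟨h1, h2, h3, h4, h5, h6⟩, h⟩ | ⟨⟨h1, h2, h3, h4, h5, h6⟩, h⟩ | ⟨h1, h⟩
  · subst h
    exact not_twenty hm hpm h8 n19.symm fun P => (c19 P).symm
  · rw [i19 _ (by norm_num) (by norm_num)] at h1 h2 h4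
    rw [i11 _ (by norm_num) (by norm_num)] at h3 h5
    rw [i7 _ (by norm_num) (by norm_num)] at h6
    have := five_le (S := S) _ _ _ _ _ (by simp) (disj_ba (p := 3) (q := 5) (by norm_num))
      ⟨disj_ba (by norm_num), disj_aa h6⟩ ⟨disj_ba (by norm_num), disj_aa h5, disj_aa h3⟩
      ⟨disj_ba (by norm_num), disj_aa h4, disj_aa h2, disj_aa h1⟩
    unfold a at *
    omega
  · rw [i19 _ (by norm_num) (by norm_num)] at h1 h2 h4
    rw [i11 _ (by norm_num) (by norm_num)] at h3 h5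
    rw [i7 _ (by norm_num) (by norm_num)] at h6
    have := five_le (S := S) _ _ _ _ _ (by simp) (disj_ba (p := 5) (q := 3) (by norm_num)).symm
      ⟨disj_aa h6, disj_ba (by norm_num)⟩ ⟨disj_aa h5, disj_ba (by norm_num), disj_aa h3⟩
      ⟨disj_aa h4, disj_ba (by norm_num), disj_aa h2, disj_aa h1⟩
    unfold a at *
    omega
  · rw [i19 _ (by norm_num) (by norm_num)] at h1
    have := five_le (S := S) _ _ _ _ _ (by simp) (disj_ba (p := 3) (q := 5) (by norm_num))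
      ⟨disj_bb (q := 7) (by norm_num), (disj_ba (by norm_num)).symm⟩
      ⟨disj_bb (q := 11) (by norm_num), (disj_ba (by norm_num)).symm, disj_bb (by norm_num)⟩
      ⟨disj_ba (by norm_num), disj_aa h1, disj_ba (by norm_num), disj_ba (by norm_num)⟩
    unfold a at *
    omega

end

theorem main.{u} [Fact (Nat.Prime 19)] (X : Type u) [Group X] [Finite X] :
    Nat.card X ∣ 175560 → (Nat.card X = 175560 → ¬ IsSimpleGroup X) →
      Nat.card (Sylow 19 X) = 1 := by
  refine card_induction (P := fun X _ _ => Nat.card X ∣ 175560 →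
    (Nat.card X = 175560 → ¬ IsSimpleGroup X) → Nat.card (Sylow 19 X) = 1) ?_ X
  intro X _ _ ih hg hs
  obtain ⟨P⟩ : Nonempty (Sylow 19 X) := inferInstance
  have fin : (P : Subgroup X).Normal → Nat.card (Sylow 19 X) = 1 := fun h =>
    Nat.card_eq_one_iff_unique.2 ⟨(Sylow.unique_of_normal P h).instSubsingleton, inferInstance⟩
  by_cases h19 : 19 ∣ Nat.card X
  swap
  · by_contra h; exact h19 (prime_dvd_card_of_card_sylow_ne_one h)
  by_cases hsim : IsSimpleGroup X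
  · by_cases h : Nat.card X = 19
    · have := isCyclic_of_prime_card h
      exact fin (normal_of_isMulCommutative _)
    · exact absurd hsim (hs (no_simple hg h19 h))
  have hnt : Nontrivial X := Finite.one_lt_card_iff_nontrivial.1
    (lt_of_lt_of_le (by norm_num) (Nat.le_of_dvd Nat.card_pos h19))
  obtain ⟨N, hN, h1, h2⟩ : ∃ N : Subgroup X, N.Normal ∧ N ≠ ⊥ ∧ N ≠ ⊤ := by
    by_contra h
    push Not at h
    exact hsim ⟨fun N hN => by by_cases h0 : N = ⊥ <;> [exact Or.inl h0; exact Or.inr (h N hN h0)]⟩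
  have hle : Nat.card X ≤ 175560 := Nat.le_of_dvd (by norm_num) hg
  have hNX := N.index_mul_card
  by_cases hN19 : 19 ∣ N.index
  · have hN' : ¬ 19 ∣ Nat.card N := fun h =>
      absurd ((mul_dvd_mul hN19 h).trans (hNX ▸ hg)) (by norm_num)
    have hlt : Nat.card (X ⧸ N) < Nat.card X := by
      rw [← hNX]
      exact lt_mul_of_one_lt_right (Nat.pos_of_ne_zero FiniteIndex.index_ne_zero)
        ((one_lt_card_iff_ne_bot N).2 h1)
    rw [H9.card_sylow_eq_quotient_mul N P, ih _ hlt ((card_quotient_dvd_card N).trans hg)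
      (fun h => by omega), one_mul]
    have hcop : (Nat.card N).Coprime 19 := ((Nat.Prime.coprime_iff_not_dvd (by norm_num)).2 hN').symm
    have hr := fun q hq => H9.ordProj_relIndex_normalizer_modEq_one N P
      (by rw [normalizer_eq_top]; exact le_top) hcop (q := q) hq
    have hd : (normalizer ((P : Subgroup X) : Set X)).relIndex N ∣ Nat.card N := relIndex_dvd_card _ _
    generalize (normalizer ((P : Subgroup X) : Set X)).relIndex N = r at hr hd
    by_contra hr1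
    obtain ⟨q, hq, hqr⟩ := Nat.exists_prime_and_dvd hr1
    have hd' : r ∣ 175560 := hd.trans ((card_subgroup_dvd_card N).trans hg)
    have h3 : q ^ r.factorization q ∣ 175560 := (Nat.ordProj_dvd r q).trans hd'
    have h4 : 0 < r.factorization q :=
      hq.factorization_pos_of_dvd (by rintro rfl; simp at hd') hqr
    have h5 := hr q hq
    have h6 : ∀ d ∈ D, d % 19 = 1 → d = 1 ∨ (5 ∣ d ∧ 2 ∣ d) ∨ (7 ∣ d ∧ 11 ∣ d) := by decide +kernel
    have h7 : ∀ s, s.Prime → s ∣ q ^ r.factorization q → s = q := fun s hs h =>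
      (Nat.prime_dvd_prime_iff_eq hs hq).1 (hs.dvd_of_dvd_pow h)
    rcases h6 _ (mem_D h3) h5 with h | h | h
    · exact hq.ne_one ((Nat.pow_eq_one.1 h).resolve_right h4.ne')
    · have := (h7 5 (by norm_num) h.1).trans (h7 2 (by norm_num) h.2).symm; omega
    · have := (h7 7 (by norm_num) h.1).trans (h7 11 (by norm_num) h.2).symm; omega
  · have hlt : Nat.card N < Nat.card X := by
      rw [← hNX]
      exact lt_mul_of_one_lt_left Nat.card_pos (one_lt_index_of_ne_top h2)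
    rw [← H9.card_sylow_of_not_dvd_index N hN19]
    exact ih _ hlt ((card_subgroup_dvd_card N).trans hg) (fun h => by omega)

/-- A finite group of order 175560 = 2³·3·5·7·11·19 is either simple or has a normal Sylow 19-subgroup. -/
theorem result {G : Type*} [Group G] [Finite G] (hG : Nat.card G = 175560) : IsSimpleGroup G ∨ ∀ P : Sylow 19 G, (P : Subgroup G).Normal := by
  have : Fact (Nat.Prime 19) := ⟨by norm_num⟩
  by_cases h : IsSimpleGroup G
  · exact Or.inl h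
  · refine Or.inr fun P => ?_
    have : Subsingleton (Sylow 19 G) := (Nat.card_eq_one_iff_unique.1 (main G (by rw [hG]) fun _ => h)).1
    exact Sylow.normal_of_subsingleton P

end Cfsg.Agent.S4274
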