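import Cfsg.Statements.S4275
import Mathlib

set_option autoImplicit false
open Cfsg

namespace Cfsg.Agent.S4275

/-- Let G be a transitive group of permutations of a finite set Ω, let o ∈ Ω, and let α be an automorphism of G. Then α is induced by conjugation by a permutation of Ω normalizing G if and only if the image under α of the stabilizer of o fixes some point of Ω. -/
theorem result {Ω : Type*} [Fintype Ω] (G : Subgroup (Equiv.Perm Ω)) (htr : MulAction.IsPretransitive G Ω) (o : Ω) (α : G ≃* G) : (∃ σ : Equiv.Perm Ω, σ ∈ Subgroup.normalizer (G : Set (Equiv.Perm Ω)) ∧ ∀ g : G, ((α g : G) : Equiv.Perm Ω) = σ * (g : Equiv.Perm Ω) * σ⁻¹) ↔ ∃ ω : Ω, ∀ g ∈ (MulAction.stabilizer G o).map α.toMonoidHom, g • ω = ω := by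
  constructor
  · rintro ⟨σ, -, hσ⟩
    refine ⟨σ o, ?_⟩
    rintro _ ⟨g, hg, rfl⟩
    have hg' : (g : Equiv.Perm Ω) o = o := hg
    change ((α g : G) : Equiv.Perm Ω) (σ o) = σ o
    rw [hσ]
    simp [hg']
  · rintro ⟨ω, hω⟩
    have hst : ∀ g : G, g • o = o → α g • ω = ω := fun g hg => hω _ ⟨g, hg, rfl⟩
    have hle : (MulAction.stabilizer G o).map α.toMonoidHom ≤ MulAction.stabilizer G ω := hω
    have hcard : Nat.card (MulAction.stabilizer G ω) = Nat.card (MulAction.stabilizer G o) := by
      have h1 := (MulAction.stabilizer G ω).card_mul_index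
      have h2 := (MulAction.stabilizer G o).card_mul_index
      rw [MulAction.index_stabilizer_of_transitive] at h1 h2
      have : Nonempty Ω := ⟨o⟩
      exact Nat.eq_of_mul_eq_mul_right Nat.card_pos (h1.trans h2.symm)
    have heq : (MulAction.stabilizer G o).map α.toMonoidHom = MulAction.stabilizer G ω :=
      Subgroup.eq_of_le_of_card_ge hle (by
        rw [hcard, Subgroup.card_map_of_injective α.injective])
    have hst' : ∀ g : G, α g • ω = ω → g • o = o := by
      intro g hg
      have h1 : α g ∈ (MulAction.stabilizer G o).map α.toMonoidHom := heq ▸ hg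
      obtain ⟨g', hg', e⟩ := h1
      rw [← α.injective e]
      exact hg'
    choose t ht using fun x : Ω => MulAction.exists_smul_eq G o x
    let f : Ω → Ω := fun x => α (t x) • ω
    have hf : ∀ g : G, f (g • o) = α g • ω := by
      intro g
      have h1 : (g⁻¹ * t (g • o)) • o = o := by rw [mul_smul, ht, inv_smul_smul]
      have h2 := hst _ h1
      rw [map_mul, map_inv, mul_smul, inv_smul_eq_iff] at h2
      exact h2
    have hinj : Function.Injective f := by
      intro x y hxy
      have h1 : α ((t y)⁻¹ * t x) • ω = ω := by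
        rw [map_mul, map_inv, mul_smul, inv_smul_eq_iff]
        exact hxy
      have h2 := hst' _ h1
      rw [mul_smul, inv_smul_eq_iff, ht, ht] at h2
      exact h2
    let σ : Equiv.Perm Ω := Equiv.ofBijective f (Finite.injective_iff_bijective.1 hinj)
    have hσ : ∀ g : G, ((α g : G) : Equiv.Perm Ω) = σ * (g : Equiv.Perm Ω) * σ⁻¹ := by
      intro g
      rw [eq_mul_inv_iff_mul_eq]
      ext x
      change α g • f x = f (g • x)
      obtain ⟨k, rfl⟩ := MulAction.exists_smul_eq G o x
      rw [hf, ← mul_smul g, hf, map_mul, mul_smul]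
    refine ⟨σ, ?_, hσ⟩
    apply Subgroup.mem_normalizer_fintype
    intro g hg
    have := hσ ⟨g, hg⟩
    rw [← this]
    exact (α ⟨g, hg⟩).2

end Cfsg.Agent.S4275
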