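import Cfsg.Statements.S4277
import Cfsg.Agent.Lib.H8TwoTrans
import Cfsg.Agent.Lib.BGroup
import Cfsg.Agent.Lib.PResidual
import Cfsg.Agent.Lib.SylowIn
import Cfsg.Agent.Lib.CoreSolvable

set_option autoImplicit false
open Cfsg

namespace Cfsg.Agent.S4277

theorem orbit_dvd {K Ω : Type*} [Group K] [MulAction K Ω] (x : Ω) :
    Nat.card (MulAction.orbit K x) ∣ Nat.card K := by
  rw [Nat.card_coe_set_eq, ← MulAction.index_stabilizer]
  exact Subgroup.index_dvd_card _

open Subgroup CfsgLib in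
/-- A case of the Schreier conjecture: if a finite simple group G has a subgroup of prime index, then the outer automorphism group of G is solvable. -/
theorem result {G : Type*} [Group G] [Finite G] [IsSimpleGroup G] (H : Subgroup G) (hH : H.index.Prime) : Group.IsSolvable (Cfsg.Out G) := by
  classical
  by_cases hs : Group.IsSolvable G
  · have hc : IsCyclic G := by
      have := IsSimpleGroup.comm_iff_isSolvable.mpr hs
      let _ : CommGroup G := { (inferInstance : Group G) with mul_comm := this }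
      exact IsSimpleGroup.isCyclic
    have : IsMulCommutative (MulAut G) := ⟨⟨fun a b => by
      apply (IsCyclic.mulAutMulEquiv G).injective
      rw [map_mul, map_mul, mul_comm]⟩⟩
    have : Group.IsSolvable (MulAut G) := isSolvable_of_isMulCommutative
    infer_instance
  set p := H.index with hp
  have : Fact p.Prime := ⟨hH⟩
  let _ : Fintype (G ⧸ H) := Fintype.ofFinite _
  have hcard : Nat.card (G ⧸ H) = p := rfl
  have hker : (MulAction.toPermHom G (G ⧸ H)).ker = ⊥ := by
    refine (IsSimpleGroup.eq_bot_or_eq_top_of_normal _ inferInstance).resolve_right fun h0 => ?_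
    rw [← normalCore_eq_ker] at h0
    have := H.normalCore_le
    rw [h0, top_le_iff] at this
    rw [this, index_top] at hp
    exact hH.one_lt.ne' hp
  have hfaith : ∀ g h : G, (∀ x : G ⧸ H, g • x = h • x) → g = h := fun g h h0 =>
    (MonoidHom.ker_eq_bot_iff _).mp hker (Equiv.ext h0)
  have h2 : MulAction.IsMultiplyPretransitive G (G ⧸ H) 2 := by
    refine (BGrp.burnside_prime_degree (hcard ▸ hH)).resolve_right fun h0 => hs ⟨2, ?_⟩
    rwa [hker, le_bot_iff] at h0
  have hp2 : ¬ p * p ∣ Nat.card G := by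
    intro h0
    have h1 := card_dvd_of_injective _ ((MonoidHom.ker_eq_bot_iff _).mp hker)
    rw [Nat.card_perm, hcard] at h1
    have h3 := h0.trans h1
    obtain ⟨q, hq⟩ : ∃ q, p = q + 1 := ⟨p - 1, by have := hH.pos; omega⟩
    rw [hq, Nat.factorial_succ, ← hq, Nat.mul_dvd_mul_iff_left hH.pos,
      hH.dvd_factorial] at h3
    omega
  have hpH : ¬ p ∣ Nat.card H := fun h0 => hp2 (by
    rw [← H.card_mul_index]; exact Nat.mul_dvd_mul h0 dvd_rfl)
  let B : Subgroup (MulAut G) :=
    { carrier := {α | ∃ σ : Equiv.Perm (G ⧸ H), ∀ (g : G) x, σ (g • x) = α g • σ x}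
      one_mem' := ⟨1, fun g x => rfl⟩
      mul_mem' := by
        rintro α β ⟨σ, hσ⟩ ⟨τ, hτ⟩
        exact ⟨σ * τ, fun g x => by simp [hσ, hτ]⟩
      inv_mem' := by
        rintro α ⟨σ, hσ⟩
        refine ⟨σ⁻¹, fun g x => σ.injective ?_⟩
        rw [hσ]; simp }
  have hBi : ∀ a : G, MulAut.conj a ∈ B := fun a =>
    ⟨MulAction.toPerm a, fun g x => by simp [mul_smul]⟩
  have hB : pResidual 2 (MulAut G) ≤ B := by
    refine PRes.pResidual_le_iff.mpr fun α hα => ?_
    refine H8TwoTrans.exists_perm h2 ((1 : G) : G ⧸ H) α (Nat.coprime_two_right.mp hα)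
      ((1 : G) : G ⧸ H) ?_
    rw [← Nat.card_eq_fintype_card (α := G ⧸ H), hcard]
    refine Nat.Coprime.coprime_dvd_left ?_ ((hH.coprime_iff_not_dvd.mpr hpH).symm)
    refine (orbit_dvd _).trans ?_
    rw [card_map_of_injective (f := α.toMonoidHom) α.injective, MulAction.stabilizer_quotient]
  obtain ⟨c, hc⟩ := exists_prime_orderOf_dvd_card' (G := G) p H.index_dvd_card
  have hPc : Nat.card (zpowers c) = p := by rw [Nat.card_zpowers, hc]
  have hP : IsSylowIn p (zpowers c) ⊤ := ⟨le_top, IsPGroup.of_card (n := 1) (by simpa using hPc),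
    fun h0 => hp2 (by
      rw [← (zpowers c).card_mul_index, hPc]
      exact Nat.mul_dvd_mul dvd_rfl (by simpa using h0))⟩
  obtain ⟨x0, hx0⟩ : ∃ x0 : G ⧸ H, c • x0 ≠ x0 := by
    by_contra h0
    push Not at h0
    rw [hfaith c 1 (by simpa using h0), orderOf_one] at hc
    exact hH.one_lt.ne hc
  have htr : ∀ x : G ⧸ H, ∃ u ∈ zpowers c, u • x0 = x := by
    have h3 : (MulAction.orbit (zpowers c) x0).ncard = p := by
      refine ((Nat.dvd_prime hH).mp ?_).resolve_left fun h0 => ?_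
      · rw [← MulAction.index_stabilizer, ← hPc]; exact index_dvd_card _
      · obtain ⟨y, hy⟩ := Set.ncard_eq_one.mp h0
        have h4 : x0 ∈ MulAction.orbit (zpowers c) x0 := MulAction.mem_orbit_self x0
        have h5 : c • x0 ∈ MulAction.orbit (zpowers c) x0 :=
          MulAction.mem_orbit x0 (⟨c, mem_zpowers c⟩ : zpowers c)
        rw [hy] at h4 h5
        exact hx0 (h5.trans h4.symm)
    have h4 : MulAction.orbit (zpowers c) x0 = Set.univ :=
      Set.eq_of_subset_of_ncard_le (Set.subset_univ _) (by rw [h3, Set.ncard_univ, hcard])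
    intro x
    obtain ⟨u, hu⟩ : x ∈ MulAction.orbit (zpowers c) x0 := h4 ▸ Set.mem_univ x
    exact ⟨u, u.2, hu⟩
  have hcent : ∀ α ∈ B, α c = c → α ∈ Cfsg.Inn G := by
    rintro α ⟨σ, hσ⟩ hα
    obtain ⟨u, hu, hu'⟩ := htr (σ x0)
    have h3 : ∀ x, σ x = u • x := by
      intro x
      obtain ⟨_, ⟨i, rfl⟩, rfl⟩ := htr x
      obtain ⟨j, rfl⟩ := hu
      rw [hσ, map_zpow, hα, ← hu', ← mul_smul, ← mul_smul, ← zpow_add, ← zpow_add, add_comm]
    refine ⟨u, MulEquiv.ext fun g => hfaith _ _ fun x => ?_⟩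
    have := hσ g (u⁻¹ • x)
    rw [h3, h3, smul_inv_smul] at this
    rw [← this]; simp [mul_smul]
  have hfr : ∀ α ∈ B, ∃ β ∈ B, (β : Cfsg.Out G) = α ∧ β c ∈ zpowers c := by
    intro α hα
    obtain ⟨a, -, ha⟩ := hP.exists_conj_le ((hP.isPGroup).map α.toMonoidHom) le_top
    refine ⟨MulAut.conj a * α, mul_mem (hBi a) hα, ?_, ha (mem_map_of_mem _ (mem_map_of_mem α.toMonoidHom (mem_zpowers c)))⟩
    rw [QuotientGroup.mk_mul, (QuotientGroup.eq_one_iff (N := Cfsg.Inn G) _).mpr ⟨a, rfl⟩, one_mul]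
  have : Fact (Nat.Prime 2) := ⟨Nat.prime_two⟩
  have : Finite (MulAut G) := Finite.of_injective _ DFunLike.coe_injective
  have hn := PRes.pResidual_normal (p := 2) (G := Cfsg.Out G)
  refine isSolvable_of_normal_of_quotient (pResidual 2 (Cfsg.Out G)) ?_
    (isSolvable_of_isPGroup (PRes.isPGroup_quotient_of_pResidual_le le_rfl))
  have : IsMulCommutative (pResidual 2 (Cfsg.Out G)) := by
    rw [← PRes.map_pResidual_of_surjective _ (QuotientGroup.mk'_surjective (Cfsg.Inn G))]
    refine ⟨⟨?_⟩⟩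
    rintro ⟨_, α, hα, rfl⟩ ⟨_, β, hβ, rfl⟩
    obtain ⟨α', hα', h3, i, hi⟩ := hfr α (hB hα)
    obtain ⟨β', hβ', h4, j, hj⟩ := hfr β (hB hβ)
    apply Subtype.ext
    change (α : Cfsg.Out G) * β = (β : Cfsg.Out G) * α
    rw [← h3, ← h4, ← QuotientGroup.mk_mul, ← QuotientGroup.mk_mul, QuotientGroup.eq]
    refine hcent _ (mul_mem (inv_mem (mul_mem hα' hβ')) (mul_mem hβ' hα')) ?_
    rw [MulAut.mul_apply, MulAut.inv_def, MulEquiv.symm_apply_eq, MulAut.mul_apply,
      MulAut.mul_apply]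
    simp only at hi hj
    rw [← hi, ← hj, map_zpow, map_zpow, ← hi, ← hj, ← zpow_mul, ← zpow_mul, mul_comm]
  exact isSolvable_of_isMulCommutative

end Cfsg.Agent.S4277
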