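import Cfsg.Statements.S4278
import Cfsg.Agent.Lib.Chev.CG2

set_option autoImplicit false
open Cfsg

namespace Cfsg.Agent.S4278

/-- In the Chevalley group of type G₂ over a finite field of odd order, any two involutions are conjugate. -/
theorem result {F : Type*} [Field F] [Fintype F] (hF : Odd (Fintype.card F)) (s t : ↥(Cfsg.Lie.chevG2.group F)) (hs : orderOf s = 2) (ht : orderOf t = 2) : IsConj s t := by
  open CfsgLib.Chev in
  have h2 := two_ne_zero_of_odd hF
  obtain ⟨e, he, h3⟩ := FT.isConj_tE goodG2 smallG2 chk4G2 chk2G2 mchkG2_0 rchkG2 h2 hs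
  obtain ⟨e', he', h4⟩ := FT.isConj_tE goodG2 smallG2 chk4G2 chk2G2 mchkG2_0 rchkG2 h2 ht
  rw [List.mem_singleton] at he he'
  subst he he'
  exact h3.trans h4.symm

end Cfsg.Agent.S4278
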