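import Cfsg.Statements.S4279
import Cfsg.Agent.Lib.Chev.CG2
import Cfsg.Agent.Lib.Chev.Pair

set_option autoImplicit false
open Cfsg

namespace Cfsg.Agent.S4279

/-- In the Chevalley group G of type G₂ over a finite field F of odd order q, the centralizer of an involution t has order q²(q² − 1)² and contains two elementwise commuting subgroups, each isomorphic to SL(2, F), which meet exactly in the subgroup generated by t and whose join has index 2 in the centralizer. -/
theorem result {F : Type*} [Field F] [Fintype F] (hF : Odd (Fintype.card F)) (t : ↥(Cfsg.Lie.chevG2.group F)) (ht : orderOf t = 2) : Nat.card (Subgroup.centralizer ({t} : Set ↥(Cfsg.Lie.chevG2.group F))) = Fintype.card F ^ 2 * (Fintype.card F ^ 2 - 1) ^ 2 ∧ ∃ L₁ L₂ : Subgroup ↥(Cfsg.Lie.chevG2.group F), Nonempty (L₁ ≃* Matrix.SpecialLinearGroup (Fin 2) F) ∧ Nonempty (L₂ ≃* Matrix.SpecialLinearGroup (Fin 2) F) ∧ (∀ x ∈ L₁, ∀ y ∈ L₂, x * y = y * x) ∧ L₁ ⊓ L₂ = Subgroup.zpowers t ∧ L₁ ⊔ L₂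 ≤ Subgroup.centralizer ({t} : Set ↥(Cfsg.Lie.chevG2.group F)) ∧ (L₁ ⊔ L₂).relIndex (Subgroup.centralizer ({t} : Set ↥(Cfsg.Lie.chevG2.group F))) = 2 := by
  open CfsgLib.Chev in
  have h2 := two_ne_zero_of_odd hF
  have h3 := FT.card_tE goodG2 smallG2 chk4G2 chk2G2 mchkG2_3 cchkG2_3 h2
  obtain ⟨e, he, h4⟩ := FT.isConj_tE goodG2 smallG2 chk4G2 chk2G2 mchkG2_0 rchkG2 h2 ht
  obtain rfl := List.mem_singleton.1 he
  replace h3 := ((card_cent_of_isConj h4).trans h3).trans
    (show _ = Fintype.card F ^ 2 * (Fintype.card F ^ 2 - 1) ^ 2 by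
      simp only [csG2_3, List.map_cons, List.map_nil, List.sum_cons, List.sum_nil,
        List.prod_cons, List.prod_nil, show Cfsg.Lie.chevG2.rank = 2 from rfl]
      have hq : 1 ≤ Fintype.card F := Fintype.card_pos
      zify [hq, Nat.one_le_pow _ _ hq]; ring)
  refine ⟨h3, ?_⟩
  obtain ⟨g, hg⟩ := isConj_iff.1 h4.symm
  obtain ⟨φ, ψ, a1, b1, a2, b2, a3, b3, h5⟩ := goodG2.exists_pair h2 (r := (10 : Fin 12))
    (s := (8 : Fin 12)) (u := (11 : Fin 12)) (v := (9 : Fin 12)) (by decide +kernel)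
    (by decide +kernel) (by decide +kernel) (by decide +kernel) (Fin.ne_of_val_ne (by decide))
    (by decide +kernel) (by decide +kernel) (by decide +kernel) (by decide +kernel)
  rw [← FT.group_eq goodG2 smallG2 chk4G2] at a2 b2
  have h6 : ∀ r, (∀ i, Even (ftG2.rd.co r i - RD.Good.eps 3 i)) →
      ftG2.rd.hr r (-1) = (FT.tE goodG2 smallG2 chk4G2 F 3).1 :=
    fun r h => congrArg (ftG2.rd.hT F) (RD.sgn_congr h)
  refine sl2_pair (φ := (MulAut.conj g).toMonoidHom.comp (φ.codRestrict _ a2))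
    (ψ := (MulAut.conj g).toMonoidHom.comp (ψ.codRestrict _ b2))
    ((MulAut.conj g).injective.comp fun _ _ h => a1 (congrArg Subtype.val h))
    ((MulAut.conj g).injective.comp fun _ _ h => b1 (congrArg Subtype.val h)) (fun A B => ?_)
    (hg ▸ congrArg (MulAut.conj g) (Subtype.ext (a3.trans (h6 _ (by decide +kernel)))))
    (hg ▸ congrArg (MulAut.conj g) (Subtype.ext (b3.trans (h6 _ (by decide +kernel))))) ht
    (by rwa [Nat.card_eq_fintype_card (α := F)])
  simp only [MonoidHom.comp_apply, ← map_mul]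
  exact congrArg _ (Subtype.ext (h5 A B))

end Cfsg.Agent.S4279
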