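import Cfsg.Statements.S4280
import Cfsg.Agent.Lib.Chev.CF4

set_option autoImplicit false
open Cfsg

namespace Cfsg.Agent.S4280

/-- In the Chevalley group of type F₄ over a finite field of odd order q there are exactly two conjugacy classes of involutions; the centralizer of an involution in one class has order q¹⁶(q² − 1)(q⁴ − 1)(q⁶ − 1)(q⁸ − 1), and in the other class q¹⁰(q² − 1)²(q⁴ − 1)(q⁶ − 1). -/
theorem result {F : Type*} [Field F] [Fintype F] (hF : Odd (Fintype.card F)) : ∃ s t : ↥(Cfsg.Lie.chevF4.group F), orderOf s = 2 ∧ orderOf t = 2 ∧ ¬ IsConj s t ∧ (∀ u : ↥(Cfsg.Lie.chevF4.group F), orderOf u = 2 → IsConj u s ∨ IsConj u t) ∧ Nat.card (Subgroup.centralizer ({s} : Set ↥(Cfsg.Lie.chevF4.group F))) = Fintype.card F ^ 16 * (Fintype.card F ^ 2 - 1) * (Fintype.card F ^ 4 - 1) * (Fintype.card F ^ 6 - 1) * (Fintype.card F ^ 8 - 1) ∧ Nat.card (Subgroup.centralizer ({t} : Set ↥(Cfsg.Lie.chevF4.group F))) =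 Fintype.card F ^ 10 * (Fintype.card F ^ 2 - 1) ^ 2 * (Fintype.card F ^ 4 - 1) * (Fintype.card F ^ 6 - 1) := by
  open CfsgLib.Chev in
  have h2 := two_ne_zero_of_odd hF
  have h3 := FT.card_tE goodF4 smallF4 chk4F4 chk2F4 mchkF4_3 cchkF4_3 h2
  have h4 := FT.card_tE goodF4 smallF4 chk4F4 chk2F4 mchkF4_15 cchkF4_15 h2
  have hq : 1 < Fintype.card F := Fintype.one_lt_card
  generalize Fintype.card F = q at h3 h4 hq ⊢
  have h5 : ∀ k, 1 ≤ q ^ k := fun k => Nat.one_le_pow _ _ (by omega)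
  simp only [csF4_3, csF4_15, List.map_cons, List.map_nil, List.sum_cons, List.sum_nil,
    List.prod_cons, List.prod_nil, show Cfsg.Lie.chevF4.rank = 4 from rfl] at h3 h4
  replace h3 := h3.trans (show _ = q ^ 16 * (q ^ 2 - 1) * (q ^ 4 - 1) * (q ^ 6 - 1) * (q ^ 8 - 1) by
    zify [h5, hq.le]; ring)
  replace h4 := h4.trans (show _ = q ^ 10 * (q ^ 2 - 1) ^ 2 * (q ^ 4 - 1) * (q ^ 6 - 1) by
    zify [h5, hq.le]; ring)
  refine ⟨_, _, FT.orderOf_tE goodF4 smallF4 chk4F4 h2 (0 : Fin 4) rfl,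
    FT.orderOf_tE goodF4 smallF4 chk4F4 h2 (0 : Fin 4) rfl, fun h => ?_, fun u hu => ?_, h3, h4⟩
  · have h6 := card_cent_of_isConj h
    rw [h3, h4] at h6
    simp only [mul_assoc] at h6
    refine pow_mul_ne hq (by norm_num) ?_ h6.symm
    simp only [sq (_ - _), Nat.coprime_mul_iff_left]
    refine ⟨⟨?_, ?_⟩, ?_, ?_⟩ <;> exact coprime_pow_sub_one hq (by norm_num)
  · simpa using FT.isConj_tE goodF4 smallF4 chk4F4 chk2F4 mchkF4_0 rchkF4 h2 hu

end Cfsg.Agent.S4280
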