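import Cfsg.Statements.S4281
import Cfsg.Agent.Lib.Chev.CE8
import Cfsg.Agent.Lib.Chev.TE8

set_option autoImplicit false
open scoped BigOperators
open Cfsg

namespace Cfsg.Agent.S4281

/-- In the Chevalley group of type E₈ over a finite field of odd order q there are exactly two conjugacy classes of involutions; the centralizer of an involution in one class has order q⁵⁶(q⁸ − 1)·∏_{i=1}^{7}(q^{2i} − 1), and in the other class q⁶⁴(q² − 1)²(q⁶ − 1)(q⁸ − 1)(q¹⁰ − 1)(q¹² − 1)(q¹⁴ − 1)(q¹⁸ − 1). -/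
theorem result {F : Type*} [Field F] [Fintype F] (hF : Odd (Fintype.card F)) : ∃ s t : ↥(Cfsg.Lie.chevE8.group F), orderOf s = 2 ∧ orderOf t = 2 ∧ ¬ IsConj s t ∧ (∀ u : ↥(Cfsg.Lie.chevE8.group F), orderOf u = 2 → IsConj u s ∨ IsConj u t) ∧ Nat.card (Subgroup.centralizer ({s} : Set ↥(Cfsg.Lie.chevE8.group F))) = Fintype.card F ^ 56 * (Fintype.card F ^ 8 - 1) * ∏ i ∈ Finset.Icc 1 7, (Fintype.card F ^ (2 * i) - 1) ∧ Nat.card (Subgroup.centralizer ({t} : Set ↥(Cfsg.Lie.chevE8.group F))) = Fintype.card F ^ 64 * (Fintype.card F ^ 2 - 1) ^ 2 * (Fintype.card F ^ 6 - 1) * (Fintype.card F ^ 8 - 1) * (Fintype.card F ^ 10 - 1) * (Fintype.card F ^ 12 - 1) * (Fintype.card F ^ 14 - 1) * (Fintype.card F ^ 18 - 1) := by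
  open CfsgLib.Chev in
  have h2 := two_ne_zero_of_odd hF
  have h3 := FT.card_tE goodE8 smallE8 chk4E8 chk2E8 mchkE8_47 cchkE8_47 h2
  have h4 := FT.card_tE goodE8 smallE8 chk4E8 chk2E8 mchkE8_217 cchkE8_217 h2
  have hq : 1 < Fintype.card F := Fintype.one_lt_card
  generalize Fintype.card F = q at h3 h4 hq ⊢
  have h5 : ∀ k, 1 ≤ q ^ k := fun k => Nat.one_le_pow _ _ (by omega)
  simp only [csE8_47, csE8_217, List.map_cons, List.map_nil, List.sum_cons, List.sum_nil,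
    List.prod_cons, List.prod_nil, show Cfsg.Lie.chevE8.rank = 8 from rfl] at h3 h4
  replace h3 := h3.trans (show _ = q ^ 56 * (q ^ 8 - 1) * ∏ i ∈ Finset.Icc 1 7, (q ^ (2 * i) - 1) by
    simp only [Finset.prod_Icc_succ_top, Finset.Icc_self, Finset.prod_singleton, Nat.reduceAdd,
      Nat.reduceLeDiff, Nat.reduceMul]
    zify [h5, hq.le]; ring)
  replace h4 := h4.trans (show _ = q ^ 64 * (q ^ 2 - 1) ^ 2 * (q ^ 6 - 1) * (q ^ 8 - 1) *
      (q ^ 10 - 1) * (q ^ 12 - 1) * (q ^ 14 - 1) * (q ^ 18 - 1) by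
    zify [h5, hq.le]; ring)
  refine ⟨_, _, FT.orderOf_tE goodE8 smallE8 chk4E8 h2 (0 : Fin 8) rfl,
    FT.orderOf_tE goodE8 smallE8 chk4E8 h2 (0 : Fin 8) rfl, fun h => ?_, fun u hu => ?_, h3, h4⟩
  · have h6 := card_cent_of_isConj h
    rw [h3, h4] at h6
    simp only [mul_assoc] at h6
    refine pow_mul_ne hq (by norm_num) ?_ h6
    exact (coprime_pow_sub_one hq (by norm_num)).mul_left (Nat.Coprime.prod_left fun i hi =>
      coprime_pow_sub_one hq (by have := (Finset.mem_Icc.1 hi).1; omega))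
  · simpa using FT.isConj_tE goodE8 smallE8 chk4E8 chk2E8 mchkE8_0 rchkE8 h2 hu

end Cfsg.Agent.S4281
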