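import Cfsg.Statements.S4282
import Cfsg.Agent.Lib.H9PLenOdd

set_option autoImplicit false
open Cfsg

namespace Cfsg.Agent.S4282

open CfsgLib CfsgLib.H9 CfsgLib.Fpf Subgroup Cfsg
open scoped commutatorElement

/-- A critical case behind the Hall–Higman theorem. Let p ≠ q be primes and G a finite group generated by a normal q-subgroup Q and a cyclic p-subgroup generated by x, such that the centralizer of every non-identity element of that cyclic subgroup is its product with the centre of G. Let K be an algebraically closed field of characteristic p and ρ a faithful representation of G on a nonzero finite-dimensional K-space whose restriction to Q is irreducible. If s is the least exponent with (ρ(x) − 1)^s = 0, then |⟨x⟩| − 1 ≤ s ≤ |⟨x⟩|; and if s = |⟨x⟩| − 1 then |⟨x⟩| − 1 is a power of q and Q is non-abelian. -/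
theorem result {G : Type*} [Group G] [Finite G] (p q : ℕ) [Fact p.Prime] [Fact q.Prime] (hpq : p ≠ q) (Q : Subgroup G) [Q.Normal] (hQ : IsPGroup q Q) (x : G) (hx : IsPGroup p (Subgroup.zpowers x)) (hgen : Q ⊔ Subgroup.zpowers x = ⊤) (hC : ∀ y ∈ Subgroup.zpowers x, y ≠ 1 → Subgroup.centralizer ({y} : Set G) = Subgroup.zpowers x ⊔ Subgroup.center G) {K : Type*} [Field K] [IsAlgClosed K] [CharP K p] {V : Type*} [AddCommGroup V] [Module K V] [FiniteDimensional K V] [Nontrivial V] (ρ : Representation K G V) (hfaith : Function.Injective ρ) (hirr : ∀ W : Submodule K V, (∀ g ∈ Q, Submodule.map (ρ g) W ≤ W) → W = ⊥ ∨ W = ⊤) (s : ℕ) (hs : (ρ x - 1) ^ s = 0) (hmin : ∀ k < s, (ρ x - 1) ^ k ≠ 0) : Nat.card (Subgroup.zpowers x) - 1 ≤ s ∧ s ≤ Nat.card (Subgroup.zpowers x) ∧ (s = Nat.card (Subgroup.zpowers x) - 1 → (∃ b : ℕ, Nat.card (Subgroup.zpowers x) - 1 = q ^ b) ∧ ¬ IsMulCommutative Q) := by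
  have hp : p.Prime := Fact.out
  have hq : q.Prime := Fact.out
  have hscal : ∀ (g : G) (c : K), g ∈ centralizer (Q : Set G) → ∀ v ≠ 0, ρ g v = c • v →
      ∀ w, ρ g w = c • w := fun g c hg v hv h w => by
    have h1 := (hirr (Module.End.eigenspace (ρ g) c) fun a ha => by
      rintro _ ⟨u, hu, rfl⟩
      rw [SetLike.mem_coe, Module.End.mem_eigenspace_iff] at hu
      rw [Module.End.mem_eigenspace_iff, ← rho_mul_apply, ← hg a ha, rho_mul_apply, hu,
        map_smul]).resolve_left fun h0 =>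
          hv ((Submodule.mem_bot K).1 (h0 ▸ Module.End.mem_eigenspace_iff.2 h))
    exact Module.End.mem_eigenspace_iff.1 (h1.ge Submodule.mem_top)
  have hone : ∀ g ∈ centralizer (Q : Set G), ∀ v ≠ 0, ρ g v = v → g = 1 := fun g hg v hv h =>
    hfaith (LinearMap.ext fun w => by
      simpa using hscal g 1 hg v hv (by simpa using h) w)
  obtain ⟨n, hn⟩ := IsPGroup.iff_card.1 hx
  have hxn : x ^ p ^ n = 1 := by rw [← hn, Nat.card_zpowers, pow_orderOf_eq_one]
  have hle : s ≤ p ^ n := le_of_not_gt fun h => hmin _ h (by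
    rw [sub_one_pow_char_pow K, ← map_pow, hxn, map_one, sub_self])
  rw [hn]
  rw [Nat.card_zpowers] at hn
  have hs0 : s ≠ 0 := fun h => by rw [h, pow_zero] at hs; exact one_ne_zero hs
  cases n with
  | zero => exact ⟨by simp, hle, fun h => absurd (by simpa using h) hs0⟩
  | succ n =>
  rcases hle.eq_or_lt with heq | hlt
  · exact ⟨by omega, hle, fun h => by omega⟩
  have hτ : x ^ p ^ n ≠ 1 := fun h => by
    have := Nat.le_of_dvd (pow_pos hp.pos n) (hn ▸ orderOf_dvd_of_pow_eq_one h)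
    exact absurd this (not_le.2 (Nat.pow_lt_pow_right hp.one_lt n.lt_succ_self))
  have hQp : (Nat.card Q).Coprime p := coprime_card_of_isPGroup_of_ne hq hp hpq.symm hQ
  obtain ⟨r, Q₀, R, ψ, U, e, hr, hpr, hQ₀, hQr, hr', hSQ, m1, m2, -, -, m5, P, hU, he, h0, hUe⟩ :=
    exists_config (A := zpowers (x ^ p ^ n)) hfaith (natCast_ne_zero_of_coprime K p hQp) hQp hx
      le_normalizer_of_normal (zpowers_le.2 (pow_mem (mem_zpowers x) _))
      (zpowers_le_normalizer_zpowers_pow x _) fun h => by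
        have h1 : IsNilpotent (ρ (x ^ p ^ n) - 1) := ⟨p ^ 1, by
          rw [sub_one_pow_char_pow K, ← map_pow, ← pow_mul, ← pow_add, hxn, map_one, sub_self]⟩
        obtain ⟨v, hv, hv0⟩ : ∃ v, (ρ (x ^ p ^ n) - 1) v = 0 ∧ v ≠ 0 := by
          by_contra hcon
          push Not at hcon
          exact h1.not_isUnit ((Module.End.isUnit_iff _).2
            (((injective_iff_map_eq_zero _).2 hcon) |> fun h =>
              ⟨h, LinearMap.surjective_of_injective h⟩))
        exact hτ (hone _ (Cop.commutator_eq_bot_iff_le_centralizer'.1 h (mem_zpowers _)) v hv0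
          (sub_eq_zero.1 hv))
  have := Fact.mk hr
  obtain rfl : q = r := by
    by_contra hne
    exact hU (le_trans (le_inf hQ₀ le_rfl) ((disjoint_iff.1 (IsPGroup.disjoint_of_ne q r hne _ _
      hQ hQr)).le.trans bot_le))
  obtain ⟨f, hf, hfx, hd⟩ := exists_poly_of_sub_one_pow (k := K) hs
  obtain ⟨j, m, hjm, h1, -, h2, h3⟩ := hh_at_comp P hr' (isSolvable_of_isPGroup hQr) hp
    (hQp.coprime_dvd_left (card_dvd_of_le hQ₀)) hxn (hSQ (mem_zpowers x)) he
    (fun y hy => h0 y (hSQ hy)) f hf (fun v _ => by rw [hfx]; rfl) (hd ▸ hlt)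
  have hQR := pack_not_le P hU m1 (zpowers_le.2 (hSQ (pow_mem (mem_zpowers x) _))) (zpowers_le.2 h2)
  have hZ : ⁅Q₀, Q₀⁆ ≤ center G := fun g hg => by
    have h4 : g ∈ zpowers x ⊔ center G := hC _ (pow_mem (mem_zpowers x) _) hτ ▸
      mem_centralizer_singleton_iff.2 ((m2.ge hg).2 _ (mem_zpowers _)).symm
    have h5 := mem_map_of_mem (QuotientGroup.mk' (center G)) h4
    rw [Subgroup.map_sup, (Subgroup.map_eq_bot_iff _).2 (QuotientGroup.ker_mk' _).ge,
      sup_bot_eq] at h5
    exact (QuotientGroup.eq_one_iff g).1 (mem_bot.1 ((disjoint_iff.1 (IsPGroup.disjoint_of_ne p q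
      hpq _ _ (hx.map _) (hQr.map (QuotientGroup.mk' (center G))))).le
      ⟨h5, mem_map_of_mem _ (m2.ge hg).1⟩))
  obtain ⟨v, hv, hv0⟩ := (Submodule.ne_bot_iff U).1 P.ne
  have hR : R ≤ Q₀ ⊓ centralizer (Q₀ : Set G) := fun g hg => ⟨P.le hg, fun a ha => by
    refine (commutatorElement_eq_one_iff_mul_comm.1 (hone _ (center_le_centralizer _
      (hZ (commutator_mem_commutator (P.le hg) ha))) v hv0 ?_)).symm
    exact (pack_commutator_le_ker P le_normalizer (pack_le_stab P)
      (commutator_mem_commutator hg ha)).2 v hv⟩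
  have hnab : ⁅Q₀, Q₀⁆ ≠ ⊥ := fun h => hQR (pack_eq_of_commutator_le P (h.le.trans bot_le)).ge
  have hRZ : R ≤ center G := hR.trans ((m5 _ (lt_of_le_of_ne inf_le_left fun h =>
    hnab (Cop.commutator_eq_bot_iff_le_centralizer'.2 (h.ge.trans inf_le_right)))
    (Cop.le_normalizer_inf_centralizer hSQ hSQ)).trans hZ)
  have hxU : x ∈ stabSub ρ U := fun w hw => by
    rw [hUe] at hw ⊢
    refine ⟨?_, fun a ha => ?_⟩
    · change normOp ρ Q₀ (ρ x w) = 0
      rw [← Module.End.mul_apply, ← rho_normOp_comm (hSQ (mem_zpowers x)), Module.End.mul_apply,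
        show normOp ρ Q₀ w = 0 from hw.1, map_zero]
    · rw [← rho_mul_apply, ← mem_center_iff.1 (hRZ ha) x, rho_mul_apply, hw.2 a ha, map_smul]
  obtain rfl : j = 0 := by
    have := (h1 1).1 (by rwa [zpow_one])
    rw [← Nat.cast_one, Int.natCast_dvd_natCast, Nat.dvd_one, Nat.pow_eq_one] at this
    exact this.resolve_left hp.ne_one
  obtain ⟨N, h6, h7, h8⟩ := h3.resolve_left (m1.symm ▸ hQR)
  rw [m1, sup_eq_left.2 P.le] at h7
  rw [zero_add] at hjm
  rw [pow_zero, one_mul, hd] at h8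
  subst hjm
  obtain ⟨d, hd⟩ := exists_pow_of_sq_eq_relIndex hQr h7
  refine ⟨by omega, hle, fun _ => ⟨⟨d, by omega⟩, fun h => hnab (eq_bot_iff.2
    (commutator_le.2 fun a ha b hb => commutatorElement_eq_one_iff_mul_comm.2 ?_))⟩⟩
  simpa using congrArg Subtype.val (h.is_comm.comm ⟨a, hQ₀ ha⟩ ⟨b, hQ₀ hb⟩)

end Cfsg.Agent.S4282
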