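import Cfsg.Statements.S4283
import Cfsg.Agent.Lib.FrobBasic

set_option autoImplicit false
open Cfsg

namespace Cfsg.Agent.S4283

open Subgroup CfsgLib CfsgLib.Frob

/-- Let G be a finite group with centre Z and let K, H be abelian subgroups of G containing Z such that G/Z is a Frobenius group with complement H/Z and kernel K/Z. Then the conjugacy class sizes of G are exactly 1, [G : K] and [G : H], and these two indices are coprime. (This is the converse half of the characterization of finite groups whose conjugacy class sizes are exactly 1, m and n with m and n coprime.) -/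
theorem result {G : Type*} [Group G] [Finite G] (K H : Subgroup G) (hZK : Subgroup.center G ≤ K) (hZH : Subgroup.center G ≤ H) (hK : IsMulCommutative K) (hH : IsMulCommutative H) (hFrob : Cfsg.IsFrobeniusComplement (H.map (QuotientGroup.mk' (Subgroup.center G)))) (hker : Cfsg.frobeniusKernel (H.map (QuotientGroup.mk' (Subgroup.center G))) = (K.map (QuotientGroup.mk' (Subgroup.center G)) : Set (G ⧸ Subgroup.center G))) : Set.range (fun x : G => (Subgroup.centralizer ({x} : Set G)).index) = ({1, K.index, H.index} : Set ℕ) ∧ K.index.Coprime H.index := by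
  set Z := center G with hZ
  set π := QuotientGroup.mk' Z with hπ
  have hs : Function.Surjective π := QuotientGroup.mk'_surjective Z
  have hP := isFrobeniusPair_of_frobeniusKernel_eq hFrob hker
  have hKc : (K.map π).comap π = K := comap_map_eq_self (by rwa [hπ, QuotientGroup.ker_mk'])
  have hHc : (H.map π).comap π = H := comap_map_eq_self (by rwa [hπ, QuotientGroup.ker_mk'])
  have hKi : (K.map π).index = K.index := index_map_eq _ hs (by rwa [hπ, QuotientGroup.ker_mk'])
  have hHi : (H.map π).index = H.index := index_map_eq _ hs (by rwa [hπ, QuotientGroup.ker_mk'])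
  have hne : ∀ x : G, x ∉ Z → π x ≠ 1 := fun x hx h => hx ((QuotientGroup.eq_one_iff x).1 h)
  have hab : ∀ (A : Subgroup G), IsMulCommutative A → ∀ x ∈ A, A ≤ centralizer ({x} : Set G) := by
    intro A hA x hx a ha
    rw [mem_centralizer_singleton_iff]
    exact congrArg Subtype.val (hA.is_comm.comm (⟨a, ha⟩ : A) ⟨x, hx⟩)
  have hCK : ∀ x ∈ K, x ∉ Z → centralizer ({x} : Set G) = K := by
    intro x hx hxZ
    refine le_antisymm ?_ (hab K hK x hx)
    rw [← hKc, ← map_le_iff_le_comap]
    exact (map_centralizer_singleton_le π x).trans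
      (hP.isFrobeniusKernel.centralizer_le (mem_map_of_mem π hx) (hne x hxZ))
  have hCH : ∀ x ∈ H, x ∉ Z → centralizer ({x} : Set G) = H := by
    intro x hx hxZ
    refine le_antisymm ?_ (hab H hH x hx)
    rw [← hHc, ← map_le_iff_le_comap]
    exact (map_centralizer_singleton_le π x).trans
      (hFrob.centralizer_le (mem_map_of_mem π hx) (hne x hxZ))
  have hex : ∀ A : Subgroup G, A.map π ≠ ⊥ → ∃ x ∈ A, x ∉ Z := by
    intro A hA
    by_contra hc
    push Not at hc
    apply hA
    rw [Subgroup.map_eq_bot_iff, hπ, QuotientGroup.ker_mk']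
    exact hc
  constructor
  · ext n
    simp only [Set.mem_range, Set.mem_insert_iff, Set.mem_singleton_iff]
    constructor
    · rintro ⟨x, rfl⟩
      by_cases hxZ : x ∈ Z
      · exact Or.inl (index_centralizer_eq_one_iff.2 hxZ)
      by_cases hxK : x ∈ K
      · exact Or.inr (Or.inl (by rw [hCK x hxK hxZ]))
      have h1 : π x ∉ K.map π := fun h => hxK (by rw [← hKc]; exact h)
      obtain ⟨y, -, hy⟩ := hP.exists_conj_mem h1
      obtain ⟨g, rfl⟩ := hs y
      have h2 : g * x * g⁻¹ ∈ H := by
        rw [← hHc, mem_comap, map_mul, map_mul, map_inv]; exact hy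
      have h3 : g * x * g⁻¹ ∉ Z := by
        intro h
        apply hxZ
        have := (inferInstance : Z.Normal).conj_mem' _ h g
        simpa [mul_assoc] using this
      refine Or.inr (Or.inr ?_)
      rw [← index_centralizer_conj g x, hCH _ h2 h3]
    · rintro (rfl | rfl | rfl)
      · exact ⟨1, index_centralizer_eq_one_iff.2 (one_mem _)⟩
      · obtain ⟨x, hx, hxZ⟩ := hex K hP.ker_ne_bot
        exact ⟨x, by rw [hCK x hx hxZ]⟩
      · obtain ⟨x, hx, hxZ⟩ := hex H hP.ne_bot
        exact ⟨x, by rw [hCH x hx hxZ]⟩
  · rw [← hKi, ← hHi, ← hP.card_eq_index, ← hP.card_ker_eq_index]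
    exact hP.coprime.symm

end Cfsg.Agent.S4283
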