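import Cfsg.Statements.S4291
import Cfsg.Agent.Lib.FrobZass
import Cfsg.Agent.Lib.FrobMain
import Cfsg.Agent.Lib.PGroupMisc
import Cfsg.Agent.Lib.CorePiSep

set_option autoImplicit false
open Cfsg

namespace Cfsg.Agent.S4291

open CfsgLib CfsgLib.Frob Subgroup

abbrev Q8 := QuaternionGroup 2

def diag (x y : Q8) (k : Fin 4) : Finset (Finset Q8) :=
  let s := if k.val % 2 = 0 then y else y⁻¹
  let t := if k.val / 2 = 0 then x * y else (x * y)⁻¹
  {{x, s, t}, {x⁻¹, s⁻¹, t⁻¹}}

def qi : Q8 := QuaternionGroup.a 1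
def qj : Q8 := QuaternionGroup.xa 0

theorem diag_mem : ∀ x y : Q8, x * y ≠ y * x → ∀ k, ∃ l, diag x y k = diag qi qj l := by
  decide +kernel

theorem diag_fix : ∀ x y : Q8, x * y ≠ y * x → (∀ k, diag x y k = diag qi qj k) →
    x = qi ∧ y = qj := by
  decide +kernel

theorem diag_inj : Function.Injective (diag qi qj) := by
  decide +kernel

theorem q8_gen : ∀ z : Q8, z = 1 ∨ z = qi ∨ z = qi * qi ∨ z = qi * qi * qi ∨ z = qj ∨ z = qi * qj ∨
    z = qi * qi * qj ∨ z = qi * qi * qi * qj := by
  decide +kernel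

theorem qij : qi * qj ≠ qj * qi := by decide +kernel

theorem image_diag (φ : MulAut Q8) (x y : Q8) (k : Fin 4) :
    (diag x y k).image (fun S => S.image φ) = diag (φ x) (φ y) k := by
  unfold diag
  split_ifs <;> simp [Finset.image_insert]

theorem exists_hom_perm_four : ∃ β : MulAut Q8 →* Equiv.Perm (Fin 4), Function.Injective β := by
  have hnc : ∀ φ : MulAut Q8, φ qi * φ qj ≠ φ qj * φ qi := fun φ h =>
    qij (φ.injective (by simpa using h))
  choose σ hσ using fun (φ : MulAut Q8) => diag_mem _ _ (hnc φ)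
  have hmul : ∀ φ ψ k, σ (φ * ψ) k = σ φ (σ ψ k) := fun φ ψ k => by
    apply diag_inj
    rw [← hσ, ← hσ, ← image_diag φ qi, ← hσ, image_diag]
    rfl
  have hone : ∀ k, σ 1 k = k := fun k => diag_inj (by rw [← hσ]; rfl)
  refine ⟨MonoidHom.toHomPerm (⟨⟨σ, funext hone⟩, fun φ ψ => funext (hmul φ ψ)⟩ :
    MulAut Q8 →* Function.End (Fin 4)), ?_⟩
  rw [injective_iff_map_eq_one]
  intro φ hφ
  have h1 : ∀ k, σ φ k = k := fun k => congrArg (fun e : Equiv.Perm (Fin 4) => e k) hφ
  obtain ⟨h2, h3⟩ := diag_fix _ _ (hnc φ) fun k => by rw [hσ, h1]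
  ext1 z
  rcases q8_gen z with h | h | h | h | h | h | h | h <;> simp [h, h2, h3]

section
variable {G : Type*} [Group G]

theorem exists_conj_hom {K : Type*} [Group K] (F : K →* G) (hF : Function.Injective F)
    [F.range.Normal] : ∃ α : G →* MulAut K, ∀ g k, F (α g k) = g * F k * g⁻¹ := by
  let e := MonoidHom.ofInjective hF
  refine ⟨(MulAut.congr e.symm).toMonoidHom.comp MulAut.conjNormal, fun g k => ?_⟩
  have : ∀ y : F.range, F (e.symm y) = y := fun y => MonoidHom.apply_ofInjective_symm hF y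
  simp only [MulEquiv.toMonoidHom_eq_coe, MonoidHom.coe_comp, MonoidHom.coe_coe,
    Function.comp_apply, MulAut.congr_apply, MulEquiv.trans_apply, MulEquiv.symm_symm, this,
    MulAut.conjNormal_apply]
  rfl

theorem cyc_of_comm [Finite G] (h : HasFPF G) (N : Subgroup G)
    (hc : ∀ P : Subgroup G, P ≤ N → IsPGroup 2 P → ∀ a ∈ P, ∀ b ∈ P, a * b = b * a) :
    IsZGroup N := by
  refine (h.subgroup N).isZGroup_of_isCyclic_sylow_two fun P => ?_
  refine (h.subgroup N).isCyclic_subgroup_of_comm _ fun a ha b hb => Subtype.ext ?_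
  exact hc _ (map_subtype_le P) (P.2.map _) a (mem_map_of_mem _ ha) b (mem_map_of_mem _ hb)

theorem alt_or_perm {n : ℕ} [Nontrivial (Fin n)] (f : G →* Equiv.Perm (Fin n))
    (h : f.range.index ≤ 2) :
    (∃ f' : G →* alternatingGroup (Fin n), Function.Surjective f' ∧ f'.ker = f.ker) ∨
      Function.Surjective f := by
  have h0 : f.range.index ≠ 0 := index_ne_zero_of_finite
  by_cases h1 : f.range.index = 1
  · exact Or.inr (MonoidHom.range_eq_top.mp (index_eq_one.mp h1))
  · have h2 := Equiv.Perm.eq_alternatingGroup_of_index_eq_two (G := f.range) (by omega)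
    refine Or.inl ⟨f.codRestrict _ fun x => h2 ▸ ⟨x, rfl⟩, fun y => ?_, ?_⟩
    · obtain ⟨x, hx⟩ : y.1 ∈ f.range := h2.ge y.2
      exact ⟨x, Subtype.ext hx⟩
    · ext x; simp

theorem not_two_invol [Finite G] {K : Subgroup G} [IsZGroup K] {v w : G} (hv : v ∈ K) (hw : w ∈ K)
    (hv1 : v ≠ 1) (hw1 : w ≠ 1) (hne : w ≠ v) (hv2 : v ^ 2 = 1) (hw2 : w ^ 2 = 1)
    (hc : v * w = w * v) : False := by
  have hP : IsPGroup 2 (zpowers v ⊔ zpowers w : Subgroup G) := by
    have aux : ∀ u : G, u ≠ 1 → u ^ 2 = 1 → IsPGroup 2 (zpowers u) := fun u h1 h2 =>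
      IsPGroup.of_card (n := 1) (by rw [Nat.card_zpowers, orderOf_eq_prime h2 h1, pow_one])
    refine IsPGroup.to_sup_of_normal_right' (aux v hv1 hv2) (aux w hw1 hw2) ?_
    · refine le_trans ?_ (centralizer_le_normalizer _)
      rw [zpowers_le, mem_centralizer_iff]
      rintro _ ⟨k, rfl⟩
      exact ((show Commute w v from hc.symm).zpow_left k).eq
  have hle : (zpowers v ⊔ zpowers w : Subgroup G) ≤ K := by simp [hv, hw]
  have := isCyclic_of_isPGroup_of_le hle hP
  have ho : orderOf v = 2 := orderOf_eq_prime hv2 hv1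
  have h1 := mem_zpowers_of_isCyclic (P := zpowers v ⊔ zpowers w) (u := v) (x := w)
    (mem_sup_left (mem_zpowers v)) (mem_sup_right (mem_zpowers w)) (by rw [ho, hw2])
  classical
  rw [mem_zpowers_iff_mem_range_orderOf, ho] at h1
  simp only [Finset.mem_image, Finset.mem_range] at h1
  obtain ⟨i, hi, rfl⟩ := h1
  interval_cases i
  · exact hw1 (pow_zero v)
  · exact hne (pow_one v)

open Equiv in
theorem perm4_aux : ∀ x : Perm (Fin 4), x ≠ 1 → ∀ v : Perm (Fin 4),
    (v = swap 0 1 * swap 2 3 ∨ v = swap 0 2 * swap 1 3) →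
    ∃ g ∈ [swap (0 : Fin 4) 1 * swap 2 3, swap 0 2 * swap 1 3],
    ∃ h ∈ [(1 : Perm (Fin 4)), swap 0 1 * swap 1 2, swap 1 2 * swap 0 1],
      v = h * x * h⁻¹ ∨ v = h * (x * (g * x⁻¹ * g⁻¹)) * h⁻¹ := by
  decide +kernel

open Equiv in
theorem perm4_bot (K : Subgroup (Perm (Fin 4))) [IsZGroup K]
    (hn : ∀ g ∈ alternatingGroup (Fin 4), ∀ x ∈ K, g * x * g⁻¹ ∈ K) : K = ⊥ := by
  rw [eq_bot_iff_forall]
  intro x hx
  by_contra h1
  have key : ∀ v : Perm (Fin 4), (v = swap 0 1 * swap 2 3 ∨ v = swap 0 2 * swap 1 3) → v ∈ K := by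
    intro v hv
    obtain ⟨g, hg, h, hh, e⟩ := perm4_aux x h1 v hv
    have hg' : g ∈ alternatingGroup (Fin 4) := by
      rw [Perm.mem_alternatingGroup]; clear e; revert g; decide +kernel
    have hh' : h ∈ alternatingGroup (Fin 4) := by
      rw [Perm.mem_alternatingGroup]; clear e; revert h; decide +kernel
    rcases e with e | e <;> rw [e]
    · exact hn h hh' x hx
    · exact hn h hh' _ (K.mul_mem hx (hn g hg' _ (K.inv_mem hx)))
  exact not_two_invol (key _ (Or.inl rfl)) (key _ (Or.inr rfl)) (by decide +kernel)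
    (by decide +kernel) (by decide +kernel) (by decide +kernel) (by decide +kernel)
    (by decide +kernel)

open Equiv in
theorem perm5_aux : ∀ x : Perm (Fin 5), x * (swap 0 1 * swap 1 2) = (swap 0 1 * swap 1 2) * x →
    x * (swap 2 3 * swap 3 4) = (swap 2 3 * swap 3 4) * x → x = 1 := by
  decide +kernel

open Equiv in
theorem perm5_bot (K : Subgroup (Perm (Fin 5))) [IsZGroup K]
    (hn : ∀ g ∈ alternatingGroup (Fin 5), ∀ x ∈ K, g * x * g⁻¹ ∈ K) : K = ⊥ := by
  have hN : (K.subgroupOf (alternatingGroup (Fin 5))).Normal :=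
    ⟨fun x hx g => hn g g.2 x hx⟩
  rcases hN.eq_bot_or_eq_top with h | h
  · rw [eq_bot_iff_forall]
    intro x hx
    have key : ∀ g ∈ alternatingGroup (Fin 5), x * g = g * x := by
      intro g hg
      have h1 : x * (g * x⁻¹ * g⁻¹) ∈ alternatingGroup (Fin 5) := by
        rw [Perm.mem_alternatingGroup] at hg ⊢
        simp [hg]
      have h2 : (⟨_, h1⟩ : alternatingGroup (Fin 5)) ∈ K.subgroupOf (alternatingGroup (Fin 5)) :=
        K.mul_mem hx (hn g hg _ (K.inv_mem hx))
      rw [h, mem_bot, Subtype.ext_iff] at h2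
      have h3 : x * (g * x⁻¹ * g⁻¹) = 1 := h2
      calc x * g = x * (g * x⁻¹ * g⁻¹) * (g * x) := by group
        _ = g * x := by rw [h3, one_mul]
    exact perm5_aux x (key _ (by rw [Perm.mem_alternatingGroup]; decide +kernel))
      (key _ (by rw [Perm.mem_alternatingGroup]; decide +kernel))
  · have key : ∀ g ∈ alternatingGroup (Fin 5), g ∈ K := fun g hg =>
      (h.ge (mem_top (⟨g, hg⟩ : alternatingGroup (Fin 5))) :)
    exact (not_two_invol (v := swap 0 1 * swap 2 3) (w := swap 0 2 * swap 1 3)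
      (key _ (by rw [Perm.mem_alternatingGroup]; decide +kernel))
      (key _ (by rw [Perm.mem_alternatingGroup]; decide +kernel)) (by decide +kernel)
      (by decide +kernel) (by decide +kernel) (by decide +kernel) (by decide +kernel)
      (by decide +kernel)).elim


/-- The list of quotients. -/
def Quo (N : Subgroup G) : Prop :=
  (N = ⊤ ∨
    (∃ f : G →* DihedralGroup 2, Function.Surjective f ∧ f.ker = N) ∨
    (∃ f : G →* alternatingGroup (Fin 4), Function.Surjective f ∧ f.ker = N) ∨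
    (∃ f : G →* Equiv.Perm (Fin 4), Function.Surjective f ∧ f.ker = N) ∨
    (∃ f : G →* alternatingGroup (Fin 5), Function.Surjective f ∧ f.ker = N) ∨
    (∃ f : G →* Equiv.Perm (Fin 5), Function.Surjective f ∧ f.ker = N))

/-- `N` contains all normal Z-subgroups and has index divisible by `3`. -/
def Big (N : Subgroup G) : Prop :=
  3 ∣ N.index ∧ ∀ M : Subgroup G, M.Normal → IsZGroup M → M ≤ N

theorem isZGroup_map [Finite G] {H : Type*} [Group H] (f : G →* H) (M : Subgroup G) [IsZGroup M] :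
    IsZGroup (M.map f) :=
  IsZGroup.of_surjective (f := f.subgroupMap M) (f.subgroupMap_surjective M)

theorem big_of_perm [Finite G] {n : ℕ} (f : G →* Equiv.Perm (Fin n))
    (hf : alternatingGroup (Fin n) ≤ f.range) (h3 : 3 ∣ Nat.card (alternatingGroup (Fin n)))
    (hb : ∀ K : Subgroup (Equiv.Perm (Fin n)), IsZGroup K →
      (∀ g ∈ alternatingGroup (Fin n), ∀ x ∈ K, g * x * g⁻¹ ∈ K) → K = ⊥) : Big f.ker := by
  refine ⟨?_, fun M hM hZ => ?_⟩
  · rw [index_ker]; exact h3.trans (card_dvd_of_le hf)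
  · rw [← Subgroup.map_eq_bot_iff]
    refine hb _ (isZGroup_map f M) ?_
    rintro g hg _ ⟨x, hx, rfl⟩
    obtain ⟨y, rfl⟩ := hf hg
    exact ⟨_, hM.conj_mem x hx y, by simp⟩

theorem card_alt4 : 3 ∣ Nat.card (alternatingGroup (Fin 4)) := by
  have := two_mul_nat_card_alternatingGroup (α := Fin 4)
  rw [Nat.card_perm] at this
  simp [Nat.factorial] at this ⊢
  omega

theorem card_alt5 : 3 ∣ Nat.card (alternatingGroup (Fin 5)) := by
  have := two_mul_nat_card_alternatingGroup (α := Fin 5)
  rw [Nat.card_perm] at this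
  simp [Nat.factorial] at this ⊢
  omega

theorem Quo.cases [Finite G] {N : Subgroup G} (h : Quo N) :
    N = ⊤ ∨ (∃ f : G →* DihedralGroup 2, Function.Surjective f ∧ f.ker = N) ∨ Big N := by
  have aux : ∀ {n : ℕ} (f : G →* alternatingGroup (Fin n)), Function.Surjective f →
      alternatingGroup (Fin n) ≤ ((alternatingGroup (Fin n)).subtype.comp f).range ∧
      ((alternatingGroup (Fin n)).subtype.comp f).ker = f.ker := fun f hf =>
    ⟨fun y hy => by obtain ⟨x, hx⟩ := hf ⟨y, hy⟩; exact ⟨x, congrArg Subtype.val hx⟩,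
      by ext x; simp⟩
  rcases h with h | h | ⟨f, hf, rfl⟩ | ⟨f, hf, rfl⟩ | ⟨f, hf, rfl⟩ | ⟨f, hf, rfl⟩
  · exact Or.inl h
  · exact Or.inr (Or.inl h)
  all_goals refine Or.inr (Or.inr ?_)
  · rw [← (aux f hf).2]
    exact big_of_perm _ (aux f hf).1 card_alt4 fun K _ hK => perm4_bot K hK
  · exact big_of_perm _ (by rw [MonoidHom.range_eq_top.mpr hf]; exact le_top) card_alt4
      fun K _ hK => perm4_bot K hK
  · rw [← (aux f hf).2]
    exact big_of_perm _ (aux f hf).1 card_alt5 fun K _ hK => perm5_bot K hK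
  · exact big_of_perm _ (by rw [MonoidHom.range_eq_top.mpr hf]; exact le_top) card_alt5
      fun K _ hK => perm5_bot K hK

theorem index_dih {f : G →* DihedralGroup 2} (hf : Function.Surjective f) : f.ker.index = 4 := by
  rw [index_ker, MonoidHom.range_eq_top.mpr hf, card_top, DihedralGroup.nat_card]

theorem dih_unique [Finite G] (h : HasFPF G) {f₁ f₂ : G →* DihedralGroup 2}
    (h₁ : Function.Surjective f₁) : f₁.ker ≤ f₂.ker := by
  have hc : ∀ a b : DihedralGroup 2, a * b = b * a := by decide +kernel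
  have hs : ∀ a : DihedralGroup 2, a ^ 2 = 1 := by decide +kernel
  let ψ := (f₁.prod f₂).rangeRestrict
  have hψ : Function.Surjective ψ := MonoidHom.rangeRestrict_surjective _
  have hsq : ∀ a : (f₁.prod f₂).range, a ^ 2 = 1 := fun a => Subtype.ext (Prod.ext (hs _) (hs _))
  have hR : IsPGroup 2 (f₁.prod f₂).range := fun a => ⟨1, hsq a⟩
  let _ : CommGroup (f₁.prod f₂).range :=
    { (inferInstance : Group (f₁.prod f₂).range) with
      mul_comm := fun a b => Subtype.ext (Prod.ext (hc _ _) (hc _ _)) }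
  obtain ⟨T⟩ : Nonempty (Sylow 2 G) := inferInstance
  have h1 : (T : Subgroup G).map ψ = ⊤ :=
    ((T.mapSurjective hψ).3 (hR.to_subgroup ⊤) le_top).symm
  have h2 : Function.Surjective (ψ.comp (T : Subgroup G).subtype) := by
    rw [← MonoidHom.range_eq_top, MonoidHom.range_comp, range_subtype, h1]
  have h3 := (Group.rank_le_of_surjective _ h2).trans (h.rank_le_two T.2)
  have h4 := card_dvd_exponent_pow_rank' (f₁.prod f₂).range hsq
  have h5 : Nat.card (f₁.prod f₂).range ≤ 4 :=
    (Nat.le_of_dvd (by positivity) h4).trans (Nat.pow_le_pow_right two_pos h3)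
  rw [← index_ker, MonoidHom.ker_prod] at h5
  have h6 := relIndex_mul_index (inf_le_left : f₁.ker ⊓ f₂.ker ≤ f₁.ker)
  rw [index_dih h₁] at h6
  have h7 : (f₁.ker ⊓ f₂.ker).index ≠ 0 := index_ne_zero_of_finite
  have h8 : (f₁.ker ⊓ f₂.ker).relIndex f₁.ker = 1 := by omega
  exact (relIndex_eq_one.mp h8).trans inf_le_right

theorem not_top_dih [Finite G] (hZ : IsZGroup (⊤ : Subgroup G)) {f : G →* DihedralGroup 2}
    (hf : Function.Surjective f) : False := by
  have := isZGroup_map f ⊤
  rw [map_top_of_surjective f hf] at this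
  exact not_two_invol (K := ⊤) (v := DihedralGroup.r (1 : ZMod 2)) (w := DihedralGroup.sr 0)
    (mem_top _) (mem_top _) (by decide +kernel) (by decide +kernel) (by decide +kernel)
    (by decide +kernel) (by decide +kernel) (by decide +kernel)

theorem unique [Finite G] (h : HasFPF G) {N₁ N₂ : Subgroup G} (n₁ : N₁.Normal) (n₂ : N₂.Normal)
    (z₁ : IsZGroup N₁) (z₂ : IsZGroup N₂) (q₁ : Quo N₁) (q₂ : Quo N₂) : N₁ ≤ N₂ := by
  rcases q₂.cases with rfl | ⟨f₂, h₂, rfl⟩ | b₂
  · exact le_top
  · rcases q₁.cases with rfl | ⟨f₁, h₁, rfl⟩ | b₁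
    · exact (not_top_dih z₁ h₂).elim
    · exact dih_unique h h₁
    · have := b₁.1.trans (index_dvd_of_le (b₁.2 _ n₂ z₂))
      rw [index_dih h₂] at this
      omega
  · exact b₂.2 _ n₁ z₁

theorem exists_nonsolvable [Finite G] (h : HasFPF G) (hs : ¬ Group.IsSolvable G) :
    ∃ N : Subgroup G, N.Normal ∧ IsZGroup N ∧ Quo N := by
  obtain ⟨F, hF, hn, -⟩ := h.exists_sl25 hs
  obtain ⟨α, hα⟩ := exists_conj_hom F hF
  obtain ⟨β, hβ⟩ := exists_hom_perm_five
  have hαF : ∀ M, α (F M) = MulAut.conj M := fun M => by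
    ext1 k; apply hF; rw [hα]; simp
  have hi : (β.comp α).range.index ≤ 2 := by
    have h1 : (β.comp MulAut.conj).range ≤ (β.comp α).range := by
      rintro _ ⟨M, rfl⟩
      exact ⟨F M, by simp [hαF]⟩
    have h2 : Nat.card (β.comp MulAut.conj).ker ≤ 2 := by
      have : ((β.comp MulAut.conj).ker : Set SL25) ⊆ {1, -1} := fun M hM => hβ M hM
      have h3 := Set.ncard_le_ncard this
      rw [Set.ncard_pair sl25_neg_one_ne.symm] at h3
      exact h3
    have h3 := (β.comp MulAut.conj).ker.card_mul_index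
    rw [index_ker, card_sl25] at h3
    have h4 := card_le_of_le h1
    have h5 := (β.comp α).range.card_mul_index
    rw [Nat.card_perm] at h5
    simp only [Nat.card_eq_fintype_card (α := Fin 5), Fintype.card_fin, Nat.factorial] at h5
    by_contra hc
    nlinarith
  have hZ : IsZGroup (β.comp α).ker := by
    refine cyc_of_comm h _ fun P hP h2 a ha b hb => ?_
    have h1 : ∀ M, α a M = M ∨ α a M = -M := fun M => by
      have h3 : β (α a) = 1 := hP ha
      have h4 : MulAut.conj (α a M * M⁻¹) = α a * MulAut.conj M * (α a)⁻¹ * (MulAut.conj M)⁻¹ := by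
        ext1 k; simp [mul_assoc]
      rcases hβ (α a M * M⁻¹) (by rw [h4]; simp [h3]) with e | e
      · exact Or.inl (mul_inv_eq_one.mp e)
      · exact Or.inr (by rw [mul_inv_eq_iff_eq_mul.mp e, neg_one_mul])
    have h3 : ∀ M, M ^ 3 = 1 → α a M = M := fun M hM => by
      refine (h1 M).resolve_right fun e => sl25_neg_one_ne ?_
      have := congrArg (· ^ 3) e
      simp only [← map_pow, hM, map_one] at this
      rw [Odd.neg_pow (by decide), hM] at this
      exact this.symm
    have h4 : ∀ M, a * F M = F M * a := fun M => by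
      have h5 : α a = 1 := by
        have : (MonoidHom.eqLocus (α a).toMonoidHom (MonoidHom.id _)) = ⊤ :=
          sl25_eq_top (h3 _ sl25X_pow) (h3 _ sl25Y_pow)
        ext1 k
        exact (this.ge (mem_top k) :)
      have := hα a M
      rw [h5] at this
      exact (eq_mul_inv_iff_mul_eq.mp this).symm
    have h5 : a * a = 1 := by
      by_contra hne
      have h6 : ∀ M : SL25, M ^ 4 = 1 → F M ∈ zpowers a := fun M hM => by
        have hc : IsCyclic (zpowers a ⊔ zpowers (F M) : Subgroup G) := by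
          refine h.isCyclic_subgroup_of_comm _ ?_
          have : (zpowers a ⊔ zpowers (F M) : Subgroup G) = closure {a, F M} := by
            rw [zpowers_eq_closure, zpowers_eq_closure, ← Subgroup.closure_union]; rfl
          rw [this]
          intro x hx y hy
          have hcomm := isMulCommutative_closure (k := {a, F M}) (by
            rintro x (rfl | rfl) y (rfl | rfl)
            exacts [rfl, h4 M, (h4 M).symm, rfl])
          exact congrArg Subtype.val (hcomm.is_comm.comm ⟨x, hx⟩ ⟨y, hy⟩)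
        refine mem_zpowers_of_isCyclic (P := zpowers a ⊔ zpowers (F M))
          (mem_sup_left (mem_zpowers _)) (mem_sup_right (mem_zpowers _)) ?_
        obtain ⟨k, hk⟩ := IsPGroup.iff_orderOf.mp h2 ⟨a, ha⟩
        rw [← orderOf_injective P.subtype P.subtype_injective] at hk
        change orderOf a = _ at hk
        have hk2 : 2 ≤ k := by
          by_contra hlt
          apply hne
          rw [← sq, ← orderOf_dvd_iff_pow_eq_one, hk]
          exact (pow_dvd_pow 2 (by omega : k ≤ 1))
        obtain ⟨j, rfl⟩ := Nat.exists_eq_add_of_le hk2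
        rw [hk, pow_add, pow_mul, ← map_pow, show 2 ^ 2 = 4 from rfl, hM, map_one, one_pow]
      obtain ⟨i, hi⟩ := h6 sl25I (by decide +kernel)
      obtain ⟨j, hj⟩ := h6 sl25J (by decide +kernel)
      have h7 : F (sl25I * sl25J) = F (sl25J * sl25I) := by
        rw [map_mul, map_mul, ← hi, ← hj]
        exact (Commute.zpow_zpow_self a i j).eq
      exact absurd (hF h7) (by decide +kernel)
    exact (mem_center_iff.mp (h.involution_mem_center h5) b).symm
  refine ⟨_, inferInstance, hZ, ?_⟩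
  rcases alt_or_perm _ hi with e | e
  · exact Or.inr (Or.inr (Or.inr (Or.inr (Or.inl e))))
  · exact Or.inr (Or.inr (Or.inr (Or.inr (Or.inr ⟨_, e, rfl⟩))))


/-- `Q_{4n} → V₄` for even `n`. -/
def quatToDih {n : ℕ} (hn : 2 ∣ n) : QuaternionGroup n →* DihedralGroup 2 where
  toFun
    | QuaternionGroup.a i => DihedralGroup.r (ZMod.castHom (dvd_mul_right 2 n) (ZMod 2) i)
    | QuaternionGroup.xa i => DihedralGroup.sr (ZMod.castHom (dvd_mul_right 2 n) (ZMod 2) i)
  map_one' := by
    change DihedralGroup.r (ZMod.castHom (dvd_mul_right 2 n) (ZMod 2) 0) = 1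
    rw [map_zero]; rfl
  map_mul' := by
    have h0 : ((n : ℕ) : ZMod 2) = 0 := (ZMod.natCast_eq_zero_iff n 2).mpr hn
    rintro (i | i) (j | j)
    · simp only [QuaternionGroup.a_mul_a, map_add, DihedralGroup.r_mul_r]
    · simp only [QuaternionGroup.a_mul_xa, map_sub, DihedralGroup.r_mul_sr]
    · simp only [QuaternionGroup.xa_mul_a, map_add, DihedralGroup.sr_mul_r]
    · simp only [QuaternionGroup.xa_mul_xa, map_sub, map_add, map_natCast, h0, zero_add,
        DihedralGroup.sr_mul_sr]

theorem quatToDih_surj {n : ℕ} (hn : 2 ∣ n) : Function.Surjective (quatToDih hn) := by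
  have := ZMod.castHom_surjective (dvd_mul_right 2 n)
  rintro (i | i) <;> obtain ⟨j, rfl⟩ := this i
  exacts [⟨QuaternionGroup.a j, rfl⟩, ⟨QuaternionGroup.xa j, rfl⟩]

theorem quatToDih_comm {n : ℕ} (hn : 2 ∣ n) {x y : QuaternionGroup n} (hx : quatToDih hn x = 1)
    (hy : quatToDih hn y = 1) : x * y = y * x := by
  rcases x with i | i
  · rcases y with j | j
    · simp [add_comm]
    · cases hy
  · cases hx

theorem hasFPF_of_quot [Finite G] (h : HasFPF G) {O : Subgroup G} [O.Normal]
    (hO : (Nat.card O).Coprime 2) {E : Subgroup (G ⧸ O)} (hE : IsPGroup 2 E) : HasFPF E := by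
  obtain ⟨Q, hQ⟩ := hE.exists_le_sylow
  obtain ⟨P, rfl⟩ := Sylow.mapSurjective_surjective (QuotientGroup.mk'_surjective O) 2 Q
  have hinj : Function.Injective ((QuotientGroup.mk' O).comp (P : Subgroup G).subtype) := by
    rw [injective_iff_map_eq_one]
    intro x hx
    have h1 : (x : G) ∈ O := (QuotientGroup.eq_one_iff _).mp hx
    obtain ⟨k, hk⟩ := IsPGroup.iff_orderOf.mp P.2 x
    have h2 := orderOf_dvd_natCard (⟨x, h1⟩ : O)
    rw [← orderOf_injective O.subtype O.subtype_injective] at h2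
    rw [← orderOf_injective (P : Subgroup G).subtype (subtype_injective _)] at hk
    change orderOf (x : G) ∣ _ at h2
    change orderOf (x : G) = _ at hk
    exact Subtype.ext (orderOf_eq_one_iff.mp
      (Nat.eq_one_of_dvd_coprimes (hO.pow_right k) h2 hk.dvd))
  have h1 := (h.subgroup P).of_mulEquiv (MonoidHom.ofInjective hinj)
  rw [MonoidHom.range_comp, range_subtype] at h1
  exact h1.of_le hQ

theorem comm_of_quot [Finite G] {O : Subgroup G} [O.Normal] (hO : (Nat.card O).Coprime 2)
    {P : Subgroup G} (hP : IsPGroup 2 P) {a b : G} (ha : a ∈ P) (hb : b ∈ P)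
    (hc : (a : G ⧸ O) * b = b * a) : a * b = b * a := by
  have h1 : a * b * (b * a)⁻¹ ∈ O := by
    rw [← QuotientGroup.eq_one_iff, QuotientGroup.mk_mul, QuotientGroup.mk_inv,
      QuotientGroup.mk_mul, QuotientGroup.mk_mul, hc, mul_inv_cancel]
  have h0 : a * b * (b * a)⁻¹ ∈ P := P.mul_mem (P.mul_mem ha hb) (P.inv_mem (P.mul_mem hb ha))
  obtain ⟨k, hk⟩ := IsPGroup.iff_orderOf.mp hP ⟨_, h0⟩
  have h2 := orderOf_dvd_natCard (⟨_, h1⟩ : O)
  rw [← orderOf_injective O.subtype O.subtype_injective] at h2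
  rw [← orderOf_injective P.subtype (subtype_injective _)] at hk
  exact mul_inv_eq_one.mp (orderOf_eq_one_iff.mp
    (Nat.eq_one_of_dvd_coprimes (hO.pow_right k) h2 hk.dvd))

theorem card_range_conj_q8 : Nat.card (MulAut.conj : Q8 →* MulAut Q8).range = 4 := by
  have h1 : ((MulAut.conj : Q8 →* MulAut Q8).ker : Set Q8) = {1, qi * qi} := by
    have h2 : ∀ x : Q8, (∀ y, x * y * x⁻¹ = y) ↔ x = 1 ∨ x = qi * qi := by decide +kernel
    ext x
    simp only [SetLike.mem_coe, MonoidHom.mem_ker, MulEquiv.ext_iff, MulAut.conj_apply,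
      MulAut.one_apply, h2, Set.mem_insert_iff, Set.mem_singleton_iff]
  have h2 : Nat.card (MulAut.conj : Q8 →* MulAut Q8).ker = 2 := by
    change Set.ncard ((MulAut.conj : Q8 →* MulAut Q8).ker : Set Q8) = 2
    rw [h1, Set.ncard_pair (by decide +kernel)]
  have h3 := (MulAut.conj : Q8 →* MulAut Q8).ker.card_mul_index
  rw [index_ker, h2, Nat.card_eq_fintype_card (α := Q8), QuaternionGroup.card] at h3
  omega

theorem exists_solvable [Finite G] (h : HasFPF G) (hs : Group.IsSolvable G) :
    ∃ N : Subgroup G, N.Normal ∧ IsZGroup N ∧ Quo N := by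
  have hO : (Nat.card (pPrimeCore 2 G)).Coprime 2 := pPrimeCore_coprime 2
  have hC := centralizer_pCore_le (G := G ⧸ pPrimeCore 2 G) (p := 2)
    (isPSolvable_of_isSolvable inferInstance) (pPrimeCore_quotient_pPrimeCore 2)
  have hE : IsPGroup 2 (pCore 2 (G ⧸ pPrimeCore 2 G)) := pCore_isPGroup 2
  have hn : (pCore 2 (G ⧸ pPrimeCore 2 G)).Normal := inferInstance
  generalize pCore 2 (G ⧸ pPrimeCore 2 G) = E at hC hE hn
  have hEF := hasFPF_of_quot h hO hE
  have hcq := hEF.isCyclic_or_quaternion (P := ⊤) (hE.to_subgroup ⊤)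
  by_cases h2 : IsPGroup 2 (G ⧸ pPrimeCore 2 G)
  · have hF := hasFPF_of_quot h hO (h2.to_subgroup ⊤)
    rcases (hF.of_mulEquiv topEquiv).isCyclic_or_quaternion (P := ⊤) (h2.to_subgroup ⊤) with
      hc | ⟨-, k, hk, ⟨e⟩⟩
    · refine ⟨⊤, inferInstance, cyc_of_comm h _ fun P _ hP a ha b hb => ?_, Or.inl rfl⟩
      exact comm_of_quot hO hP ha hb (congrArg Subtype.val (hc.isMulCommutative.is_comm.comm
        (⟨a, mem_top _⟩ : (⊤ : Subgroup (G ⧸ pPrimeCore 2 G))) ⟨b, mem_top _⟩))
    · have hd : 2 ∣ 2 ^ k := dvd_pow_self 2 (by omega)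
      let e' := topEquiv.symm.trans e
      refine ⟨_, inferInstance, cyc_of_comm h _ fun P hP' hP a ha b hb => ?_, Or.inr (Or.inl
        ⟨(quatToDih hd).comp (e'.toMonoidHom.comp (QuotientGroup.mk' _)), ?_, rfl⟩)⟩
      · refine comm_of_quot hO hP ha hb (e'.injective ?_)
        rw [map_mul, map_mul]
        exact quatToDih_comm hd (hP' ha) (hP' hb)
      · exact (quatToDih_surj hd).comp (e'.surjective.comp (QuotientGroup.mk'_surjective _))
  · obtain ⟨r, hr, hrd, hr2⟩ : ∃ r : ℕ, r.Prime ∧ r ∣ Nat.card (G ⧸ pPrimeCore 2 G) ∧ r ≠ 2 := by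
      by_contra hc
      push Not at hc
      exact h2 (IsPGroup.of_card (Nat.eq_prime_pow_of_unique_prime_dvd Nat.card_pos.ne'
        fun hr hd => hc _ hr hd))
    have : Fact r.Prime := ⟨hr⟩
    obtain ⟨g, hg⟩ := exists_prime_orderOf_dvd_card' r hrd
    have hgE : g ∉ E := fun hgE => by
      obtain ⟨k, hk⟩ := IsPGroup.iff_orderOf.mp hE ⟨g, hgE⟩
      rw [← orderOf_injective E.subtype (subtype_injective _)] at hk
      change orderOf g = _ at hk
      exact hr2 ((Nat.prime_dvd_prime_iff_eq hr Nat.prime_two).mp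
        (hr.dvd_of_dvd_pow (hg.symm.trans hk).dvd))
    have hA : r ∣ Nat.card (MulAut E) := PCompl.dvd_card_mulAut_of_not_mem_centralizer (k := 1)
      (by rw [normalizer_eq_top]; exact mem_top g) hr (by rw [hg, pow_one]) fun hc => hgE (hC hc)
    have hA2 : ¬ IsPGroup 2 (MulAut E) := fun hp => by
      obtain ⟨k, hk⟩ := IsPGroup.iff_card.mp hp
      rw [hk] at hA
      exact hr2 ((Nat.prime_dvd_prime_iff_eq hr Nat.prime_two).mp (hr.dvd_of_dvd_pow hA))
    rcases hcq with hc | ⟨-, k, hk, ⟨e⟩⟩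
    · obtain ⟨i, h1, h3, h4⟩ := PCompl.exists_dvd_pow_sub_one_of_dvd_card_mulAut hE hr hr2 hA
      have : IsCyclic E := isCyclic_of_surjective topEquiv topEquiv.surjective
      have h5 : Group.rank E ≤ 1 := by
        obtain ⟨x, hx⟩ := IsCyclic.exists_zpow_surjective (G := E)
        simpa using Group.rank_le (S := {x}) (by
          rw [Finset.coe_singleton, ← zpowers_eq_closure, eq_top_iff]; exact fun y _ => hx y)
      have : i = 1 := by omega
      subst this
      exact absurd (Nat.dvd_one.mp h4) hr.one_lt.ne'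
    have e' := topEquiv.symm.trans e
    have hk1 : k = 1 := by
      by_contra hne
      obtain ⟨x, y, hxy, -⟩ := PGrp.exists_isDQSDPair_of_mulEquiv_quaternionGroup hk e'
      exact hA2 (hxy.isPGroup_mulAut (Or.inl (by omega)))
    subst hk1
    let F : Q8 →* G ⧸ pPrimeCore 2 G := E.subtype.comp e'.symm.toMonoidHom
    have hF : Function.Injective F := E.subtype_injective.comp e'.symm.injective
    have hFr : F.range = E := by
      rw [MonoidHom.range_comp, MonoidHom.range_eq_top.mpr e'.symm.surjective,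
        ← MonoidHom.range_eq_map, range_subtype]
    have : F.range.Normal := hFr ▸ hn
    obtain ⟨α, hα⟩ := exists_conj_hom F hF
    obtain ⟨β, hβ⟩ := exists_hom_perm_four
    have hαF : ∀ M, α (F M) = MulAut.conj M := fun M => by
      ext1 k; apply hF; rw [hα]; simp
    have hker : ∀ x, β (α x) = 1 → x ∈ centralizer (E : Set (G ⧸ pPrimeCore 2 G)) := by
      intro x hx y hy
      obtain ⟨z, rfl⟩ := hFr.ge hy
      have h1 := hα x z
      rw [(injective_iff_map_eq_one β).mp hβ _ hx] at h1
      exact eq_mul_inv_iff_mul_eq.mp h1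
    let f := (β.comp α).comp (QuotientGroup.mk' _)
    have hfr : f.range = (β.comp α).range := by
      rw [MonoidHom.range_comp, QuotientGroup.range_mk', ← MonoidHom.range_eq_map]
    have hi : f.range.index ≤ 2 := by
      have h1 : (MulAut.conj : Q8 →* MulAut Q8).range.map β ≤ f.range := by
        rw [hfr]
        rintro _ ⟨_, ⟨M, rfl⟩, rfl⟩
        exact ⟨F M, by simp [hαF]⟩
      have h3 := card_dvd_of_le h1
      rw [card_map_of_injective hβ, card_range_conj_q8] at h3
      have h4 : r ∣ Nat.card f.range := by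
        have h5 : orderOf (β (α g)) = r :=
          orderOf_eq_prime (by rw [← map_pow, ← map_pow, ← hg, pow_orderOf_eq_one]; simp)
            fun h0 => hgE (hC (hker g h0))
        rw [← h5, hfr]
        exact Subgroup.orderOf_dvd_natCard _ ⟨g, rfl⟩
      have h5 := f.range.card_mul_index
      rw [Nat.card_perm] at h5
      simp only [Nat.card_eq_fintype_card (α := Fin 4), Fintype.card_fin, Nat.factorial] at h5
      have h6 : r * 4 ∣ Nat.card f.range :=
        Nat.Coprime.mul_dvd_of_dvd_of_dvd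
          ((Nat.coprime_primes hr Nat.prime_two).mpr hr2 |>.pow_right 2) h4 h3
      have h7 := Nat.le_of_dvd Nat.card_pos h6
      have h8 : 3 ≤ r := by have := hr.two_le; omega
      by_contra hc
      nlinarith
    refine ⟨f.ker, inferInstance, cyc_of_comm h _ fun P hP' hP a ha b hb => ?_, ?_⟩
    · exact comm_of_quot hO hP ha hb (hker _ (hP' hb) _ (hC (hker _ (hP' ha))))
    · rcases alt_or_perm _ hi with e | e
      · exact Or.inr (Or.inr (Or.inl e))
      · exact Or.inr (Or.inr (Or.inr (Or.inl ⟨_, e, rfl⟩)))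

theorem main [Finite G] (h : HasFPF G) : ∃! N : Subgroup G, N.Normal ∧
    (∀ (p : ℕ) [Fact p.Prime] (P : Sylow p N), IsCyclic P) ∧ Quo N := by
  have hz : ∀ N : Subgroup G, (∀ (p : ℕ) [Fact p.Prime] (P : Sylow p N), IsCyclic P) ↔
      IsZGroup N := fun N => ⟨fun hN => ⟨fun p hp P => @hN p ⟨hp⟩ P⟩,
        fun hN p hp P => hN.isZGroup p hp.out P⟩
  simp only [hz]
  obtain ⟨N, h1, h2, h3⟩ : ∃ N : Subgroup G, N.Normal ∧ IsZGroup N ∧ Quo N := by
    by_cases hs : Group.IsSolvable G
    · exact exists_solvable h hs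
    · exact exists_nonsolvable h hs
  exact ⟨N, ⟨h1, h2, h3⟩, fun M hM => le_antisymm (unique h hM.1 h1 hM.2.1 h2 hM.2.2 h3)
    (unique h h1 hM.1 h2 hM.2.1 h3 hM.2.2)⟩

end

/-- Let G be a finite group that occurs as a Frobenius complement. Then G has exactly one normal subgroup N such that every Sylow subgroup of N is cyclic and the quotient of G by N is trivial or isomorphic to one of the following five groups: the Klein four-group, the alternating group of degree 4, the symmetric group of degree 4, the alternating group of degree 5, the symmetric group of degree 5. (The quotient is described by a surjective homomorphism with kernel N; the Klein four-group is written as the dihedral group of order 4.) -/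
theorem result {G : Type*} [Group G] [Finite G]
    (hFC : (∃ (L : Type) (_ : Group L) (_ : Finite L) (H : Subgroup L), Cfsg.IsFrobeniusComplement H ∧ Nonempty (G ≃* H))) :
    ∃! N : Subgroup G, N.Normal ∧ (∀ (p : ℕ) [Fact p.Prime] (P : Sylow p N), IsCyclic P) ∧
      (N = ⊤ ∨
        (∃ f : G →* DihedralGroup 2, Function.Surjective f ∧ f.ker = N) ∨
        (∃ f : G →* alternatingGroup (Fin 4), Function.Surjective f ∧ f.ker = N) ∨
        (∃ f : G →* Equiv.Perm (Fin 4), Function.Surjective f ∧ f.ker = N) ∨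
        (∃ f : G →* alternatingGroup (Fin 5), Function.Surjective f ∧ f.ker = N) ∨
        (∃ f : G →* Equiv.Perm (Fin 5), Function.Surjective f ∧ f.ker = N)) := by
  obtain ⟨L, _, _, H, hH, ⟨e⟩⟩ := hFC
  exact main (hasFPF_of_mulEquiv_complement hH e)

end Cfsg.Agent.S4291
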