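import Cfsg.Statements.S4292
import Cfsg.Agent.Lib.FrobLift
import Cfsg.Agent.Lib.FrobMain

set_option autoImplicit false
open Cfsg

namespace Cfsg.Agent.S4292

open CfsgLib.Frob

/-- Let A and B be nontrivial finite groups. Then the direct product A × B occurs as a Frobenius complement if and only if A and B both occur as Frobenius complements and the orders of A and B are coprime. -/
theorem result {A B : Type*} [Group A] [Finite A] [Nontrivial A] [Group B] [Finite B] [Nontrivial B] :
    (∃ (L : Type) (_ : Group L) (_ : Finite L) (H : Subgroup L), Cfsg.IsFrobeniusComplement H ∧ Nonempty ((A × B) ≃* H)) ↔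
    ((∃ (L : Type) (_ : Group L) (_ : Finite L) (H : Subgroup L), Cfsg.IsFrobeniusComplement H ∧ Nonempty (A ≃* H)) ∧
     (∃ (L : Type) (_ : Group L) (_ : Finite L) (H : Subgroup L), Cfsg.IsFrobeniusComplement H ∧ Nonempty (B ≃* H)) ∧
     (Nat.card A).Coprime (Nat.card B)) := by
  rw [← hasFPF_iff_exists_isFrobeniusComplement, ← hasFPF_iff_exists_isFrobeniusComplement,
    ← hasFPF_iff_exists_isFrobeniusComplement]
  exact ⟨fun h => ⟨h.of_injective (MonoidHom.inl A B) (Prod.mk_left_injective 1),
    h.of_injective (MonoidHom.inr A B) (Prod.mk_right_injective 1), h.coprime_of_prod⟩,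
    fun h => h.1.prod h.2.1 h.2.2⟩

end Cfsg.Agent.S4292
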