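import Cfsg.Statements.S4294
import Cfsg.Agent.Lib.DivRingNT
import Cfsg.Agent.S4291

set_option autoImplicit false
open Cfsg

namespace Cfsg.Agent.S4294

open Subgroup CfsgLib
open scoped Pointwise commutatorElement

open CfsgLib.Frob CfsgLib.DivRing

variable {D : Type*} [DivisionRing D]

theorem no_quat (h2 : (2 : D) ≠ 0) {i j a b d : D} (hi : i * i = -1) (hj : j * j = -1)
    (hij : j * i = -(i * j)) (ai : Commute a i) (aj : Commute a j) (bi : Commute b i)
    (bj : Commute b j) (di : Commute d i) (dj : Commute d j) (ab : Commute a b) (ad : Commute a d)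
    (bd : Commute b d) (h : 1 + a ^ 2 + b ^ 2 + d ^ 2 = 0) : False := by
  have hi' : ∀ x, i * (i * x) = -x := fun x => by rw [← mul_assoc, hi, neg_one_mul]
  have hj' : ∀ x, j * (j * x) = -x := fun x => by rw [← mul_assoc, hj, neg_one_mul]
  have hij' : ∀ x, j * (i * x) = -(i * (j * x)) := fun x => by
    rw [← mul_assoc, hij, neg_mul, mul_assoc]
  have key : ∀ {a b d : D}, Commute a i → Commute a j → Commute b i → Commute b j →
      Commute d i → Commute d j → 1 + a * i + b * j + d * (i * j) = 0 → False := by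
    intro a b d ai aj bi bj di dj e
    have e1 : i * (1 + a * i + b * j + d * (i * j)) - (1 - a * i - b * j - d * (i * j)) * i =
        2 * (a * (i * i)) := by
      simp only [mul_add, sub_mul, mul_assoc, ai.symm.left_comm, bi.symm.left_comm,
        di.symm.left_comm, hij, hi', mul_neg, two_mul]
      noncomm_ring
    have e2 : j * (1 + a * i + b * j + d * (i * j)) - (1 - a * i - b * j - d * (i * j)) * j =
        2 * (b * (j * j)) := by
      simp only [mul_add, sub_mul, mul_assoc, aj.symm.left_comm, bj.symm.left_comm,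
        dj.symm.left_comm, hij, hij', mul_neg, two_mul]
      noncomm_ring
    have e3 : 1 - a * i - b * j - d * (i * j) = 2 := by
      rw [← one_add_one_eq_two, ← sub_eq_zero, ← neg_eq_zero, ← e]; noncomm_ring
    rw [e, e3, hi] at e1
    rw [e, e3, hj] at e2
    have e4 : i = a := mul_left_cancel₀ h2 (by rw [← neg_inj, ← zero_sub]; simpa using e1)
    have e5 : i * j = 0 := mul_left_cancel₀ h2 (by
      rw [two_mul, mul_zero, ← eq_neg_iff_add_eq_zero, ← hij, e4, aj.eq])
    have := hi' j
    rw [e5, mul_zero, eq_comm, neg_eq_zero] at this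
    simp [this] at hj
  have e : (1 + a * i + b * j + d * (i * j)) * (1 + (-a) * i + (-b) * j + (-d) * (i * j)) =
      1 + a ^ 2 + b ^ 2 + d ^ 2 := by
    simp only [mul_add, add_mul, mul_assoc, neg_mul, mul_neg, ai.symm.left_comm, bi.symm.left_comm,
      di.symm.left_comm, aj.symm.left_comm, bj.symm.left_comm, dj.symm.left_comm, hij, hi', hj',
      hij', hi, hj, ab.symm.left_comm, ad.symm.left_comm, bd.symm.left_comm, sq, mul_one, one_mul,
      bi.symm.eq]
    abel
  rcases mul_eq_zero.1 (e.trans h) with e | e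
  · exact key ai aj bi bj di dj e
  · exact key ai.neg_left aj.neg_left bi.neg_left bj.neg_left di.neg_left dj.neg_left e

theorem charZero {i j : D} (h2 : (-1 : D) ≠ 1) (hi : i * i = -1) (hj : j * j = -1)
    (hij : j * i = -(i * j)) : CharZero D := by
  obtain ⟨r, hr⟩ := CharP.exists D
  rcases CharP.char_is_prime_or_zero D r with h | rfl
  · have := Fact.mk h
    obtain ⟨a, b, hab⟩ := ZMod.sq_add_sq r (-1)
    obtain ⟨a, rfl⟩ := ZMod.natCast_zmod_surjective a
    obtain ⟨b, rfl⟩ := ZMod.natCast_zmod_surjective b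
    have h3 : ((1 + a ^ 2 + b ^ 2 : ℕ) : D) = 0 := by
      rw [CharP.cast_eq_zero_iff D r, ← ZMod.natCast_eq_zero_iff]
      push_cast
      linear_combination hab
    refine (no_quat (a := (a : D)) (b := (b : D)) (d := 0) (fun h => h2 ?_) hi hj hij (Nat.cast_commute _ _)
      (Nat.cast_commute _ _) (Nat.cast_commute _ _) (Nat.cast_commute _ _) (.zero_left _)
      (.zero_left _) (Nat.cast_commute _ _) (.zero_right _) (.zero_right _)
      (by simpa using h3)).elim
    rw [neg_eq_iff_add_eq_zero, one_add_one_eq_two, h]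
  · exact CharP.charP_to_charZero D

theorem no_root [CharZero D] {i j c s : D} (hi : i * i = -1) (hj : j * j = -1)
    (hij : j * i = -(i * j)) {p : ℕ} (hp : p.Prime) (h2 : p ≠ 2) (h5 : p ≠ 5) (hc : c ^ p = 1)
    (hc1 : c ≠ 1) (hs : s * s = s + 1) (ci : Commute c i) (cj : Commute c j) (si : Commute s i)
    (sj : Commute s j) (cs : Commute c s) : False := by
  let A := Algebra.adjoin ℚ ({c, s} : Set D)
  let _ : CommRing A := Algebra.adjoinCommRingOfComm ℚ (by
    rintro x (rfl | rfl) y (rfl | rfl)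
    exacts [rfl, cs, cs.symm, rfl])
  obtain ⟨a, b, d, h⟩ := exists_sum_sq (A := A) hp h2 h5 (c := ⟨c, Algebra.subset_adjoin (by simp)⟩)
    (s := ⟨s, Algebra.subset_adjoin (by simp)⟩) (Subtype.ext hc)
    (fun h => hc1 (congrArg Subtype.val h)) (Subtype.ext hs)
  have k : ∀ {u : D}, Commute c u → Commute s u → ∀ x : A, Commute (x : D) u := by
    intro u h1 h2 x
    have : A ≤ Subalgebra.centralizer ℚ {u} := Algebra.adjoin_le (by
      rintro y (rfl | rfl) _ rfl
      exacts [h1.symm, h2.symm])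
    exact (this x.2 u rfl).symm
  have k2 : ∀ x y : A, Commute (x : D) y := fun x y => congrArg Subtype.val (mul_comm x y)
  exact no_quat two_ne_zero hi hj hij (k ci si a) (k cj sj a) (k ci si b) (k cj sj b) (k ci si d)
    (k cj sj d) (k2 a b) (k2 a d) (k2 b d) (congrArg Subtype.val h)

theorem main {G : Type*} [Group G] [Finite G] (ρ : G →* D) (hρ : Function.Injective ρ)
    (h : HasFPF G) (hs : ¬ Group.IsSolvable G) : Nonempty (G ≃* SL25) := by
  obtain ⟨F, hF, hn, h3⟩ := h.exists_sl25 hs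
  have sq1 : ∀ g : G, g * g = 1 → g ≠ 1 → ρ g = -1 := fun g h1 h2 =>
    (mul_self_eq_one_iff.1 (by rw [← map_mul, h1, map_one])).resolve_left
      fun h => h2 (hρ (h.trans ρ.map_one.symm))
  have hz1 : F (-1) ≠ 1 := fun e => sl25_neg_one_ne (hF (e.trans F.map_one.symm))
  have hz : ρ (F (-1)) = -1 := sq1 _ (by rw [← map_mul]; simp) hz1
  have hneg : ∀ M, ρ (F (-M)) = -ρ (F M) := fun M => by
    rw [← neg_one_mul M, map_mul, map_mul, hz, neg_one_mul]
  have hi : ρ (F sl25I) * ρ (F sl25I) = -1 := by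
    rw [← map_mul, ← map_mul, show sl25I * sl25I = -1 by decide +kernel, hz]
  have hj : ρ (F sl25J) * ρ (F sl25J) = -1 := by
    rw [← map_mul, ← map_mul, show sl25J * sl25J = -1 by decide +kernel, hz]
  have hij : ρ (F sl25J) * ρ (F sl25I) = -(ρ (F sl25I) * ρ (F sl25J)) := by
    rw [← map_mul, ← map_mul, ← map_mul, ← map_mul, ← hneg,
      show sl25J * sl25I = -(sl25I * sl25J) by decide +kernel]
  have : CharZero D := charZero (fun e => hz1 (hρ (by rw [hz, e, map_one]))) hi hj hij
  have hf : IsFPFHom ρ := fun a ha n hn => by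
    have h1 := mul_geom_sum (ρ a) n
    rw [← map_pow, hn, map_one, sub_self] at h1
    exact (mul_eq_zero.1 h1).resolve_left fun e =>
      ha (hρ ((sub_eq_zero.1 e).trans ρ.map_one.symm))
  -- the golden element
  set w := F (-(sl25X * sl25Y)) with hw
  have hw5 : w ^ 5 = 1 := by
    rw [hw, ← map_pow, show (-(sl25X * sl25Y)) ^ 5 = 1 by decide +kernel, map_one]
  have hw1 : w ≠ 1 := fun e => absurd (hF (e.trans F.map_one.symm)) (by decide +kernel)
  have hsum : 1 + ρ w + ρ w ^ 2 + ρ w ^ 3 + ρ w ^ 4 = 0 := by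
    simpa [Finset.sum_range_succ] using hf w hw1 5 hw5
  have hw4 : ρ w ^ 5 = 1 := by rw [← map_pow, hw5, map_one]
  set s := -(ρ w + ρ w ^ 4) with hsdef
  have hs' : ρ (F sl25X * F sl25Y) + ρ (F sl25X * F sl25Y)⁻¹ = s := by
    rw [← map_mul, ← map_inv, show (sl25X * sl25Y)⁻¹ = -(-(sl25X * sl25Y)) ^ 4 by decide +kernel,
      hneg, map_pow, map_pow, hsdef, neg_add, hw, hneg, neg_neg]
  have hss : s * s = s + 1 := by
    have : s * s - (s + 1) = (ρ w ^ 3 + 1 + 1) * (ρ w ^ 5 - 1) +
        (1 + ρ w + ρ w ^ 2 + ρ w ^ 3 + ρ w ^ 4) := by rw [hsdef]; noncomm_ring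
    rw [hw4, hsum, sub_self, mul_zero, add_zero] at this
    exact sub_eq_zero.1 this
  have hcl : ∀ {u : D}, Commute u (ρ (F sl25X)) → Commute u (ρ (F sl25Y)) →
      ∀ M, Commute u (ρ (F M)) := by
    intro u h1 h2 M
    obtain ⟨l, -, rfl⟩ := exists_gword_eq M
    induction l with
    | nil => simp [gword]
    | cons b l ih => cases b <;> simp only [gword, map_mul] <;> exact Commute.mul_right ‹_› ih
  have hsK : ∀ M, Commute s (ρ (F M)) := by
    have := hf.icoRel (x := F sl25X) (y := F sl25Y)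
      ((orderOf_injective F hF _).trans orderOf_sl25X)
      ((orderOf_injective F hF _).trans orderOf_sl25Y) (by rw [hs', hss])
    rw [hs'] at this
    exact hcl this.xs.symm this.ys.symm
  have hcen : ∀ M : SL25, M * sl25X = sl25X * M → M * sl25Y = sl25Y * M → M = 1 ∨ M = -1 :=
    sl25_forall (by decide +kernel)
  have hcen' : ∀ c : G, (∀ M, c * F M = F M * c) → c ∈ F.range → c = 1 ∨ c = F (-1) := by
    rintro _ hc ⟨M, rfl⟩
    rcases hcen M (hF (by rw [map_mul, map_mul, hc])) (hF (by rw [map_mul, map_mul, hc])) with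
      rfl | rfl
    exacts [Or.inl F.map_one, Or.inr rfl]
  -- the centralizer of `SL₂(5)`
  have hC : ∀ (n : ℕ) (c : G), orderOf c = n → (∀ M, c * F M = F M * c) → c = 1 ∨ c = F (-1) := by
    intro n
    induction n using Nat.strong_induction_on with
    | _ n ih =>
    intro c hc hM
    by_contra hne
    push Not at hne
    have hn1 : n ≠ 1 := fun e => hne.1 (orderOf_eq_one_iff.1 (hc.trans e))
    obtain ⟨p, hp, hpn⟩ := Nat.exists_prime_and_dvd hn1
    have hn0 : 0 < n := hc ▸ orderOf_pos c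
    have hpow : ∀ k M, c ^ k * F M = F M * c ^ k := fun k M => (Commute.pow_left (hM M) k).eq
    have h4 := ih _ (by
      rw [orderOf_pow_of_dvd hp.ne_zero (hc ▸ hpn), hc]
      exact Nat.div_lt_self hn0 hp.one_lt) (c ^ p) rfl (hpow p)
    have inv : ∀ g : G, g * g = 1 → g ∈ F.range := fun g hg => by
      by_cases h1 : g = 1
      · exact h1 ▸ one_mem _
      · exact ⟨-1, hρ (hz.trans (sq1 g hg h1).symm)⟩
    refine absurd (hcen' c hM ?_) (not_or.2 hne)
    by_cases hp2 : p = 2
    · subst hp2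
      rcases h4 with e | e
      · exact inv c (sq c ▸ e)
      · have : c * F sl25I ∈ F.range := inv _ (by
          rw [mul_assoc, ← mul_assoc (F _), ← hM, mul_assoc, ← mul_assoc, ← sq, e, ← map_mul,
            ← map_mul, show -1 * (sl25I * sl25I) = 1 by decide +kernel, map_one])
        simpa using mul_mem this (inv_mem ⟨sl25I, rfl⟩ : (F sl25I)⁻¹ ∈ F.range)
    have h5 : (c ^ 2) ^ p = 1 := by
      rw [← pow_mul, mul_comm, pow_mul]
      rcases h4 with e | e <;> rw [e]
      · exact one_pow 2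
      · rw [← map_pow, neg_one_sq, map_one]
    by_cases h6 : c ^ 2 = 1
    · exact inv c (sq c ▸ h6)
    exfalso
    by_cases hp5 : p = 5
    · subst hp5
      have h7 : c ^ 2 ∈ F.range := zpowers_le.2 (⟨_, rfl⟩ : w ∈ F.range)
        (h.mem_zpowers_of_commute hp h5 hw5 hw1 (hpow 2 _))
      rcases hcen' _ (hpow 2) h7 with e | e
      · exact h6 e
      · rw [e, ← map_pow] at h5
        exact hz1 (by rwa [show (-1 : SL25) ^ 5 = -1 by decide +kernel] at h5)
    · have k : ∀ M, Commute (ρ (c ^ 2)) (ρ (F M)) := fun M => by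
        rw [Commute, SemiconjBy, ← map_mul, hpow, map_mul]
      exact no_root hi hj hij hp hp2 hp5 (c := ρ (c ^ 2)) (by rw [← map_pow, h5, map_one])
        (fun e => h6 (hρ (e.trans ρ.map_one.symm))) hss (k _) (k _) (hsK _) (hsK _)
        ((k _).add_right ((k _).pow_right 4)).neg_right
  obtain ⟨α, hα⟩ := S4291.exists_conj_hom F hF
  obtain ⟨β, hβ⟩ := exists_hom_perm_five
  have hker : ∀ a, β (α a) = 1 → a = 1 ∨ a = F (-1) := by
    intro a h3
    have h1 : ∀ M, α a M = M ∨ α a M = -M := fun M => by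
      have h4 : MulAut.conj (α a M * M⁻¹) = α a * MulAut.conj M * (α a)⁻¹ * (MulAut.conj M)⁻¹ := by
        ext1 k; simp [mul_assoc]
      rcases hβ (α a M * M⁻¹) (by rw [h4]; simp [h3]) with e | e
      · exact Or.inl (mul_inv_eq_one.mp e)
      · exact Or.inr (by rw [mul_inv_eq_iff_eq_mul.mp e, neg_one_mul])
    have h3 : ∀ M, M ^ 3 = 1 → α a M = M := fun M hM => by
      refine (h1 M).resolve_right fun e => sl25_neg_one_ne ?_
      have := congrArg (· ^ 3) e
      simp only [← map_pow, hM, map_one] at this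
      rw [Odd.neg_pow (by decide), hM] at this
      exact this.symm
    refine hC _ a rfl fun M => ?_
    have h5 : α a = 1 := by
      have : (MonoidHom.eqLocus (α a).toMonoidHom (MonoidHom.id _)) = ⊤ :=
        sl25_eq_top (h3 _ sl25X_pow) (h3 _ sl25Y_pow)
      ext1 k
      exact (this.ge (mem_top k) :)
    have := hα a M
    rw [h5] at this
    exact (eq_mul_inv_iff_mul_eq.mp this).symm
  suffices hsurj : F.range = ⊤ from
    ⟨(MulEquiv.ofBijective F ⟨hF, MonoidHom.range_eq_top.1 hsurj⟩).symm⟩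
  by_contra hne
  set f := β.comp α with hfdef
  have hcK : Nat.card F.range = 120 := by
    rw [← card_sl25]; exact (Nat.card_congr (MonoidHom.ofInjective hF).toEquiv).symm
  obtain ⟨hsurj, hidx⟩ : Function.Surjective f ∧ F.range.index = 2 := by
    have h1 : Nat.card f.ker ≤ 2 := by
      have : (f.ker : Set G) ⊆ {1, F (-1)} := fun M hM => hker M hM
      have h3 := Set.ncard_le_ncard this
      rw [Set.ncard_pair hz1.symm] at h3
      exact h3
    have h2 := f.ker.card_mul_index
    have h4 := F.range.card_mul_index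
    have h5 : F.range.index ≠ 1 := fun e => hne (index_eq_one.1 e)
    have h6 : F.range.index ≠ 0 := index_ne_zero_of_finite
    rw [index_ker] at h2
    have h8 : Nat.card (Equiv.Perm (Fin 5)) = 120 := by
      rw [Nat.card_perm, Nat.card_eq_fintype_card, Fintype.card_fin]; rfl
    have h9 := card_le_card_group f.range
    rw [← MonoidHom.range_eq_top]
    rw [hcK] at h4
    have h7 : 2 ≤ F.range.index := by omega
    exact ⟨eq_top_of_le_card _ (by nlinarith), by nlinarith⟩
  have hfe : ∀ a b, f a = f b → a = b ∨ a = F (-1) * b := fun a b e => by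
    rcases hker (a * b⁻¹) (show f (a * b⁻¹) = 1 by rw [map_mul, e, map_inv, mul_inv_cancel]) with
      e | e
    exacts [Or.inl (mul_inv_eq_one.1 e), Or.inr (mul_inv_eq_iff_eq_mul.1 e)]
  have hzc : ∀ g, Commute (F (-1)) g := fun g => hρ (by rw [map_mul, map_mul, hz]; simp)
  -- an element moving `s`
  obtain ⟨g, hg⟩ : ∃ g, g * w * g⁻¹ = w ^ 2 := by
    have h1 : f w ^ 5 = 1 := by rw [← map_pow, hw5, map_one]
    have h2 : ∀ σ : Equiv.Perm (Fin 5), σ ^ 5 = 1 → IsConj σ (σ ^ 2) := fun σ hσ => by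
      by_cases h0 : σ = 1
      · simp [h0]
      have h5 : orderOf σ = 5 := haveI := Fact.mk Nat.prime_five; orderOf_eq_prime hσ h0
      have h6 : σ.IsCycle := Equiv.Perm.isCycle_of_prime_order'' (by simpa using Nat.prime_five)
        (by simpa using h5)
      have h7 : Nat.Coprime 2 (orderOf σ) := by rw [h5]; norm_num
      exact h6.isConj (h6.pow_iff.2 h7) (by rw [Equiv.Perm.support_pow_coprime h7])
    obtain ⟨τ, hτ⟩ := isConj_iff.1 (h2 _ h1)
    obtain ⟨g, rfl⟩ := hsurj τ
    refine ⟨g, (hfe _ _ (by simpa using hτ)).resolve_right fun e => hz1 ?_⟩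
    have h4 := congrArg (· ^ 5) e
    simp only [conj_pow, hw5, (hzc _).mul_pow, ← pow_mul, ← map_pow] at h4
    rw [show 2 * 5 = 5 * 2 from rfl, pow_mul, hw5,
      show (-1 : SL25) ^ 5 = -1 by decide +kernel] at h4
    simpa using h4.symm
  have hinv : ∀ a, ρ a * ρ a⁻¹ = 1 := fun a => by rw [← map_mul, mul_inv_cancel, map_one]
  have hcs : ∀ a, ρ a * s * ρ a⁻¹ = -(ρ (a * w * a⁻¹) + ρ (a * w * a⁻¹) ^ 4) := fun a => by
    rw [← map_pow, conj_pow, hsdef]
    simp only [map_mul, map_pow, mul_neg, neg_mul, mul_add, add_mul]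
  have hgs : ¬ Commute (ρ g) s := fun e => by
    have h1 := hcs g
    rw [e.eq, mul_assoc, hinv, mul_one, hg, map_pow] at h1
    have h2 : s + s = 1 := by
      have : s + s - 1 = -(ρ w ^ 3 * (ρ w ^ 5 - 1)) - (1 + ρ w + ρ w ^ 2 + ρ w ^ 3 + ρ w ^ 4) := by
        nth_rw 1 [h1]; rw [hsdef]; noncomm_ring
      rw [hw4, hsum, sub_self, mul_zero, neg_zero, sub_zero] at this
      exact sub_eq_zero.1 this
    have h3 : (s + s) * (s + s) = (s + s) + (s + s) + 1 + 1 + 1 + 1 := by
      simp only [mul_add, add_mul, hss]; abel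
    rw [h2] at h3
    norm_num at h3
  obtain ⟨t, ht⟩ := hsurj (Equiv.swap 0 1)
  have htK : t ∉ F.range := by
    rintro ⟨M, rfl⟩
    have h1 : ∀ M : SL25, M ^ 3 = 1 → M ∈ ((Equiv.Perm.sign.comp f).comp F).ker := fun M hM => by
      have := congrArg ((Equiv.Perm.sign.comp f).comp F) hM
      rw [map_pow, map_one, pow_succ, Int.units_sq, one_mul] at this
      exact this
    have h2 : Equiv.Perm.sign (f (F M)) = 1 :=
      (sl25_eq_top (h1 _ sl25X_pow) (h1 _ sl25Y_pow)).ge (mem_top M)
    rw [ht] at h2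
    exact absurd h2 (by decide)
  have hts : ¬ Commute (ρ t) s := fun e => hgs <| by
    have h1 : g ∉ F.range := by
      rintro ⟨M, rfl⟩
      exact hgs (hsK M).symm
    obtain ⟨M, hM⟩ := (mul_mem_iff_of_index_two hidx).2 (iff_of_false h1 htK)
    have h2 := (hsK M).symm
    rw [hM, map_mul] at h2
    have h4 : ρ g = ρ g * ρ t * ρ t ^ (orderOf t - 1) := by
      rw [mul_assoc, ← pow_succ', Nat.sub_add_cancel (orderOf_pos t), ← map_pow,
        pow_orderOf_eq_one, map_one, mul_one]
    rw [h4]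
    exact h2.mul_left (e.pow_left _)
  have ht2 : ρ t * ρ t = -1 := by
    rcases hker (t * t) (show f (t * t) = 1 by rw [map_mul, ht, Equiv.swap_mul_self]) with e | e
    · refine absurd ⟨-1, hρ (hz.trans (sq1 t e ?_).symm)⟩ htK
      rintro rfl
      exact htK (one_mem _)
    · rw [← map_mul, e, hz]
  have hinv' : ρ t⁻¹ * ρ t = 1 := by simpa using hinv t⁻¹
  set s' := ρ t * s * ρ t⁻¹ with hs'def
  have h1 : Commute s s' := by
    obtain ⟨M, hM⟩ := hn.conj_mem w ⟨_, rfl⟩ t
    rw [hs'def, hcs, ← hM]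
    exact ((hsK M).add_right ((hsK M).pow_right 4)).neg_right
  have h2 : s' * s' = s' + 1 := by
    rw [hs'def, mul_assoc, ← mul_assoc (ρ t⁻¹), ← mul_assoc (ρ t⁻¹), hinv', one_mul, ← mul_assoc,
      mul_assoc (ρ t), hss, mul_add, add_mul, mul_one, hinv]
  have h4 : (s' - s) * (s' + s - 1) = 0 := by
    have : (s' - s) * (s' + s - 1) = (s' * s' - (s' + 1)) - (s * s - (s + 1)) +
      (s' * s - s * s') := by noncomm_ring
    rw [this, h2, hss, h1.eq]
    simp
  have h5 : ρ t * s = s' * ρ t := by rw [hs'def, mul_assoc, hinv', mul_one]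
  rcases mul_eq_zero.1 h4 with e | e
  · exact hts (by rw [Commute, SemiconjBy, h5, sub_eq_zero.1 e])
  rw [show s' = 1 - s by rw [← sub_eq_zero, ← e]; abel] at h5
  set u := ρ t
  have h6 : (s + s - 1 + u - (1 + 1)) * (s + s - 1 + u + (1 + 1)) = 0 := by
    have : (s + s - 1 + u - (1 + 1)) * (s + s - 1 + u + (1 + 1)) =
        4 • (s * s - (s + 1)) + (u * u + 1) + 2 • (u * s - (1 - s) * u) := by noncomm_ring
    rw [this, hss, ht2, h5]
    simp
  have h7 : ∀ c : D, Commute u c → s + s - 1 + u = c → False := fun c hc e => by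
    have h8 : s + s = c - u + 1 := by rw [← e]; abel
    refine hts (mul_left_cancel₀ (two_ne_zero' D) ?_)
    rw [two_mul, two_mul, ← mul_add, ← add_mul, h8]
    exact ((hc.sub_right (Commute.refl u)).add_right (Commute.one_right u)).eq
  have h9 : Commute u (1 + 1) := (Commute.one_right u).add_right (Commute.one_right u)
  rcases mul_eq_zero.1 h6 with e | e
  · exact h7 _ h9 (sub_eq_zero.1 e)
  · exact h7 _ h9.neg_right (eq_neg_of_add_eq_zero_left e)

theorem result {D : Type*} [DivisionRing D] (H : Subgroup Dˣ) [Finite H] (hH : ¬ Group.IsSolvable H) :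
    Nonempty (H ≃* Matrix.SpecialLinearGroup (Fin 2) (ZMod 5)) := by
  exact main ((Units.coeHom D).comp H.subtype) (Units.coeHom_injective.comp H.subtype_injective)
    (hasFPF_of_units_divisionRing H.subtype H.subtype_injective) hH

end Cfsg.Agent.S4294
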