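import Cfsg.Statements.S4295
import Cfsg.Agent.Lib.FrobSquare
import Cfsg.Agent.Lib.FrobCharZero

set_option autoImplicit false
open Cfsg

namespace Cfsg.Agent.S4295

open CfsgLib.Frob

theorem pow_val_add {M : Type*} [Monoid M] {u : M} (hu : u ^ 4 = 1) (i j : ZMod (2 * 2)) :
    u ^ (i + j).val = u ^ i.val * u ^ j.val := by
  rw [← pow_add, ZMod.val_add, ← pow_eq_pow_mod _ hu]

theorem pow_val_mul {M : Type*} [Monoid M] {u w : M} (hu : u ^ 4 = 1) (h : u * w = w * u ^ 3)
    (i : ZMod (2 * 2)) : u ^ i.val * w = w * u ^ (-i).val := by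
  have h1 : ∀ k : ℕ, u ^ k * w = w * u ^ (3 * k) := fun k => by
    induction k with
    | zero => simp
    | succ k ih => rw [pow_succ, mul_assoc, h, ← mul_assoc, ih, mul_assoc, ← pow_add]; rfl
  have h2 : (3 * i.val) % 4 = (-i).val := by revert i; decide
  rw [h1, pow_eq_pow_mod _ hu, h2]

open QuaternionGroup in
/-- a homomorphism from `Q₈` to a monoid -/
def lift {M : Type*} [Monoid M] (u w : M) (hu : u ^ 4 = 1) (h : u * w = w * u ^ 3)
    (hw : w * w = u ^ 2) : QuaternionGroup 2 →* M where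
  toFun
    | a i => u ^ i.val
    | xa i => w * u ^ i.val
  map_one' := by
    rw [one_def]
    simp
  map_mul' := by
    rintro (i | i) (j | j)
    · exact pow_val_add hu i j
    · change w * u ^ (j - i).val = u ^ i.val * (w * u ^ j.val)
      rw [← mul_assoc, pow_val_mul hu h, mul_assoc, ← pow_val_add hu, neg_add_eq_sub]
    · change w * u ^ (i + j).val = w * u ^ i.val * u ^ j.val
      rw [pow_val_add hu, mul_assoc]
    · change u ^ (((2 : ℕ) : ZMod (2 * 2)) + j - i).val = w * u ^ i.val * (w * u ^ j.val)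
      rw [mul_assoc, ← mul_assoc (u ^ i.val), pow_val_mul hu h, mul_assoc, ← mul_assoc, hw,
        ← pow_val_add hu, add_sub_assoc, pow_val_add hu, neg_add_eq_sub]
      rfl

/-- a two-dimensional representation of `Q₈` over a ring in which `-1` is a sum of two squares -/
def rep {R : Type*} [CommRing R] (x y : R) (h : x ^ 2 + y ^ 2 = -1) :
    QuaternionGroup 2 →* Matrix (Fin 2) (Fin 2) R :=
  lift !![0, -1; 1, 0] !![x, y; y, -x] (by simp [pow_succ, Matrix.one_fin_two])
    (by simp [pow_succ]) (by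
      have h1 : x * x + y * y = -1 := by linear_combination h
      have h2 : y * y + x * x = -1 := by linear_combination h
      simp [pow_succ, h1, h2, mul_comm])

theorem exists_fpf_prime {p : ℕ} (hp : p.Prime) (hp2 : p ≠ 2) :
    ∃ (V : Type) (_ : Group V) (_ : Finite V) (φ : QuaternionGroup 2 →* MulAut V), IsFPF φ ∧
      Nat.card V = p * p := by
  have := Fact.mk hp
  obtain ⟨x, y, h⟩ := ZMod.sq_add_sq p (-1)
  refine ⟨Multiplicative (Fin 2 → ZMod p), inferInstance, inferInstance,
    repToMulAut (matrixRep (rep x y h)), isFPF_repToMulAut _ fun g hg v hv => ?_, by simp [sq]⟩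
  have h1 : ∃ n : ℕ, g ^ n = QuaternionGroup.a 2 := by
    have : ∀ g : QuaternionGroup 2, g ≠ 1 →
        g ^ 1 = QuaternionGroup.a 2 ∨ g ^ 2 = QuaternionGroup.a 2 := by decide
    rcases this g hg with h | h <;> exact ⟨_, h⟩
  obtain ⟨n, hn⟩ := h1
  have h2 : ∀ n : ℕ, matrixRep (rep x y h) (g ^ n) v = v := fun n => by
    induction n with
    | zero => rw [pow_zero, map_one]; rfl
    | succ i ih => rw [pow_succ, map_mul, Module.End.mul_apply, hv, ih]
  refine matrixRep_fpf (rep x y h) (a := QuaternionGroup.a 2) ?_ v (hn ▸ h2 n)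
  have h3 : (2 : ZMod p) ≠ 0 := fun e => hp2 ((Nat.prime_dvd_prime_iff_eq hp Nat.prime_two).mp
      ((ZMod.natCast_eq_zero_iff 2 p).mp (by exact_mod_cast e)))
  have e : rep x y h (QuaternionGroup.a 2) = !![0, -1; 1, 0] ^ 2 := rfl
  rw [e, Matrix.det_fin_two]
  have : (-1 - 1 : ZMod p) ≠ 0 := fun e => h3 (by linear_combination -e)
  simpa [sq] using this

theorem exists_fpf (n : ℕ) (hn : Odd n) :
    ∃ (V : Type) (_ : Group V) (_ : Finite V) (φ : QuaternionGroup 2 →* MulAut V), IsFPF φ ∧
      Nat.card V = n * n := by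
  induction n using Nat.recOnMul with
  | zero => simp at hn
  | one => exact ⟨Unit, inferInstance, inferInstance, 1, fun _ _ _ _ => rfl, by simp⟩
  | prime p hp => exact exists_fpf_prime hp (by rintro rfl; norm_num at hn)
  | mul a b iha ihb =>
    obtain ⟨V, _, _, φ, h1, h2⟩ := iha (Nat.Odd.of_mul_left hn)
    obtain ⟨W, _, _, ψ, h3, h4⟩ := ihb (Nat.Odd.of_mul_right hn)
    obtain ⟨χ, h5⟩ := h1.prod h3
    exact ⟨V × W, inferInstance, inferInstance, χ, h5, by rw [Nat.card_prod, h2, h4]; ring⟩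

/-- For a natural number m the following are equivalent: (a) some finite group has a Frobenius complement isomorphic to the quaternion group of order 8 whose Frobenius kernel (the identity together with the elements lying in no conjugate of the complement) has exactly m elements; (b) m is an odd perfect square greater than 1. -/
theorem result (m : ℕ) :
    (∃ (L : Type) (_ : Group L) (_ : Finite L) (H : Subgroup L), Cfsg.IsFrobeniusComplement H ∧
        Nonempty (H ≃* QuaternionGroup 2) ∧ Nat.card (Cfsg.frobeniusKernel H) = m) ↔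
    (Odd m ∧ IsSquare m ∧ 1 < m) := by
  constructor
  · rintro ⟨L, _, _, H, hH, ⟨e⟩, rfl⟩
    obtain ⟨K, hK⟩ := hH.exists_isFrobeniusPair
    have := hK.normal
    rw [hK.frobeniusKernel_eq]
    have h1 := (isFPF_conjOn Subgroup.le_normalizer_of_normal hK.fpf).comp e.symm.toMonoidHom
      e.symm.injective
    obtain ⟨h2, h3⟩ := h1.odd_and_isSquare (i := QuaternionGroup.a 1) (j := QuaternionGroup.xa 0)
      (by decide) (by decide) (by decide)
    exact ⟨h2, h3, (Subgroup.one_lt_card_iff_ne_bot K).mpr hK.ker_ne_bot⟩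
  · rintro ⟨h1, ⟨n, rfl⟩, h2⟩
    obtain ⟨V, _, _, φ, h3, h4⟩ := exists_fpf n (Nat.Odd.of_mul_left h1)
    have : Nontrivial V := Finite.one_lt_card_iff_nontrivial.mp (h4 ▸ h2)
    obtain ⟨L, _, _, H, h5, ⟨e⟩, h6⟩ := h3.exists_isFrobeniusComplement
    exact ⟨L, inferInstance, inferInstance, H, h5, ⟨e.symm⟩, h6.trans h4⟩

end Cfsg.Agent.S4295
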