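import Cfsg.Statements.S4296
import Cfsg.Agent.Lib.FrobSquare

set_option autoImplicit false
open Cfsg

namespace Cfsg.Agent.S4296



/-- Let H be a Frobenius complement in a finite group, and suppose some Sylow subgroup of H is not cyclic. Then the number of elements of the Frobenius kernel (the identity together with the elements lying in no conjugate of H) is an odd perfect square. -/
theorem result {L : Type*} [Group L] [Finite L] (H : Subgroup L) (hF : Cfsg.IsFrobeniusComplement H)
    (hZ : ∃ (p : ℕ) (_ : Fact p.Prime) (P : Sylow p H), ¬ IsCyclic P) :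
    Odd (Nat.card (Cfsg.frobeniusKernel H)) ∧ IsSquare (Nat.card (Cfsg.frobeniusKernel H)) := by
  obtain ⟨p, _, P, hP⟩ := hZ
  obtain ⟨K, hK⟩ := hF.exists_isFrobeniusPair
  obtain ⟨i, j, -, -, h1, h2, -, h3⟩ := hK.hasFPF.exists_quaternion_pair P.2 hP
  have := hK.normal
  rw [hK.frobeniusKernel_eq]
  exact (CfsgLib.Frob.isFPF_conjOn Subgroup.le_normalizer_of_normal hK.fpf).odd_and_isSquare
    h1 h2 h3

end Cfsg.Agent.S4296
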