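import Cfsg.Statements.S4297
import Cfsg.Agent.Lib.FrobCharZero

set_option autoImplicit false
open Cfsg

namespace Cfsg.Agent.S4297

open QuaternionGroup in
/-- the two-dimensional complex representation of the dicyclic group -/
noncomputable def rep (n : ℕ) [NeZero n] (χ : AddChar (ZMod (2 * n)) ℂ) (hχ : χ n = -1) :
    QuaternionGroup n →* Matrix (Fin 2) (Fin 2) ℂ where
  toFun
    | a i => !![χ i, 0; 0, χ (-i)]
    | xa i => !![0, -χ (-i); χ i, 0]
  map_one' := by
    rw [one_def]
    simp [Matrix.one_fin_two]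
  map_mul' := by
    have h2 : χ (-(n : ZMod (2 * n))) = -1 := by
      have := χ.map_add_eq_mul (-(n : ZMod (2 * n))) n
      rw [neg_add_cancel, AddChar.map_zero_eq_one, hχ] at this
      linear_combination this
    rintro (i | i) (j | j)
    · simp [AddChar.map_add_eq_mul, mul_comm]
    · simp [sub_eq_add_neg, AddChar.map_add_eq_mul, mul_comm]
    · simp [AddChar.map_add_eq_mul, mul_comm]
    · simp [sub_eq_add_neg, AddChar.map_add_eq_mul, mul_comm, hχ, h2]

/-- For every n ≥ 2 the dicyclic group of order 4n (generated by an element a of order 2n and an element x with x² = aⁿ and x a x⁻¹ = a⁻¹) occurs as a Frobenius complement of some finite Frobenius group. -/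
theorem result (n : ℕ) (hn : 2 ≤ n) :
    ∃ (L : Type) (_ : Group L) (_ : Finite L) (H : Subgroup L), Cfsg.IsFrobeniusComplement H ∧ Nonempty (H ≃* QuaternionGroup n) := by
  have : NeZero n := ⟨by omega⟩
  have : NeZero (2 * n) := ⟨by omega⟩
  set χ : AddChar (ZMod (2 * n)) ℂ := ZMod.stdAddChar with hχdef
  have hinj : Function.Injective χ := ZMod.injective_stdAddChar
  have h1 : ∀ i, χ i = 1 → i = 0 := fun i hi => hinj (by rw [hi, AddChar.map_zero_eq_one])
  have hχ : χ n = -1 := by
    have h2 : χ n * χ n = 1 := by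
      rw [← AddChar.map_add_eq_mul, ← Nat.cast_add, ← two_mul, ZMod.natCast_self,
        AddChar.map_zero_eq_one]
    rcases mul_self_eq_one_iff.mp h2 with h | h
    · have := (ZMod.natCast_eq_zero_iff _ _).mp (h1 _ h)
      have := Nat.le_of_dvd (by omega) this
      omega
    · exact h
  have hF : CfsgLib.Frob.HasFPF (QuaternionGroup n) := by
    refine CfsgLib.Frob.hasFPF_of_matrix_charZero (rep n χ hχ) ?_
    rintro (i | i) hi
    · have hi0 : i ≠ 0 := fun e => hi (by rw [e]; rfl)
      have e : rep n χ hχ (QuaternionGroup.a i) = !![χ i, 0; 0, χ (-i)] := rfl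
      rw [e, Matrix.det_fin_two]
      simp only [Matrix.sub_apply, Matrix.of_apply, Matrix.cons_val', Matrix.cons_val_zero,
        Matrix.cons_val_one, Matrix.cons_val_fin_one, Matrix.one_apply_eq, ne_eq, zero_ne_one,
        not_false_eq_true, Matrix.one_apply_ne, one_ne_zero, sub_self, mul_zero, sub_zero,
        mul_eq_zero, sub_eq_zero, not_or]
      exact ⟨fun h => hi0 (h1 _ h), fun h => hi0 (neg_eq_zero.mp (h1 _ h))⟩
    · have e : rep n χ hχ (QuaternionGroup.xa i) = !![0, -χ (-i); χ i, 0] := rfl
      rw [e, Matrix.det_fin_two]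
      have h3 : χ (-i) * χ i = 1 := by
        rw [← AddChar.map_add_eq_mul, neg_add_cancel, AddChar.map_zero_eq_one]
      simp [h3]
  obtain ⟨L, _, _, H, h2, ⟨e⟩⟩ := hF.exists_isFrobeniusComplement
  exact ⟨L, inferInstance, inferInstance, H, h2, ⟨e.symm⟩⟩

end Cfsg.Agent.S4297
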