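import Cfsg.Statements.S4298
import Cfsg.Agent.Lib.FrobCharZero

set_option autoImplicit false
open Cfsg

namespace Cfsg.Agent.S4298

def t0 : Fin 3 → Fin 3 → Fin 3 → Fin 3 → ZMod 5 :=
  ![![![![0, 0, 0], ![0, 0, 0], ![0, 0, 0]], ![![0, 0, 0], ![0, 0, 0], ![3, 2, 0]], ![![0, 0, 0], ![2, 0, 3], ![0, 0, 0]]], ![![![0, 1, 0], ![0, 2, 0], ![0, 2, 0]], ![![0, 0, 0], ![0, 0, 4], ![1, 0, 0]], ![![0, 4, 0], ![4, 0, 0], ![0, 0, 2]]], ![![![0, 0, 4], ![0, 0, 3], ![0, 0, 3]], ![![0, 0, 1], ![0, 3, 0], ![1, 0, 0]], ![![0, 0, 0], ![4, 0, 0], ![0, 1, 0]]]]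

def t1 : Fin 3 → Fin 3 → Fin 3 → Fin 3 → ZMod 5 :=
  ![![![![0, 0, 0], ![0, 0, 0], ![0, 0, 0]], ![![0, 0, 0], ![0, 0, 0], ![0, 2, 3]], ![![0, 0, 0], ![0, 2, 3], ![0, 0, 0]]], ![![![0, 0, 0], ![0, 1, 0], ![0, 4, 0]], ![![0, 1, 0], ![0, 0, 1], ![3, 0, 0]], ![![0, 4, 0], ![3, 0, 0], ![0, 0, 3]]], ![![![0, 0, 0], ![0, 0, 1], ![0, 0, 4]], ![![0, 0, 1], ![0, 2, 0], ![2, 0, 0]], ![![0, 0, 4], ![2, 0, 0], ![0, 4, 0]]]]

def t2 : Fin 3 → Fin 3 → Fin 3 → Fin 3 → ZMod 5 :=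
  ![![![![0, 0, 0], ![0, 0, 0], ![0, 0, 0]], ![![0, 0, 0], ![0, 0, 0], ![1, 1, 3]], ![![0, 0, 0], ![4, 2, 4], ![0, 0, 0]]], ![![![0, 0, 0], ![0, 3, 0], ![0, 2, 0]], ![![0, 4, 0], ![0, 0, 3], ![3, 0, 0]], ![![0, 1, 0], ![4, 0, 0], ![0, 0, 0]]], ![![![0, 0, 0], ![0, 0, 3], ![0, 0, 2]], ![![0, 0, 4], ![0, 0, 0], ![1, 0, 0]], ![![0, 0, 1], ![2, 0, 0], ![0, 2, 0]]]]

def t3 : Fin 3 → Fin 3 → Fin 3 → Fin 3 → ZMod 5 :=
  ![![![![0, 0, 0], ![0, 0, 0], ![0, 0, 0]], ![![0, 0, 0], ![0, 0, 0], ![2, 4, 4]], ![![0, 0, 0], ![3, 1, 1], ![0, 0, 0]]], ![![![0, 1, 0], ![0, 2, 0], ![0, 2, 0]], ![![0, 4, 0], ![0, 0, 1], ![0, 0, 0]], ![![0, 0, 0], ![2, 0, 0], ![0, 0, 3]]], ![![![0, 0, 4], ![0, 0, 3], ![0, 0, 3]], ![![0, 0, 0], ![0, 2, 0], ![3, 0, 0]], ![![0, 0, 1], ![0, 0, 0], ![0, 4, 0]]]]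

theorem key : ∀ a b c d : ZMod 3, a * d - b * c = 1 → ∀ a' b' c' d' : ZMod 3,
    a' * d' - b' * c' = 1 →
    t0 (a * a' + b * c') (a * b' + b * d') (c * a' + d * c') (c * b' + d * d') =
      t0 a b c d * t0 a' b' c' d' + t1 a b c d * t2 a' b' c' d' ∧
    t1 (a * a' + b * c') (a * b' + b * d') (c * a' + d * c') (c * b' + d * d') =
      t0 a b c d * t1 a' b' c' d' + t1 a b c d * t3 a' b' c' d' ∧
    t2 (a * a' + b * c') (a * b' + b * d') (c * a' + d * c') (c * b' + d * d') =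
      t2 a b c d * t0 a' b' c' d' + t3 a b c d * t2 a' b' c' d' ∧
    t3 (a * a' + b * c') (a * b' + b * d') (c * a' + d * c') (c * b' + d * d') =
      t2 a b c d * t1 a' b' c' d' + t3 a b c d * t3 a' b' c' d' := by
  decide +kernel

theorem key2 : ∀ a b c d : ZMod 3, a * d - b * c = 1 →
    (t0 a b c d - 1) * (t3 a b c d - 1) - t1 a b c d * t2 a b c d = 0 →
      a = 1 ∧ b = 0 ∧ c = 0 ∧ d = 1 := by
  decide +kernel

/-- the matrix over `ZMod 5` attached to a matrix over `ZMod 3` -/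
def tM (M : Matrix (Fin 2) (Fin 2) (ZMod 3)) : Matrix (Fin 2) (Fin 2) (ZMod 5) :=
  !![(t0 (M 0 0) (M 0 1) (M 1 0) (M 1 1)), (t1 (M 0 0) (M 0 1) (M 1 0) (M 1 1));
    (t2 (M 0 0) (M 0 1) (M 1 0) (M 1 1)), (t3 (M 0 0) (M 0 1) (M 1 0) (M 1 1))]

/-- a fixed-point-free representation of `SL(2,3)` over `ZMod 5` -/
def rep : Matrix.SpecialLinearGroup (Fin 2) (ZMod 3) →* Matrix (Fin 2) (Fin 2) (ZMod 5) where
  toFun g := tM g.1
  map_one' := by decide +kernel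
  map_mul' g h := by
    have hg := g.2
    have hh := h.2
    rw [Matrix.det_fin_two] at hg hh
    obtain ⟨h0, h1, h2, h3⟩ := key _ _ _ _ hg _ _ _ _ hh
    ext i j
    fin_cases i <;> fin_cases j
    · simpa [tM, Matrix.mul_apply, Fin.sum_univ_two] using h0
    · simpa [tM, Matrix.mul_apply, Fin.sum_univ_two] using h1
    · simpa [tM, Matrix.mul_apply, Fin.sum_univ_two] using h2
    · simpa [tM, Matrix.mul_apply, Fin.sum_univ_two] using h3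

/-- The group SL(2,3) of order 24 (the binary tetrahedral group) occurs as a Frobenius complement of some finite Frobenius group. -/
theorem result :
    ∃ (L : Type) (_ : Group L) (_ : Finite L) (H : Subgroup L), Cfsg.IsFrobeniusComplement H ∧ Nonempty (H ≃* Matrix.SpecialLinearGroup (Fin 2) (ZMod 3)) := by
  have : Fact (Nat.Prime 5) := ⟨by norm_num⟩
  have hF : CfsgLib.Frob.HasFPF (Matrix.SpecialLinearGroup (Fin 2) (ZMod 3)) := by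
    refine CfsgLib.Frob.hasFPF_of_matrix_finite rep fun g hg h => hg ?_
    have hd := g.2
    rw [Matrix.det_fin_two] at hd h
    obtain ⟨h0, h1, h2, h3⟩ := key2 _ _ _ _ hd (by simpa [rep, tM] using h)
    ext i j
    fin_cases i <;> fin_cases j
    · simpa using h0
    · simpa using h1
    · simpa using h2
    · simpa using h3
  have : Nontrivial (Matrix.SpecialLinearGroup (Fin 2) (ZMod 3)) :=
    ⟨⟨1, -1, by decide +kernel⟩⟩
  obtain ⟨L, _, _, H, h2, ⟨e⟩⟩ := hF.exists_isFrobeniusComplement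
  exact ⟨L, inferInstance, inferInstance, H, h2, ⟨e.symm⟩⟩

end Cfsg.Agent.S4298
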