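import Cfsg.Statements.S4300

set_option autoImplicit false
open Cfsg

namespace Cfsg.Agent.S4300

open MulAction

/-- Let G act faithfully and primitively on a set X, and suppose the stabilizer of some point is a simple group. Then either G is simple, or G has a normal subgroup, neither trivial nor the whole group, that acts regularly on X (transitively with trivial point stabilizers). -/
theorem result {G : Type*} [Group G] {X : Type*} [MulAction G X] [FaithfulSMul G X]
    (hprim : MulAction.IsPreprimitive G X) (x : X) (hsimple : IsSimpleGroup (MulAction.stabilizer G x)) :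
    IsSimpleGroup G ∨ ∃ N : Subgroup G, N.Normal ∧ N ≠ ⊥ ∧ N ≠ ⊤ ∧
      MulAction.IsPretransitive N X ∧ ∀ y : X, MulAction.stabilizer N y = ⊥ := by
  by_cases hs : IsSimpleGroup G
  · exact Or.inl hs
  right
  have hnt : Nontrivial G := by
    obtain ⟨a, b, hab⟩ := hsimple.toNontrivial
    exact ⟨a, b, fun h => hab (Subtype.ext h)⟩
  have : ∃ N : Subgroup G, N.Normal ∧ N ≠ ⊥ ∧ N ≠ ⊤ := by
    by_contra hcon
    push Not at hcon
    exact hs ⟨fun N hN => (em (N = ⊥)).imp_right (hcon N hN)⟩
  obtain ⟨N, hN, h0, h1⟩ := this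
  have htr : IsPretransitive N X := by
    refine IsQuasiPreprimitive.isPretransitive_of_normal (G := G) ?_
    intro h
    apply h0
    rw [eq_bot_iff]
    intro n hn
    rw [Subgroup.mem_bot]
    refine eq_of_smul_eq_smul (α := X) fun y => ?_
    have hy : y ∈ fixedPoints N X := by rw [h]; trivial
    rw [one_smul]
    exact hy ⟨n, hn⟩
  have hx : ∀ n ∈ N, n • x = x → n = 1 := by
    rcases (inferInstance : (N.subgroupOf (stabilizer G x)).Normal).eq_bot_or_eq_top with h | h
    · intro n hn hnx
      have : (⟨n, hnx⟩ : stabilizer G x) ∈ N.subgroupOf (stabilizer G x) := hn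
      rw [h, Subgroup.mem_bot] at this
      exact congrArg Subtype.val this
    · exfalso
      apply h1
      rw [eq_top_iff]
      intro g _
      obtain ⟨n, hn⟩ := exists_smul_eq N (g • x) x
      have h2 : (n : G) * g ∈ stabilizer G x := by
        rw [mem_stabilizer_iff, mul_smul]; exact hn
      have h3 : (⟨_, h2⟩ : stabilizer G x) ∈ N.subgroupOf (stabilizer G x) := by
        rw [h]; trivial
      have h4 : (n : G) * g ∈ N := h3
      simpa using N.mul_mem (N.inv_mem n.2) h4
  refine ⟨N, hN, h0, h1, htr, fun y => ?_⟩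
  rw [eq_bot_iff]
  intro n hn
  obtain ⟨m, rfl⟩ := exists_smul_eq N x y
  rw [mem_stabilizer_iff] at hn
  have h2 : (m⁻¹ * n * m) • x = x := by rw [mul_smul, mul_smul, hn, inv_smul_smul]
  have h3 : m⁻¹ * n * m = 1 := Subtype.ext (hx _ (m⁻¹ * n * m).2 h2)
  rw [Subgroup.mem_bot]
  calc n = m * (m⁻¹ * n * m) * m⁻¹ := by group
    _ = 1 := by rw [h3]; group

end Cfsg.Agent.S4300
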