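import Cfsg.Statements.S4301

set_option autoImplicit false
open Cfsg

namespace Cfsg.Agent.S4301

theorem exists_emb {X : Type*} {k : ℕ} (e : Fin (k + 2) ↪ X) {u v : X} (h : u ≠ v) :
    ∃ a : Fin (k + 2) ↪ X, a 0 = u ∧ a 1 = v := by
  classical
  have h01 : e 0 ≠ e 1 := fun h => by simpa using e.injective h
  refine ⟨(e.trans (Equiv.swap (e 0) u).toEmbedding).trans
    (Equiv.swap (Equiv.swap (e 0) u (e 1)) v).toEmbedding, ?_, ?_⟩
  · simp only [Function.Embedding.trans_apply, Equiv.coe_toEmbedding, Equiv.swap_apply_left]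
    refine Equiv.swap_apply_of_ne_of_ne ?_ h
    intro h2
    apply h01
    apply (Equiv.swap (e 0) u).injective
    rw [← h2, Equiv.swap_apply_left]
  · simp

theorem factor {X : Type*} {k : ℕ} (a : Fin (k + 1) ↪ Option X) (h : a 0 = none) :
    ∃ a' : Fin k ↪ X, ∀ i, a i.succ = some (a' i) := by
  have : ∀ i : Fin k, ∃ u, a i.succ = some u := by
    intro i
    rw [← Option.ne_none_iff_exists']
    intro h2
    exact Fin.succ_ne_zero i (a.injective (h2.trans h.symm))
  choose f hf using this
  refine ⟨⟨f, fun i j hij => ?_⟩, hf⟩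
  apply Fin.succ_injective
  apply a.injective
  rw [hf, hf, hij]

/-- One-point extension of a multiply transitive group. Let X be a set and G a group of permutations of Option X (the set X with one extra point ∗ = none) all of whose elements fix ∗, such that G is k-transitive on the points of X for some k ≥ 2, X having at least k points. Suppose a permutation h of Option X and an element g of G satisfy: h interchanges ∗ with a point x of X and fixes a point y of X; g interchanges x and y; (g h)³ and h² lie in G; and for every f in G fixing x, the product h f h lies in G and fixes x. Then an element of the group generated by G and h fixes ∗ exactly when it lies in G, and that group acts (k+1)-transitively on Option X. -/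
theorem result {X : Type*} (G : Subgroup (Equiv.Perm (Option X))) (hfix : ∀ f ∈ G, f none = none)
    (k : ℕ) (hk : 2 ≤ k) (hkX : Nonempty (Fin k ↪ X))
    (htrans : ∀ a b : Fin k ↪ X, ∃ f ∈ G, ∀ i, f (some (a i)) = some (b i))
    (h g : Equiv.Perm (Option X)) (hg : g ∈ G) (x y : X)
    (h1 : h none = some x) (h2 : h (some x) = none) (h3 : h (some y) = some y)
    (h4 : g (some x) = some y) (h5 : g (some y) = some x)
    (h6 : (g * h) ^ 3 ∈ G) (h7 : h ^ 2 ∈ G)
    (h8 : ∀ f ∈ G, f (some x) = some x → h * f * h ∈ G ∧ (h * f * h) (some x) = some x) :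
    (∀ f ∈ Subgroup.closure ((G : Set (Equiv.Perm (Option X))) ∪ {h}), f none = none ↔ f ∈ G) ∧
      MulAction.IsMultiplyPretransitive (Subgroup.closure ((G : Set (Equiv.Perm (Option X))) ∪ {h})) (Option X) (k + 1) := by
  obtain ⟨k, rfl⟩ : ∃ k', k = k' + 2 := ⟨k - 2, by omega⟩
  obtain ⟨e⟩ := hkX
  have hxy : x ≠ y := by
    rintro rfl
    rw [h2] at h3
    exact absurd h3 (by simp)
  have htwo : ∀ u v u' v' : X, u ≠ v → u' ≠ v' →
      ∃ f ∈ G, f (some u) = some u' ∧ f (some v) = some v' := by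
    intro u v u' v' huv huv'
    obtain ⟨a, ha0, ha1⟩ := exists_emb e huv
    obtain ⟨b, hb0, hb1⟩ := exists_emb e huv'
    obtain ⟨f, hf, hfab⟩ := htrans a b
    exact ⟨f, hf, by rw [← ha0, ← hb0]; exact hfab 0, by rw [← ha1, ← hb1]; exact hfab 1⟩
  have hsome : ∀ f ∈ G, ∀ u : X, ∃ v, f (some u) = some v := by
    intro f hf u
    rw [← Option.ne_none_iff_exists']
    intro h2
    exact absurd (f.injective (h2.trans (hfix f hf).symm)) (by simp)
  -- double coset
  let D : Equiv.Perm (Option X) → Prop := fun t => ∃ a ∈ G, ∃ b ∈ G, t = a * h * b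
  have hD1 : ∀ t, D t → ∀ a ∈ G, ∀ b ∈ G, D (a * t * b) := by
    rintro _ ⟨c, hc, d, hd, rfl⟩ a ha b hb
    exact ⟨a * c, mul_mem ha hc, d * b, mul_mem hd hb, by group⟩
  have hDh : D h := ⟨1, one_mem _, 1, one_mem _, by simp⟩
  have hDhi : D h⁻¹ := ⟨1, one_mem _, (h ^ 2)⁻¹, inv_mem h7, by group⟩
  have hhgh : D (h * g * h) := by
    have := hD1 _ hDhi (g⁻¹ * (g * h) ^ 3) (mul_mem (inv_mem hg) h6) g⁻¹ (inv_mem hg)
    convert this using 1
    simp only [pow_succ, pow_zero, one_mul]
    group
  have hkey : ∀ f ∈ G, h * f * h ∈ G ∨ D (h * f * h) := by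
    intro f hf
    by_cases hfx : f (some x) = some x
    · exact Or.inl (h8 f hf hfx).1
    right
    obtain ⟨v, hv⟩ := hsome f hf x
    have hvx : x ≠ v := by rintro rfl; exact hfx hv
    obtain ⟨c, hc, hc1, hc2⟩ := htwo x v x y hvx hxy
    -- `g * c * f` fixes `x`
    have hd : (g * c * f) (some x) = some x := by
      simp only [Equiv.Perm.mul_apply, hv, hc2, h5]
    have hci : c⁻¹ (some x) = some x := by
      rw [Equiv.Perm.inv_eq_iff_eq, hc1]
    have e1 := (h8 _ (mul_mem (mul_mem hg hc) hf) hd).1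
    have e2 := (h8 _ (inv_mem hc) hci).1
    have e3 : D (h⁻¹ * g⁻¹ * h⁻¹) := by
      obtain ⟨a, ha, b, hb, hab⟩ := hhgh
      have : h⁻¹ * g⁻¹ * h⁻¹ = b⁻¹ * h⁻¹ * a⁻¹ := by
        rw [show h⁻¹ * g⁻¹ * h⁻¹ = (h * g * h)⁻¹ by group, hab]; group
      rw [this]
      exact hD1 _ hDhi _ (inv_mem hb) _ (inv_mem ha)
    have := hD1 _ e3 _ e2 _ e1
    convert this using 1
    group
  have hall : ∀ t ∈ Subgroup.closure ((G : Set (Equiv.Perm (Option X))) ∪ {h}), t ∈ G ∨ D t := by
    have hmul : ∀ t, (t ∈ G ∨ D t) → h * t ∈ G ∨ D (h * t) := by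
      rintro t (ht | ⟨a, ha, b, hb, rfl⟩)
      · exact Or.inr ⟨1, one_mem _, t, ht, by simp⟩
      · rcases hkey a ha with h' | h'
        · left
          have := mul_mem h' hb
          convert this using 1
          group
        · right
          have := hD1 _ h' 1 (one_mem _) b hb
          convert this using 1
          group
    have hmulG : ∀ a ∈ G, ∀ t, (t ∈ G ∨ D t) → a * t ∈ G ∨ D (a * t) := by
      rintro a ha t (ht | ht)
      · exact Or.inl (mul_mem ha ht)
      · right
        simpa using hD1 _ ht a ha 1 (one_mem _)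
    intro t ht
    induction ht using Subgroup.closure_induction_left with
    | one => exact Or.inl (one_mem _)
    | mul_left a ha t _ ih =>
      rcases ha with ha | rfl
      · exact hmulG a ha t ih
      · exact hmul t ih
    | inv_mul_cancel a ha t _ ih =>
      rcases ha with ha | rfl
      · exact hmulG _ (inv_mem ha) t ih
      · have := hmulG _ (inv_mem h7) _ (hmul t ih)
        rwa [show (a ^ 2)⁻¹ * (a * t) = a⁻¹ * t by group] at this
  have hGle : ∀ f ∈ G, f ∈ Subgroup.closure ((G : Set (Equiv.Perm (Option X))) ∪ {h}) :=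
    fun f hf => Subgroup.subset_closure (Or.inl hf)
  have hh : h ∈ Subgroup.closure ((G : Set (Equiv.Perm (Option X))) ∪ {h}) :=
    Subgroup.subset_closure (Or.inr rfl)
  refine ⟨fun f hf => ⟨fun h0 => ?_, hfix f⟩, ?_⟩
  · rcases hall f hf with h' | ⟨a, ha, b, hb, rfl⟩
    · exact h'
    · exfalso
      obtain ⟨v, hv⟩ := hsome a ha x
      simp only [Equiv.Perm.mul_apply, hfix b hb, h1, hv] at h0
      exact absurd h0 (by simp)
  · have hone : ∀ o : Option X,
        ∃ t ∈ Subgroup.closure ((G : Set (Equiv.Perm (Option X))) ∪ {h}), t o = none := by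
      rintro (_ | u)
      · exact ⟨1, one_mem _, rfl⟩
      · by_cases hu : u = x
        · exact ⟨h, hh, by rw [hu, h2]⟩
        · obtain ⟨f, hf, hf1, -⟩ := htwo u x x u hu (Ne.symm hu)
          exact ⟨h * f, mul_mem hh (hGle f hf), by rw [Equiv.Perm.mul_apply, hf1, h2]⟩
    refine ⟨fun a b => ?_⟩
    obtain ⟨s, hs, hs0⟩ := hone (a 0)
    obtain ⟨t, ht, ht0⟩ := hone (b 0)
    obtain ⟨a', ha'⟩ := factor (a.trans s.toEmbedding) hs0
    obtain ⟨b', hb'⟩ := factor (b.trans t.toEmbedding) ht0
    obtain ⟨f, hf, hfab⟩ := htrans a' b'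
    refine ⟨⟨t⁻¹ * f * s, mul_mem (mul_mem (inv_mem ht) (hGle f hf)) hs⟩, ?_⟩
    ext1 i
    change (t⁻¹ * f * s) (a i) = b i
    rw [Equiv.Perm.mul_apply, Equiv.Perm.mul_apply, Equiv.Perm.inv_eq_iff_eq]
    refine Fin.cases ?_ (fun j => ?_) i
    · rw [hs0, ht0, hfix f hf]
    · have e1 : s (a j.succ) = some (a' j) := ha' j
      have e2 : t (b j.succ) = some (b' j) := hb' j
      rw [e1, e2, hfab]

end Cfsg.Agent.S4301
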