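import Cfsg.Statements.S4302
import Cfsg.Agent.Lib.H6Transv
import Cfsg.Agent.Lib.H5Replacement
import Cfsg.Agent.Lib.SylowIn
import Cfsg.Agent.Lib.CoreSolvable

set_option autoImplicit false
open Cfsg

namespace Cfsg.Agent.S4302

open Subgroup CfsgLib CfsgLib.H6T
open scoped IsMulCommutative

theorem aux {X : Type*} [Group X] [Finite X] [Group.IsSolvable X] (T : Sylow 2 X)
    (V C : Subgroup X) [V.Normal] [C.Normal] [IsMulCommutative V] (hVT : V ≤ T)
    (hC : C = centralizer (V : Set X)) (h2 : pCore 2 (X ⧸ C) = ⊥) (Y : Subgroup X)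
    (hY : Y = normalClosure (thompsonSubgroupAOf (T : Subgroup X) : Set X)) :
    Y ≤ C ∨ ∃ n : ℕ, 1 ≤ n ∧ Nonempty (Y ⧸ C.subgroupOf Y ≃* (Fin n → Equiv.Perm (Fin 3))) := by
  have hker : ∀ x, MulAut.conjNormal (H := V) x = 1 ↔ x ∈ C := fun x => by
    rw [hC]
    constructor
    · intro h v hv
      have := congrArg (fun f : MulAut V => (f ⟨v, hv⟩ : X)) h
      simp only [MulAut.conjNormal_apply, MulAut.one_apply] at this
      exact (mul_inv_eq_iff_eq_mul.1 this).symm
    · intro h
      ext v
      simp only [MulAut.conjNormal_apply, MulAut.one_apply]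
      rw [← h v v.2, mul_inv_cancel_right]
  let φ : X ⧸ C →* MulAut V := QuotientGroup.lift C MulAut.conjNormal fun x hx => (hker x).2 hx
  have hφ : ∀ (x : X) (v : V), (φ (x : X ⧸ C) v : X) = x * v * x⁻¹ := fun x v => rfl
  have S : Setup φ (fittingSubgroup (X ⧸ C)) :=
    { inj := (injective_iff_map_eq_one φ).2 fun x hx => by
        obtain ⟨x, rfl⟩ := QuotientGroup.mk_surjective x
        exact (QuotientGroup.eq_one_iff x).2 ((hker x).1 hx)
      pV := T.isPGroup'.to_le hVT
      normal := inferInstance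
      nil := fitting_isNilpotent
      odd := by
        by_contra h
        obtain ⟨x, hx⟩ := exists_prime_orderOf_dvd_card' 2 (Nat.not_odd_iff_even.1 h).two_dvd
        rw [← orderOf_coe] at hx
        have := le_pCore_of_le_fitting (p := 2) (zpowers_le.2 x.2)
          (IsPGroup.of_card (n := 1) (by rw [Nat.card_zpowers, hx, pow_one]))
        rw [h2, le_bot_iff, zpowers_eq_bot] at this
        rw [this, orderOf_one] at hx
        exact absurd hx (by decide)
      cent := centralizer_fitting_le }
  set π := QuotientGroup.mk' C with hπ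
  have hYn : Y.Normal := hY ▸ normalClosure_normal
  have hYn' : (Y.map π).Normal := hYn.map π (QuotientGroup.mk'_surjective C)
  let T₀ : Set (X ⧸ C) := {t | Tv φ t ∧ t ∈ Y.map π}
  have hc : ∀ t ∈ T₀, ∀ g, g * t * g⁻¹ ∈ T₀ := fun t ht g => ⟨ht.1.conj g, hYn'.conj_mem t ht.2 g⟩
  have hN : (closure T₀).Normal := by
    refine ⟨fun x hx g => ?_⟩
    have : closure T₀ ≤ (closure T₀).comap (MulAut.conj g).toMonoidHom :=
      (closure_le _).2 fun t ht => subset_closure (hc t ht g)
    exact this hx
  have hcard : ∀ B : Subgroup X, Nat.card B = Nat.card (B.map π) * Nat.card ↥(C ⊓ B) := fun B => by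
    rw [← relIndex_ker, hπ, QuotientGroup.ker_mk', ← card_subgroupOf_eq_card_inf, relIndex,
      index_mul_card]
  have hfix : ∀ B : Subgroup X, Nat.card (fixS φ (B.map π)) =
      Nat.card ↥(centralizer (B : Set X) ⊓ V) := fun B => by
    rw [← card_subgroupOf_eq_card_inf]
    congr 3
    ext v
    constructor
    · intro h b hb
      exact mul_inv_eq_iff_eq_mul.1 (congrArg Subtype.val (h _ (mem_map_of_mem π hb)))
    · rintro h _ ⟨b, hb, rfl⟩
      exact Subtype.ext (mul_inv_eq_iff_eq_mul.2 (h b hb))
  have hJ : thompsonSubgroupAOf (T : Subgroup X) ≤ (closure T₀).comap π := by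
    refine H5.thompsonAOf_le_of_forall fun A hAT hA hmax => map_le_iff_le_comap.1 ?_
    have hAY : A ≤ Y := (H5.le_thompsonAOf hAT hA hmax).trans (hY ▸ le_normalClosure)
    refine (S.le_closure_tv (A.map π) inferInstance ((T.isPGroup'.to_le hAT).map π)
      fun B' hB' => ?_).trans (closure_mono fun t ht => ⟨ht.2, map_mono hAY ht.1⟩)
    set B := A ⊓ B'.comap π with hB
    have hBB : B.map π = B' := by
      refine le_antisymm (map_le_iff_le_comap.2 inf_le_right) fun x hx => ?_
      obtain ⟨a, ha, rfl⟩ := hB' hx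
      exact ⟨a, ⟨ha, hx⟩, rfl⟩
    have hBC : C ⊓ B = C ⊓ A := le_antisymm (inf_le_inf_left _ inf_le_left) fun x hx =>
      ⟨hx.1, hx.2, by
        change π x ∈ B'
        rw [(QuotientGroup.eq_one_iff x).2 hx.1 |> fun h : π x = 1 => h]; exact one_mem _⟩
    have hAA := H5.isMulCommutative_iff'.1 hA
    have hVV := H5.isMulCommutative_iff'.1 (inferInstance : IsMulCommutative V)
    have h1 := hmax (B ⊔ (centralizer (B : Set X) ⊓ V))
      (sup_le (inf_le_left.trans hAT) (inf_le_right.trans hVT))
      (H5.isMulCommutative_sup (H5.isMulCommutative_iff'.2 fun x hx y hy => hAA x hx.1 y hy.1)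
        (H5.isMulCommutative_iff'.2 fun x hx y hy => hVV x hx.2 y hy.2)
        fun x hx y hy => (hy.1 x hx).symm)
    have h3 := card_sup_mul_card_inf (H := B) (N := centralizer (B : Set X) ⊓ V)
      fun x hx => centralizer_le_normalizer _ fun y hy => (hy.1 x hx).symm
    have h4 : Nat.card ↥(B ⊓ (centralizer (B : Set X) ⊓ V)) ≤
        Nat.card ↥(centralizer (A : Set X) ⊓ V) :=
      card_le_of_le fun x hx => ⟨fun y hy => hAA y hy x hx.1.1, hx.2.2⟩
    have h5 := Nat.mul_le_mul h1 h4
    rw [h3, hcard B, hcard A, hBC, mul_right_comm, mul_right_comm (Nat.card (A.map π))] at h5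
    rw [← hBB, hfix, hfix]
    exact Nat.le_of_mul_le_mul_right h5 Nat.card_pos
  have hYT : Y.map π = closure T₀ := le_antisymm
    (map_le_iff_le_comap.2 (hY ▸ normalClosure_le_normal hJ)) ((closure_le _).2 fun t ht => ht.2)
  rcases T₀.eq_empty_or_nonempty with h0 | h0
  · left
    rw [h0, Subgroup.closure_empty, Subgroup.map_eq_bot_iff, hπ, QuotientGroup.ker_mk'] at hYT
    exact hYT
  · obtain ⟨n, hn, ⟨e⟩⟩ := S.structure_thm (fun t ht => ht.1) hc h0
    refine Or.inr ⟨n, hn, ⟨((QuotientGroup.quotientMulEquivOfEq ?_).trans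
      (QuotientGroup.quotientKerEquivRange (π.comp Y.subtype))).trans
      ((MulEquiv.subgroupCongr ?_).trans e)⟩⟩
    · rw [← MonoidHom.comap_ker, hπ, QuotientGroup.ker_mk']; rfl
    · rw [MonoidHom.range_comp, range_subtype, hYT]

/-- Let `X` be a finite solvable group whose Fitting subgroup is a 2-group (equivalently `F(X) = O₂(X)`), `T` a Sylow 2-subgroup of `X`, `J(T)` the subgroup generated by the abelian subgroups of `T` of largest order, `C` the largest normal subgroup of `X` centralizing the centre `Z(T)`, and `Y` the normal closure of `J(T)` in `X`. Then `X = C · Y · N_X(J(T))`, and either `Y ≤ C`, or `CY/C` is isomorphic to a direct product of at least one copy of the symmetric group of degree 3. -/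
theorem result {X : Type*} [Group X] [Finite X]
    [Group.IsSolvable X] (hF : Cfsg.fittingSubgroup X = Cfsg.pCore 2 X) (T : Sylow 2 X) :
    ((Subgroup.centralizer (((T : Subgroup X) ⊓ Subgroup.centralizer ((T : Subgroup X) : Set X) : Subgroup X) : Set X)).normalCore
        ⊔ Subgroup.normalClosure (Cfsg.thompsonSubgroupAOf (T : Subgroup X) : Set X)
        ⊔ Subgroup.normalizer (Cfsg.thompsonSubgroupAOf (T : Subgroup X) : Set X) = ⊤) ∧
    (Subgroup.normalClosure (Cfsg.thompsonSubgroupAOf (T : Subgroup X) : Set X)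
        ≤ (Subgroup.centralizer (((T : Subgroup X) ⊓ Subgroup.centralizer ((T : Subgroup X) : Set X) : Subgroup X) : Set X)).normalCore
      ∨ ∃ n : ℕ, 1 ≤ n ∧
        Nonempty (↥(Subgroup.normalClosure (Cfsg.thompsonSubgroupAOf (T : Subgroup X) : Set X)) ⧸
            ((Subgroup.centralizer (((T : Subgroup X) ⊓ Subgroup.centralizer ((T : Subgroup X) : Set X) : Subgroup X) : Set X)).normalCore).subgroupOf
              (Subgroup.normalClosure (Cfsg.thompsonSubgroupAOf (T : Subgroup X) : Set X))
          ≃* (Fin n → Equiv.Perm (Fin 3)))) := by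
  set Z := (T : Subgroup X) ⊓ centralizer ((T : Subgroup X) : Set X) with hZ
  set C := (centralizer (Z : Set X)).normalCore with hC
  set J := thompsonSubgroupAOf (T : Subgroup X) with hJ
  refine ⟨?_, ?_⟩
  · have h1 := (IsSylowIn.sylow_inf_normal T (normalClosure (J : Set X))).frattini_le (H := ⊤) le_top
      (by rw [normalizer_eq_top])
    have h2 := H5.normalizer_le_normalizer_thompsonAOf
      ((T : Subgroup X) ⊓ normalClosure (J : Set X))
    rw [H5.thompsonAOf_eq_of_le inf_le_left (le_inf (H5.thompsonAOf_le _) le_normalClosure)] at h2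
    exact top_le_iff.1 (h1.trans (sup_le_sup le_sup_right (inf_le_right.trans h2)))
  have hO : centralizer (pCore 2 X : Set X) ≤ pCore 2 X := hF ▸ centralizer_fitting_le
  have hV : normalClosure (Z : Set X) ≤ pCore 2 X ⊓ centralizer (pCore 2 X : Set X) := by
    have h1 : Z ≤ centralizer (pCore 2 X : Set X) :=
      inf_le_right.trans (centralizer_le (pCore_le_sylow T))
    exact normalClosure_le_normal (le_inf (h1.trans hO) h1)
  have : IsMulCommutative (normalClosure (Z : Set X)) :=
    H5.isMulCommutative_iff'.2 fun x hx y hy => (hV hy).2 x (hV hx).1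
  have hCV : C = centralizer (normalClosure (Z : Set X) : Set X) :=
    le_antisymm (le_centralizer_iff.1 (normalClosure_le_normal
      (le_centralizer_iff.1 (normalCore_le _))))
      (normal_le_normalCore.2 (centralizer_le subset_normalClosure))
  refine aux T (normalClosure (Z : Set X)) C ((hV.trans inf_le_left).trans (pCore_le_sylow T)) hCV
    ?_ _ rfl
  have hs := QuotientGroup.mk'_surjective C
  rw [eq_bot_iff, ← map_comap_eq_self_of_surjective hs (pCore 2 (X ⧸ C)), le_bot_iff,
    Subgroup.map_eq_bot_iff, QuotientGroup.ker_mk']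
  refine normal_le_normalCore.2 fun k hk => ?_
  obtain ⟨t, ht, h⟩ := pCore_le_sylow (T.mapSurjective hs) hk
  have h1 : t⁻¹ * k ∈ C := QuotientGroup.eq.1 h
  have h2 : t ∈ centralizer (Z : Set X) := fun z hz => (hz.2 t ht).symm
  simpa using mul_mem h2 (normalCore_le _ h1)

end Cfsg.Agent.S4302
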