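import Cfsg.Statements.S4305
import Cfsg.Agent.Lib.FpfPQ
import Cfsg.Agent.Lib.FrobBasic
import Cfsg.Agent.Lib.CoprimeThompson
import Cfsg.Agent.S3794

set_option autoImplicit false
open Cfsg

namespace Cfsg.Agent.S4305

open Module Subgroup CfsgLib CfsgLib.H9 CfsgLib.Fpf Equiv
open scoped commutatorElement

theorem core_le {X : Type*} [Group X] [Finite X] {H A B : Subgroup X} [hH : H.Normal]
    (hn : Group.IsNilpotent H) (hBA : B ≤ A) (hcop : (Nat.card A).Coprime (Nat.card H))
    (hf : H ⊓ centralizer (A : Set X) = ⊥) {d : X} (hd : d ∈ H)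
    (h : ∀ b ∈ A, b ∉ B → b * d * b⁻¹ ∈ ⁅H, B⁆) : d ∈ ⁅H, B⁆ := by
  have hHK := normalizer_commutator_ge_left H B
  have hBK := normalizer_commutator_ge_right H B
  have hKH : ⁅H, B⁆ ≤ H := commutator_le_left H B
  have hK0 : ⁅H, B⁆ ≤ ⁅H, B⁆ := le_rfl
  revert hHK hBK hKH h
  generalize hK : ⁅H, B⁆ = K
  intro h hHK hBK hKH
  let T : Subgroup X := ⨅ b ∈ A, K.comap (MulAut.conj b).toMonoidHom
  let D : Subgroup X := H ⊓ ⨅ b ∈ A, ⨅ _ : b ∉ B, K.comap (MulAut.conj b).toMonoidHom
  have hT : ∀ x, x ∈ T ↔ ∀ b ∈ A, b * x * b⁻¹ ∈ K := fun x => by simp [T, mem_iInf]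
  have hD : ∀ x, x ∈ D ↔ x ∈ H ∧ ∀ b ∈ A, b ∉ B → b * x * b⁻¹ ∈ K := fun x => by
    simp [D, mem_iInf]
  have key : ∀ g ∈ H, ∀ b x, b * x * b⁻¹ ∈ K → b * (g * x * g⁻¹) * b⁻¹ ∈ K := fun g hg b x hx => by
    have := conj_mem_of_mem_normalizer (hHK (hH.conj_mem g hg b)) hx
    convert this using 1; group
  have hHT : H ≤ normalizer (T : Set X) := fun g hg => mem_normalizer_of_conj_mem fun x hx =>
    (hT _).2 fun b hb => key g hg b x ((hT x).1 hx b hb)
  have hAT : A ≤ normalizer (T : Set X) := fun g hg => mem_normalizer_of_conj_mem fun x hx =>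
    (hT _).2 fun b hb => by
      have := (hT x).1 hx _ (mul_mem hb hg)
      convert this using 1; group
  have hHD : H ≤ normalizer (D : Set X) := fun g hg => mem_normalizer_of_conj_mem fun x hx =>
    (hD _).2 ⟨hH.conj_mem _ hx.1 _, fun b hb hb' => key g hg b x (((hD x).1 hx).2 b hb hb')⟩
  have hBD : B ≤ normalizer (D : Set X) := fun g hg => mem_normalizer_of_conj_mem fun x hx =>
    (hD _).2 ⟨hH.conj_mem _ hx.1 _, fun b hb hb' => by
      have := ((hD x).1 hx).2 _ (mul_mem hb (hBA hg)) fun h => hb' ((B.mul_mem_cancel_right hg).1 h)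
      convert this using 1; group⟩
  have hTK : T ≤ K := fun x hx => by simpa using (hT x).1 hx 1 (one_mem _)
  refine hTK ((?_ : D ≤ T) ((hD d).2 ⟨hd, h⟩))
  by_contra hne
  obtain ⟨x, hx, hxT, hc⟩ := Cop.exists_commutator_mem_of_lt hn inf_le_left hHT hHD hne
  let M := H ⊓ CommCalc.relCent T H
  have hAM : A ≤ normalizer (M : Set X) := fun g hg => mem_normalizer_of_conj_mem fun m hm =>
    ⟨hH.conj_mem _ hm.1 _, hHT (hH.conj_mem _ hm.1 _), fun l hl => by
      have := conj_mem_of_mem_normalizer (hAT hg) (hm.2.2 _ (hH.conj_mem' l hl g))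
      convert this using 1; simp only [commutatorElement_def]; group⟩
  have h1 : D ⊓ M ≤ K := le_of_conj_le (N := T) hBA hAM hAT
    (fun t ht => ⟨hKH (hTK ht), le_normalizer ht, fun l hl =>
      Cop.commutator_le_left_of_le_normalizer hHT (commutator_mem_commutator ht hl)⟩) hTK
    (commutator_le.2 fun a ha b hb => ha.2.2 b hb.1)
    (hcop.coprime_dvd_right (card_dvd_of_le inf_le_left))
    (isSolvable_of_le (K := H) inferInstance inf_le_left)
    (le_bot_iff.1 ((inf_le_inf_right _ inf_le_left).trans hf.le)) inf_le_right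
    ((le_inf hBD (hBA.trans hAM)).trans inf_normalizer_le_normalizer_inf)
    ((commutator_mono (inf_le_left.trans inf_le_left) le_rfl).trans hK.le)
    fun b hb hb' => by
      rintro _ ⟨y, hy, rfl⟩
      exact ((hD y).1 hy.1).2 b hb hb'
  have h2 := h1 ⟨hx, hx.1, hHT hx.1, hc⟩
  refine hxT ((hT x).2 fun b hb => ?_)
  by_cases hb' : b ∈ B
  · exact conj_mem_of_mem_normalizer (hBK hb') h2
  · exact ((hD x).1 hx).2 b hb hb'

theorem perm1 : ∀ t s b : Perm (Fin 3), t ≠ 1 → t ^ 2 = 1 → s ≠ 1 → s ^ 3 = 1 →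
    b = t * t ∨ b = t ∨ b = s⁻¹ * t * s ∨ b = t * (s⁻¹ * t * s) ∨ b = (s⁻¹ * t * s) * t ∨
    b = t * (s⁻¹ * t * s) * t := by decide +kernel

theorem perm2 : ∀ t b : Perm (Fin 3), t ≠ 1 → t ^ 2 = 1 → b = t * t ∨ b = t ∨
    b = finRotate 3 ∨ b = t * finRotate 3 ∨ b = (finRotate 3)⁻¹ ∨ b = t * (finRotate 3)⁻¹ := by
  decide +kernel

theorem perm3 : ∀ t b : Perm (Fin 3), t ≠ 1 → t ^ 2 ≠ 1 → t ^ 3 = 1 ∧
    swap 0 1 * t * (swap 0 1)⁻¹ = t⁻¹ ∧ (b = t * t * t ∨ b = t ∨
    b = t * t ∨ b = swap 0 1 ∨ b = t * swap 0 1 ∨ b = t * t * swap 0 1) := by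
  decide +kernel

theorem le_two {X : Type*} [Group X] [Finite X] {H : Subgroup X} [hH : H.Normal]
    (j : Perm (Fin 3) →* X) (hn : Group.IsNilpotent H)
    (hcop : (Nat.card j.range).Coprime (Nat.card H))
    (hf : H ⊓ centralizer (j.range : Set X) = ⊥) {t : Perm (Fin 3)} (h1 : t ≠ 1)
    (h2 : t ^ 2 = 1) : ⁅H, H⁆ ≤ ⁅H, zpowers (j t)⁆ := by
  have hBA : zpowers (j t) ≤ j.range := zpowers_le.2 ⟨t, rfl⟩
  have hgen : ∀ s : Perm (Fin 3), s ≠ 1 → s ^ 3 = 1 → H ≤ ⁅H, zpowers (j t)⁆ ⊔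
      ⁅H, zpowers (j (s⁻¹ * t * s))⁆ := fun s hs1 hs3 => by
    refine (Cop.commutator_sup_centralizer le_normalizer_of_normal hcop
      (Or.inr inferInstance)).ge.trans (sup_le ?_ (hf.le.trans bot_le))
    have hle : ⁅H, zpowers (j t)⁆ ⊔ ⁅H, zpowers (j (s⁻¹ * t * s))⁆ ≤ H :=
      sup_le (commutator_le_left _ _) (commutator_le_left _ _)
    refine (commutator_mono le_rfl (?_ : _ ≤ zpowers (j t) ⊔ zpowers (j (s⁻¹ * t * s)))).trans
      (CommCalc.commutator_sup_right_le (Cop.le_normalizer_of_commutator_le le_sup_left hle)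
        (Cop.le_normalizer_of_commutator_le le_sup_right hle) le_sup_left le_sup_right)
    rintro _ ⟨b, rfl⟩
    have a1 : j t ∈ zpowers (j t) ⊔ zpowers (j (s⁻¹ * t * s)) := mem_sup_left (mem_zpowers _)
    have a2 : j (s⁻¹ * t * s) ∈ zpowers (j t) ⊔ zpowers (j (s⁻¹ * t * s)) :=
      mem_sup_right (mem_zpowers _)
    have h3 := perm1 t s b h1 h2 hs1 hs3
    generalize s⁻¹ * t * s = u at *
    generalize zpowers (j t) ⊔ zpowers (j u) = C at *
    rcases h3 with h | h | h | h | h | h <;> rw [h] <;> simp only [map_mul, mul_mem, a1, a2]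
  have hconj : ∀ s : Perm (Fin 3), ∀ d ∈ ⁅H, zpowers (j (s⁻¹ * t * s))⁆,
      j s * d * (j s)⁻¹ ∈ ⁅H, zpowers (j t)⁆ := fun s d hd => by
    have := conj_mem_map_conj (g := j s) hd
    rw [Subgroup.map_commutator, map_conj_eq_of_normal, MonoidHom.map_zpowers] at this
    convert this using 3
    simp [mul_assoc]
  have hK := normalizer_commutator_ge_left H (zpowers (j t))
  have hK' := normalizer_commutator_ge_right H (zpowers (j t)) (mem_zpowers _)
  have hKH : ⁅⁅H, zpowers (j t)⁆, H⁆ ≤ ⁅H, zpowers (j t)⁆ :=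
    Cop.commutator_le_left_of_le_normalizer hK
  have g1 := hgen (finRotate 3) (by decide) (by decide)
  have g2 := hgen (finRotate 3)⁻¹ (by decide) (by decide)
  have c1 := hconj (finRotate 3)
  have c2 := hconj (finRotate 3)⁻¹
  have l1 := commutator_le_left H (zpowers (j ((finRotate 3)⁻¹ * t * finRotate 3)))
  have l2 := commutator_le_left H (zpowers (j ((finRotate 3)⁻¹⁻¹ * t * (finRotate 3)⁻¹)))
  have n1 := normalizer_commutator_ge_left H (zpowers (j ((finRotate 3)⁻¹ * t * finRotate 3)))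
  have n2 := normalizer_commutator_ge_left H (zpowers (j ((finRotate 3)⁻¹⁻¹ * t * (finRotate 3)⁻¹)))
  generalize ⁅H, zpowers (j ((finRotate 3)⁻¹ * t * finRotate 3))⁆ = K₁ at *
  generalize ⁅H, zpowers (j ((finRotate 3)⁻¹⁻¹ * t * (finRotate 3)⁻¹))⁆ = K₂ at *
  have hl := commutator_le_left H (zpowers (j t))
  refine (commutator_mono g1 g2).trans (CommCalc.commutator_sup_left_le le_normalizer (l1.trans hK)
    ((commutator_mono le_rfl (sup_le hl l2)).trans hKH) (CommCalc.commutator_sup_right_le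
      le_normalizer (l2.trans hK) (((commutator_comm _ _).le.trans
        (commutator_mono le_rfl l1)).trans hKH) fun d hd => ?_))
  have d1 : d ∈ K₁ := Cop.commutator_le_left_of_le_normalizer (l2.trans n1) hd
  have d2 : d ∈ K₂ := Cop.commutator_le_left_of_le_normalizer (l1.trans n2)
    ((commutator_comm _ _).le hd)
  refine core_le hn hBA hcop hf (l1 d1) ?_
  rintro _ ⟨b, rfl⟩ hb
  rcases perm2 t b h1 h2 with h | h | h | h | h | h <;> rw [h] at hb ⊢
  · exact absurd (by rw [map_mul]; exact mul_mem (mem_zpowers _) (mem_zpowers _)) hb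
  · exact absurd (mem_zpowers _) hb
  · exact c1 d d1
  · simpa [mul_assoc] using conj_mem_of_mem_normalizer hK' (c1 d d1)
  · exact c2 d d2
  · simpa [mul_assoc] using conj_mem_of_mem_normalizer hK' (c2 d d2)

theorem le_three {X : Type*} [Group X] [Finite X] {H : Subgroup X} [hH : H.Normal]
    (j : Perm (Fin 3) →* X) (hn : Group.IsNilpotent H)
    (hcop : (Nat.card j.range).Coprime (Nat.card H))
    (hf : H ⊓ centralizer (j.range : Set X) = ⊥) {t : Perm (Fin 3)} (h1 : t ≠ 1)
    (h2 : t ^ 2 ≠ 1) : ⁅H, H⁆ ≤ ⁅H, zpowers (j t)⁆ := by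
  have hBA : zpowers (j t) ≤ j.range := zpowers_le.2 ⟨t, rfl⟩
  have he := Cop.commutator_sup_centralizer (G := H) (A := zpowers (j t)) le_normalizer_of_normal
    (hcop.coprime_dvd_left (card_dvd_of_le hBA)) (Or.inr inferInstance)
  have hC : ⁅H ⊓ centralizer (zpowers (j t) : Set X), H ⊓ centralizer (zpowers (j t) : Set X)⁆ = ⊥ := by
    refine S3794.comm_of_fpf (t := j (swap 0 1)) (zpowers_le.1 (Cop.le_normalizer_inf_centralizer
      le_normalizer_of_normal (zpowers_le.2 (mem_normalizer_of_conj_mem fun x hx => ?_))))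
      (fun k hk h => mem_bot.1 (hf.le ⟨hk.1, ?_⟩)) fun k _ => ?_
    · obtain ⟨n, rfl⟩ := mem_zpowers_iff.1 hx
      rw [← conj_zpow, ← map_inv, ← map_mul, ← map_mul, (perm3 t 1 h1 h2).2.1, map_inv]
      exact zpow_mem (inv_mem (mem_zpowers _)) _
    · rintro _ ⟨b, rfl⟩
      have a1 : j t ∈ centralizer (zpowers k : Set X) :=
        mem_centralizer_zpowers_iff.2 (mem_centralizer_zpowers_iff.1 hk.2).symm
      have a2 : j (swap 0 1) ∈ centralizer (zpowers k : Set X) :=
        mem_centralizer_zpowers_iff.2 h.symm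
      refine (mem_centralizer_zpowers_iff.1 ?_).symm
      generalize centralizer (zpowers k : Set X) = C at *
      rcases (perm3 t b h1 h2).2.2 with h | h | h | h | h | h <;> rw [h] <;>
        simp only [map_mul, mul_mem, a1, a2]
    · rw [← map_pow, sq, swap_mul_self, map_one, one_mul, mul_one]
  have hK := normalizer_commutator_ge_left H (zpowers (j t))
  have hKH : ⁅⁅H, zpowers (j t)⁆, H⁆ ≤ ⁅H, zpowers (j t)⁆ :=
    Cop.commutator_le_left_of_le_normalizer hK
  exact (commutator_mono he.ge he.ge).trans (CommCalc.commutator_sup_left_le le_normalizer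
    (inf_le_left.trans hK) ((commutator_mono le_rfl he.le).trans hKH)
    (CommCalc.commutator_sup_right_le le_normalizer (inf_le_left.trans hK)
      (((commutator_comm _ _).le.trans (commutator_mono le_rfl inf_le_left)).trans hKH)
      (hC.le.trans bot_le)))

theorem aux {ℓ : ℕ} [Fact ℓ.Prime] {Y : Type*} [Group Y] [Finite Y] {k W : Type*} [Field k]
    [AddCommGroup W] [Module k W] [IsAlgClosed k] [CharP k ℓ] [FiniteDimensional k W]
    {ρ : Y →* Module.End k W} {H : Subgroup Y} (j : Perm (Fin 3) →* Y)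
    (hj : Function.Injective j) (c : Conf ℓ ρ H j.range) : ⁅H, H⁆ = ⊥ := by
  have := c.normal
  have hA : Nat.card j.range = 2 * 3 := by
    rw [← Nat.card_congr (MonoidHom.ofInjective hj).toEquiv, Nat.card_perm, Nat.card_fin]; rfl
  have hA' := prime_of_card_eq_mul Nat.prime_two Nat.prime_three hA
  have hn := c.isNilpotent hA'
  have hk := natCast_ne_zero_of_coprime k ℓ (c.coprime_of_isNilpotent le_rfl hn)
  by_contra hne
  have hH' : ⁅H, H⁆ ≤ H := commutator_le_left _ _
  have hZ := inf_centralizer_ne_bot_of_isNilpotent hn hH' le_normalizer_of_normal hne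
  set Z := ⁅H, H⁆ ⊓ centralizer (H : Set Y) with hZdef
  have hZH : Z ≤ H := inf_le_left.trans hH'
  have hq : (Nat.card Z : k) ≠ 0 := natCast_ne_zero_of_coprime k ℓ
    ((c.coprime_of_isNilpotent le_rfl hn).coprime_dvd_left (card_dvd_of_le hZH))
  have hZc : ∀ g ∈ Z, ∀ h ∈ Z, ⁅g, h⁆ = 1 := fun g hg h hh =>
    commutatorElement_eq_one_iff_mul_comm.2 (hh.2 g (hZH hg))
  obtain ⟨R, ψ, U, e, P, hU, he, h0, -⟩ := exists_component ρ Z hq (LinearMap.ker (normOp ρ Z))
    (ker_normOp_ne_bot (by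
      obtain ⟨g, hg⟩ := ne_bot_iff_exists_ne_one.1 hZ
      exact ⟨g, g.2, fun h => hg (Subtype.ext (c.faithful g (hZH g.2) h))⟩))
    (fun g hg => ker_normOp_invariant (le_normalizer hg)) fun g hg h hh a ha v _ => by
      rw [hZc g hg h hh, map_one]; rfl
  have hK : ¬ Z ≤ fixSub ρ U := fun h => P.ne (eq_bot_iff.2 fun v hv =>
    eq_zero_of_mem_ker_normOp hq (hU.le hv).1 fun g hg => h hg v hv)
  obtain ⟨_, ⟨t, rfl⟩, ha1, -, haT, -, hn0⟩ := c.exists_stab
    (fun B h1 h2 h3 => (hA' B h1 h2 h3).1) hZH le_rfl le_normalizer_of_normal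
    le_normalizer_of_normal P hK he fun y hy => h0 y hy (ker_normOp_invariant hy)
  have hHT : H ≤ stabSub ρ U := fun x hx v hv => by
    have h1 : ∀ r ∈ R, x * r * x⁻¹ = r := fun r hr => by
      rw [(P.le hr).2 x hx, mul_inv_cancel_right]
    rw [hU] at hv ⊢
    exact ⟨ker_normOp_invariant (le_normalizer_of_normal (mem_top x)) v hv.1,
      weightSpace_invariant (mem_normalizer_of_conj_mem fun r hr => (h1 r hr).symm ▸ hr)
        (fun r hr => by rw [h1 r hr]) v hv.2⟩
  have ht1 : t ≠ 1 := fun h => ha1 (by rw [h, map_one])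
  have key : (∀ g ∈ H, ⁅g, j t⁆ ∈ fixSub ρ U) → ⁅H, zpowers (j t)⁆ ≤ fixSub ρ U := fun h =>
    commutator_le.2 fun g hg a ha =>
      commutator_mem_of_mem_zpowers (stab_le_normalizer_fixSub haT) (h g hg) ha
  by_cases ht : t ^ 2 = 1
  · refine hK (inf_le_left.trans ((le_two j hn c.cop c.fpf ht1 ht).trans (key fun g hg v hv => ?_)))
    have ho : orderOf (j t) = 2 := orderOf_eq_prime (by rw [← map_pow, ht, map_one]) ha1
    have h1 : ∀ v ∈ U, ρ (j t) v = -v := fun v hv => by
      have := hn0 v hv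
      rw [normOp_zpowers, ho] at this
      simp only [Finset.sum_range_succ, Finset.range_zero, Finset.sum_empty, pow_zero, zero_add,
        pow_one, LinearMap.add_apply, Module.End.one_apply] at this
      exact eq_neg_of_add_eq_zero_right this
    have h2 := inv_mem haT v hv
    rw [commutatorElement_def, rho_mul_apply, rho_mul_apply, rho_mul_apply,
      h1 _ (inv_mem (hHT hg) _ h2), map_neg, rho_apply_inv_apply, ← h1 _ h2, rho_apply_inv_apply]
  · refine hK (inf_le_left.trans ((le_three j hn c.cop c.fpf ht1 ht).trans (key ?_)))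
    by_contra hcon
    push Not at hcon
    obtain ⟨g, hg, hg'⟩ := hcon
    have ho : orderOf (j t) = 3 := by
      have := Fact.mk Nat.prime_three
      exact orderOf_eq_prime (by rw [← map_pow, (perm3 t 1 ht1 ht).1, map_one]) ha1
    have hcop := c.cop
    rw [hA] at hcop
    obtain ⟨hm, hd⟩ := monic_geom k (h := 3) (by norm_num)
    have hc := card_subgroupOf_of_le hHT
    obtain ⟨q, d, i, m, hq, hd1, h1, h2, h3, -, Q, hQ, hQ1, hQ2⟩ := hh_general
      (restrictRep ρ (stabSub ρ U) U fun g hg => hg) (H.subgroupOf (stabSub ρ U)) (hc ▸ hk)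
      Nat.prime_three (hc ▸ (hcop.coprime_dvd_left (dvd_mul_left 3 2)).symm) (x := ⟨j t, haT⟩)
      (n := 0) (by
        rw [← map_one (restrictRep ρ (stabSub ρ U) U fun g hg => hg)]
        exact congrArg _ (Subtype.ext (by
          change j t ^ 3 = 1
          rw [← map_pow, (perm3 t 1 ht1 ht).1, map_one])))
      (le_normalizer_of_normal (mem_top _))
      ⟨⟨g, hHT hg⟩, hg, fun h => hg' fun v hv => by
        have := congrArg Subtype.val (LinearMap.congr_fun h ⟨v, hv⟩)
        rw [pow_zero, pow_one] at this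
        exact this⟩ _ hm (by
        refine aeval_restrict_eq_zero (ρ (j t)) haT _ fun v hv => ?_
        have := hn0 v hv
        rw [normOp_zpowers, ho] at this
        rwa [aeval_geom]) (by rw [hd]; norm_num)
    obtain rfl : m = 1 := by omega
    obtain rfl : q = 2 := (fermat_of_pow_add_one Nat.prime_three (by norm_num) hq h3).1
    have := prime_dvd_card_of_not_comm hq hQ hQ1 hQ2
    rw [hc] at this
    exact absurd (Nat.eq_one_of_dvd_coprimes hcop (dvd_mul_right 2 3) this) (by norm_num)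

/-- Let the symmetric group of degree 3 act by automorphisms on a finite solvable group `G` of order prime to 6, so that only the identity of `G` is fixed by all of it. Then the derived subgroup of `G` is nilpotent. -/
theorem result {G : Type*} [Group G] [Finite G] [Group.IsSolvable G]
    [MulDistribMulAction (Equiv.Perm (Fin 3)) G] (hcop : (Nat.card G).Coprime 6)
    (hfpf : ∀ g : G, (∀ a : Equiv.Perm (Fin 3), a • g = g) → g = 1) :
    Group.IsNilpotent ↥(commutator G) := by
  refine reduce_aut (MulDistribMulAction.toMulAut (Perm (Fin 3)) G) _ ‹_›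
    (by rw [Nat.card_perm, Nat.card_fin]; exact hcop.symm) hfpf
    fun Y _ _ i j ℓ _ W _ _ _ ρ c hj => ?_
  rw [commutator_def, Subgroup.map_commutator, ← MonoidHom.range_eq_map]
  exact aux j hj c

end Cfsg.Agent.S4305
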