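import Cfsg.Statements.S4310
import Cfsg.Agent.Lib.H8FT
import Cfsg.Agent.Lib.ClassSize

set_option autoImplicit false
open Cfsg

namespace Cfsg.Agent.S4310

open Subgroup CfsgLib in
/-- `X / (X ∩ A)` a `π`-group and `H ⊴ X` a Hall `π`-subgroup of `A`. -/
theorem piSep_aux {G : Type*} [Group G] [Finite G] {π : Set ℕ} {A H X : Subgroup G} [A.Normal]
    (hH : IsPiHallOf π H A) (hX : X ≤ normalizer (H : Set G))
    (hXA : IsPiSubgroup π (X.map (QuotientGroup.mk' A))) : PiSep π X := by
  have := FT.normal_subgroupOf_of_le hX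
  have h1 : IsPiHallOf π (H ⊓ (A ⊓ X)) (A ⊓ X) :=
    FT.hall_inf hH inf_le_left (Or.inr (inf_le_right.trans hX))
  refine PiSep.of_normal_of_quotient (A.subgroupOf X) ?_ (PiSep.of_isPiSubgroup_top (Or.inl ?_))
  · refine PiSep.of_equiv (G := ↥(A ⊓ X)) ?_ ((subgroupOfEquivOfLe inf_le_right).symm.trans
      (MulEquiv.subgroupCongr (inf_subgroupOf_right A X)))
    have := FT.normal_subgroupOf_of_le (inf_le_right.trans hX : A ⊓ X ≤ _)
    refine PiSep.of_normal_of_quotient (H.subgroupOf (A ⊓ X))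
      (PiSep.of_isPiSubgroup (Or.inl (isPiSubgroup_subgroupOf (FT.hall_isPi hH) _)))
      (PiSep.of_isPiSubgroup_top (Or.inr fun q hq hd => FT.hall_relIndex h1 q hq ?_))
    rwa [card_top, ← index_eq_card, ← relIndex, ← inf_relIndex_right] at hd
  · intro q hq hd
    rw [card_top, ← index_eq_card, ← relIndex, ← card_map_mk'_eq_relIndex] at hd
    exact hXA q hq hd

open Subgroup CfsgLib in
/-- Let `π` be a set of primes and `A` a normal subgroup of the finite group `G`. Suppose `A` has a Hall `π`-subgroup and all Hall `π`-subgroups of `A` are conjugate in `A`, and likewise for `G/A`. Then `G` has a Hall `π`-subgroup and all Hall `π`-subgroups of `G` are conjugate. (The conjugacy of complements of coprime order that the usual proof uses rests, in general, on the odd order Theorem.) -/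
theorem result {G : Type*} [Group G] [Finite G] (π : Set ℕ) (A : Subgroup G) [A.Normal]
    (hA : Cfsg.IsCPiGroup π ↥A) (hQ : Cfsg.IsCPiGroup π (G ⧸ A)) : Cfsg.IsCPiGroup π G := by
  have hfr : ∀ {H K : Subgroup G}, IsPiHallOf π H A → IsPiHallOf π K A →
      ∃ a ∈ A, K = H.map (MulAut.conj a).toMonoidHom := fun {H K} hH hK => by
    obtain ⟨a, ha⟩ := hA.2 _ _ (Hall.isPiHallOf_iff.1 hH).2 (Hall.isPiHallOf_iff.1 hK).2
    rw [Hall.map_conj_subgroupOf] at ha
    refine ⟨a, a.2, ?_⟩
    rw [← map_subgroupOf_eq_of_le hK.1, ha, map_subgroupOf_eq_of_le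
      ((map_mono hH.1).trans (map_conj_eq_of_normal _ A).le)]
  set f := QuotientGroup.mk' A
  have hf := QuotientGroup.mk'_surjective A
  have hsep : ∀ {H : Subgroup G} {K : Subgroup (G ⧸ A)}, IsPiHallOf π H A → IsPiHall π K →
      PiSep π ↥(K.comap f ⊓ normalizer (H : Set G)) := fun hH hK => piSep_aux hH inf_le_right
    (isPiSubgroup_of_le (Hall.isPiSubgroup_of_hall hK) (map_le_iff_le_comap.2 inf_le_left))
  constructor
  · obtain ⟨H', hH'⟩ := hA.1
    have hH := Hall.isPiHallOf_map_subtype hH'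
    obtain ⟨K, hK⟩ := hQ.1
    obtain ⟨L, hL⟩ := Hall.exists_isPiHallOf_of_piSep (hsep hH hK)
    set H := H'.map A.subtype
    refine ⟨L, Hall.isPiHall_of_isPiHallOf hL fun q hq hqπ hd => ?_⟩
    have hAK : A ≤ K.comap f := fun a ha => by
      rw [mem_comap, show f a = 1 from (QuotientGroup.eq_one_iff _).2 ha]; exact one_mem _
    have h1 : A ⊔ (K.comap f ⊓ normalizer (H : Set G)) = K.comap f := by
      refine le_antisymm (sup_le hAK inf_le_left) fun g hg => ?_
      obtain ⟨a, ha, e⟩ := hfr (Hall.isPiHallOf_map_conj hH (g := g) (le_normalizer_of_normal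
        (mem_top g))) hH
      rw [← map_conj_mul] at e
      have := mul_mem_sup (inv_mem ha) (show a * g ∈ K.comap f ⊓ normalizer (H : Set G) from
        ⟨mul_mem (hAK ha) hg, mem_normalizer_of_map_conj_eq e.symm⟩)
      rwa [inv_mul_cancel_left] at this
    rw [← relIndex_mul_index inf_le_left, hq.dvd_mul, index_comap_of_surjective _ hf] at hd
    refine hd.elim (fun hd => FT.hall_relIndex hH q hq (hd.trans ?_) hqπ) fun hd => hK.2 q hq hqπ hd
    set X := K.comap f ⊓ normalizer (H : Set G)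
    have h2 : X.relIndex (K.comap f) = X.relIndex A := by
      rw [← h1, sup_comm, Frob.relIndex_sup_eq_of_normal]
    rw [h2]
    exact relIndex_dvd_of_le_left _ (le_inf (hH.1.trans hAK) le_normalizer)
  · intro L₁ L₂ h₁ h₂
    obtain ⟨g, hg⟩ := hQ.2 _ _ (Hall.isPiHall_map_of_surjective h₁ hf)
      (Hall.isPiHall_map_of_surjective h₂ hf)
    obtain ⟨g, rfl⟩ := hf g
    obtain ⟨a, ha, e⟩ := hfr (Hall.isPiHallOf_inf_normal (Hall.isPiHall_map_conj h₁ g) A)
      (Hall.isPiHallOf_inf_normal h₂ A)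
    rw [map_conj_inf, map_conj_eq_of_normal a A, ← map_conj_mul] at e
    have h₃ := Hall.isPiHall_map_conj h₁ (a * g)
    have h4 : ∀ L : Subgroup G, L ≤ normalizer ((L ⊓ A : Subgroup G) : Set G) := fun L =>
      FT.le_normalizer_inf le_normalizer (le_top.trans le_normalizer_of_normal)
    obtain ⟨x, -, hx⟩ := Hall.conj_hallOf_of_piSep
      (hsep (Hall.isPiHallOf_inf_normal h₂ A) (Hall.isPiHall_map_of_surjective h₂ hf))
      (Hall.isPiHallOf_of_isPiHall h₃ (le_inf (by
        rintro _ ⟨y, hy, rfl⟩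
        rw [mem_comap, hg]
        refine ⟨f y, ⟨y, hy, rfl⟩, ?_⟩
        have : f a = 1 := (QuotientGroup.eq_one_iff _).2 ha
        simp [this]; rfl) (e ▸ h4 _)))
      (Hall.isPiHallOf_of_isPiHall h₂ (le_inf (le_comap_map f L₂) (h4 _)))
      (H8FT.solvable_or_forall (Hall.isPiSubgroup_of_hall h₃) _)
    exact ⟨x * (a * g), by rw [hx, ← map_conj_mul]⟩

end Cfsg.Agent.S4310
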