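import Cfsg.Statements.S4314
import Cfsg.Agent.Lib.CoreBasic
import Cfsg.Agent.Lib.H5ClassGraph
import Cfsg.Agent.Lib.H5Ito
import Cfsg.Agent.Lib.BurnsideBasis
import Cfsg.Agent.Lib.CoreAbelianMax

set_option autoImplicit false
open Cfsg

namespace Cfsg.Agent.S4314

open Subgroup CfsgLib
open scoped Pointwise commutatorElement

theorem comm_mem {G : Type*} [Group G] [Finite G] {a b g : G} {S : Subgroup G} [hS : S.Normal] {q : ℕ}
    (hq : q.Prime) (hSq : Nat.card S = q) (hb : (centralizer ({b} : Set G)).index = q)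
    (h : (centralizer ({a} : Set G)).index.Coprime (centralizer ({b} : Set G)).index)
    (hle : (centralizer ({a * b} : Set G)).index ≤ (centralizer ({b} : Set G)).index)
    (hg : ⁅g, a⁆ ∈ S) (hg1 : ⁅g, a⁆ ≠ 1) (k : G) : ⁅k, b⁆ ∈ S := by
  have hb' := hb
  rw [Frob.index_centralizer_eq_ncard, Frob.index_centralizer_eq_ncard] at hle
  rw [Frob.index_centralizer_eq_ncard] at hb'
  have h1 : ∀ g : G, (g * a * g⁻¹) • {y | IsConj b y} = {y | IsConj (a * b) y} := fun g =>
    Set.eq_of_subset_of_ncard_le (by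
      rintro _ ⟨y, hy, rfl⟩
      obtain ⟨k, rfl⟩ := isConj_iff.mp hy
      exact H5.isConj_mul_of_coprime_index h g k) (by rwa [Set.ncard_smul_set])
  have h2 := h1 1
  simp only [one_mul, inv_one, mul_one] at h2
  have h3 : ⁅g, a⁆ ∈ MulAction.stabilizer G {y | IsConj (a * b) y} := by
    rw [MulAction.mem_stabilizer_iff, commutatorElement_def, mul_smul, ← h2, inv_smul_smul, h1, h2]
  have h4 : zpowers ⁅g, a⁆ = S := by
    haveI : Fact q.Prime := ⟨hq⟩
    apply eq_of_le_of_card_ge (zpowers_le.2 hg)
    have h5 := card_dvd_of_le (zpowers_le.2 hg)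
    rw [hSq] at h5 ⊢
    rcases (Nat.dvd_prime hq).1 h5 with h6 | h6
    · exact absurd (zpowers_eq_bot.1 (card_eq_one.1 h6)) hg1
    · exact h6.ge
  have h5 : S ≤ MulAction.stabilizer G {y | IsConj (a * b) y} := h4 ▸ zpowers_le.2 h3
  have h6 : (fun s => s * (a * b)) '' (S : Set G) = {y | IsConj (a * b) y} := by
    apply Set.eq_of_subset_of_ncard_le
    · rintro _ ⟨s, hs, rfl⟩
      exact (h5 hs).le ⟨_, IsConj.refl _, rfl⟩
    · rw [Set.ncard_image_of_injective _ (mul_left_injective _), ← h2, Set.ncard_smul_set, hb',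
        ← hSq]
      exact le_of_eq (Nat.card_coe_set_eq _)
    · exact Set.toFinite _
  have h7 : a * (k * b * k⁻¹) ∈ {y | IsConj (a * b) y} :=
    h2 ▸ ⟨_, isConj_iff.2 ⟨k, rfl⟩, rfl⟩
  rw [← h6] at h7
  obtain ⟨s, hs, he⟩ := h7
  have := hS.conj_mem s hs a⁻¹
  convert this using 1
  simp only at he
  rw [commutatorElement_def]
  calc k * b * k⁻¹ * b⁻¹ = a⁻¹ * (a * (k * b * k⁻¹)) * b⁻¹ := by group
    _ = _ := by rw [← he]; group

theorem ucs_two {G : Type*} [Group G] (h : _root_.commutator G ≤ center G) :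
    Subgroup.upperCentralSeries G 2 = ⊤ := by
  rw [eq_top_iff]
  intro x _
  rw [Subgroup.mem_upperCentralSeries_succ_iff]
  intro y
  rw [Subgroup.upperCentralSeries_one]
  exact h (commutator_mem_commutator (mem_top x) (mem_top y))

theorem result {G : Type*} [Group G] [Finite G]
    (h : ∀ x : G, (Subgroup.centralizer ({x} : Set G)).index = 1 ∨ ((Subgroup.centralizer ({x} : Set G)).index).Prime) :
    Subgroup.upperCentralSeries G 2 = ⊤ ∨
      ∃ p q : ℕ, p.Prime ∧ q.Prime ∧ p ≠ q ∧ Nat.card (G ⧸ Subgroup.center G) = p * q ∧ ¬ IsMulCommutative (G ⧸ Subgroup.center G) := by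
  by_cases hnil : Group.IsNilpotent G
  · left
    apply ucs_two
    intro c hc
    rw [mem_center_iff]
    intro x
    suffices _root_.commutator G ≤ centralizer {x} from
      (mem_centralizer_singleton_iff.1 (this hc)).symm
    rcases h x with h1 | h1
    · rw [index_eq_one.1 h1]; exact le_top
    · haveI : (centralizer ({x} : Set G)).Normal := NormalizerCondition.normal_of_coatom _
        Group.normalizerCondition_of_isNilpotent (BurnsideBasis.isCoatom_of_index_prime h1)
      haveI : Fact (centralizer ({x} : Set G)).index.Prime := ⟨h1⟩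
      haveI : IsCyclic (G ⧸ centralizer ({x} : Set G)) :=
        isCyclic_of_prime_card (p := (centralizer ({x} : Set G)).index) rfl
      letI := IsCyclic.commGroup (α := G ⧸ centralizer ({x} : Set G))
      have := Abelianization.commutator_subset_ker (QuotientGroup.mk' (centralizer ({x} : Set G)))
      rwa [QuotientGroup.ker_mk'] at this
  obtain ⟨y, hy⟩ := Finite.exists_max (fun x : G => (centralizer ({x} : Set G)).index)
  set q := (centralizer ({y} : Set G)).index with hqdef
  have hnilZ : Group.IsNilpotent (G ⧸ center G) → False := fun h1 =>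
    hnil (Group.of_quotient_center_nilpotent h1)
  have hq : q.Prime := by
    refine (h y).resolve_left fun h1 => hnil ?_
    have : center G = ⊤ := by
      rw [eq_top_iff]
      intro x _
      apply Frob.index_centralizer_eq_one_iff.1
      have h2 := hy x
      have h3 : 0 < (centralizer ({x} : Set G)).index := Nat.pos_of_ne_zero index_ne_zero_of_finite
      simp only [← hqdef] at h1
      omega
    refine (hnilZ ?_).elim
    haveI : Subsingleton (G ⧸ center G) := by rw [this]; exact QuotientGroup.subsingleton_quotient_top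
    infer_instance
  obtain ⟨x, hx1, hxq⟩ : ∃ x : G, (centralizer ({x} : Set G)).index ≠ 1 ∧
      (centralizer ({x} : Set G)).index ≠ q := by
    by_contra hcon
    push Not at hcon
    obtain ⟨p, hp, hP⟩ := H5.isPGroup_quotient_center_of_two_class_sizes hq.one_lt
      (fun x : G => by by_cases h1 : (centralizer ({x} : Set G)).index = 1; exacts [Or.inl h1, Or.inr (hcon x h1)])
    haveI := Fact.mk hp
    exact hnilZ hP.isNilpotent
  have hcop : ∀ a : G, (centralizer ({a} : Set G)).index ≠ q →
      (centralizer ({a} : Set G)).index.Coprime q := by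
    intro a ha
    rcases h a with h1 | h1
    · rw [h1]; exact Nat.coprime_one_left _
    · exact (Nat.coprime_primes h1 hq).2 ha
  obtain ⟨g, hg⟩ : ∃ g : G, ⁅g, x⁆ ≠ 1 := by
    by_contra hcon
    push Not at hcon
    exact hx1 (Frob.index_centralizer_eq_one_iff.2 (mem_center_iff.2 fun g =>
      commutatorElement_eq_one_iff_mul_comm.1 (hcon g)))
  obtain ⟨S, hS, hSq, hSx⟩ := H5.exists_normal_of_coprime_index (hcop x hxq) (hy _)
  have hSq' : Nat.card S = q := by
    refine ((Nat.dvd_prime hq).1 hSq).resolve_left fun h1 => hg ?_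
    have := hSx g
    rwa [card_eq_one.1 h1, mem_bot] at this
  have hyS : ∀ k, ⁅k, y⁆ ∈ S := comm_mem hq hSq' rfl (hcop x hxq) (hy _) (hSx g) hg
  have hall : ∀ k w : G, ⁅k, w⁆ ∈ S := by
    intro k w
    by_cases hw : (centralizer ({w} : Set G)).index = q
    · exact comm_mem hq hSq' hw (hw ▸ hcop x hxq) (hw ▸ hy _) (hSx g) hg k
    · by_cases h1 : ⁅k, w⁆ = 1
      · rw [h1]; exact one_mem _
      obtain ⟨T, hT, hTq, hTw⟩ := H5.exists_normal_of_coprime_index (hcop w hw) (hy _)
      have hTq' : Nat.card T = q := by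
        refine ((Nat.dvd_prime hq).1 hTq).resolve_left fun h2 => h1 ?_
        have := hTw k
        rwa [card_eq_one.1 h2, mem_bot] at this
      have hyT : ∀ k, ⁅k, y⁆ ∈ T := comm_mem hq hTq' rfl (hcop w hw) (hy _) (hTw k) h1
      obtain ⟨g', hg'⟩ : ∃ g : G, ⁅g, y⁆ ≠ 1 := by
        by_contra hcon
        push Not at hcon
        exact hq.ne_one (Frob.index_centralizer_eq_one_iff.2 (mem_center_iff.2 fun g =>
          commutatorElement_eq_one_iff_mul_comm.1 (hcon g)))
      have hd : Nat.card ↥(S ⊓ T) ∣ q := hSq' ▸ card_dvd_of_le inf_le_left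
      rcases (Nat.dvd_prime hq).1 hd with h2 | h2
      · have : ⁅g', y⁆ ∈ S ⊓ T := ⟨hyS g', hyT g'⟩
        rw [card_eq_one.1 h2, mem_bot] at this
        exact absurd this hg'
      · have : S ⊓ T = T := eq_of_le_of_card_ge inf_le_right (by rw [h2, hTq'])
        exact (this.ge (hTw k)).1
  have hcomm : _root_.commutator G ≤ S := commutator_le.2 fun a _ b _ => hall a b
  have hcomm' : _root_.commutator G = S := by
    have hd : Nat.card (_root_.commutator G) ∣ q := hSq' ▸ card_dvd_of_le hcomm
    rcases (Nat.dvd_prime hq).1 hd with h2 | h2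
    · have : ⁅g, x⁆ ∈ _root_.commutator G := commutator_mem_commutator (mem_top _) (mem_top _)
      rw [card_eq_one.1 h2, mem_bot] at this
      exact absurd this hg
    · exact eq_of_le_of_card_ge hcomm (by rw [h2, hSq'])
  by_cases hZ : S ≤ center G
  · exact Or.inl (ucs_two (hcomm.trans hZ))
  right
  obtain ⟨s, hs, hsZ⟩ := SetLike.not_le_iff_exists.1 hZ
  have hgen : ∀ t ∈ S, t ≠ 1 → zpowers t = S := by
    intro t ht h1
    apply eq_of_le_of_card_ge (zpowers_le.2 ht)
    have h5 := card_dvd_of_le (zpowers_le.2 ht)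
    rw [hSq'] at h5 ⊢
    rcases (Nat.dvd_prime hq).1 h5 with h6 | h6
    · exact absurd (zpowers_eq_bot.1 (card_eq_one.1 h6)) h1
    · exact h6.ge
  have hs1 : s ≠ 1 := fun h1 => hsZ (h1 ▸ one_mem _)
  have hCt : ∀ t ∈ S, t ≠ 1 → centralizer ({t} : Set G) = centralizer (S : Set G) := by
    intro t ht h1
    rw [← hgen t ht h1, zpowers_eq_closure, centralizer_closure]
  set C := centralizer (S : Set G) with hC
  haveI : C.Normal := normal_centralizer
  have hp : C.index.Prime := by
    rw [← hCt s hs hs1]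
    exact (h s).resolve_left fun h1 => hsZ (Frob.index_centralizer_eq_one_iff.1 h1)
  have hpq : C.index < q := by
    rw [← hCt s hs hs1, Frob.index_centralizer_eq_ncard, ← hSq']
    refine lt_of_lt_of_eq (Set.ncard_lt_ncard (t := (S : Set G)) ⟨?_, ?_⟩ (Set.toFinite _))
      (Nat.card_coe_set_eq _).symm
    · intro z hz
      obtain ⟨k, rfl⟩ := isConj_iff.1 hz
      exact hS.conj_mem s hs k
    · intro hsub
      exact hs1 (isConj_one_right.1 (hsub (one_mem S)).symm).symm.symm
  have hCab : IsMulCommutative C := by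
    rw [PGrp.isMulCommutative_iff_forall]
    intro c hc d hd
    by_contra hcd
    have h1 : ⁅d, c⁆ ≠ 1 := fun h1 => hcd (commutatorElement_eq_one_iff_mul_comm.1 h1).symm
    have hle : centralizer ({c} : Set G) ≤ C := by
      intro u hu
      rw [← hCt _ (hall d c) h1, mem_centralizer_singleton_iff]
      have hu' := mem_centralizer_singleton_iff.1 hu
      have e1 : ⁅u, d⁆ * c = c * ⁅u, d⁆ := hc _ (hall u d)
      have e2 : u * ⁅d, c⁆ * u⁻¹ = ⁅⁅u, d⁆ * d, c⁆ := by
        have : u * c * u⁻¹ = c := by rw [hu']; group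
        conv_rhs => rw [← this]
        simp only [commutatorElement_def]; group
      have e3 : ⁅⁅u, d⁆ * d, c⁆ = ⁅d, c⁆ := by
        have e4 : ⁅d, c⁆ * ⁅u, d⁆ = ⁅u, d⁆ * ⁅d, c⁆ := by
          have hSC : S ≤ C := by
            rw [← hCt _ (hall d c) h1, ← hgen _ (hall d c) h1, zpowers_le, mem_centralizer_singleton_iff]
          exact hSC (hall u d) _ (hall d c)
        generalize ⁅u, d⁆ = t at e1 e4
        calc ⁅t * d, c⁆ = t * ⁅d, c⁆ * (c * t⁻¹ * c⁻¹) := by simp only [commutatorElement_def]; group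
          _ = t * ⁅d, c⁆ * t⁻¹ := by
            congr 1
            rw [mul_inv_eq_iff_eq_mul, mul_inv_eq_iff_eq_mul, mul_assoc, ← e1]; group
          _ = _ := by rw [← e4]; group
      rw [e3] at e2
      exact mul_inv_eq_iff_eq_mul.1 e2
    have hcp : (centralizer ({c} : Set G)).index.Prime := by
      refine (h c).resolve_left fun h2 => ?_
      exact hcd (mem_center_iff.1 (Frob.index_centralizer_eq_one_iff.1 h2) d).symm
    have hd2 := index_dvd_of_le hle
    have heq : C.index = (centralizer ({c} : Set G)).index :=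
      (Nat.prime_dvd_prime_iff_eq hp hcp).1 hd2
    have : centralizer ({c} : Set G) = C := by
      by_contra hne
      exact (index_strictAnti (lt_of_le_of_ne hle hne)).ne heq
    exact hcd (mem_centralizer_singleton_iff.1 (this.ge hd)).symm
  have hna : ¬ IsMulCommutative G := by
    intro hc
    exact hg (commutatorElement_eq_one_iff_mul_comm.2 (hc.is_comm.comm _ _))
  refine ⟨C.index, q, hp, hq, hpq.ne, ?_, ?_⟩
  · have := index_center_of_abelian_index_prime hp hna hCab rfl
    rw [hcomm', hSq'] at this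
    exact this
  · intro hc
    apply hZ
    rw [← hcomm', _root_.commutator_def, commutator_le]
    intro a _ b _
    rw [← QuotientGroup.eq_one_iff, ← QuotientGroup.mk'_apply, map_commutatorElement]
    exact commutatorElement_eq_one_iff_mul_comm.2 (hc.is_comm.comm _ _)

end Cfsg.Agent.S4314
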