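import Cfsg.Statements.S4316
import Cfsg.Agent.Lib.LdRk3

set_option autoImplicit false
universe u
open Cfsg

namespace Cfsg.Agent.S4316

open Subgroup CfsgLib
open scoped Pointwise commutatorElement

open CfsgLib.CopAut SemidirectProduct
open scoped IsMulCommutative

theorem result :
    ∃ f : ℕ → ℕ → ℕ, ∀ (q m : ℕ) (A G : Type u) [Group A] [Finite A] [Group G] [Finite G] [MulDistribMulAction A G],
      q.Prime → Nat.card A = q ^ 3 → (∀ a b : A, a * b = b * a) → (∀ a : A, a ^ q = 1) → ¬ q ∣ Nat.card G →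
      (∀ a : A, a ≠ 1 → Nat.card ↥(commutator ↥(FixedPoints.subgroup (Subgroup.zpowers a) G)) ≤ m) →
      Nat.card ↥(commutator G) ≤ f q m := by
  refine ⟨fun q m => LdRk3.bd (q ^ 3) m, fun q m A G _ _ _ _ _ hq hA hc he hG hm => ?_⟩
  let φ := MulDistribMulAction.toMulAut A G
  have hfin := finite_semidirect (φ := φ)
  have hn : (L φ ⊤).Normal := by
    rw [L, ← MonoidHom.range_eq_map, range_inl_eq_ker_rightHom]; infer_instance
  have hc' : IsMulCommutative (⊤ : Subgroup A) := ⟨⟨fun a b => Subtype.ext (hc a b)⟩⟩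
  have hR : Nat.card (R φ ⊤) = q ^ 3 := card_R_top.trans hA
  have key : ∀ B, LdRk3.Coc (R φ ⊤) B → q ^ 2 ≤ Nat.card B := fun B ⟨h1, a, ha, h2⟩ => by
    have h3 := card_sup_mul_card_inf (H := zpowers a) (N := B) (zpowers_le.2
      (centralizer_le_normalizer _ (mem_centralizer_iff.2 fun b hb => by
        obtain ⟨c, -, rfl⟩ := h1 hb
        obtain ⟨d, -, rfl⟩ := ha
        rw [← map_mul, ← map_mul, hc])))
    rw [sup_comm, h2, hR, Nat.card_zpowers] at h3
    have h4 : orderOf a ≤ q := by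
      obtain ⟨d, -, rfl⟩ := ha
      exact Nat.le_of_dvd hq.pos (orderOf_dvd_of_pow_eq_one (by rw [← map_pow, he, map_one]))
    refine Nat.le_of_mul_le_mul_left ?_ hq.pos
    calc q * q ^ 2 = q ^ 3 * 1 := by ring
      _ ≤ _ := Nat.mul_le_mul_left _ Nat.card_pos
      _ = _ := h3
      _ ≤ _ := Nat.mul_le_mul_right _ h4
  have := LdRk3.main (A := R φ ⊤) (G := L φ ⊤) inferInstance (eq_top_iff.2 fun x _ => by
      rw [← inl_left_mul_inr_right x]
      exact mul_mem (mem_sup_left ⟨_, trivial, rfl⟩) (mem_sup_right ⟨_, trivial, rfl⟩))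
    (coprime_R_L_top (hA ▸ (hq.coprime_iff_not_dvd.2 hG).pow_left 3)) (m := m) ?_ ?_
  · rwa [hR, ← map_commutator, card_L] at this
  · intro B C hB hC
    by_contra hcon
    push Not at hcon
    have h1 : B ⊓ C = ⊥ := eq_bot_iff.2 fun b hb => hcon b hb.1 hb.2
    have h2 := card_sup_mul_card_inf (H := B) (N := C) fun b hb => centralizer_le_normalizer _
      (mem_centralizer_iff.2 fun c hc' => by
        obtain ⟨c, -, rfl⟩ := hC.1 hc'
        obtain ⟨d, -, rfl⟩ := hB.1 hb
        rw [← map_mul, ← map_mul, hc])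
    have h3 := card_le_of_le (sup_le hB.1 hC.1)
    rw [h1, card_bot, mul_one] at h2
    rw [h2, hR] at h3
    have h4 := (Nat.mul_le_mul (key B hB) (key C hC)).trans h3
    rw [← pow_add] at h4
    exact absurd ((Nat.pow_le_pow_iff_right hq.one_lt).1 h4) (by norm_num)
  · rintro _ ⟨a, -, rfl⟩ h1
    have e : L φ ⊤ ⊓ centralizer {inr a} = L φ (FixedPoints.subgroup (zpowers a) G) := by
      refine le_antisymm ?_ ?_
      · rintro _ ⟨⟨g, -, rfl⟩, h⟩
        refine ⟨g, ?_, rfl⟩
        rintro ⟨_, k, rfl⟩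
        exact MulAction.mem_stabilizer_iff.1 (zpow_mem (show a ∈ MulAction.stabilizer A g from
          inl_mem_centralizer_inr_iff.1 h) k)
      · rintro _ ⟨g, h, rfl⟩
        exact ⟨⟨g, trivial, rfl⟩, inl_mem_centralizer_inr_iff.2 (h ⟨a, mem_zpowers a⟩)⟩
    rw [e, ← map_commutator, card_L, ← map_subtype_commutator, card_map_of_injective
      (subtype_injective _)]
    exact hm a fun h => h1 (by rw [h, map_one])

end Cfsg.Agent.S4316
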