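import Cfsg.Statements.S4320
import Cfsg.Agent.Lib.CoreBasic

set_option autoImplicit false
open Cfsg

namespace Cfsg.Agent.S4320

open Subgroup CfsgLib
open scoped Pointwise commutatorElement

open MonoidAlgebra

noncomputable def eps (Q : Type*) [CommGroup Q] : MonoidAlgebra ℤ Q →ₐ[ℤ] ℤ :=
  MonoidAlgebra.lift ℤ ℤ Q 1

theorem eps_single {Q : Type*} [CommGroup Q] (q : Q) (a : ℤ) : eps Q (single q a) = a := by
  simp [eps]

theorem exists_gamma {G Q : Type*} [Group G] [Finite G] [CommGroup Q] (π : G →* Q)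
    (hπ : Function.Surjective π) (hker : π.ker ≤ _root_.commutator G) {P : Type*} [AddCommGroup P]
    [Module (MonoidAlgebra ℤ Q) P] (δ : G → P)
    (hδ : ∀ x y, δ (x * y) = δ x + (single (π x) (1 : ℤ)) • δ y) :
    ∃ γ : MonoidAlgebra ℤ Q, eps Q γ = Nat.card Q ∧ ∀ g, γ • δ g = 0 := by
  classical
  haveI : Finite Q := Finite.of_surjective π hπ
  obtain ⟨κ, _, n, hn, ⟨e⟩⟩ := CommGroup.equiv_prod_multiplicative_zmod_of_finite Q
  haveI : Fintype π.ker := Fintype.ofFinite _
  choose l hl using fun i : κ => hπ (e.symm (Pi.mulSingle i (Multiplicative.ofAdd 1)))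
  let gen : κ ⊕ π.ker → G := Sum.elim l Subtype.val
  let d : κ ⊕ π.ker → ℕ := Sum.elim n fun _ => 1
  have hd : ∀ i, gen i ^ d i ∈ π.ker := by
    rintro (i | h)
    · simp only [gen, d, Sum.elim_inl, MonoidHom.mem_ker, map_pow, hl]
      rw [← map_pow, ← Pi.mulSingle_pow, ← ofAdd_nsmul]
      simp
    · simp [gen, d]
  have hprod : ∏ i, d i = Nat.card Q := by
    rw [Nat.card_congr e.toEquiv, Fintype.prod_sum_type]
    rw [Nat.card_pi]
    simp only [d, Sum.elim_inl, Sum.elim_inr, Finset.prod_const_one, mul_one]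
    exact Finset.prod_congr rfl fun i _ => (Nat.card_zmod (n i)).symm
  have hδ1 : δ 1 = 0 := by
    have := hδ 1 1
    rw [map_one, ← MonoidAlgebra.one_def, one_smul, mul_one] at this
    simpa using this
  let M := Submodule.span (MonoidAlgebra ℤ Q) (Set.range fun i => δ (gen i))
  let S : Subgroup G :=
    { carrier := {g | δ g ∈ M}
      one_mem' := by simp [hδ1]
      mul_mem' := fun {a b} ha hb => by
        simp only [Set.mem_setOf_eq, hδ] at *
        exact M.add_mem ha (M.smul_mem _ hb)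
      inv_mem' := fun {a} ha => by
        simp only [Set.mem_setOf_eq] at *
        have := hδ a⁻¹ a
        rw [inv_mul_cancel, hδ1, eq_comm, add_eq_zero_iff_eq_neg] at this
        rw [this]
        exact M.neg_mem (M.smul_mem _ ha) }
  have hgen : ∀ i, gen i ∈ S := fun i => Submodule.subset_span ⟨i, rfl⟩
  have hS : ∀ g, g ∈ S := by
    have h1 : π.ker ≤ S := fun x hx => hgen (Sum.inr ⟨x, hx⟩)
    have h2 : (S.map π).map e.toMonoidHom = ⊤ := by
      rw [eq_top_iff]
      intro v _
      rw [← Finset.univ_prod_mulSingle v]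
      refine Subgroup.prod_mem _ fun i _ => ?_
      haveI : NeZero (n i) := ⟨by have := hn i; omega⟩
      have : Pi.mulSingle i (v i) = (Pi.mulSingle i (Multiplicative.ofAdd 1) :
          (i : κ) → Multiplicative (ZMod (n i))) ^ (v i).toAdd.val := by
        rw [← Pi.mulSingle_pow, ← ofAdd_nsmul]
        simp
      rw [this]
      apply Subgroup.pow_mem
      exact ⟨_, ⟨l i, hgen (Sum.inl i), hl i⟩, by simp⟩
    intro g
    obtain ⟨_, ⟨s, hs, rfl⟩, h3⟩ := h2.ge (mem_top (e (π g)))
    have h4 : π s = π g := e.injective h3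
    have : s⁻¹ * g ∈ π.ker := by simp [h4]
    simpa using S.mul_mem hs (h1 this)
  let I : Ideal (MonoidAlgebra ℤ Q) := RingHom.ker (eps Q)
  let ψ : G →* Multiplicative (P ⧸ (I • M)) := MonoidHom.mk'
    (fun g => Multiplicative.ofAdd (Submodule.Quotient.mk (δ g))) (by
      intro a b
      rw [← ofAdd_add, ← Submodule.Quotient.mk_add, hδ]
      congr 1
      rw [Submodule.Quotient.eq]
      have : δ a + single (π a) (1 : ℤ) • δ b - (δ a + δ b) = (single (π a) (1 : ℤ) - 1) • δ b := by
        rw [sub_smul, one_smul]; abel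
      rw [this]
      refine Submodule.smul_mem_smul ?_ (hS b)
      simp [I, RingHom.mem_ker, eps_single])
  have hrel : ∀ i, d i • δ (gen i) ∈ I • M := by
    intro i
    have h1 := Abelianization.commutator_subset_ker ψ (hker (hd i))
    rw [MonoidHom.mem_ker, map_pow] at h1
    have h2 : d i • (Submodule.Quotient.mk (δ (gen i)) : P ⧸ (I • M)) = 0 := congrArg Multiplicative.toAdd h1
    rwa [← Submodule.Quotient.mk_smul, Submodule.Quotient.mk_eq_zero] at h2
  choose β hβI hβ using fun i => (Submodule.mem_ideal_smul_span_iff_exists_sum I _ _).1 (hrel i)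
  let B : Matrix (κ ⊕ π.ker) (κ ⊕ π.ker) (MonoidAlgebra ℤ Q) :=
    Matrix.diagonal (fun i => (d i : MonoidAlgebra ℤ Q)) - Matrix.of fun i j => β i j
  have hB : ∀ i, ∑ j, B i j • δ (gen j) = 0 := by
    intro i
    have := hβ i
    rw [Finsupp.sum_fintype _ _ (by simp)] at this
    simp only [B, Matrix.sub_apply, Matrix.of_apply, sub_smul, Finset.sum_sub_distrib, this]
    rw [Finset.sum_eq_single i]
    · simp [Nat.cast_smul_eq_nsmul]
    · intro j _ hj
      simp [Matrix.diagonal_apply_ne' _ hj]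
    · simp
  refine ⟨B.det, ?_, fun g => ?_⟩
  · rw [AlgHom.map_det, ← hprod]
    have : (eps Q).mapMatrix B = Matrix.diagonal (fun i => (d i : ℤ)) := by
      ext i j
      have h1 : eps Q (β i j) = 0 := hβI i j
      by_cases hij : i = j
      · subst hij; simp [B, h1]
      · simp [B, h1, Matrix.diagonal_apply_ne _ hij]
    rw [this, Matrix.det_diagonal]
    simp
  · have hk : ∀ k, B.det • δ (gen k) = 0 := by
      intro k
      have h1 : ∑ i, B.adjugate k i • ∑ j, B i j • δ (gen j) = 0 := by simp [hB]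
      simp only [Finset.smul_sum, smul_smul] at h1
      rw [Finset.sum_comm] at h1
      simp only [← Finset.sum_smul, ← Matrix.mul_apply, Matrix.adjugate_mul] at h1
      rw [Finset.sum_eq_single k] at h1
      · simpa using h1
      · intro j _ hj
        simp [Matrix.one_apply_ne' hj]
      · simp
    have hg : δ g ∈ M := hS g
    generalize δ g = m at hg
    induction hg using Submodule.span_induction with
    | mem x hx => obtain ⟨k, rfl⟩ := hx; exact hk k
    | zero => simp
    | add x y _ _ hx hy => rw [smul_add, hx, hy, add_zero]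
    | smul a x _ hx => rw [smul_comm, hx, smul_zero]

theorem norm_eq_zero {G Q : Type*} [Group G] [Finite G] [CommGroup Q] [Fintype Q] (π : G →* Q)
    (hπ : Function.Surjective π) (hker : π.ker ≤ _root_.commutator G) {M : Type*} [AddCommGroup M]
    (ρ : Q →* Module.End ℤ M) (δ : G → M)
    (hδ : ∀ x y, δ (x * y) = δ x + ρ (π x) (δ y)) (g : G) : ∑ q, ρ q (δ g) = 0 := by
  classical
  letI : Module (MonoidAlgebra ℤ Q) M :=
    Module.compHom M (MonoidAlgebra.lift ℤ (Module.End ℤ M) Q ρ).toRingHom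
  have hsm : ∀ (r : MonoidAlgebra ℤ Q) (m : M),
    r • m = MonoidAlgebra.lift ℤ (Module.End ℤ M) Q ρ r m := fun _ _ => rfl
  obtain ⟨γ, h1, h2⟩ := exists_gamma π hπ hker (P := M × MonoidAlgebra ℤ Q)
    (fun g => (δ g, single (π g) 1 - 1)) (by
      intro x y
      ext1
      · simp [hδ, hsm]
      · simp [mul_sub, single_mul_single])
  have h3 : ∀ q, γ.coeff q = γ.coeff 1 := by
    intro q
    obtain ⟨x, rfl⟩ := hπ q
    have := congrArg Prod.snd (h2 x)
    simp only [Prod.smul_snd, smul_eq_mul, mul_sub, mul_one, Prod.snd_zero, sub_eq_zero] at this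
    have h4 := congrArg (fun r : MonoidAlgebra ℤ Q => r.coeff (π x)) this
    simpa using h4.symm
  have h4 : γ.coeff 1 = 1 := by
    rw [eps, MonoidAlgebra.lift_apply, Finsupp.sum_fintype _ _ (by simp)] at h1
    simp only [h3, MonoidHom.one_apply, smul_eq_mul, mul_one, Finset.sum_const, Finset.card_univ,
      Nat.card_eq_fintype_card, nsmul_eq_mul] at h1
    have : (Fintype.card Q : ℤ) ≠ 0 := by simp
    exact mul_left_cancel₀ this (by simpa using h1)
  have h5 := congrArg Prod.fst (h2 g)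
  simp only [Prod.smul_fst, Prod.fst_zero, hsm] at h5
  rw [MonoidAlgebra.lift_apply, Finsupp.sum_fintype _ _ (by simp)] at h5
  simpa [h3, h4] using h5

section
variable {G : Type*} [Group G]

noncomputable def rel (G : Type*) [Group G] : Submodule ℤ (G →₀ ℤ) :=
  Submodule.span ℤ {v | ∃ h ∈ _root_.commutator G, ∃ x : G,
    v = Finsupp.single (h * x) 1 - Finsupp.single h 1 - Finsupp.single x 1}

noncomputable def tr (g : G) : (G →₀ ℤ) →ₗ[ℤ] (G →₀ ℤ) :=
  Finsupp.lift (G →₀ ℤ) ℤ G fun x => Finsupp.single (g * x) 1 - Finsupp.single g 1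

theorem tr_single (g x : G) : tr g (Finsupp.single x 1) = Finsupp.single (g * x) 1 - Finsupp.single g 1 := by
  simp [tr]

theorem tr_le (g : G) : rel G ≤ (rel G).comap (tr g) := by
  rw [rel, Submodule.span_le]
  rintro _ ⟨h, hh, x, rfl⟩
  have hh' : g * h * g⁻¹ ∈ _root_.commutator G := (inferInstance : (_root_.commutator G).Normal).conj_mem h hh g
  have h1 : Finsupp.single (g * h * g⁻¹ * (g * x)) (1 : ℤ) - Finsupp.single (g * h * g⁻¹) 1 -
    Finsupp.single (g * x) 1 ∈ rel G := Submodule.subset_span ⟨_, hh', _, rfl⟩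
  have h2 : Finsupp.single (g * h * g⁻¹ * g) (1 : ℤ) - Finsupp.single (g * h * g⁻¹) 1 -
    Finsupp.single g 1 ∈ rel G := Submodule.subset_span ⟨_, hh', _, rfl⟩
  have h3 := (rel G).sub_mem h1 h2
  simp only [SetLike.mem_coe, Submodule.mem_comap, map_sub, tr_single]
  rw [show g * h * g⁻¹ * (g * x) = g * (h * x) by group, show g * h * g⁻¹ * g = g * h by group] at h3
  have e : ∀ a b c d e : G →₀ ℤ, a - e - (b - e) - (c - e) = a - d - c - (b - d - e) := by
    intros; abel
  rw [e _ _ _ (Finsupp.single (g * h * g⁻¹) 1)]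
  exact h3

noncomputable def trq (g : G) : Module.End ℤ ((G →₀ ℤ) ⧸ rel G) :=
  (rel G).mapQ (rel G) (tr g) (tr_le g)

noncomputable def dl (g : G) : (G →₀ ℤ) ⧸ rel G := Submodule.Quotient.mk (Finsupp.single g 1)

theorem trq_dl (g x : G) : trq g (dl x) = dl (g * x) - dl g := by
  simp [trq, dl, tr_single]

theorem end_ext {f g : Module.End ℤ ((G →₀ ℤ) ⧸ rel G)} (h : ∀ x, f (dl x) = g (dl x)) : f = g := by
  apply Submodule.linearMap_qext
  apply Finsupp.lhom_ext'
  intro x
  apply LinearMap.ext_ring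
  exact h x

theorem trq_of_mem {h : G} (hh : h ∈ _root_.commutator G) : trq h = 1 := by
  apply end_ext
  intro x
  rw [trq_dl, Module.End.one_apply, ← sub_eq_zero]
  simp only [dl, ← Submodule.Quotient.mk_sub, Submodule.Quotient.mk_eq_zero]
  exact Submodule.subset_span ⟨h, hh, x, rfl⟩

noncomputable def rho (G : Type*) [Group G] : G →* Module.End ℤ ((G →₀ ℤ) ⧸ rel G) where
  toFun := trq
  map_one' := trq_of_mem (one_mem _)
  map_mul' a b := end_ext fun x => by
    rw [Module.End.mul_apply, trq_dl, trq_dl, map_sub, trq_dl, trq_dl, mul_assoc]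
    abel

end

theorem result {G : Type*} [Group G] [Finite G] :
    MonoidHom.transfer (Abelianization.of : ↥(commutator G) →* Abelianization ↥(commutator G)) =
      (1 : G →* Abelianization ↥(commutator G)) := by
  classical
  ext g
  set H := _root_.commutator G with hH
  let T : H.LeftTransversal := default
  let α : G ⧸ H → G := fun q => (T.2.leftQuotientEquiv q : G)
  have hα : ∀ q, (α q : G ⧸ H) = q := fun q => T.2.quotientGroupMk_leftQuotientEquiv q
  let π : G →* G ⧸ H := QuotientGroup.mk' H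
  letI : CommGroup (G ⧸ H) := inferInstanceAs (CommGroup (Abelianization G))
  letI : Fintype (G ⧸ H) := H.fintypeQuotientOfFiniteIndex
  let ρ : G ⧸ H →* Module.End ℤ ((G →₀ ℤ) ⧸ rel G) :=
    QuotientGroup.lift H (rho G) fun h hh => trq_of_mem hh
  have key := norm_eq_zero π (QuotientGroup.mk'_surjective H) (by simp [π, hH]) ρ dl
    (fun x y => by
      change _ = _ + trq x (dl y)
      rw [trq_dl]; abel) g
  have hmem : ∀ x : G, x * α (x : G ⧸ H)⁻¹ * (α 1)⁻¹ ∈ H := by
    intro x
    rw [← QuotientGroup.eq_one_iff]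
    simp [hα]
  let lam0 : G → Additive (Abelianization H) := fun x => Additive.ofMul (Abelianization.of ⟨_, hmem x⟩)
  have hα1 : α 1 ∈ H := by rw [← QuotientGroup.eq_one_iff, hα]
  have hlam0 : ∀ h ∈ H, ∀ x, lam0 (h * x) = lam0 h + lam0 x := by
    intro h hh x
    have e1 : (h : G ⧸ H) = 1 := (QuotientGroup.eq_one_iff h).2 hh
    simp only [lam0, ← ofMul_mul, ← map_mul]
    congr 2
    apply Subtype.ext
    simp [e1, mul_assoc]
  let lam : ((G →₀ ℤ) ⧸ rel G) →ₗ[ℤ] Additive (Abelianization H) :=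
    (rel G).liftQ (Finsupp.lift _ ℤ G lam0) (by
      rw [rel, Submodule.span_le]
      rintro _ ⟨h, hh, x, rfl⟩
      rw [SetLike.mem_coe, LinearMap.mem_ker, map_sub, map_sub]
      simp [hlam0 h hh])
  have hlam : ∀ x, lam (dl x) = lam0 x := by
    intro x; simp [lam, dl]
  have key2 := congrArg lam key
  rw [map_sum, map_zero, ← Fintype.sum_equiv (Equiv.inv (G ⧸ H)) (fun q => lam (ρ q⁻¹ (dl g))) _
    (fun _ => rfl)] at key2
  rw [MonoidHom.transfer_def _ T, MonoidHom.one_apply, Subgroup.leftTransversals.diff]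
  apply Additive.ofMul.injective
  rw [ofMul_prod, ofMul_one, ← key2]
  refine Finset.sum_congr rfl fun q _ => ?_
  have e1 : ρ q⁻¹ = trq (α q)⁻¹ := by
    conv_lhs => rw [← hα q]
    rfl
  rw [e1, trq_dl, map_sub, hlam, hlam, eq_sub_iff_add_eq]
  simp only [lam0, ← ofMul_mul, ← map_mul]
  congr 2
  apply Subtype.ext
  simp only [Subgroup.coe_mul, smul_apply_eq_smul_apply_inv_smul, smul_eq_mul]
  have e2 : (((α q)⁻¹ * g : G) : G ⧸ H)⁻¹ = g⁻¹ • q := by
    conv_rhs => rw [← hα q]
    simp
  have e3 : (((α q)⁻¹ : G) : G ⧸ H)⁻¹ = q := by simp [hα]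
  rw [e2, e3]
  simp [α, mul_assoc]

end Cfsg.Agent.S4320
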