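import Cfsg.Statements.S4321
import Mathlib
import Cfsg.Agent.Lib.H5ClassGraph
import Cfsg.Agent.Lib.H5SylowIn
import Cfsg.Agent.Lib.CoreSubnormal
import Cfsg.Agent.Lib.CoprimePGroup
import Cfsg.Agent.Lib.ClassCount
import Cfsg.Agent.Lib.CoreElements

set_option autoImplicit false
open Cfsg

namespace Cfsg.Agent.S4321

open Subgroup CfsgLib CfsgLib.H5 CfsgLib.ClassCount

open scoped commutatorElement

theorem exists_sylow_le {G : Type*} [Group G] [Finite G] {p : ℕ} [Fact p.Prime] {C : Subgroup G}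
    (h : ¬ p ∣ C.index) : ∃ P : Sylow p G, (P : Subgroup G) ≤ C :=
  exists_sylow_le_of_not_dvd_index h

theorem orderOf_conj' {G : Type*} [Group G] (g x : G) : orderOf (g * x * g⁻¹) = orderOf x :=
  (MulAut.conj g).orderOf_eq x

theorem half {G : Type*} [Group G] [Finite G] (p : ℕ) [hpp : Fact p.Prime]
    (hZ : ¬ p ∣ Nat.card ↥(center G)) (π σ : Set ℕ) (hd : Disjoint π σ)
    (H : ∀ x : G, p ∣ orderOf x → ∀ t ∈ π, ∀ u ∈ σ, t.Prime → u.Prime →
      t ∣ (centralizer ({x} : Set G)).index → u ∣ (centralizer ({x} : Set G)).index → False)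
    (r : ℕ) (hr : r.Prime)
    (hπ : ∀ x : G, p ∣ orderOf x → r ∣ (centralizer ({x} : Set G)).index →
      IsPiNum π (centralizer ({x} : Set G)).index)
    (a a₂ : G) (hc : Commute a a₂) (k : ℕ) (hk : orderOf a = p ^ k) (ha1 : a ≠ 1)
    (ha₂ : (orderOf a₂).Coprime p) (hra : r ∣ (centralizer ({a * a₂} : Set G)).index)
    (y : G) (l : ℕ) (hl : orderOf y = p ^ l) (hy : IsPiNum σ (centralizer ({y} : Set G)).index)
    (hle : (centralizer ({a * y} : Set G)).index ≤ (centralizer ({y} : Set G)).index) : False := by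
  have hp := hpp.out
  have hdvd : ∀ (u v : G) (j : ℕ), orderOf u = p ^ j → u ≠ 1 → Commute u v →
      (orderOf v).Coprime p → p ∣ orderOf (u * v) ∧ (centralizer ({u} : Set G)).index ∣
        (centralizer ({u * v} : Set G)).index ∧ (centralizer ({v} : Set G)).index ∣
        (centralizer ({u * v} : Set G)).index := by
    intro u v j hj hu huv hv
    have h1 : (orderOf u).Coprime (orderOf v) := by rw [hj]; exact hv.symm.pow_left j
    refine ⟨?_, index_dvd_index_mul_left huv h1, index_dvd_index_mul_right huv h1⟩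
    rw [huv.orderOf_mul_eq_mul_orderOf_of_coprime h1, hj]
    refine Dvd.dvd.mul_right (dvd_pow_self p ?_) _
    rintro rfl
    exact hu (orderOf_eq_one_iff.1 hj)
  have hpd : ∀ (u : G) (j : ℕ), orderOf u = p ^ j → u ≠ 1 → p ∣ orderOf u := fun u j hj hu => by
    simpa using (hdvd u 1 j hj hu (Commute.one_right u) (by simp)).1
  have hnc : ∀ (u : G) (j : ℕ), orderOf u = p ^ j → u ∈ center G → u = 1 := by
    intro u j hj hu
    by_contra h
    exact hZ ((hpd u j hj h).trans (orderOf_dvd_natCard _ hu))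
  obtain ⟨h1, h2, h3⟩ := hdvd a a₂ k hk ha1 hc ha₂
  have h4 := hπ _ h1 hra
  have hcop := (h4.of_dvd h2).coprime hd hy
  obtain ⟨S, hSn, hS, hSa⟩ := exists_normal_of_coprime_index hcop hle
  have hSC : S ≤ centralizer {a} := le_of_normal_of_coprime_index (hcop.symm.coprime_dvd_left hS)
  have hcomm : ∀ g : G, Commute a (g * a * g⁻¹) := fun g => by
    have h5 : Commute a ⁅g, a⁆ := mem_centralizer_singleton_iff_commute.1 (hSC (hSa g))
    have h6 : g * a * g⁻¹ = ⁅g, a⁆ * a := by simp [commutatorElement_def]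
    rw [h6]
    exact h5.mul_right (Commute.refl a)
  have hpow : ∀ g : G, (g * a * g⁻¹) ^ p ^ k = 1 := fun g => by
    rw [conj_pow, ← hk, pow_orderOf_eq_one]; simp
  have hpy : p ∣ (centralizer ({y} : Set G)).index := by
    obtain ⟨g, hg⟩ : ∃ g : G, ⁅g, a⁆ ≠ 1 := by
      by_contra h
      push Not at h
      exact ha1 (hnc a k hk (mem_center_iff.2 fun g =>
        commutatorElement_eq_one_iff_mul_comm.1 (h g)))
    have h5 : ⁅g, a⁆ ^ p ^ k = 1 := by
      rw [commutatorElement_def, (hcomm g).symm.inv_right.mul_pow, hpow, inv_pow, ← hk,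
        pow_orderOf_eq_one]; simp
    obtain ⟨j, -, hj⟩ := (Nat.dvd_prime_pow hp).1 (orderOf_dvd_of_pow_eq_one h5)
    exact ((hpd _ j hj hg).trans (orderOf_dvd_natCard _ (hSa g))).trans hS
  have hpσ : p ∈ σ := hy p hp hpy
  have hy1 : y ≠ 1 := by
    rintro rfl
    rw [index_centralizer_eq_one_iff.2 (one_mem _)] at hpy
    exact hp.one_lt.ne' (Nat.dvd_one.1 hpy)
  have hF : ∀ x : G, p ∣ orderOf x → p ∣ (centralizer ({x} : Set G)).index →
      IsPiNum πᶜ (centralizer ({x} : Set G)).index := fun x h1 h2 t ht h3 h4 =>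
    H x h1 t h4 p hpσ ht hp h3 h2
  have hnp : ∀ n : ℕ, IsPiNum π n → ¬ p ∣ n := fun n hn h =>
    Set.disjoint_left.1 hd (hn p hp h) hpσ
  obtain ⟨P₀, hP₀⟩ := exists_sylow_mem_of_orderOf hl
  have hconj : ∀ P : Sylow p G, ∃ g : G, g * y * g⁻¹ ∈ (P : Subgroup G) := fun P => by
    obtain ⟨g, rfl⟩ := MulAction.exists_smul_eq G P₀ P
    exact ⟨g, Subgroup.smul_mem_pointwise_smul y (MulAut.conj g) _ hP₀⟩
  have h2a : ∀ x : G, (orderOf x).Coprime p → IsPiNum π (centralizer ({x} : Set G)).index →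
      x ∈ center G := by
    intro x hx hxπ
    obtain ⟨P, hP⟩ := exists_sylow_le (hnp _ hxπ)
    obtain ⟨g, hg⟩ := hconj P
    obtain ⟨e1, e2, e3⟩ := hdvd (g * y * g⁻¹) x l (by rw [← hl]; exact orderOf_conj' g y)
      (fun e => hy1 (conj_eq_one_iff.1 e))
      (mem_centralizer_singleton_iff_commute.1 (hP hg)).symm hx
    rw [index_centralizer_conj] at e2
    exact index_centralizer_eq_one_iff.1 (hxπ.eq_one ((hF _ e1 (hpy.trans e2)).of_dvd e3))
  have hra' : r ∣ (centralizer ({a} : Set G)).index := by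
    rwa [hc.eq, centralizer_mul_of_mem_center (h2a a₂ ha₂ (h4.of_dvd h3))] at hra
  have haπ := h4.of_dvd h2
  have h2c : ∀ x : G, (orderOf x).Coprime p → Commute a x → x ∈ center G := by
    intro x hx hax
    obtain ⟨e1, e2, e3⟩ := hdvd a x k hk ha1 hax hx
    exact h2a x hx ((hπ _ e1 (hra'.trans e2)).of_dvd e3)
  have hPC : IsPGroup p ((centralizer ({a} : Set G)).map (QuotientGroup.mk' (center G))) := by
    rintro ⟨_, x, hx, rfl⟩
    obtain ⟨u, -, v, hv, rfl, huv, ⟨j, hj⟩, hv'⟩ := exists_p_part hp x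
    have e1 := h2c v hv' (mem_centralizer_singleton_iff_commute.1 (zpowers_le.2 hx hv))
    refine ⟨j, Subtype.ext ?_⟩
    show (QuotientGroup.mk' (center G) (u * v)) ^ p ^ j = 1
    rw [← map_pow, huv.mul_pow, ← hj, pow_orderOf_eq_one, one_mul]
    exact (QuotientGroup.eq_one_iff _).2 (pow_mem e1 _)
  have hnil : Group.IsNilpotent (centralizer ({a} : Set G)) := by
    haveI := hPC.isNilpotent
    refine Subgroup.isNilpotent_of_ker_le_center
      ((QuotientGroup.mk' (center G)).subgroupMap (centralizer ({a} : Set G))) fun x hx => ?_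
    have e1 : (x : G) ∈ center G := (QuotientGroup.eq_one_iff _).1 (congrArg Subtype.val hx)
    exact mem_center_iff.2 fun g => Subtype.ext (mem_center_iff.1 e1 g)
  have hidx : ∀ x : G, p ∣ orderOf x → p ∣ (centralizer ({x} : Set G)).index →
      ∃ j, (centralizer ({x} : Set G)).index = p ^ j := by
    intro x h1 h2
    refine (isPiNum_singleton_iff hp index_ne_zero_of_finite).1 fun t ht h3 => ?_
    have e1 : (centralizer ({x} : Set G)).index ∣ (center G).index :=
      index_dvd_of_le (center_le_centralizer _)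
    have e2 := relIndex_mul_index (center_le_centralizer ({a} : Set G))
    obtain ⟨j, hj⟩ := IsPGroup.iff_card.1 hPC
    have e3 : (center G).relIndex (centralizer ({a} : Set G)) = p ^ j := by
      rw [← hj, ← relIndex_ker, QuotientGroup.ker_mk']
    rw [← e2, e3] at e1
    rcases (Nat.Prime.dvd_mul ht).1 (h3.trans e1) with h | h
    · exact (Nat.prime_dvd_prime_iff_eq ht hp).1 (ht.dvd_of_dvd_pow h)
    · exact absurd (haπ t ht h) (hF x h1 h2 t ht h3)
  have haO : a ∈ pCore p G := baer_suzuki fun g => by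
    have := isMulCommutative_closure (k := ({a, g * a * g⁻¹} : Set G)) (by
      rintro u (rfl | rfl) v (rfl | rfl)
      exacts [rfl, hcomm g, (hcomm g).symm, rfl])
    intro ⟨x, hx⟩
    refine ⟨k, Subtype.ext ?_⟩
    show x ^ p ^ k = 1
    induction hx using closure_induction with
    | mem u hu =>
      rcases hu with rfl | rfl
      · rw [← hk, pow_orderOf_eq_one]
      · exact hpow g
    | one => simp
    | mul u v hu hv ihu ihv =>
      rw [Commute.mul_pow (setLike_mul_comm hu hv), ihu, ihv, one_mul]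
    | inv u _ ih => rw [inv_pow, ih, inv_one]
  obtain ⟨P, hP⟩ := exists_sylow_le (hnp _ haπ)
  have hPK : (P : Subgroup G) ≤ (centralizer ({a} : Set G)).normalCore := by
    intro x hx g
    rw [mem_centralizer_singleton_iff_commute]
    suffices h : Commute x (g⁻¹ * a * g) by
      have := h.symm.conj g
      simpa [mul_assoc] using this
    obtain ⟨j, hj⟩ := orderOf_eq_pow_of_mem_isPGroup P.isPGroup' hx
    by_cases hx1 : x = 1
    · rw [hx1]; exact Commute.one_left _
    by_cases h : p ∣ (centralizer ({x} : Set G)).index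
    · obtain ⟨c, hc, d, hd, e⟩ := exists_mul_of_coprime_index
        (haπ.coprime_compl (hF x (hpd x j hj hx1) h)).symm g⁻¹
      have e1 : g⁻¹ * a * g = c * a * c⁻¹ := by
        have e2 : g = d⁻¹ * c⁻¹ := by rw [← inv_inv g, e, mul_inv_rev]
        rw [e, e2]
        have := mem_centralizer_singleton_iff.1 hd
        simp only [mul_assoc]
        rw [← mul_assoc d, this]
        simp
      rw [e1]
      have e2 := mem_centralizer_singleton_iff_commute.1 hc
      exact (e2.mul_right (mem_centralizer_singleton_iff_commute.1 (hP hx)).symm).mul_right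
        e2.inv_right
    · obtain ⟨Q, hQ⟩ := exists_sylow_le h
      refine mem_centralizer_singleton_iff_commute.1 (hQ (pCore_le_sylow Q ?_))
      simpa using (pCore_normal p G).conj_mem a haO g⁻¹
  have hPO : (P : Subgroup G) = pCore p G := le_antisymm (le_pCore_of_le_fitting
    (hPK.trans (le_fitting (isNilpotent_of_le hnil (normalCore_le _)))) P.isPGroup')
    (pCore_le_sylow P)
  haveI hPn : (P : Subgroup G).Normal := hPO ▸ pCore_normal p G
  have hall : ∀ Q : Sylow p G, (P : Subgroup G) ≤ Q := fun Q => hPO ▸ pCore_le_sylow Q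
  have hnz : ∀ x ∈ (P : Subgroup G), p ∣ (centralizer ({x} : Set G)).index → ∀ g : G,
      g * x * g⁻¹ * x⁻¹ ∈ ⁅(P : Subgroup G), (P : Subgroup G)⁆ := by
    intro x hx h g
    obtain ⟨j, hj⟩ := orderOf_eq_pow_of_mem_isPGroup P.isPGroup' hx
    have hx1 : x ≠ 1 := by
      rintro rfl
      rw [index_centralizer_eq_one_iff.2 (one_mem _)] at h
      exact hp.one_lt.ne' (Nat.dvd_one.1 h)
    obtain ⟨i, hi⟩ := hidx x (hpd x j hj hx1) h
    obtain ⟨c, hc, d, hd, rfl⟩ := exists_mul_of_coprime_index (K := (P : Subgroup G))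
      (H := centralizer ({x} : Set G)) (by
        rw [hi]; exact ((Nat.Prime.coprime_iff_not_dvd hp).2 P.not_dvd_index).symm.pow_right i) g
    have := mem_centralizer_singleton_iff.1 hd
    have e : c * d * x * (c * d)⁻¹ * x⁻¹ = ⁅c, x⁆ := by
      simp only [commutatorElement_def, mul_inv_rev, mul_assoc]
      rw [← mul_assoc d, this]
      simp [mul_assoc]
    rw [e]
    exact commutator_mem_commutator hc hx
  have hyP : y ∈ (P : Subgroup G) := by
    obtain ⟨g, hg⟩ := hconj P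
    simpa [mul_assoc] using hPn.conj_mem _ hg g⁻¹
  have hall2 : ∀ x ∈ (P : Subgroup G), ∀ g : G,
      g * x * g⁻¹ * x⁻¹ ∈ ⁅(P : Subgroup G), (P : Subgroup G)⁆ := by
    intro x hx g
    by_cases h : p ∣ (centralizer ({x} : Set G)).index
    · exact hnz x hx h g
    obtain ⟨Q, hQ⟩ := exists_sylow_le h
    have e1 : p ∣ (centralizer ({x * y} : Set G)).index := by
      by_contra h'
      obtain ⟨Q', hQ'⟩ := exists_sylow_le h'
      apply P.not_dvd_index
      refine hpy.trans (index_dvd_of_le fun u hu => ?_)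
      have e2 := mem_centralizer_singleton_iff_commute.1 (hQ (hall Q hu))
      have e3 := mem_centralizer_singleton_iff_commute.1 (hQ' (hall Q' hu))
      have := e2.inv_left.mul_left e3
      rw [inv_mul_cancel_left] at this
      exact mem_centralizer_singleton_iff_commute.2 this
    have e2 := hnz _ (mul_mem hx hyP) e1 g
    have e3 := (inferInstance : (⁅(P : Subgroup G), (P : Subgroup G)⁆).Normal).conj_mem _
      (inv_mem (hnz y hyP hpy g)) (g * x * g⁻¹)
    have := mul_mem e3 e2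
    simpa [mul_assoc] using this
  haveI := Fact.mk hr
  obtain ⟨R⟩ : Nonempty (Sylow r G) := inferInstance
  have hrp : r ≠ p := by
    rintro rfl
    exact hnp _ haπ hra'
  have hbot := Cop.commutator_eq_bot_of_le_frattini (A := (R : Subgroup G)) (G := (P : Subgroup G))
    (IsPGroup.coprime_card_of_ne r p hrp _ _ R.isPGroup' P.isPGroup') (by
      refine le_trans (commutator_le.2 fun x hx g _ => ?_) (Cop.commutator_le_frattini_map P.isPGroup')
      have := inv_mem (hall2 x hx g)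
      simpa [commutatorElement_def, mul_assoc] using this)
  apply R.not_dvd_index
  refine hra'.trans (index_dvd_of_le fun g hg => ?_)
  have h5 : ⁅a, g⁆ ∈ ⁅(P : Subgroup G), (R : Subgroup G)⁆ :=
    commutator_mem_commutator (hPO ▸ haO) hg
  rw [hbot, mem_bot] at h5
  exact mem_centralizer_singleton_iff_commute.2 (commutatorElement_eq_one_iff_commute.1 h5)

theorem both {G : Type*} [Group G] [Finite G] (p : ℕ) [hpp : Fact p.Prime]
    (hZ : ¬ p ∣ Nat.card ↥(center G)) (π σ : Set ℕ)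
    (H : ∀ x : G, p ∣ orderOf x → ∀ t ∈ π, ∀ u ∈ σ, t.Prime → u.Prime →
      t ∣ (centralizer ({x} : Set G)).index → u ∣ (centralizer ({x} : Set G)).index → False)
    (hd : Disjoint π σ) (r s : ℕ) (hr : r.Prime) (hs : s.Prime)
    (hπ : ∀ x : G, p ∣ orderOf x → r ∣ (centralizer ({x} : Set G)).index →
      IsPiNum π (centralizer ({x} : Set G)).index)
    (hσ : ∀ x : G, p ∣ orderOf x → s ∣ (centralizer ({x} : Set G)).index →
      IsPiNum σ (centralizer ({x} : Set G)).index)
    (a : G) (ha : p ∣ orderOf a) (hra : r ∣ (centralizer ({a} : Set G)).index)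
    (b : G) (hb : p ∣ orderOf b) (hsb : s ∣ (centralizer ({b} : Set G)).index) : False := by
  have hp := hpp.out
  obtain ⟨a₁, ha₁, a₂, -, ea, hca, ⟨k, hk⟩, ha₂⟩ := exists_p_part hp a
  have ha1 : a₁ ≠ 1 := by
    rintro rfl
    rw [one_mul] at ea
    exact (Nat.Prime.coprime_iff_not_dvd hp).1 ha₂.symm (ea ▸ ha)
  obtain ⟨P, hP⟩ := exists_sylow_mem_of_orderOf hk
  obtain ⟨b, hb, hsb, b₁, hb₁, b₂, eb, hcb, l, hl, hb₂, hbP⟩ : ∃ b : G, p ∣ orderOf b ∧
      s ∣ (centralizer ({b} : Set G)).index ∧ ∃ b₁ ∈ zpowers b, ∃ b₂, b = b₁ * b₂ ∧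
      Commute b₁ b₂ ∧ ∃ l, orderOf b₁ = p ^ l ∧ (orderOf b₂).Coprime p ∧
      b₁ ∈ (P : Subgroup G) := by
    obtain ⟨b₁, ⟨i, hi⟩, b₂, -, eb, hcb, ⟨l, hl⟩, hb₂⟩ := exists_p_part hp b
    obtain ⟨Q, hQ⟩ := exists_sylow_mem_of_orderOf hl
    obtain ⟨g, rfl⟩ := MulAction.exists_smul_eq G Q P
    refine ⟨g * b * g⁻¹, by rwa [orderOf_conj'], by rwa [index_centralizer_conj], g * b₁ * g⁻¹,
      ⟨i, by simp only [conj_zpow]; rw [show b ^ i = b₁ from hi]⟩, g * b₂ * g⁻¹,
      by rw [eb]; simp [mul_assoc], hcb.conj g, l, by rwa [orderOf_conj'],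
      by rwa [orderOf_conj'], Subgroup.smul_mem_pointwise_smul b₁ (MulAut.conj g) _ hQ⟩
  have hb1 : b₁ ≠ 1 := by
    rintro rfl
    rw [one_mul] at eb
    exact (Nat.Prime.coprime_iff_not_dvd hp).1 hb₂.symm (eb ▸ hb)
  have hdv : ∀ u v : G, v ∈ zpowers u → (centralizer ({v} : Set G)).index ∣
      (centralizer ({u} : Set G)).index := by
    rintro u _ ⟨i, rfl⟩
    exact index_dvd_of_le fun g hg => mem_centralizer_singleton_iff_commute.2
      ((mem_centralizer_singleton_iff_commute.1 hg).zpow_left i)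
  have h1 := (hπ a ha hra).of_dvd (hdv a a₁ ha₁)
  have h2 := (hσ b hb hsb).of_dvd (hdv b b₁ hb₁)
  have hcop := h1.coprime hd h2
  have h3 : (centralizer ({a₁ * b₁} : Set G)).index ∣
      (centralizer ({a₁} : Set G)).index * (centralizer ({b₁} : Set G)).index := by
    rw [← index_inf_of_coprime hcop]
    exact index_dvd_of_le fun g hg => mem_centralizer_singleton_iff_commute.2
      ((mem_centralizer_singleton_iff_commute.1 hg.1).mul_left
        (mem_centralizer_singleton_iff_commute.1 hg.2))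
  have h4 : p ∣ orderOf (a₁ * b₁) := by
    obtain ⟨j, hj⟩ := orderOf_eq_pow_of_mem_isPGroup P.isPGroup' (mul_mem hP hbP)
    rw [hj]
    refine dvd_pow_self p ?_
    rintro rfl
    have e : b₁ = a₁⁻¹ := eq_inv_of_mul_eq_one_right (orderOf_eq_one_iff.1 hj)
    have e1 := hdv b₁ a₁ (by rw [e]; simp)
    have e2 := index_centralizer_eq_one_iff.1 (Nat.eq_one_of_dvd_coprimes hcop dvd_rfl e1)
    apply hZ
    refine Dvd.dvd.trans ?_ (orderOf_dvd_natCard _ e2)
    rw [hk]
    refine dvd_pow_self p ?_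
    rintro rfl
    exact ha1 (orderOf_eq_one_iff.1 hk)
  by_cases h5 : ((centralizer ({a₁ * b₁} : Set G)).index).Coprime
      (centralizer ({a₁} : Set G)).index
  · exact half p hZ π σ hd H r hr hπ a₁ a₂ hca k hk ha1 ha₂ (ea ▸ hra) b₁ l hl h2
      (Nat.le_of_dvd (Nat.pos_of_ne_zero index_ne_zero_of_finite) (h5.dvd_of_dvd_mul_left h3))
  · obtain ⟨t, ht, e1, e2⟩ := Nat.Prime.not_coprime_iff_dvd.1 h5
    have h6 : ((centralizer ({a₁ * b₁} : Set G)).index).Coprime
        (centralizer ({b₁} : Set G)).index := by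
      by_contra h
      obtain ⟨u, hu, e3, e4⟩ := Nat.Prime.not_coprime_iff_dvd.1 h
      exact H _ h4 t (h1 t ht e2) u (h2 u hu e4) ht hu e1 e3
    refine half p hZ σ π hd.symm (fun x hx t ht u hu e1 e2 e3 e4 => H x hx u hu t ht e2 e1 e4 e3)
      s hs hσ b₁ b₂ hcb l hl hb1 hb₂ (eb ▸ hsb) a₁ k hk h1 ?_
    have e : b₁ * a₁ = b₁ * (a₁ * b₁) * b₁⁻¹ := by simp [mul_assoc]
    rw [e, index_centralizer_conj]
    exact Nat.le_of_dvd (Nat.pos_of_ne_zero index_ne_zero_of_finite) (h6.dvd_of_dvd_mul_right h3)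


/-- Let `G` be a finite group and `p` a prime not dividing the order of the centre of `G`. Consider the primes dividing the size of some conjugacy class of a `p`-singular element (an element of order divisible by `p`), two of them adjacent when their product divides such a class size. Then any two distinct such primes are joined by a path with at most 3 edges (the graph is connected of diameter at most 3). -/
theorem result {G : Type*} [Group G] [Finite G] (p : ℕ) [Fact p.Prime]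
    (hZ : ¬ p ∣ Nat.card ↥(Subgroup.center G)) (r s : ℕ) (hr : (r.Prime ∧ ∃ x : G, p ∣ orderOf x ∧ r ∣ (Subgroup.centralizer ({x} : Set G)).index)) (hs : (s.Prime ∧ ∃ x : G, p ∣ orderOf x ∧ s ∣ (Subgroup.centralizer ({x} : Set G)).index)) (hrs : r ≠ s) :
    (∃ x : G, p ∣ orderOf x ∧ r * s ∣ (Subgroup.centralizer ({x} : Set G)).index) ∨ (∃ t : ℕ, (t.Prime ∧ ∃ x : G, p ∣ orderOf x ∧ t ∣ (Subgroup.centralizer ({x} : Set G)).index) ∧ t ≠ r ∧ t ≠ s ∧ (∃ x : G, p ∣ orderOf x ∧ r * t ∣ (Subgroup.centralizer ({x} : Set G)).index) ∧ (∃ x : G, p ∣ orderOf x ∧ t * s ∣ (Subgroup.centralizer ({x} : Set G)).index)) ∨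
      (∃ t u : ℕ, (t.Prime ∧ ∃ x : G, p ∣ orderOf x ∧ t ∣ (Subgroup.centralizer ({x} : Set G)).index) ∧ (u.Prime ∧ ∃ x : G, p ∣ orderOf x ∧ u ∣ (Subgroup.centralizer ({x} : Set G)).index) ∧ t ≠ r ∧ u ≠ s ∧ t ≠ u ∧ (∃ x : G, p ∣ orderOf x ∧ r * t ∣ (Subgroup.centralizer ({x} : Set G)).index) ∧ (∃ x : G, p ∣ orderOf x ∧ t * u ∣ (Subgroup.centralizer ({x} : Set G)).index) ∧ (∃ x : G, p ∣ orderOf x ∧ u * s ∣ (Subgroup.centralizer ({x} : Set G)).index)) := by
  by_contra hcon
  obtain ⟨hr, a, ha, hra⟩ := hr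
  obtain ⟨hs, b, hb, hsb⟩ := hs
  have hm : ∀ {t u n : ℕ}, t.Prime → u.Prime → t ≠ u → t ∣ n → u ∣ n → t * u ∣ n :=
    fun ht hu h h1 h2 => ((Nat.coprime_primes ht hu).2 h).mul_dvd_of_dvd_of_dvd h1 h2
  have key : ∀ x : G, p ∣ orderOf x →
      ∀ t ∈ {t : ℕ | t.Prime ∧ ∃ x : G, p ∣ orderOf x ∧ r ∣ (centralizer ({x} : Set G)).index ∧
        t ∣ (centralizer ({x} : Set G)).index},
      ∀ u ∈ {t : ℕ | t.Prime ∧ ∃ x : G, p ∣ orderOf x ∧ s ∣ (centralizer ({x} : Set G)).index ∧
        t ∣ (centralizer ({x} : Set G)).index}, t.Prime → u.Prime →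
      t ∣ (centralizer ({x} : Set G)).index → u ∣ (centralizer ({x} : Set G)).index → False := by
    rintro x hx t ⟨-, y, hy, hry, hty⟩ u ⟨-, z, hz, hsz, huz⟩ ht hu htx hux
    apply hcon
    by_cases e1 : t = r
    · subst e1
      by_cases e2 : u = s
      · subst e2
        exact Or.inl ⟨x, hx, hm ht hu hrs htx hux⟩
      by_cases e3 : u = t
      · subst e3
        exact Or.inl ⟨z, hz, hm ht hs hrs huz hsz⟩
      · exact Or.inr (Or.inl ⟨u, ⟨hu, x, hx, hux⟩, e3, e2, ⟨x, hx, hm ht hu (Ne.symm e3) htx hux⟩,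
          ⟨z, hz, hm hu hs e2 huz hsz⟩⟩)
    by_cases e4 : t = s
    · subst e4
      exact Or.inl ⟨y, hy, hm hr ht hrs hry hty⟩
    by_cases e2 : u = s
    · subst e2
      exact Or.inr (Or.inl ⟨t, ⟨ht, x, hx, htx⟩, e1, e4, ⟨y, hy, hm hr ht (Ne.symm e1) hry hty⟩,
        ⟨x, hx, hm ht hu e4 htx hux⟩⟩)
    by_cases e3 : t = u
    · subst e3
      exact Or.inr (Or.inl ⟨t, ⟨ht, x, hx, htx⟩, e1, e4, ⟨y, hy, hm hr ht (Ne.symm e1) hry hty⟩,
        ⟨z, hz, hm ht hs e4 huz hsz⟩⟩)
    · exact Or.inr (Or.inr ⟨t, u, ⟨ht, x, hx, htx⟩, ⟨hu, x, hx, hux⟩, e1, e2, e3,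
        ⟨y, hy, hm hr ht (Ne.symm e1) hry hty⟩, ⟨x, hx, hm ht hu e3 htx hux⟩,
        ⟨z, hz, hm hu hs e2 huz hsz⟩⟩)
  refine both p hZ _ _ key ?_ r s hr hs (fun x hx h t ht h' => ⟨ht, x, hx, h, h'⟩)
    (fun x hx h t ht h' => ⟨ht, x, hx, h, h'⟩) a ha hra b hb hsb
  rw [Set.disjoint_left]
  rintro t ⟨ht, y, hy, hry, hty⟩ h2
  exact key y hy t ⟨ht, y, hy, hry, hty⟩ t h2 ht ht hty hty

end Cfsg.Agent.S4321
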