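import Cfsg.Statements.S4323
import Cfsg.Agent.Lib.H8Mart
import Cfsg.Agent.Lib.CoprimeAut

set_option autoImplicit false
open Cfsg

namespace Cfsg.Agent.S4323

open Subgroup CfsgLib in
/-- Let `q` be a prime and `A` a non-cyclic group of order `q²` acting by automorphisms on a finite group `G` of order prime to `q`, such that the fixed-point subgroup `C_G(a)` is abelian for every non-identity `a ∈ A`. Then `G` is solvable. -/
theorem result {A G : Type*} [Group A] [Finite A]
    [Group G] [Finite G] [MulDistribMulAction A G] (q : ℕ) (hq : q.Prime) (hA : Nat.card A = q ^ 2) (hnc : ¬ IsCyclic A)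
    (hcop : ¬ q ∣ Nat.card G) (h : ∀ a : A, a ≠ 1 → IsMulCommutative ↥(FixedPoints.subgroup (Subgroup.zpowers a) G)) :
    Group.IsSolvable G := by
  have := Fact.mk hq
  let φ := MulDistribMulAction.toMulAut A G
  have hfin := CopAut.finite_semidirect (φ := φ)
  have hc := IsPGroup.isMulCommutative_of_card_eq_prime_sq hA
  have hexp : ∀ a : A, a ^ q = 1 := fun a => by
    obtain ⟨i, hi, e⟩ := (Nat.dvd_prime_pow hq).1 (hA ▸ orderOf_dvd_natCard a)
    refine orderOf_dvd_iff_pow_eq_one.1 ?_
    rcases Nat.lt_or_ge i 2 with h2 | h2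
    · rw [e]
      exact (pow_dvd_pow q (by omega : i ≤ 1)).trans (by rw [pow_one])
    · exact absurd (isCyclic_of_orderOf_eq_card a (by rw [e, hA, hi.antisymm h2])) hnc
  have hb : H8Mart.Base q (CopAut.R φ ⊤) (CopAut.L φ ⊤) := by
    refine ⟨hq, ⟨inferInstance, ?_⟩, by rw [CopAut.card_R_top, hA],
      CopAut.R_top_le_normalizer_iff.2 CopAut.inv_top, CopAut.coprime_R_L_top ?_, ?_⟩
    · rintro _ ⟨a, -, rfl⟩
      rw [← map_pow, hexp, map_one]
    · rw [hA]
      exact Nat.Coprime.pow_left _ (hq.coprime_iff_not_dvd.2 hcop)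
    · rintro _ ⟨a, -, rfl⟩ ha _ ⟨⟨x, -, rfl⟩, hx⟩ _ ⟨⟨y, -, rfl⟩, hy⟩
      have key : ∀ z : G, φ a z = z → z ∈ FixedPoints.subgroup (zpowers a) G := fun z hz b =>
        zpowers_le_of_mem (H := MulAction.stabilizer A z) hz b.2
      have := (h a fun e => ha (by rw [e, map_one])).1.1
        ⟨y, key y (CopAut.inl_mem_centralizer_inr_iff.1 hy)⟩
        ⟨x, key x (CopAut.inl_mem_centralizer_inr_iff.1 hx)⟩
      rw [← map_mul, ← map_mul]
      exact congrArg _ (congrArg Subtype.val this)
  have := isSolvable_comap_of_injective hb.solvable _ SemidirectProduct.inl_injective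
  rw [comap_map_eq_self_of_injective SemidirectProduct.inl_injective] at this
  exact Group.isSolvable_of_surjective (f := (⊤ : Subgroup G).subtype) fun g => ⟨⟨g, trivial⟩, rfl⟩

end Cfsg.Agent.S4323
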